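/-
Gorenstein–Walter theorem (dihedral Sylow 2-subgroups): shared definitions.
-/
import Cfsg.Agent.Lib.G.Coprime
import Cfsg.Agent.Lib.G.PLen
import Cfsg.Agent.Lib.G.GenCent
import Cfsg.Agent.Lib.FStar.Layer
import Mathlib.LinearAlgebra.Matrix.ProjectiveSpecialLinearGroup
import Mathlib.GroupTheory.SpecificGroups.Alternating

set_option autoImplicit false

namespace CA.GW

open Cfsg CA CA.FStar Subgroup

universe u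

/-- `𝐎(L)`: the largest normal subgroup of odd order of the subgroup `L`. -/
scoped notation:max "𝐎(" L ")" => Cfsg.piCoreOf (({2} : Set ℕ)ᶜ) L

section
variable {G : Type*} [Group G]

/-- `s` is an involution. -/
structure Inv2 (s : G) : Prop where
  sq : s * s = 1
  ne : s ≠ 1

/-- `V` is a four-group. -/
structure Four (V : Subgroup G) : Prop where
  card : Nat.card V = 4
  sq : ∀ x ∈ V, x * x = 1

/-- `D` is dihedral of order `2 |T|`, `T` its cyclic subgroup of index 2 (`|T|` arbitrary). -/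
structure Dih (D T : Subgroup G) : Prop where
  le : T ≤ D
  cyc : IsCyclic T
  idx : T.relIndex D = 2
  sq : ∀ s ∈ D, s ∉ T → s * s = 1

/-- The Sylow 2-subgroups of `L` are dihedral of order at least 4. -/
def DSyl (L : Subgroup G) : Prop := ∃ S R, SylowIn 2 S L ∧ Dih S R ∧ R ≠ ⊥

/-- `X` is an almost simple group with socle `K ≅ L₂(q)` and dihedral Sylow 2-subgroups, `P = X ∩ PGL₂(q)`. -/
structure L2T (X K P : Subgroup G) (q : ℕ) : Prop where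
  odd : Odd q
  five : 5 ≤ q
  pp : ∃ p f : ℕ, p.Prime ∧ q = p ^ f
  KP : K ≤ P
  KX : K ⊴ X
  PX : P ⊴ X
  qs : QS K
  simple : IsSimpleGroup K
  card : 2 * Nat.card K = q * (q ^ 2 - 1)
  cent : X ⊓ 𝐂(K) = ⊥
  idx : K.relIndex P = 1 ∨ K.relIndex P = 2
  oddi : Odd (P.relIndex X)
  der : ⁅X, X⁆ ≤ K
  /-- centralizers in `P` of elements of order `> 2` are abelian -/
  cab : ∀ y ∈ P, y * y ≠ 1 → IsMulCommutative ↥(P ⊓ 𝐂[y])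
  /-- the torus `T` through an involution `s`; `|T ∩ K| = (q ∓ 1)/2` is even iff `s ∈ K` -/
  tor : ∀ s ∈ X, Inv2 s → ∃ T : Subgroup G, s ∈ T ∧ Dih (P ⊓ 𝐂[s]) T ∧ Dih (K ⊓ 𝐂[s]) (K ⊓ T) ∧
    (2 * Nat.card ↥(K ⊓ T) + 1 = q ∨ 2 * Nat.card ↥(K ⊓ T) = q + 1) ∧ (s ∈ K ↔ Even (Nat.card ↥(K ⊓ T))) ∧
    (∀ y ∈ T, y * y ≠ 1 → P ⊓ 𝐂[y] = T ∧ P ⊓ 𝐍(zpowers y) = P ⊓ 𝐂[s]) ∧
    ∀ F ≤ X ⊓ 𝐂[s], Group.IsNilpotent F → Odd (Nat.card F) → K ⊓ T ≤ 𝐍(F) → F ≤ K ⊓ T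
  /-- an odd `p`-subgroup of `K` normalized by `C_K(s)` centralizes `s` -/
  ll : ∀ s ∈ X, Inv2 s → ∀ p : ℕ, p ≠ 2 → ∀ Y ≤ K, PiGrp {p} Y → K ⊓ 𝐂[s] ≤ 𝐍(Y) → Y ≤ 𝐂[s]

/-- Facts on `X ≅ A₇`. -/
structure A7T (X : Subgroup G) : Prop where
  qs : QS X
  simple : IsSimpleGroup X
  card : Nat.card X = 2520
  /-- centralizers are solvable -/
  solv : ∀ y ∈ X, y ≠ 1 → Group.IsSolvable ↥(X ⊓ 𝐂[y])
  /-- `C(s) = ⟨u⟩ ⋊ D₈`, the four-group `V` centralizes `u`, the four-group `W` does not; `N(⟨u⟩) = N(V)` has order 72 -/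
  cen : ∀ s ∈ X, Inv2 s → Nat.card ↥(X ⊓ 𝐂[s]) = 24 ∧ ∃ u V W, orderOf u = 3 ∧ 𝐎(X ⊓ 𝐂[s]) = zpowers u ∧
    Four V ∧ Four W ∧ s ∈ V ∧ s ∈ W ∧ V ≤ X ⊓ 𝐂[s] ∧ W ≤ X ⊓ 𝐂[s] ∧ V ≤ 𝐂[u] ∧
    (∀ w ∈ W, w ≠ 1 → w ≠ s → w * u * w⁻¹ = u⁻¹) ∧ X ⊓ 𝐍(zpowers u) = X ⊓ 𝐍(V) ∧
    Nat.card ↥(X ⊓ 𝐍(V)) = 72 ∧ Nat.card ↥(X ⊓ 𝐂[u]) = 36 ∧ X ⊓ 𝐂(W) = W ∧
    ∀ Y ≤ X, X ⊓ 𝐂[s] ≤ Y → Y = X ∨ Y ≤ 𝐍(V)
  ll : ∀ s ∈ X, Inv2 s → ∀ p : ℕ, p ≠ 2 → ∀ Y ≤ X, PiGrp {p} Y → X ⊓ 𝐂[s] ≤ 𝐍(Y) → Y ≤ 𝐂[s]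

end

/-- `K ≅ L₂(q)`, `q > 3` odd. -/
def IsL2 (K : Type*) [Group K] (q : ℕ) : Prop :=
  Odd q ∧ 3 < q ∧ ∃ (F : Type) (_ : Field F) (_ : Fintype F), Fintype.card F = q ∧
    Nonempty (K ≃* Matrix.ProjectiveSpecialLinearGroup (Fin 2) F)

/-- `K ≅ A₇`. -/
def IsA7 (K : Type*) [Group K] : Prop := Nonempty (K ≃* alternatingGroup (Fin 7))

/-- The conclusion of the theorem for a simple group. -/
def Known (K : Type*) [Group K] : Prop := (∃ q, IsL2 K q) ∨ IsA7 K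

/-- A minimal counterexample among the simple groups: `S` is a Sylow 2-subgroup, `R` its cyclic subgroup of
index 2, `t` the involution of `R`. -/
structure Min (G : Type u) [Group G] where
  S : Subgroup G
  R : Subgroup G
  t : G
  simple : IsSimpleGroup G
  perf : commutator G = ⊤
  syl : SylowIn 2 S ⊤
  dih : Dih S R
  tR : t ∈ R
  inv : Inv2 t
  ind : ∀ (K : Type u) [Group K] [Finite K] [IsSimpleGroup K], Nat.card K < Nat.card G → commutator K = ⊤ →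
    DSyl (⊤ : Subgroup K) → Known K
  unknown : ¬ Known G

end CA.GW
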