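/-
Gorenstein–Walter theorem: dihedral groups, four-groups, involution centralizers.
-/
import Cfsg.Agent.Lib.GW.Defs
import Cfsg.Agent.Lib.PF.FT
import Cfsg.Agent.Lib.Zas.BSW5
import Cfsg.Agent.Lib.Classical.GroupAux
import Cfsg.Agent.S0514

set_option autoImplicit false

namespace CA.GW

open Cfsg CA CA.FStar Subgroup

universe u

section elt
variable {G : Type*} [Group G] {D T S R L M V P : Subgroup G} {s t a b x y g : G}

theorem Inv2.inv (h : Inv2 s) : s⁻¹ = s := inv_eq_of_mul_eq_one_right h.sq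

theorem Inv2.ord (h : Inv2 s) : orderOf s = 2 := Inv.orderOf_eq_two h.sq h.ne

theorem inv2_of_ord (h : orderOf s = 2) : Inv2 s := ⟨Inv.mul_self_of_orderOf h, Inv.ne_one_of_orderOf h⟩

theorem Inv2.conj (h : Inv2 s) (g : G) : Inv2 (g * s * g⁻¹) :=
  ⟨Inv.conj_mul_self h.sq g, fun e => h.ne (conj_eq_one_iff.1 e)⟩

theorem Inv2.piElt (h : Inv2 s) : PiElt {2} s := (piElt_of_orderOf_prime Nat.prime_two h.ord).2 rfl

theorem Inv2.piGrp (h : Inv2 s) : PiGrp {2} (zpowers s) := piGrp_zpowers.2 h.piElt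

theorem Inv2.card (h : Inv2 s) : Nat.card (zpowers s) = 2 := by rw [Nat.card_zpowers, h.ord]

theorem Inv2.mul (ha : Inv2 a) (hb : Inv2 b) (hab : a ≠ b) (c : a * b = b * a) : Inv2 (a * b) :=
  ⟨by rw [mul_assoc, ← mul_assoc b, ← c, mul_assoc, hb.sq, mul_one, ha.sq],
    fun e => hab (by rw [eq_inv_of_mul_eq_one_left e, hb.inv])⟩

theorem mem_zpowers_sq (h : s * s = 1) : x ∈ zpowers s ↔ x = 1 ∨ x = s := by
  refine ⟨?_, by rintro (rfl | rfl); exacts [one_mem _, mem_zpowers _]⟩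
  rintro ⟨k, rfl⟩
  have h2 : s ^ (2 : ℤ) = 1 := by rw [zpow_two, h]
  obtain ⟨j, rfl | rfl⟩ := Int.even_or_odd' k
  · left; simp [zpow_mul, h2]
  · right; simp [zpow_add, zpow_mul, h2]

theorem odd_iff : Odd (Nat.card L) ↔ PiGrp ({2} : Set ℕ)ᶜ L := by
  rw [piGrp_compl_singleton Nat.prime_two, ← Nat.not_even_iff_odd, even_iff_two_dvd]

theorem odd_elt_iff : Odd (orderOf x) ↔ PiElt ({2} : Set ℕ)ᶜ x := by
  rw [piElt_def, piNum_compl_singleton Nat.prime_two, ← Nat.not_even_iff_odd, even_iff_two_dvd]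

theorem odd_of_mem (h : Odd (Nat.card L)) (hx : x ∈ L) : Odd (orderOf x) := odd_elt_iff.2 ((odd_iff.1 h).piElt hx)

theorem eq_one_of_odd (h : Odd (orderOf x)) (h2 : x * x = 1) : x = 1 := by_contra fun e => by
  rw [Inv.orderOf_eq_two h2 e] at h; exact absurd h (by decide)

theorem Inv2.not_mem (hs : Inv2 s) (h : Odd (Nat.card L)) : s ∉ L := fun e => hs.ne (eq_one_of_odd (odd_of_mem h e) hs.sq)

/-- an element of odd order that is centralized and inverted is trivial -/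
theorem eq_one_of_cent_inv (h : Odd (orderOf x)) (c : s * x = x * s) (i : s * x * s⁻¹ = x⁻¹) : x = 1 :=
  eq_one_of_odd h (by rw [c, mul_inv_cancel_right] at i; exact mul_eq_one_iff_eq_inv.2 i)

theorem exists_sqrt (h : Odd (orderOf x)) : ∃ w ∈ zpowers x, w * w = x := by
  obtain ⟨k, hk⟩ := h
  exact ⟨x ^ (k + 1), pow_mem (mem_zpowers x) _, by
    rw [← pow_add, show k + 1 + (k + 1) = 2 * k + 1 + 1 by ring, ← hk, pow_succ, pow_orderOf_eq_one, one_mul]⟩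

theorem inv_of_mem_zpowers (i : s * x * s⁻¹ = x⁻¹) (hy : y ∈ zpowers x) : s * y * s⁻¹ = y⁻¹ := by
  obtain ⟨k, rfl⟩ := hy
  simp only [← conj_zpow, i, inv_zpow]

/-- lifting of centralizers of involutions through an odd-order error -/
theorem exists_cent_of_odd (s2 : s * s = 1) (h : Odd (orderOf (y⁻¹ * (s * y * s⁻¹)))) :
    ∃ w ∈ zpowers (y⁻¹ * (s * y * s⁻¹)), s * (y * w) = y * w * s := by
  obtain ⟨w, hw, e⟩ := exists_sqrt h
  have s' : s⁻¹ = s := inv_eq_of_mul_eq_one_right s2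
  have i : s * (y⁻¹ * (s * y * s⁻¹)) * s⁻¹ = (y⁻¹ * (s * y * s⁻¹))⁻¹ := by
    rw [s']; simp only [mul_assoc, mul_inv_rev, inv_inv, s', s2, mul_one]
  refine ⟨w, hw, ?_⟩
  have h1 : s * y * s⁻¹ = y * (w * w) := by rw [e]; group
  have h2 := inv_of_mem_zpowers i hw
  rw [← mul_inv_eq_iff_eq_mul, ← conj_mul, h1, h2]; group

/-- if `t` inverts `P` elementwise then `[R, t]` centralizes `P` -/
theorem comm_cents_of_inv (t2 : t * t = 1) (hR : R ≤ 𝐍(P)) (h : ∀ x ∈ P, t * x * t⁻¹ = x⁻¹) : ⁅R, zpowers t⁆ ≤ 𝐂(P) := by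
  refine comm_le_iff.2 fun r hr τ hτ => ?_
  rcases (mem_zpowers_sq t2).1 hτ with rfl | rfl
  · simp
  refine mem_cent_iff'.2 fun x hx => ?_
  have h1 := h _ (conj_inv_mem_of_mem_normalizer (hR hr) (inv_mem hx))
  have h2 := h x hx
  have h3 : τ⁻¹ * x * τ = x⁻¹ := by
    have : τ⁻¹ = τ := inv_eq_of_mul_eq_one_right t2
    rw [this] at h2 ⊢; exact h2
  calc r * τ * r⁻¹ * τ⁻¹ * x = r * (τ * (r⁻¹ * (τ⁻¹ * x * τ) * r) * τ⁻¹) * r⁻¹ * (r * τ * r⁻¹ * τ⁻¹) := by group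
    _ = _ := by rw [h3, h1]; group

theorem Dih.mul_mem (h : Dih D T) (ha : a ∈ D) (hb : b ∈ D) (ha' : a ∉ T) (hb' : b ∉ T) : a * b ∈ T :=
  (mul_mem_iff_of_index_two h.idx (a := ⟨a, ha⟩) (b := ⟨b, hb⟩)).2 (iff_of_false ha' hb')

theorem Dih.mul_not_mem (hs : s ∉ T) (hx : x ∈ T) : s * x ∉ T := fun e => hs ((mul_mem_cancel_right hx).1 e)

theorem Dih.inv (h : Dih D T) (hs : s ∈ D) (hT : s ∉ T) (hx : x ∈ T) : s * x * s⁻¹ = x⁻¹ := by
  have h1 := h.sq _ (Subgroup.mul_mem _ hs (h.le hx)) (Dih.mul_not_mem hT hx)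
  rw [inv_eq_of_mul_eq_one_right (h.sq s hs hT), eq_inv_iff_mul_eq_one, ← h1, mul_assoc]

theorem Dih.card (h : Dih D T) : Nat.card D = 2 * Nat.card T := by
  rw [← card_mul_relIndex h.le, h.idx, mul_comm]

theorem Dih.exists (h : Dih D T) : ∃ s ∈ D, s ∉ T :=
  SetLike.exists_of_lt (lt_of_le_of_ne h.le fun e => by have := h.idx; simp [e] at this)

theorem Dih.inv2 (h : Dih D T) (hs : s ∈ D) (hT : s ∉ T) : Inv2 s := ⟨h.sq s hs hT, fun e => hT (e ▸ one_mem T)⟩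

theorem Dih.mem_of_sq (h : Dih D T) (hx : x ∈ D) (h2 : x * x ≠ 1) : x ∈ T := by_contra fun e => h2 (h.sq x hx e)

theorem Dih.comm (h : Dih D T) (ha : a ∈ T) (hb : b ∈ T) : a * b = b * a := abelian_iff'.1 (abelian_of_cyclic h.cyc) a ha b hb

theorem Dih.cent (h : Dih D T) (ht : t ∈ T) (t2 : t * t = 1) : D ≤ 𝐂[t] := fun x hx => by
  by_cases e : x ∈ T
  · exact mem_cent1_iff.2 (h.comm e ht)
  · have := h.inv hx e ht
    rw [inv_eq_of_mul_eq_one_right t2, mul_inv_eq_iff_eq_mul] at this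
    exact mem_cent1_iff.2 this

theorem Dih.norm (h : Dih D T) (hL : L ≤ T) : D ≤ 𝐍(L) := fun s hs => by
  by_cases e : s ∈ T
  · exact norms_of_abelian (abelian_of_cyclic h.cyc) hL le_rfl e
  refine mem_normalizer_iff.2 fun x => ⟨fun hx => by rw [h.inv hs e (hL hx)]; exact inv_mem hx, fun hx => ?_⟩
  have := h.inv hs e (hL hx)
  rw [show s * (s * x * s⁻¹) * s⁻¹ = (s * s) * x * (s * s)⁻¹ by group, h.sq s hs e] at this
  simp only [one_mul, inv_one, mul_one] at this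
  rw [this]; exact inv_mem hx

theorem Dih.inf (h : Dih D T) (hL : L ≤ D) (hs : ¬ L ≤ T) : Dih L (L ⊓ T) := by
  refine ⟨inf_le_left, cyclic_of_le h.cyc inf_le_right, ?_, fun s h1 h2 => h.sq s (hL h1) fun e => h2 ⟨h1, e⟩⟩
  obtain ⟨s, h1, h2⟩ := SetLike.not_le_iff_exists.1 hs
  rw [inf_relIndex_left, relIndex, index_eq_two_iff]
  refine ⟨⟨s, h1⟩, fun b => ?_⟩
  by_cases e : (b : G) ∈ T
  · exact .inr ⟨e, fun e' => h2 ((mul_mem_cancel_left e).1 e')⟩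
  · exact .inl ⟨h.mul_mem (hL b.2) (hL h1) e h2, e⟩

theorem Dih.odd_le (h : Dih D T) (hL : L ≤ D) (ho : Odd (Nat.card L)) : L ≤ T := fun x hx =>
  by_contra fun e => (h.inv2 (hL hx) e).not_mem ho hx

theorem Dih.map {G' : Type*} [Group G'] (h : Dih D T) {f : G →* G'} (hf : Function.Injective f) : Dih (D.map f) (T.map f) := by
  refine ⟨map_mono h.le, (PG.isCyclic_map_iff hf).2 h.cyc, by rw [relIndex_map_map_of_injective _ _ hf, h.idx], ?_⟩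
  rintro _ ⟨s, hs, rfl⟩ h2
  rw [← map_mul, h.sq s hs fun e => h2 (mem_map_of_mem f e), map_one]

theorem Dih.cj (h : Dih D T) (g : G) : Dih (cj g D) (cj g T) := h.map (MulAut.conj g).injective

theorem Dih.subgroupOf (h : Dih D T) (hM : D ≤ M) : Dih (D.subgroupOf M) (T.subgroupOf M) := by
  refine ⟨comap_mono h.le, ?_, by rw [relIndex_subgroupOf hM, h.idx], fun s h1 h2 => Subtype.ext (h.sq s h1 h2)⟩
  rw [← PG.isCyclic_map_iff M.subtype_injective, subgroupOf_map_subtype, inf_eq_left.2 (h.le.trans hM)]; exact h.cyc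

theorem Dih.pmap {G' : Type*} [Group G'] (h : Dih D T) {f : M →* G'} (hM : D ≤ M) (hf : ¬ D ≤ pker f ⊔ T) :
    Dih (CA.pmap f D) (CA.pmap f T) := by
  have hT := h.le.trans hM
  obtain ⟨s, s1, s2⟩ := h.exists
  have key : ∀ x ∈ D, x ∉ T → pel f x ∉ CA.pmap f T := fun x x1 x2 e => hf fun y y1 => by
    have hx : x ∈ pker f ⊔ T := by rw [← pcomap_pmap f hT]; exact mem_pcomap.2 ⟨hM x1, e⟩
    by_cases e' : y ∈ T
    · exact mem_sup_right e'
    · exact (mul_mem_cancel_right hx).1 (mem_sup_right (h.mul_mem y1 x1 e' x2))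
  refine ⟨pmap_mono f h.le, ?_, ?_, fun z z1 z2 => ?_⟩
  · obtain ⟨a, ha, e⟩ := isCyclic_iff_exists_zpowers.1 h.cyc
    rw [e, pmap_zpowers f (hT ha)]; infer_instance
  · rw [relIndex, index_eq_two_iff]
    refine ⟨⟨pel f s, pel_mem_pmap f s1⟩, fun b => ?_⟩
    obtain ⟨y, y1, e⟩ := (mem_pmap_of_le hM).1 b.2
    simp only [mem_subgroupOf, coe_mul, ← e, ← pel_mul f (hM y1) (hM s1)]
    by_cases e' : y ∈ T
    · exact .inr ⟨pel_mem_pmap f e', key _ (Subgroup.mul_mem _ y1 s1) fun e => s2 ((mul_mem_cancel_left e').1 e)⟩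
    · exact .inl ⟨pel_mem_pmap f (h.mul_mem y1 s1 e' s2), key _ y1 e'⟩
  · obtain ⟨y, y1, rfl⟩ := (mem_pmap_of_le hM).1 z1
    rw [← pel_mul f (hM y1) (hM y1), h.sq y y1 fun e => z2 (pel_mem_pmap f e), pel_one]

theorem Four.comm (h : Four V) (ha : a ∈ V) (hb : b ∈ V) : a * b = b * a := by
  have h1 := h.sq _ (mul_mem ha hb)
  rw [eq_inv_of_mul_eq_one_left h1, mul_inv_rev, inv_eq_of_mul_eq_one_right (h.sq a ha), inv_eq_of_mul_eq_one_right (h.sq b hb)]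

theorem Four.inv2 (h : Four V) (ha : a ∈ V) (a1 : a ≠ 1) : Inv2 a := ⟨h.sq a ha, a1⟩

theorem Four.abelian (h : Four V) : IsMulCommutative V := abelian_iff'.2 fun _ ha _ hb => h.comm ha hb

theorem Four.le_cent (h : Four V) : V ≤ 𝐂(V) := abelian_iff.1 h.abelian

theorem Four.le_cent1 (h : Four V) (ha : a ∈ V) : V ≤ 𝐂[a] := h.le_cent.trans (cent_le_cent1 ha)

theorem Four.piGrp (h : Four V) : PiGrp {2} V := piGrp_of_card_pow (k := 2) Nat.prime_two h.card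

theorem Four.cj (h : Four V) (g : G) : Four (cj g V) :=
  ⟨by rw [card_cj, h.card], fun x hx => by
    obtain ⟨y, hy, rfl⟩ := mem_cj'.1 hx
    exact Inv.conj_mul_self (h.sq y hy) g⟩

theorem Four.not_cyclic (h : Four V) : ¬ IsCyclic V := fun hc => by
  obtain ⟨a, ha, e⟩ := isCyclic_iff_exists_zpowers.1 hc
  have h1 := h.card
  rw [e, Nat.card_zpowers] at h1
  have := orderOf_dvd_of_pow_eq_one (x := a) (n := 2) (by rw [pow_two, h.sq a ha])
  rw [h1] at this; exact absurd this (by decide)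

theorem Four.not_le (h : Four V) (hc : IsCyclic T) : ¬ V ≤ T := fun e => h.not_cyclic (cyclic_of_le hc e)

variable [Finite G]

theorem Dih.uniq (h : Dih D T) (ha : a ∈ T) (hb : b ∈ T) (a2 : Inv2 a) (b2 : Inv2 b) : a = b :=
  Zas.uniq_of_cyclic h.cyc ha hb a2.sq b2.sq a2.ne b2.ne

theorem Dih.equiv (h : Dih D T) : Nonempty (D ≃* DihedralGroup (Nat.card T)) := by
  obtain ⟨ρ, hρ, e⟩ := isCyclic_iff_exists_zpowers.1 h.cyc
  obtain ⟨s, s1, s2⟩ := h.exists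
  have mem : ∀ x : D, x ∈ zpowers (⟨ρ, h.le hρ⟩ : D) ↔ (x : G) ∈ T := fun x => by
    refine Iff.trans ?_ (e ▸ Iff.rfl : (x : G) ∈ zpowers ρ ↔ (x : G) ∈ T)
    exact ⟨fun ⟨k, hk⟩ => ⟨k, by simpa using congrArg Subtype.val hk⟩, fun ⟨k, hk⟩ => ⟨k, Subtype.ext (by simpa using hk)⟩⟩
  refine Cl.nonempty_equiv_dihedral ⟨ρ, h.le hρ⟩ ⟨s, s1⟩ (by rw [orderOf_mk, e, Nat.card_zpowers]) (Subtype.ext (h.sq s s1 s2))
    (Subtype.ext ?_) (fun e => s2 ((mem _).1 e)) fun g => ?_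
  · simpa [(h.inv2 s1 s2).inv] using h.inv s1 s2 hρ
  · simp only [mem]
    by_cases e' : (g : G) ∈ T
    · exact .inl e'
    · exact .inr (h.mul_mem s1 g.2 s2 e')

theorem four_of (a2 : Inv2 a) (b2 : Inv2 b) (hab : a ≠ b) (c : a * b = b * a) :
    ∃ V, Four V ∧ ∀ x, x ∈ V ↔ x = 1 ∨ x = a ∨ x = b ∨ x = a * b := by
  have hn : zpowers b ≤ 𝐍(zpowers a) := norms_zpowers_of_cent1 (zpowers_le.2 (mem_cent1_iff.2 c.symm))
  have mem : ∀ x, x ∈ zpowers a ⊔ zpowers b ↔ x = 1 ∨ x = a ∨ x = b ∨ x = a * b := fun x => by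
    simp only [mem_sup_of_norm_right hn, mem_zpowers_sq a2.sq, mem_zpowers_sq b2.sq]
    constructor
    · rintro ⟨_, rfl | rfl, _, rfl | rfl, rfl⟩ <;> simp
    · rintro (rfl | rfl | rfl | rfl)
      exacts [⟨1, .inl rfl, 1, .inl rfl, by simp⟩, ⟨_, .inr rfl, 1, .inl rfl, by simp⟩, ⟨1, .inl rfl, _, .inr rfl, by simp⟩,
        ⟨_, .inr rfl, _, .inr rfl, rfl⟩]
  refine ⟨_, ⟨?_, fun x hx => ?_⟩, mem⟩
  · rw [card_sup_of_disjoint (.inl hn), a2.card, b2.card]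
    refine inf_eq_bot_of_prime_card (by rw [a2.card]; exact Nat.prime_two) fun e => ?_
    rcases (mem_zpowers_sq b2.sq).1 (zpowers_le.1 e) with e | e
    exacts [a2.ne e, hab e]
  · rcases (mem x).1 hx with rfl | rfl | rfl | rfl
    exacts [one_mul 1, a2.sq, b2.sq, (a2.mul b2 hab c).sq]

theorem Four.mem (h : Four V) (ha : a ∈ V) (hb : b ∈ V) (a1 : a ≠ 1) (b1 : b ≠ 1) (hab : a ≠ b) :
    ∀ x, x ∈ V ↔ x = 1 ∨ x = a ∨ x = b ∨ x = a * b := by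
  obtain ⟨W, hW, e⟩ := four_of (h.inv2 ha a1) (h.inv2 hb b1) hab (h.comm ha hb)
  have : W = V := eq_of_le_of_card_eq (fun x hx => by
    rcases (e x).1 hx with rfl | rfl | rfl | rfl
    exacts [one_mem _, ha, hb, mul_mem ha hb]) (hW.card.trans h.card.symm)
  exact this ▸ e

theorem Four.exists (h : Four V) (ha : a ∈ V) : ∃ b ∈ V, b ≠ 1 ∧ b ≠ a := by
  obtain ⟨b, h1, h2⟩ := SetLike.not_le_iff_exists.1 (h.not_le (T := zpowers a) inferInstance)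
  exact ⟨b, h1, fun e => h2 (e ▸ one_mem _), fun e => h2 (e ▸ mem_zpowers _)⟩

theorem Four.exists_two (h : Four V) : ∃ a ∈ V, ∃ b ∈ V, a ≠ 1 ∧ b ≠ 1 ∧ a ≠ b := by
  obtain ⟨a, h1, h2, -⟩ := h.exists (one_mem V)
  obtain ⟨b, h3, h4, h5⟩ := h.exists h1
  exact ⟨a, h1, b, h3, h2, h4, h5.symm⟩

theorem Four.norm_of (h : Four V) (ha : a ∈ V) (hb : b ∈ V) (a1 : a ≠ 1) (b1 : b ≠ 1) (hab : a ≠ b)
    (h1 : g * a * g⁻¹ ∈ V) (h2 : g * b * g⁻¹ ∈ V) : g ∈ 𝐍(V) :=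
  mem_normalizer_of_cj_le (cj_le_iff'.2 fun x hx => by
    rcases (h.mem ha hb a1 b1 hab x).1 hx with rfl | rfl | rfl | rfl
    exacts [by simp, h1, h2, by rw [← conj_mul]; exact mul_mem h1 h2])

theorem Four.le_of (h : Four V) (ha : a ∈ V) (hb : b ∈ V) (a1 : a ≠ 1) (b1 : b ≠ 1) (hab : a ≠ b)
    (h1 : a ∈ L) (h2 : b ∈ L) : V ≤ L := fun x hx => by
  rcases (h.mem ha hb a1 b1 hab x).1 hx with rfl | rfl | rfl | rfl
  exacts [one_mem _, h1, h2, mul_mem h1 h2]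

/-- odd-order group normalized by a four-group is generated by the centralizers -/
theorem Four.gen (h : Four V) (hn : V ≤ 𝐍(L)) (ho : Odd (Nat.card L)) {M : Subgroup G}
    (hM : ∀ v ∈ V, v ≠ 1 → L ⊓ 𝐂[v] ≤ M) : L ≤ M :=
  le_of_cent1_noncyclic h.abelian h.not_cyclic hn ((odd_iff.1 ho).coprime' h.piGrp) hM

theorem solv_odd (h : Odd (Nat.card L)) : Group.IsSolvable L := feit_thompson h

theorem odd_core (L : Subgroup G) : Odd (Nat.card 𝐎(L)) := odd_iff.2 (piCoreOf_piGrp _ _)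

theorem solv_core (L : Subgroup G) : Group.IsSolvable 𝐎(L) := solv_odd (odd_core L)

theorem solv_of_npc (h : NormalPCompl 2 L) : Group.IsSolvable L :=
  solvable_of_quo (piCoreOf_norm _ _) (solv_core L) (normalPCompl_iff_quo.1 h).solvable

theorem copAct_inv (t2 : t * t = 1) (hP : Odd (Nat.card P)) (tP : t ∈ 𝐍(P)) : CopAct P (zpowers t) :=
  copAct_p_right (zpowers_le.2 tP) (odd_iff.1 hP) (piGrp_zpowers.2 (piElt_of_pow_eq_one (n := 2)
    ((piNum_prime Nat.prime_two).2 rfl) (by rw [pow_two, t2])))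

/-- TRICK: `t` inverts `R` elementwise (or `R = [R,t]`), `R` centralizes `C_P(t)`, coprime action. -/
theorem trick {P R : Subgroup G} {t : G} (t2 : t * t = 1) (hP : Odd (Nat.card P)) (hR : Odd (Nat.card R))
    (cop : (Nat.card P).Coprime (Nat.card R)) (tP : t ∈ 𝐍(P)) (RP : R ≤ 𝐍(P)) (tR : t ∈ 𝐍(R))
    (hc : ⁅R, zpowers t⁆ = R) (h : R ≤ 𝐂(P ⊓ 𝐂[t])) : R ≤ 𝐂(P) := by
  have h0 : CopAct P (R ⊔ zpowers t) := copAct_left (sup_le RP (zpowers_le.2 tP))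
    (coprime_sup_right (.inl (zpowers_le.2 tR)) cop (copAct_inv t2 hP tP).cop) (solv_odd hP)
  refine cents_symm (h0.le_of_forall_sylowIn fun p Q _ _ hQ hn => ?_)
  have QR : R ≤ 𝐍(Q) := le_sup_left.trans hn
  have Qt : t ∈ 𝐍(Q) := hn (mem_sup_right (mem_zpowers t))
  set C := Q ⊓ 𝐂(R) with hC
  have tC : t ∈ 𝐍(C) := zpowers_le.1 (norms_inf (zpowers_le.2 Qt) (norms_cent (zpowers_le.2 tR)))
  have RC : R ≤ 𝐍(C) := norms_of_cents (cents_symm inf_le_right)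
  have oQ := odd_card_of_le hP hQ.le
  have : C = Q := eq_of_inf_normalizer_le_nil hQ.piGrp.nilpotent inf_le_left (le_inf inf_le_left ?_)
  · rw [← this]; exact inf_le_right
  set N := Q ⊓ 𝐍(C)
  have tN : zpowers t ≤ 𝐍(N) := norms_inf (zpowers_le.2 Qt) (norms_norm (zpowers_le.2 tC))
  have RN : R ≤ 𝐍(N) := norms_inf QR (norms_norm RC)
  have oN : Odd (Nat.card N) := odd_card_of_le oQ inf_le_left
  have h1 : (N /ₛ C) ⊓ 𝐂(zpowers t /ₛ C) = ⊥ := by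
    rw [← (copAct_inv t2 oN (zpowers_le.1 tN)).quo_inf_cent (zpowers_le.2 tC), cent_zpowers]
    exact quo_eq_bot_of_le (le_inf (inf_le_left.trans inf_le_left)
      ((inf_le_inf_right _ (inf_le_left.trans hQ.le)).trans (cents_symm h)))
  rw [quo_zpowers tC, cent_zpowers] at h1
  have t2' : qel C t * qel C t = 1 := by rw [← pel_mul _ tC tC, t2, pel_one]
  have h2 : ⁅R /ₛ C, zpowers (qel C t)⁆ ≤ 𝐂(N /ₛ C) := comm_cents_of_inv t2' (quo_norms C RN) fun x hx =>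
    Zas.inv_of_fpf (zpowers_le.1 (quo_zpowers tC ▸ quo_norms C tN)) t2'
      (fun w hw e => mem_bot.1 (h1 ▸ ⟨hw, mem_cent1_iff.2 e.symm⟩)) hx
  rw [← quo_zpowers tC, ← quo_commutator RC (zpowers_le.2 tC), hc, cents_comm, quo_cents_iff inf_le_right RC] at h2
  exact cents_symm ((copAct_left RN (coprime_of_le_left cop (inf_le_left.trans hQ.le)) (solv_odd oN)).cents_of_comm_le h2
    (cents_symm inf_le_right))

/-- an element of odd order normalizing a cyclic 2-group centralizes it -/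
theorem cent_of_cyclic (hT : PiGrp {2} T) (hc : IsCyclic T) (hy : y ∈ 𝐍(T)) (ho : Odd (orderOf y)) : y ∈ 𝐂(T) :=
  zpowers_le.1 (cents_of_cyclic_of_forall_lt hT hc (zpowers_le.2 hy) fun q hq hd => by
    rw [Nat.card_zpowers] at hd
    exact lt_of_le_of_ne hq.two_le fun e => ho.not_two_dvd_nat (e ▸ hd))

theorem Dih.card_le (h : Dih D T) (h2 : ∀ x ∈ T, x * x = 1) : Nat.card T ≤ 2 := by
  obtain ⟨ρ, hρ, e⟩ := isCyclic_iff_exists_zpowers.1 h.cyc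
  rw [e, Nat.card_zpowers]
  exact Nat.le_of_dvd two_pos (orderOf_dvd_of_pow_eq_one (by rw [pow_two, h2 ρ hρ]))

/-- a central element outside the cyclic part: the group has order at most 4 -/
theorem Dih.card_le_of_cent (h : Dih D T) (hs : s ∈ D) (hT : s ∉ T) (hc : T ≤ 𝐂[s]) : Nat.card T ≤ 2 :=
  h.card_le fun x hx => by
    have := h.inv hs hT hx
    rw [← mem_cent1_iff.1 (hc hx), mul_inv_cancel_right] at this
    exact mul_eq_one_iff_eq_inv.2 this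

theorem Dih.exists_mem (h : Dih D T) (h1 : T ≠ ⊥) (hs : s ∈ D) (s2 : Inv2 s) (hc : D ≤ 𝐂[s]) : ∃ R, Dih D R ∧ s ∈ R := by
  by_cases hT : s ∈ T
  · exact ⟨T, h, hT⟩
  have h2 := h.card_le_of_cent hs hT (h.le.trans hc)
  have h3 := one_lt_card_iff_ne_bot'.2 h1
  refine ⟨zpowers s, ⟨zpowers_le.2 hs, inferInstance, ?_, fun x x1 _ => ?_⟩, mem_zpowers s⟩
  · have := card_mul_relIndex (zpowers_le.2 hs)
    rw [h.card, s2.card] at this; omega
  · by_cases e : x ∈ T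
    · rw [← pow_two, show 2 = Nat.card T by omega]
      exact congrArg Subtype.val (pow_card_eq_one' (x := (⟨x, e⟩ : T)))
    · exact h.sq x x1 e

theorem Dih.eq_four (h : Dih D T) (hV : Four V) (h1 : V ≤ D) (h2 : D ≤ 𝐂(V)) : D = V := by
  obtain ⟨v, v1, v2⟩ := SetLike.not_le_iff_exists.1 (hV.not_le h.cyc)
  have := h.card_le_of_cent (h1 v1) v2 ((h.le.trans h2).trans (cent_le_cent1 v1))
  exact (eq_of_le_of_card_le h1 (by rw [h.card, hV.card]; omega)).symm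

/-- in a dihedral 2-group of order at least 8 the central involution is a square -/
theorem Dih.exists_sqrt (h : Dih D T) (hT : PiGrp {2} T) (ha : a ∈ T) (h4 : Nat.card T ≠ 2) (a2 : Inv2 a) :
    ∃ ρ ∈ T, ρ * ρ = a := by
  obtain ⟨ρ, hρ, e⟩ := isCyclic_iff_exists_zpowers.1 h.cyc
  obtain ⟨k, rfl⟩ := mem_powers_iff_mem_zpowers.2 (e ▸ ha)
  obtain ⟨j, rfl | rfl⟩ := Nat.even_or_odd' k
  · exact ⟨ρ ^ j, pow_mem hρ j, by simp only [← pow_add, two_mul]⟩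
  · have h1 := (Nat.Coprime.orderOf_pow (y := ρ) (m := 2 * j + 1) (PiNum.coprime (hT.piElt hρ)
      ((piNum_compl_singleton Nat.prime_two).2 (by omega)))).symm.trans a2.ord
    exact absurd (by rw [e, Nat.card_zpowers, h1]) h4

theorem Dih.two (hS : SylowIn 2 S M) (hd : Dih S R) (hT : PiGrp {2} T) (hM : T ≤ M) : IsCyclic T ∨ ∃ R, Dih T R ∧ R ≠ ⊥ := by
  obtain ⟨g, -, hg⟩ := hS.exists_le_cj hT hM
  by_cases h : T ≤ CA.cj g R
  · exact .inl (cyclic_of_le (hd.cj g).cyc h)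
  have h1 := (hd.cj g).inf hg h
  by_cases h2 : T ⊓ CA.cj g R = ⊥
  · exact .inl (isCyclic_of_prime_card' (by rw [h1.card, h2, card_bot]; exact Nat.prime_two))
  · exact .inr ⟨_, h1, h2⟩

theorem npc_cyc (hT : SylowIn 2 T L) (hc : IsCyclic T) : NormalPCompl 2 L :=
  hT.normalPCompl_of_cyclic_min hc fun _ hq _ => hq.two_le

theorem Dih.npc' (hT : SylowIn 2 T L) (hd : Dih T R) (hs : s ∈ R) (s2 : Inv2 s) (hL : L ≤ 𝐂[s]) : NormalPCompl 2 L := by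
  have key : ∀ x ∈ R, ∀ u ∈ L, u * x * u⁻¹ ∈ T → u * x * u⁻¹ ∈ R := fun x hx u hu h => by
    by_cases x2 : x * x = 1
    · by_cases x1 : x = 1
      · simp [x1]
      · rwa [hd.uniq hx hs ⟨x2, x1⟩ s2, mem_cent1_iff.1 (hL hu), mul_inv_cancel_right]
    · exact hd.mem_of_sq h fun e => x2 (by rwa [conj_mul, conj_eq_one_iff] at e)
  refine Cfsg.Agent.S0514.npc hT hd.le hd.cyc (hT.inf_der_le fun x hx u hu h => ?_)
  rw [show x * u * x⁻¹ * u⁻¹ = x * (u * x * u⁻¹)⁻¹ by group]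
  by_cases e : x ∈ R
  · exact Subgroup.mul_mem _ e (inv_mem (key x e u hu h))
  · exact hd.mul_mem hx (inv_mem h) e fun e' => e (by simpa [mul_assoc] using key _ (inv_mem_iff.1 e') u⁻¹ (inv_mem hu) (by simpa [mul_assoc]))

/-- centralizers of involutions have normal 2-complements -/
theorem Dih.npc (hS : SylowIn 2 S M) (hd : Dih S R) (hs : s ∈ M) (s2 : Inv2 s) : NormalPCompl 2 (M ⊓ 𝐂[s]) := by
  obtain ⟨T, hT, h⟩ := exists_sylowIn_ge s2.piGrp (zpowers_le.2 (show s ∈ M ⊓ 𝐂[s] from ⟨hs, self_mem_cent1 s⟩))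
  rcases hd.two hS hT.piGrp (hT.le.trans inf_le_left) with h1 | ⟨R', h1, h2⟩
  · exact npc_cyc hT h1
  · obtain ⟨R, h3, h4⟩ := h1.exists_mem h2 (zpowers_le.1 h) s2 (hT.le.trans inf_le_right)
    exact h3.npc' hT h4 s2 inf_le_right

/-- a four-group is a Sylow 2-subgroup of its centralizer -/
theorem Dih.syl_four (hS : SylowIn 2 S M) (hd : Dih S R) (hV : Four V) (hM : V ≤ M) : SylowIn 2 V (M ⊓ 𝐂(V)) :=
  sylowIn_of_max hV.piGrp (le_inf hM hV.le_cent) fun Q hQ h1 h2 => by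
    rcases hd.two hS hQ (h2.trans inf_le_left) with h | ⟨R', h, -⟩
    · exact absurd h1 (hV.not_le h)
    · exact h.eq_four hV h1 (h2.trans inf_le_right)

theorem DSyl.of_le (h : DSyl M) (hL : L ≤ M) : NormalPCompl 2 L ∨ DSyl L := by
  obtain ⟨S, R, hS, hd, -⟩ := h
  obtain ⟨T, hT⟩ := exists_sylowIn 2 L
  rcases hd.two hS hT.piGrp (hT.le.trans hL) with h1 | ⟨R', h1⟩
  exacts [.inl (npc_cyc hT h1), .inr ⟨T, R', hT, h1⟩]

theorem DSyl.exists (h : DSyl M) (hT : SylowIn 2 T M) : ∃ R, Dih T R ∧ R ≠ ⊥ := by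
  obtain ⟨S, R, hS, hd, h1⟩ := h
  obtain ⟨g, -, rfl⟩ := hS.exists_cj hT
  exact ⟨_, hd.cj g, mt cj_eq_bot.1 h1⟩

theorem Dih.exists_inv (h : Dih D T) (hT : PiGrp {2} T) (h1 : T ≠ ⊥) : ∃ t ∈ T, Inv2 t := by
  obtain ⟨t, ht, e⟩ := exists_orderOf_eq_prime Nat.prime_two (hT.dvd_card_of_ne_bot h1)
  exact ⟨t, ht, inv2_of_ord e⟩

/-- every involution lies in a four-group -/
theorem DSyl.exists_four (h : DSyl M) (hs : s ∈ M) (s2 : Inv2 s) : ∃ V ≤ M, Four V ∧ s ∈ V := by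
  obtain ⟨T, hT, h1⟩ := exists_sylowIn_ge s2.piGrp (zpowers_le.2 hs)
  obtain ⟨R, hd, h2⟩ := h.exists hT
  have sT := zpowers_le.1 h1
  obtain ⟨b, b1, b2, b3, c⟩ : ∃ b ∈ T, Inv2 b ∧ s ≠ b ∧ s * b = b * s := by
    by_cases e : s ∈ R
    · obtain ⟨b, b1, b2⟩ := hd.exists
      exact ⟨b, b1, hd.inv2 b1 b2, fun e' => b2 (e' ▸ e), (mem_cent1_iff.1 (hd.cent e s2.sq b1)).symm⟩
    · obtain ⟨b, b1, b2⟩ := hd.exists_inv (hT.piGrp.of_le hd.le) h2
      exact ⟨b, hd.le b1, b2, fun e' => e (e' ▸ b1), mem_cent1_iff.1 (hd.cent b1 b2.sq sT)⟩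
  obtain ⟨V, hV, e⟩ := four_of s2 b2 b3 c
  have sV : s ∈ V := (e s).2 (.inr (.inl rfl))
  exact ⟨V, hV.le_of sV ((e b).2 (.inr (.inr (.inl rfl)))) s2.ne b2.ne b3 hs (hT.le b1), hV, sV⟩

theorem DSyl.subgroupOf (h : DSyl L) (hM : L ≤ M) : DSyl (L.subgroupOf M) := by
  obtain ⟨S, R, hS, hd, h1⟩ := h
  refine ⟨_, _, hS.subgroupOf hM, hd.subgroupOf (hS.le.trans hM), fun e => h1 ?_⟩
  rw [← map_subgroupOf_eq_of_le ((hd.le.trans hS.le).trans hM), e, Subgroup.map_bot]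

theorem DSyl.top (h : DSyl L) : DSyl (⊤ : Subgroup L) := subgroupOf_self L ▸ h.subgroupOf le_rfl

theorem DSyl.map {G' : Type*} [Group G'] (h : DSyl L) {f : G →* G'} (hf : Function.Injective f) : DSyl (L.map f) := by
  obtain ⟨S, R, hS, hd, h1⟩ := h
  exact ⟨_, _, hS.map f, hd.map hf, fun e => h1 ((map_eq_bot_iff_of_injective _ hf).1 e)⟩

theorem DSyl.pmap {G' : Type*} [Group G'] (h : DSyl L) {f : M →* G'} (hM : L ≤ M) (hf : Odd (Nat.card (pker f))) :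
    DSyl (CA.pmap f L) := by
  obtain ⟨S, R, hS, hd, h1⟩ := h
  have hb : pker f ⊓ S = ⊥ := (odd_iff.1 hf).inf_eq_bot' hS.piGrp
  have SM := hS.le.trans hM
  refine ⟨_, _, hS.pmap f SM, hd.pmap SM fun e => ?_, fun e => h1 ?_⟩
  · obtain ⟨s, s1, s2⟩ := hd.exists
    have : s ∈ (pker f ⊔ R) ⊓ S := ⟨e s1, s1⟩
    rw [dedekind_right (.inl ((hd.le.trans SM).trans (pker_normalIn f).norm)) hd.le, hb, bot_sup_eq] at this
    exact s2 this
  · rw [pmap_eq_bot_iff (hd.le.trans SM)] at e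
    exact eq_bot_iff.2 (hb ▸ le_inf e hd.le)

theorem DSyl.quo (h : DSyl L) (hM : L ≤ 𝐍(M)) (ho : Odd (Nat.card M)) : DSyl (L /ₛ M) :=
  h.pmap hM (by rwa [pker_qmk])

/-- a perfect group with dihedral Sylow 2-subgroups has one class of involutions -/
theorem DSyl.conj (h : DSyl L) (hp : ⁅L, L⁆ = L) (ha : a ∈ L) (hb : b ∈ L) (a2 : Inv2 a) (b2 : Inv2 b) :
    ∃ g ∈ L, g * a * g⁻¹ = b := by
  obtain ⟨S, R, hS, hd, h1⟩ := h.top
  obtain ⟨t, ht, t2⟩ := hd.exists_inv (hS.piGrp.of_le hd.le) h1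
  have hG : commutator L = ⊤ := by rw [← der_subgroupOf, hp, subgroupOf_self]
  have key : ∀ u : L, Inv2 (u : G) → IsConj t u := fun u u2 => Zas.cls_of_cyclic hG hS hd.le hd.cyc hd.idx ht t2.sq t2.ne u
    (Subtype.ext u2.sq) fun e => u2.ne (congrArg Subtype.val e)
  obtain ⟨g, hg⟩ := isConj_iff.1 ((key ⟨a, ha⟩ a2).symm.trans (key ⟨b, hb⟩ b2))
  exact ⟨g, g.2, congrArg Subtype.val hg⟩

end elt

section K1m
variable {G : Type u} [Group G] [Finite G] (m : Min G) {L V T : Subgroup G} {s a b x : G}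
include m

theorem Min.dsyl : DSyl (⊤ : Subgroup G) := ⟨_, _, m.syl, m.dih, ne_bot_of_mem m.tR m.inv.ne⟩

theorem Min.conj (hs : Inv2 s) : IsConj m.t s :=
  Zas.cls_of_cyclic m.perf m.syl m.dih.le m.dih.cyc m.dih.idx m.tR m.inv.sq m.inv.ne s hs.sq hs.ne

theorem Min.conj' (ha : Inv2 a) (hb : Inv2 b) : ∃ g, g * a * g⁻¹ = b := isConj_iff.1 ((m.conj ha).symm.trans (m.conj hb))

theorem Min.S_le : m.S ≤ 𝐂[m.t] := m.dih.cent m.tR m.inv.sq

theorem Min.tS : m.t ∈ m.S := m.dih.le m.tR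

theorem Min.syl_t : SylowIn 2 m.S 𝐂[m.t] := m.syl.of_le m.S_le le_top

/-- every 2-subgroup is cyclic or dihedral -/
theorem Min.two (hT : PiGrp {2} T) : IsCyclic T ∨ ∃ R, Dih T R ∧ R ≠ ⊥ := m.dih.two m.syl hT le_top

/-- a Sylow 2-subgroup of `C(s)` is a Sylow 2-subgroup of `G`, dihedral with `s` in the cyclic part -/
theorem Min.syl_cent (hs : Inv2 s) (hT : SylowIn 2 T 𝐂[s]) : SylowIn 2 T ⊤ ∧ ∃ R, Dih T R ∧ s ∈ R := by
  obtain ⟨g, rfl⟩ := m.conj' m.inv hs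
  have h1 := m.syl_t.cj g
  rw [cj_centralizer_singleton] at h1
  obtain ⟨c, hc, rfl⟩ := SylowIn.exists_cj h1 hT
  refine ⟨(m.syl.cj_of_mem (mem_top g)).cj_of_mem (mem_top c), _, (m.dih.cj g).cj c, ?_⟩
  have := conj_mem_cj (g := c) |>.2 (conj_mem_cj (g := g) |>.2 m.tR)
  rwa [mem_cent1_iff.1 hc, mul_inv_cancel_right] at this

theorem Min.npc (hs : Inv2 s) (hL : L ≤ 𝐂[s]) : NormalPCompl 2 L :=
  (m.dih.npc m.syl (mem_top s) hs).of_le (le_inf le_top hL)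

theorem Min.solv_cent (hs : Inv2 s) : Group.IsSolvable 𝐂[s] := solv_of_npc (m.npc hs le_rfl)

theorem Min.npc_cyc (hT : SylowIn 2 T L) (hc : IsCyclic T) : NormalPCompl 2 L := GW.npc_cyc hT hc

theorem Min.dsyl_or (L : Subgroup G) : NormalPCompl 2 L ∨ DSyl L := m.dsyl.of_le le_top

theorem Min.dsyl_of (hL : ¬ Group.IsSolvable L) : DSyl L := (m.dsyl_or L).resolve_left fun h => hL (solv_of_npc h)

theorem Min.mem_core (hs : Inv2 s) (hx : x ∈ 𝐂[s]) (ho : Odd (orderOf x)) : x ∈ 𝐎(𝐂[s]) :=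
  ((m.npc hs le_rfl).mem_iff hx).2 (odd_elt_iff.1 ho)

theorem Min.syl_four (hV : Four V) : SylowIn 2 V 𝐂(V) := by simpa using m.dih.syl_four m.syl hV le_top

theorem Min.npc_four (hV : Four V) : NormalPCompl 2 𝐂(V) := by
  obtain ⟨a, ha, a1, -⟩ := hV.exists (one_mem V)
  exact m.npc (hV.inv2 ha a1) (cent_le_cent1 ha)

theorem Min.cent_four (hV : Four V) : 𝐂(V) = V ⊔ 𝐎(𝐂(V)) := by
  rw [sup_comm, ((m.npc_four hV).sdprod (m.syl_four hV)).sup_eq]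

theorem Min.core_four (hV : Four V) (hs : s ∈ V) (s1 : s ≠ 1) : 𝐎(𝐂(V)) = 𝐎(𝐂[s]) ⊓ 𝐂(V) :=
  piCoreOf_eq_inf_of_hall ((m.npc (hV.inv2 hs s1) le_rfl).hall.hall_piCoreOf (piCoreOf_norm _ _)) (cent_le_cent1 hs)

theorem Min.mem_four (hV : Four V) (hx : x ∈ 𝐂(V)) (h2 : PiElt {2} x) : x ∈ V :=
  (m.syl_four hV).mem_of_normal (norms_of_cents le_rfl) hx h2

/-- if `|S| ≥ 8`: an involution of `C(a) ∩ N(V)` swapping the two other involutions -/
theorem Min.swap (h8 : Nat.card m.S ≠ 4) (hV : Four V) (ha : a ∈ V) (hb : b ∈ V) (a1 : a ≠ 1) (b1 : b ≠ 1) (hab : a ≠ b) :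
    ∃ σ, Inv2 σ ∧ σ ∈ 𝐂[a] ∧ σ * b * σ⁻¹ = a * b := by
  have a2 := hV.inv2 ha a1
  have b2 := hV.inv2 hb b1
  obtain ⟨T, hT, h⟩ := exists_sylowIn_ge hV.piGrp (hV.le_cent1 ha)
  obtain ⟨h1, R, hd, h2⟩ := m.syl_cent a2 hT
  obtain ⟨ρ, hρ, e⟩ := hd.exists_sqrt (hT.piGrp.of_le hd.le) h2 (fun e => h8 (by rw [m.syl.card_eq_card h1, hd.card, e])) a2
  have bR : b ∉ R := fun e => hab (hd.uniq h2 e a2 b2)
  have h3 := hd.inv (h hb) bR (inv_mem hρ)
  have h4 : ρ * b ∈ T := mul_mem (hd.le hρ) (h hb)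
  refine ⟨ρ * b, hd.inv2 h4 fun e => bR ((mul_mem_cancel_left hρ).1 e), hT.le h4, ?_⟩
  rw [← e, show ρ * b * b * (ρ * b)⁻¹ = ρ * (b * ρ⁻¹ * b⁻¹) * b by group, h3, inv_inv]

/-- `N(V)` is transitive on `V#` -/
theorem Min.rot (hV : Four V) (ha : a ∈ V) (hb : b ∈ V) (a1 : a ≠ 1) (b1 : b ≠ 1) : ∃ g ∈ 𝐍(V), g * a * g⁻¹ = b := by
  have a2 := hV.inv2 ha a1
  have b2 := hV.inv2 hb b1
  by_cases hab : a = b
  · exact ⟨1, one_mem _, by simp [hab]⟩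
  by_cases h8 : Nat.card m.S = 4
  · obtain ⟨g, rfl⟩ := m.conj' a2 b2
    obtain ⟨n, h1, h2⟩ := SylowIn.exists_norm_conj (m.syl.of_card_eq (K := V) le_top (hV.card.trans h8.symm)) (mem_top g)
      (hV.le_cent ha) (hV.le_cent hb)
    exact ⟨n, h1.2, h2⟩
  have c := a2.mul b2 hab (hV.comm ha hb)
  have ca : a * b ≠ a := fun e => b1 (by simpa using e)
  obtain ⟨σ, -, h1, h2⟩ := m.swap h8 hV (mul_mem ha hb) ha c.ne a1 ca
  rw [hV.comm ha hb, mul_assoc b, a2.sq, mul_one] at h2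
  refine ⟨σ, hV.norm_of (mul_mem ha hb) ha c.ne a1 ca ?_ (h2 ▸ hb), h2⟩
  rw [mem_cent1_iff.1 h1, mul_inv_cancel_right]; exact mul_mem ha hb

/-- an element permuting the three involutions of `V` cyclically -/
theorem Min.rot3 (hV : Four V) (ha : a ∈ V) (hb : b ∈ V) (a1 : a ≠ 1) (b1 : b ≠ 1) (hab : a ≠ b) :
    ∃ g ∈ 𝐍(V), g * a * g⁻¹ = b ∧ g * b * g⁻¹ = a * b ∧ g * (a * b) * g⁻¹ = a := by
  have a2 := hV.inv2 ha a1
  have b2 := hV.inv2 hb b1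
  have e := hV.mem ha hb a1 b1 hab
  have c := hV.comm ha hb
  have bab : b * (a * b) = a := by rw [c, ← mul_assoc, b2.sq, one_mul]
  have fin : ∀ g ∈ 𝐍(V), g * a * g⁻¹ = b → g * b * g⁻¹ = a * b →
      ∃ g ∈ 𝐍(V), g * a * g⁻¹ = b ∧ g * b * g⁻¹ = a * b ∧ g * (a * b) * g⁻¹ = a := fun g h0 h1 h2 =>
    ⟨g, h0, h1, h2, by rw [← conj_mul, h1, h2, bab]⟩
  obtain ⟨g, g0, g1⟩ := m.rot hV ha hb a1 b1
  rcases (e _).1 (conj_mem_of_mem_normalizer g0 hb) with g2 | g2 | g2 | g2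
  · exact absurd g2 (b2.conj g).ne
  · obtain ⟨k, k0, k1⟩ := m.rot hV ha (mul_mem ha hb) a1 (a2.mul b2 hab c).ne
    rcases (e _).1 (conj_mem_of_mem_normalizer k0 hb) with k2 | k2 | k2 | k2
    · exact absurd k2 (b2.conj k).ne
    · have k3 : k * (a * b) * k⁻¹ = b := by rw [← conj_mul, k1, k2, c, mul_assoc, a2.sq, mul_one]
      refine fin (k * k) (mul_mem k0 k0) ?_ ?_
      · rw [show k * k * a * (k * k)⁻¹ = k * (k * a * k⁻¹) * k⁻¹ by group, k1, k3]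
      · rw [show k * k * b * (k * k)⁻¹ = k * (k * b * k⁻¹) * k⁻¹ by group, k2, k1]
    · refine fin (k * g) (mul_mem k0 g0) ?_ ?_
      · rw [show k * g * a * (k * g)⁻¹ = k * (g * a * g⁻¹) * k⁻¹ by group, g1, k2]
      · rw [show k * g * b * (k * g)⁻¹ = k * (g * b * g⁻¹) * k⁻¹ by group, g2, k1]
    · exact absurd (by simpa using k1.trans k2.symm) hab
  · exact absurd (by simpa using g1.trans g2.symm) hab
  · exact fin g g0 g1 g2

theorem Min.not_solv : ¬ Group.IsSolvable G := fun h => by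
  haveI := m.simple
  exact (der_lt_of_solvable (solvable_top_iff.2 h) top_ne_bot).ne (der_top.trans m.perf)

theorem Min.ne_top (h : Group.IsSolvable L) : L ≠ ⊤ := fun e => m.not_solv (solvable_top_iff.1 (e ▸ h))

theorem Min.norm_ne (h1 : L ≠ ⊥) (h2 : L ≠ ⊤) : 𝐍(L) ≠ ⊤ := fun e => by
  haveI := m.simple
  rcases (normal_of_top_le_norm e.ge).eq_bot_or_eq_top with h | h
  exacts [h1 h, h2 h]

theorem Min.cent1_ne (h1 : x ≠ 1) : 𝐂[x] ≠ ⊤ := fun e =>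
  m.norm_ne (L := zpowers x) (by simpa using h1) (m.ne_top (solvable_of_abelian (abelian_zpowers x)))
    (top_le_iff.1 (e ▸ norms_zpowers_of_cent1 le_rfl))

end K1m

end CA.GW
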