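/-
`p`-stability and the ZJ-theorem for groups in whose 2-subgroups the elements of order `> 2` commute.
-/
import Cfsg.Agent.Lib.Loc.ZJ
import Cfsg.Agent.Lib.Classical.Dickson

set_option autoImplicit false
set_option linter.unusedSectionVars false
set_option linter.style.haveILetI false
set_option linter.unusedVariables false

namespace CA.GW

open Cfsg Subgroup CA CA.GL2 CA.Loc
open scoped commutatorElement MatrixGroups

section lin
variable {H : Type*} [Group H] [Finite H]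

/-- In every 2-subgroup, elements of order `> 2` commute (e.g. dihedral Sylow 2-subgroups). -/
def CD (H : Type*) [Group H] : Prop :=
  ∀ T : Subgroup H, IsPGroup 2 T → ∀ x ∈ T, ∀ y ∈ T, x * x ≠ 1 → y * y ≠ 1 → x * y = y * x

omit [Finite H] in
theorem CD.of_inj {K : Type*} [Group K] (h : CD H) (f : K →* H) (hf : Function.Injective f) : CD K :=
  fun T hT x hx y hy x2 y2 => hf (by
    rw [map_mul, map_mul]
    exact h _ (hT.map f) _ ⟨x, hx, rfl⟩ _ ⟨y, hy, rfl⟩
      (fun e => x2 (hf (by rw [map_mul, e, map_one]))) (fun e => y2 (hf (by rw [map_mul, e, map_one]))))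

theorem CD.of_surj {K : Type*} [Group K] (h : CD H) (f : H →* K) (hf : Function.Surjective f) : CD K := by
  intro T hT x hx y hy x2 y2
  haveI : Finite K := Finite.of_surjective f hf
  obtain ⟨P, hP⟩ := hT.exists_le_sylow
  obtain ⟨Q, rfl⟩ := Sylow.mapSurjective_surjective hf 2 P
  obtain ⟨a, ha, rfl⟩ := hP hx
  obtain ⟨b, hb, rfl⟩ := hP hy
  rw [← map_mul, ← map_mul, h _ Q.isPGroup' a ha b hb (fun e => x2 (by rw [← map_mul, e, map_one]))
    (fun e => y2 (by rw [← map_mul, e, map_one]))]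

theorem not_cd_quat {k : ℕ} (hk : 1 ≤ k) : ¬ CD (QuaternionGroup (2 ^ k)) := by
  intro h
  haveI : NeZero (2 ^ k) := ⟨by positivity⟩
  have h4 : 4 ≤ 2 * 2 ^ k := by
    have := Nat.pow_le_pow_right (show 0 < 2 by norm_num) hk
    omega
  have hz : ∀ n : ℕ, 0 < n → n < 2 * 2 ^ k → ((n : ℕ) : ZMod (2 * 2 ^ k)) ≠ 0 := fun n h0 h1 e =>
    absurd (Nat.le_of_dvd h0 ((ZMod.natCast_eq_zero_iff _ _).1 e)) (by omega)
  have sq : ∀ i : ZMod (2 * 2 ^ k), (QuaternionGroup.xa i : QuaternionGroup (2 ^ k)) * QuaternionGroup.xa i ≠ 1 := fun i e => by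
    rw [QuaternionGroup.xa_mul_xa, QuaternionGroup.one_def, add_sub_cancel_right] at e
    exact hz (2 ^ k) (by positivity) (by omega) (QuaternionGroup.a.inj e)
  have := h ⊤ (IsPGroup.of_card (n := k + 2) (by
    rw [Subgroup.card_top, Nat.card_eq_fintype_card, QuaternionGroup.card]; ring))
    _ trivial _ trivial (sq 0) (sq 1)
  rw [QuaternionGroup.xa_mul_xa, QuaternionGroup.xa_mul_xa] at this
  exact hz 2 (by norm_num) (by omega) (by push_cast; linear_combination QuaternionGroup.a.inj this)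

theorem eq_one_of_detD {F V : Type*} [Field F] [Finite F] [AddCommGroup V] [Module F V]
    [FiniteDimensional F V] (p : ℕ) [hp : Fact p.Prime] [CharP F p] (h5 : p ≠ 2)
    (hV : Module.finrank F V = 2) (ρ : H →* Module.End F V) (hs : CD H)
    (hd : ∀ g, LinearMap.det (ρ g) = 1)
    (hirr : ∀ W : Submodule F V, (∀ g, ∀ v ∈ W, ρ g v ∈ W) → W = ⊥ ∨ W = ⊤) {x : H}
    (hx : ρ x ^ p = 1) : ρ x = 1 := by
  classical
  haveI := Fintype.ofFinite F
  let b := Module.finBasisOfFinrankEq F V hV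
  let e := LinearMap.toMatrixAlgEquiv b
  let φ : H →* SL(2, F) :=
    { toFun := fun g => ⟨e (ρ g), by rw [← hd g]; exact LinearMap.det_toMatrix b (ρ g)⟩
      map_one' := Subtype.ext (by simp)
      map_mul' := fun g k => Subtype.ext (by
        change e (ρ (g * k)) = e (ρ g) * e (ρ k)
        rw [map_mul, map_mul]) }
  let K := φ.range
  have hK : CD K := hs.of_surj _ φ.rangeRestrict_surjective
  by_cases h1 : 1 < Nat.card (Sylow p K)
  · obtain ⟨k, hk, ⟨i⟩⟩ := SL2.sylow_two_quaternion_of_dickson p h5 K h1 default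
    exact absurd ((hK.of_inj _ (Subgroup.subtype_injective _)).of_surj i.toMonoidHom i.surjective) (not_cd_quat hk)
  haveI : Subsingleton (Sylow p K) := Finite.card_le_one_iff_subsingleton.1 (not_lt.1 h1)
  obtain ⟨P⟩ : Nonempty (Sylow p K) := inferInstance
  haveI : (P : Subgroup K).Normal := P.normal_of_subsingleton
  let σ : K →* Module.End F V :=
    { toFun := fun k => e.symm (k : SL(2, F)).1
      map_one' := by simp
      map_mul' := fun g k => by simp }
  have hσ : ∀ g, σ (φ.rangeRestrict g) = ρ g := fun g => e.symm_apply_apply _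
  have hxp : φ.rangeRestrict x ^ p = 1 := by
    rw [← map_pow]
    refine Subtype.ext (Subtype.ext ?_)
    change e (ρ (x ^ p)) = 1
    rw [map_pow, hx, map_one]
  have hz : IsPGroup p (zpowers (φ.rangeRestrict x)) :=
    (piGrp_zpowers.2 (piElt_of_pow_eq_one ((piNum_prime (π := {p}) hp.out).2 rfl) hxp)).isPGroup hp.out
  obtain ⟨Q, hQ⟩ := hz.exists_le_sylow
  rw [Subsingleton.elim Q P] at hQ
  rw [← hσ]
  exact rep_eq_one_of_normal_isPGroup p σ
    (fun W hW => hirr W fun g v hv => hσ g ▸ hW _ v hv) P.isPGroup' (hQ (mem_zpowers _))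

/-- A quadratic pair whose anticommutator is a scalar acts trivially. -/
theorem eq_one_of_quadratic_of_scalarD {F V : Type*} [Field F] [Finite F] [AddCommGroup V] [Module F V]
    (p : ℕ) [hp : Fact p.Prime] [CharP F p] (h5 : p ≠ 2) (ρ : H →* Module.End F V)
    (hs : CD H) {x y : H} (hxy : closure {x, y} = ⊤)
    (hirr : ∀ W : Submodule F V, (∀ g, ∀ v ∈ W, ρ g v ∈ W) → W = ⊥ ∨ W = ⊤)
    (hx : (ρ x - 1) * (ρ x - 1) = 0) (hy : (ρ y - 1) * (ρ y - 1) = 0) {γ : F}
    (hγ : ∀ v, (ρ x - 1) ((ρ y - 1) v) + (ρ y - 1) ((ρ x - 1) v) = γ • v) : ρ x = 1 := by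
  by_contra hx1
  obtain ⟨w, hw⟩ : ∃ w, (ρ x - 1) w ≠ 0 := by
    by_contra! h
    exact hx1 (sub_eq_zero.1 (LinearMap.ext h))
  set v := (ρ x - 1) w with hv
  have hav : (ρ x - 1) v = 0 := LinearMap.congr_fun hx w
  have hbb : (ρ y - 1) ((ρ y - 1) v) = 0 := LinearMap.congr_fun hy v
  have hab : (ρ x - 1) ((ρ y - 1) v) = γ • v := by rw [← hγ, hav, map_zero, add_zero]
  let W : Submodule F V := Submodule.span F {v, (ρ y - 1) v}
  have h1 : v ∈ W := Submodule.subset_span (by simp)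
  have h2' : (ρ y - 1) v ∈ W := Submodule.subset_span (by simp)
  have hW : ∀ g ∈ ({x, y} : Set H), ∀ u ∈ W, ρ g u ∈ W := by
    intro g hg u hu
    have : (ρ g - 1) u ∈ W := by
      refine (Submodule.span_le (p := W.comap (ρ g - 1))).2 ?_ hu
      rintro t (rfl | rfl) <;> rcases hg with rfl | rfl <;> simp only [SetLike.mem_coe, Submodule.mem_comap]
      · rw [hav]; exact W.zero_mem
      · exact h2'
      · rw [hab]; exact W.smul_mem _ h1
      · rw [hbb]; exact W.zero_mem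
    simpa using W.add_mem this hu
  have hT : W = ⊤ := (hirr W (invariant_of_closure ρ hxy hW)).resolve_left fun h =>
    hw (by simpa [h] using h1)
  classical
  haveI : FiniteDimensional F V := Module.Finite.of_fg_top (hT ▸ Submodule.fg_span (Set.toFinite _))
  have hV : Module.finrank F V ≤ 2 := by
    rw [← finrank_top, ← hT]
    refine (finrank_span_le_card _).trans ?_
    simpa using Finset.card_le_two
  have hp0 : (p : Module.End F V) = 0 := by
    rw [← map_natCast (algebraMap F (Module.End F V)), CharP.cast_eq_zero, map_zero]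
  have hdet : ∀ u : Module.End F V, (u - 1) * (u - 1) = 0 → LinearMap.det u = 1 := fun u hu => by
    have h3 : LinearMap.det u ^ p = 1 := by
      rw [← map_pow, pow_char_eq_one_of_quadratic hp.out hp0 hu, map_one]
    exact sub_eq_zero.1 (pow_eq_zero_iff hp.out.ne_zero |>.1 (by rw [sub_pow_char, h3, one_pow, sub_self]))
  rcases hV.eq_or_lt with hV | hV
  · refine hx1 (eq_one_of_detD p h5 hV ρ hs (fun g => ?_) hirr
      (pow_char_eq_one_of_quadratic hp.out hp0 hx))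
    have := MonoidHom.eq_of_eqOn_dense hxy (f := (LinearMap.det : Module.End F V →* F).comp ρ) (g := 1) (by
      rintro u (rfl | rfl)
      · exact hdet _ hx
      · exact hdet _ hy)
    exact DFunLike.congr_fun this g
  · obtain ⟨u, hu⟩ := finrank_le_one_iff.1 (Nat.le_of_lt_succ hV)
    obtain ⟨c, hc⟩ := hu v
    obtain ⟨d, hd⟩ := hu w
    have h3 : c • (ρ x - 1) u = 0 := by rw [← map_smul, hc, hav]
    rcases smul_eq_zero.1 h3 with h4 | h4
    · exact hw (by rw [← hc, h4, zero_smul])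
    · exact hw (by rw [hv, ← hd, map_smul, h4, smul_zero])

/-- BG A.1-A.3: an irreducible group with property `CD` generated by two quadratic elements is trivial. -/
theorem eq_one_of_quadraticD {V : Type*} (p : ℕ) [hp : Fact p.Prime] [AddCommGroup V]
    [Module (ZMod p) V] [Finite V] (h5 : p ≠ 2) (ρ : H →* Module.End (ZMod p) V)
    (hs : CD H) {x y : H} (hxy : closure {x, y} = ⊤)
    (hirr : ∀ W : Submodule (ZMod p) V, (∀ g, ∀ v ∈ W, ρ g v ∈ W) → W = ⊥ ∨ W = ⊤)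
    (hx : (ρ x - 1) * (ρ x - 1) = 0) (hy : (ρ y - 1) * (ρ y - 1) = 0) : ρ x = 1 := by
  rcases subsingleton_or_nontrivial V with hV | hV
  · exact Subsingleton.elim _ _
  let F : Subring (Module.End (ZMod p) V) := Subring.centralizer (Set.range ρ)
  have hF : ∀ f : F, ∀ g v, ρ g ((f : Module.End (ZMod p) V) v) = (f : Module.End (ZMod p) V) (ρ g v) :=
    fun f g v => LinearMap.congr_fun (f.2 (ρ g) ⟨g, rfl⟩) v
  haveI : Finite (Module.End (ZMod p) V) := Finite.of_injective _ DFunLike.coe_injective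
  haveI : NoZeroDivisors F := ⟨fun {f g} h => by
    rcases hirr (LinearMap.ker (f : Module.End (ZMod p) V)) (fun k v hv => by
      rw [LinearMap.mem_ker] at hv ⊢
      rw [← hF, hv, map_zero]) with h1 | h1
    · right
      refine Subtype.ext (LinearMap.ext fun v => ?_)
      have : (g : Module.End (ZMod p) V) v ∈ LinearMap.ker (f : Module.End (ZMod p) V) :=
        LinearMap.congr_fun (congrArg Subtype.val h) v
      simpa [h1] using this
    · left
      exact Subtype.ext (LinearMap.ker_eq_top.1 h1)⟩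
  haveI : IsDomain F := NoZeroDivisors.to_isDomain F
  letI : Field F := (Finite.isDomain_to_isField F).toField
  letI : Module F V := inferInstanceAs (Module F.toSubsemiring V)
  have hsm : ∀ (f : F) (v : V), f • v = (f : Module.End (ZMod p) V) v := fun _ _ => rfl
  haveI : CharP (Module.End (ZMod p) V) p := charP_of_injective_algebraMap' (ZMod p) p
  haveI : CharP F p := CharP.subring _ p F
  let ρ' : H →* Module.End F V :=
    { toFun := fun g => { toFun := ρ g, map_add' := map_add _, map_smul' := fun f v => hF f g v }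
      map_one' := LinearMap.ext fun v => by simp
      map_mul' := fun g k => LinearMap.ext fun v => by simp }
  have hρ : ∀ g v, ρ' g v = ρ g v := fun _ _ => rfl
  set a := ρ x - 1 with ha
  set b := ρ y - 1 with hb
  have hc : a * b + b * a ∈ F := by
    rintro _ ⟨g, rfl⟩
    have hg : g ∈ (closure ({x, y} : Set H)).toSubmonoid := by rw [hxy]; trivial
    rw [closure_toSubmonoid_of_finite] at hg
    induction hg using Submonoid.closure_induction with
    | mem z hz =>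
      rcases hz with rfl | rfl
      · rw [← sub_add_cancel (ρ z) 1, ← ha]
        calc (a + 1) * (a * b + b * a) = (a * a) * b + a * b * a + (a * b + b * a) := by noncomm_ring
          _ = a * b * a + b * (a * a) + (a * b + b * a) := by rw [hx]; noncomm_ring
          _ = _ := by noncomm_ring
      · rw [← sub_add_cancel (ρ z) 1, ← hb]
        calc (b + 1) * (a * b + b * a) = (b * b) * a + b * a * b + (a * b + b * a) := by noncomm_ring
          _ = b * a * b + a * (b * b) + (a * b + b * a) := by rw [hy]; noncomm_ring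
          _ = _ := by noncomm_ring
    | one => simp
    | mul z w _ _ hz hw => rw [map_mul, mul_assoc, hw, ← mul_assoc, hz, mul_assoc]
  have := eq_one_of_quadratic_of_scalarD p h5 ρ' hs hxy (fun W hW => ?_)
    (LinearMap.ext fun v => LinearMap.congr_fun hx v) (LinearMap.ext fun v => LinearMap.congr_fun hy v)
    (γ := ⟨_, hc⟩) fun v => rfl
  · exact LinearMap.ext fun v => LinearMap.congr_fun this v
  · rcases hirr (AddSubgroup.toZModSubmodule p W.toAddSubgroup) hW with h | h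
    · left
      refine le_bot_iff.1 fun v hv => ?_
      have : v ∈ AddSubgroup.toZModSubmodule p W.toAddSubgroup := hv
      rwa [h] at this
    · right
      refine top_le_iff.1 fun v _ => ?_
      have : v ∈ AddSubgroup.toZModSubmodule p W.toAddSubgroup := by rw [h]; trivial
      exact this

end lin

variable {G : Type*} [Group G] [Finite G] {G' : Type*} [Group G'] [Finite G'] {p : ℕ}
  [hp : Fact p.Prime] {A B C D E H K L M P S X : Subgroup G} {x y z : G}

theorem cd_of_le (h : CD M) (hA : A ≤ M) : CD A := h.of_inj _ (inclusion_injective hA)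

theorem cd_quo (h : CD X) (K : Subgroup G) : CD ↥(X /ₛ K) := by
  rw [← pmap_inf_dom]
  exact (cd_of_le h inf_le_right).of_surj _ (pmapHom_surjective _ inf_le_left)

theorem mem_cent_of_quadratic_minNormalD (h5 : p ≠ 2) (hE : IsElementaryAbelian p E)
    (hn : zpowers x ⊔ zpowers y ≤ 𝐍(E))
    (hm : ∀ K, K ≤ E → zpowers x ⊔ zpowers y ≤ 𝐍(K) → K = ⊥ ∨ K = E)
    (hs : CD ↥(zpowers x ⊔ zpowers y)) (qx : ⁅⁅E, zpowers x⁆, zpowers x⁆ = ⊥)
    (qy : ⁅⁅E, zpowers y⁆, zpowers y⁆ = ⊥) : x ∈ 𝐂(E) := by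
  haveI := Fact.mk hE
  set H := zpowers x ⊔ zpowers y with hH
  have hx : x ∈ H := mem_sup_left (mem_zpowers x)
  have hy : y ∈ H := mem_sup_right (mem_zpowers y)
  have quad : ∀ z : H, ⁅⁅E, zpowers (z : G)⁆, zpowers (z : G)⁆ = ⊥ →
      (((AbV.rep p E).comp (inclusion hn)) z - 1) * (((AbV.rep p E).comp (inclusion hn)) z - 1) = 0 := by
    intro z q
    refine LinearMap.ext fun v => AbV.val_eq_one_iff.1 ?_
    have e := AbV.val_rep_sub (p := p) (inclusion hn z)
    change (AbV.rep p E (inclusion hn z) (AbV.rep p E (inclusion hn z) v - v) -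
      (AbV.rep p E (inclusion hn z) v - v)).val = 1
    rw [e, e, ← mem_bot, ← q, commutator_comm, commutator_comm E]
    exact commutator_mem_commutator (mem_zpowers _)
      (commutator_mem_commutator (mem_zpowers _) v.val_mem)
  refine (AbV.rep_eq_one_iff (p := p) (inclusion hn ⟨x, hx⟩)).1 (eq_one_of_quadraticD p h5
    ((AbV.rep p E).comp (inclusion hn)) hs (x := ⟨x, hx⟩) (y := ⟨y, hy⟩) ?_ (fun W hW => ?_)
    (quad _ qx) (quad _ qy))
  · apply map_injective H.subtype_injective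
    rw [closure_pair_eq, Subgroup.map_sup, MonoidHom.map_zpowers, MonoidHom.map_zpowers,
      PG.map_subtype_top]
    rfl
  · rw [← AbV.toSub_eq_bot_iff, ← AbV.toSub_eq_self_iff]
    exact hm _ (AbV.toSub_le W) fun g hg => AbV.mem_norm_toSub (inclusion hn ⟨g, hg⟩) (hW ⟨g, hg⟩)

/-- BG A.3: the `p'`-elements of a group with property `CD` generated by two elements acting
quadratically on the `p`-group `E` centralize `E`. -/
theorem mem_cent_of_quadraticD (h5 : p ≠ 2) (hE : IsPGroup p E) (hx : x ∈ 𝐍(E)) (hy : y ∈ 𝐍(E))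
    (hs : CD ↥(zpowers x ⊔ zpowers y)) (qx : ⁅⁅E, zpowers x⁆, zpowers x⁆ = ⊥)
    (qy : ⁅⁅E, zpowers y⁆, zpowers y⁆ = ⊥) (hz : z ∈ zpowers x ⊔ zpowers y) (hz' : PiElt {p}ᶜ z) :
    z ∈ 𝐂(E) := by
  set H := zpowers x ⊔ zpowers y with hH
  have hn : H ≤ 𝐍(E) := sup_le (zpowers_le.2 hx) (zpowers_le.2 hy)
  refine (zpowers_le (H := 𝐂(E))).1 ((copAct_zpowers_of_piElt hE (hn hz) hz').cents_of_chief
    (normalIn_sup_left hn) fun V U hc hU => ?_)
  have nV : H ≤ 𝐍(V) := le_sup_right.trans hc.norm_bot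
  have nU : U ≤ 𝐍(V) := hc.normalIn.norm
  have nx : zpowers x ≤ 𝐍(V) := le_sup_left.trans nV
  have ny : zpowers y ≤ 𝐍(V) := le_sup_right.trans nV
  have nE : E ≤ 𝐍(V) := le_sup_left.trans hc.norm_bot
  have hq : H /ₛ V = zpowers (qel V x) ⊔ zpowers (qel V y) := by
    rw [hH, quo_sup nx ny, quo_zpowers (zpowers_le.1 nx), quo_zpowers (zpowers_le.1 ny)]
  have hEU : E /ₛ V ≤ 𝐂(U /ₛ V) := quo_cents_of_comm_le nE nU
    (hc.comm_le_of_nil (normalIn_sup_left hn) (nilpotent_of_pgroup hp.out hE))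
  have hel := hc.minNormal.elemAb_of_pgroup hp.out (pgroup_quo (hE.to_le hU) V)
  have hn' : H /ₛ V ≤ 𝐍(U /ₛ V) := quo_norms V (le_sup_right.trans hc.top_normalIn.norm)
  have hm : ∀ K, K ≤ U /ₛ V → H /ₛ V ≤ 𝐍(K) → K = ⊥ ∨ K = U /ₛ V := fun K hK h =>
    hc.minNormal.eq_bot_or_eq hK (by
      rw [quo_sup nE nV]
      exact sup_le (norms_of_cents (hEU.trans (cent_mono hK))) h)
  have quad : ∀ w, zpowers w ≤ 𝐍(V) → ⁅⁅E, zpowers w⁆, zpowers w⁆ = ⊥ →
      ⁅⁅U /ₛ V, zpowers (qel V w)⁆, zpowers (qel V w)⁆ = ⊥ := fun w nw q => by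
    rw [← quo_zpowers (zpowers_le.1 nw), ← quo_commutator nU nw,
      ← quo_commutator (comm_le_of_le nU nw) nw]
    exact quo_eq_bot_of_le (((commutator_mono (commutator_mono hU le_rfl) le_rfl).trans q.le).trans
      bot_le)
  have ho' := cd_quo hs V
  have : H /ₛ V ≤ 𝐂(U /ₛ V) := by
    rw [hq] at hn' hm ho' ⊢
    refine sup_le (zpowers_le.2 ?_) (zpowers_le.2 ?_)
    · exact mem_cent_of_quadratic_minNormalD h5 hel hn' hm ho' (quad x nx qx) (quad y ny qy)
    · rw [sup_comm] at hn' hm ho'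
      exact mem_cent_of_quadratic_minNormalD h5 hel hn' hm ho' (quad y ny qy) (quad x nx qx)
  rw [commutator_comm]
  exact (commutator_mono (zpowers_le.2 hz) le_rfl).trans ((quo_cents_iff nV nU).1 this)

/-- BG A.4 (c): groups with property `CD` are `p`-stable (general form, for a homomorphism killing
`C_M(P)`). -/
theorem pmap_le_piCoreOf_of_quadraticD {f : D →* G'} (h5 : p ≠ 2) (hs : CD M)
    (hP : IsPGroup p P) (hM : M ≤ 𝐍(P)) (hD : M ≤ D) (hk : M ⊓ 𝐂(P) ≤ pker f) (hA : A ≤ M)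
    (hq : ⁅⁅P, A⁆, A⁆ = ⊥) : pmap f A ≤ piCoreOf {p} (pmap f M) := by
  let Ω : Set G' := {w | ∃ u ∈ M, ⁅⁅P, zpowers u⁆, zpowers u⁆ = ⊥ ∧ pel f u = w}
  have := baer_suzuki_rel (p := p) (M := pmap f M) Ω ?_ ?_ ?_
  · intro w hw
    obtain ⟨a, ha, rfl⟩ := (mem_pmap_of_le (hA.trans hD)).1 hw
    exact this ⟨a, hA ha, le_bot_iff.1 ((commutator_mono (commutator_mono le_rfl (zpowers_le.2 ha))
      (zpowers_le.2 ha)).trans hq.le), rfl⟩
  · rintro _ ⟨u, hu, -, rfl⟩
    exact pel_mem_pmap f hu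
  · rintro g' hg' _ ⟨u, hu, q, rfl⟩
    obtain ⟨g, hg, rfl⟩ := (mem_pmap_of_le hD).1 hg'
    refine ⟨g * u * g⁻¹, M.mul_mem (M.mul_mem hg hu) (M.inv_mem hg), ?_, pel_conj f (hD hg) (hD hu)⟩
    rw [← cj_zpowers, ← cj_eq_of_mem_normalizer (hM hg), ← cj_commutator, ← cj_commutator, q, cj_bot]
  · rintro _ ⟨u, hu, qu, rfl⟩ _ ⟨v, hv, qv, rfl⟩
    have hle : zpowers u ⊔ zpowers v ≤ M := sup_le (zpowers_le.2 hu) (zpowers_le.2 hv)
    rw [← pmap_zpowers f (hD hu), ← pmap_zpowers f (hD hv),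
      ← pmap_sup f (zpowers_le.2 (hD hu)) (zpowers_le.2 (hD hv))]
    refine isPGroup_of_forall_piElt fun w hw hw' => ?_
    obtain ⟨z, hz, hz', rfl⟩ := exists_piElt_pel (hle.trans hD) hw hw'
    exact (mem_pker.1 (hk ⟨hle hz, mem_cent_of_quadraticD h5 hP (hM hu) (hM hv)
      (cd_of_le hs hle) qu qv hz hz'⟩)).2

/-- BG A.4 (c), `p`-stability. -/
theorem odd_p_stableD (h5 : p ≠ 2) (hs : CD M) (hP : IsPGroup p P) (hM : M ≤ 𝐍(P))
    (hA : A ≤ M) (hq : ⁅⁅P, A⁆, A⁆ = ⊥) :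
    A /ₛ (M ⊓ 𝐂(P)) ≤ piCoreOf {p} (M /ₛ (M ⊓ 𝐂(P))) :=
  pmap_le_piCoreOf_of_quadraticD h5 hs hP hM (normalIn_inf_of_norm (norms_cent hM)).norm
    (pker_qmk _).ge hA hq

theorem le_coreMod_of_quadraticD (h5 : p ≠ 2) (hs : CD M) (hP : IsPGroup p P)
    (hM : M ≤ 𝐍(P)) (hA : A ≤ M) (hq : ⁅⁅P, A⁆, A⁆ = ⊥) : A ≤ coreMod {p} M (M ⊓ 𝐂(P)) :=
  (le_coq_iff (hA.trans (normalIn_inf_of_norm (norms_cent hM)).norm)).2
    (odd_p_stableD h5 hs hP hM hA hq)

/-- BG A.5 (a), for one abelian subgroup normalized by `P`. -/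
theorem le_coreMod_of_norm_abelianD (h5 : p ≠ 2) (hs : CD M) (hP : IsPGroup p P)
    (hM : M ≤ 𝐍(P)) (hA : A ≤ M) (hc : IsMulCommutative A) (hn : P ≤ 𝐍(A)) :
    A ≤ coreMod {p} M (M ⊓ 𝐂(P)) :=
  le_coreMod_of_quadraticD h5 hs hP hM hA (quadratic_of_abelian hc hn)

theorem zj_auxD (h5 : p ≠ 2) (hs : CD M) (hS : SylowIn p S M) (n : ℕ) :
    ∀ B : Subgroup G, Nat.card B ≤ n → B ⊴ M → PiGrp {p} B → M ≤ 𝐍(𝐙(Je p S) ⊓ B) := by
  have h2 : p ≠ 2 := h5
  induction n with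
  | zero => intro B h; exact absurd (card_pos' B) (by omega)
  | succ n ih =>
  intro B hc hB hBp
  set Z := 𝐙(Je p S) with hZ
  have hSp : IsPGroup p S := hS.isPGroup hp.out
  have hBS : B ≤ S := hS.normal_le hB hBp
  have nZ : 𝐍(S) ≤ 𝐍(Z) := norms_center (norm_le_norm_Je S)
  set s := {y | ∃ g ∈ M, ∃ z ∈ Z ⊓ B, y = g * z * g⁻¹} with hs'
  have hsB : closure s ≤ B := (closure_le _).2 (by
    rintro _ ⟨g, hg, z, hz, rfl⟩; exact conj_mem_of_mem_normalizer (hB.norm hg) hz.2)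
  have hZs : Z ⊓ B ≤ closure s := fun z hz => subset_closure ⟨1, one_mem _, z, hz, by simp⟩
  by_cases hlt : closure s ≠ B
  · have h1 := ih (closure s) (by have := card_lt_of_lt' (lt_of_le_of_ne hsB hlt); omega)
      ⟨hsB.trans hB.le, norms_closure (by
        rintro h hh _ ⟨g, hg, z, hz, rfl⟩
        exact ⟨h * g, mul_mem hh hg, z, hz, by group⟩)⟩ (hBp.of_le hsB)
    rwa [le_antisymm (inf_le_inf_left Z hsB) (le_inf inf_le_left hZs)] at h1
  push Not at hlt
  by_cases hb : B = ⊥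
  · rw [hb, inf_bot_eq]; exact norms_bot
  have hcl : ∀ {K : Subgroup G}, (∀ g ∈ M, ∀ z ∈ Z ⊓ B, g * z * g⁻¹ ∈ K) → B ≤ K := fun h => by
    rw [← hlt, closure_le]; rintro _ ⟨g, hg, z, hz, rfl⟩; exact h g hg z hz
  have hB' : ⁅B, B⁆ ⊴ M := hB.commutator hB
  have hW := ih ⁅B, B⁆ (by have := card_lt_of_lt' (der_lt_pgroup (hBp.isPGroup hp.out) hb); omega) hB'
    (hBp.of_le (der_le B))
  have hBZ : ⁅B, B⁆ ≤ Z := by
    refine le_trans ?_ (inf_le_left : Z ⊓ ⁅B, B⁆ ≤ Z)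
    nth_rewrite 1 [← hlt]
    refine comm_closure_le ?_ ((hsB.trans hB.le).trans hW)
    rintro _ ⟨g, hg, z, hz, rfl⟩ c hc
    have hc' : g⁻¹ * c * g ∈ B := conj_inv_mem_of_mem_normalizer (hB.norm hg) hc
    have h1 : z * (g⁻¹ * c * g) * z⁻¹ * (g⁻¹ * c * g)⁻¹ ∈ Z ⊓ ⁅B, B⁆ :=
      ⟨comm_le_left ((hBS.trans le_normalizer).trans nZ) (comm_mem hz.1 hc'), comm_mem hz.2 hc'⟩
    convert conj_mem_of_mem_normalizer (hW hg) h1 using 1
    group
  have hBB : ⁅B, B⁆ ≤ 𝐂(B) := cents_symm (hcl fun g hg z hz =>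
    conj_mem_of_mem_normalizer (norms_cent hB'.norm hg)
      (cent_mono hBZ (abelian_iff.1 (abelian_center _) hz.1)))
  set Ω := omega1 p B with hΩ
  have hΩB : Ω ≤ B := omega1_le p B
  have hΩM : Ω ⊴ M := (omega1_charIn p B).trans_normalIn hB
  have hΩp : ∀ x ∈ Ω, x ^ p = 1 := fun x hx => omega1_pow_of_class_two h2 hBB hx
  have hrepl : ∀ A ∈ AE p S, ¬ Ω ≤ 𝐍(A) → ∃ A' ∈ AE p S, A ⊓ Ω < A' ⊓ Ω ∧ A' ≤ 𝐍(A) := fun A hA hn =>
    replacement h2 hSp (hΩM.of_le (hΩB.trans hBS) hS.le) hΩp (cents_mono hBB (der_mono hΩB) hΩB) hA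
      ((der_mono hΩB).trans (hBZ.trans (inf_le_right.trans (cent_mono (le_Je hA))))) hn
  set L := sSup {K | K ⊴ M ∧ K ≤ 𝐍(Z ⊓ B)} with hL
  have hLN : L ≤ 𝐍(Z ⊓ B) := sSup_le fun K hK => hK.2
  have hLM : L ⊴ M := ⟨sSup_le fun K hK => hK.1.le, norms_sSup fun K hK => hK.1.norm⟩
  have hst : ∀ A ∈ AE p S, Ω ≤ 𝐍(A) → A ≤ L := fun A hA hn => by
    have hCΩ : M ⊓ 𝐂(Ω) ⊴ M := normalIn_inf_of_norm (norms_cent hΩM.norm)
    have hK := coreMod_normalIn {p} hCΩ
    refine (le_coreMod_of_norm_abelianD h5 hs ((hBp.of_le hΩB).isPGroup hp.out) hΩM.norm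
      (hA.1.trans hS.le) hA.2.1.1 hn).trans (le_sSup ⟨hK, ?_⟩)
    have h1 : M ⊓ 𝐂(B) ≤ M ⊓ 𝐂(Ω) := inf_le_inf_left _ (cent_mono hΩB)
    have h3 : M ⊓ 𝐂(Ω) ≤ 𝐍(M ⊓ 𝐂(B)) :=
      inf_le_left.trans (norms_inf le_normalizer (norms_cent hB.norm))
    have h4 : PiNum {p} ((M ⊓ 𝐂(B)).relIndex (M ⊓ 𝐂(Ω))) := by
      rw [← piGrp_quo_iff_relIndex h3]
      refine (isPGroup_quo_of_forall_piElt h3 fun x hx hx' => ⟨hx.1, ?_⟩).piGrp hp.out
      exact (copAct_zpowers_of_piElt (hBp.isPGroup hp.out) (hB.norm hx.1) hx').cents_of_omega1 h2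
        (hBp.isPGroup hp.out) (zpowers_le.2 hx.2) (mem_zpowers x)
    rw [← (hS.inf_normal hK).sup_eq_of_relIndex (h1.trans (le_coreMod_self _ _ _)) (by
      rw [← relIndex_mul_relIndex _ _ _ h1 (le_coreMod_self _ _ _)]
      exact h4.mul (piNum_relIndex_coreMod _ _ _))]
    exact sup_le (inf_le_left.trans (norms_inf (le_normalizer.trans nZ) (hS.le.trans hB.norm)))
      (norms_of_cents (inf_le_right.trans (cent_mono inf_le_right)))
  obtain ⟨A₀, hA₀, hmax⟩ := exists_max_card (𝒮 := AE p S) (exists_elem_pRank p S)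
    fun A => Nat.card ↥(A ⊓ Ω)
  have hA₀L : A₀ ≤ L := hst A₀ hA₀ (by
    by_contra hn
    obtain ⟨A', h1, h3, -⟩ := hrepl A₀ hA₀ hn
    exact (card_lt_of_lt' h3).not_ge (hmax A' h1))
  have hfr := frattini_exists_mul hLM (hS.inf_normal hLM)
  have hJ : Je p (S ⊓ L) ≤ Je p S := sSup_le fun A hA => le_Je ((AE_inf hA₀ hA₀L).1 hA).1
  by_cases hall : ∀ A ∈ AE p S, A ≤ L
  · have hJ' : Je p (S ⊓ L) = Je p S :=
      le_antisymm hJ (sSup_le fun A hA => le_Je ((AE_inf hA₀ hA₀L).2 ⟨hA, hall A hA⟩))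
    intro g hg
    obtain ⟨l, hl, m, hm, rfl⟩ := hfr g hg
    refine mul_mem (hLN hl) (norms_inf (X := M ⊓ 𝐍(S ⊓ L)) ?_ (inf_le_left.trans hB.norm) hm)
    rw [hZ, ← hJ']
    exact inf_le_right.trans (norms_center (norm_le_norm_Je _))
  exfalso
  push Not at hall
  have hBJ : B ≤ 𝐂(Je p (S ⊓ L)) := hcl fun g hg z hz => by
    obtain ⟨l, hl, m, hm, h⟩ := hfr g⁻¹ (inv_mem hg)
    have h1 := conj_inv_mem_of_mem_normalizer (norms_cent (norm_le_norm_Je (p := p) _) hm.2)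
      (cent_mono hJ (conj_inv_mem_of_mem_normalizer (hLN hl) hz).1.2)
    rw [← inv_inv g, h]
    convert h1 using 1
    group
  obtain ⟨A, hA, hmax'⟩ := exists_max_card (𝒮 := {A | A ∈ AE p S ∧ ¬ A ≤ L}) hall
    fun A => Nat.card ↥(A ⊓ Ω)
  have hn : ¬ Ω ≤ 𝐍(A) := fun h => hA.2 (hst A hA.1 h)
  obtain ⟨A', h1, h3, h4⟩ := hrepl A hA.1 hn
  have h5 : A' ≤ L := by
    by_contra h
    exact (card_lt_of_lt' h3).not_ge (hmax' A' ⟨h1, h⟩)
  refine hn (le_trans (fun x hx => ?_) h4)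
  exact (Elem.maxElem h1 le_rfl).mem_of_cent (hBS (hΩB hx))
    (cent_mono (le_Je ((AE_inf hA₀ hA₀L).2 ⟨h1, h5⟩)) (hBJ (hΩB hx))) (hΩp x hx)

/-- The ZJ-theorem for groups of characteristic `p` (odd) with dihedral Sylow 2-subgroups. -/
theorem zj_coreD (h2 : p ≠ 2) (hs : CD M) (hC : M ⊓ 𝐂(piCoreOf {p} M) ≤ piCoreOf {p} M)
    (hS : SylowIn p S M) : M ≤ 𝐍(𝐙(Je p S)) := by
  have h1 := zj_auxD h2 hs hS _ _ le_rfl (piCoreOf_normalIn {p} M) (piCoreOf_piGrp _ _)
  have h3 := le_coreMod_of_norm_abelianD h2 hs (piCoreOf_isPGroup hp.out M) (piCoreOf_norm _ M) (A := 𝐙(Je p S))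
    (inf_le_left.trans ((Je_le p S).trans hS.le)) (abelian_center _)
    (hS.piCoreOf_le.trans (le_normalizer.trans (norms_center (norm_le_norm_Je S))))
  rw [coreMod, coq_piCoreOf (piCoreOf_normalIn {p} M).cent ((piCoreOf_piGrp _ _).of_le hC)] at h3
  rwa [inf_eq_left.2 h3] at h1

end CA.GW
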