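/-
Bender's lemma on maximal subgroups, and conjugacy of maximal subgroups of odd characteristic `p`.
-/
import Cfsg.Agent.Lib.GW.Stab
import Cfsg.Agent.Lib.Loc.NPC
import Cfsg.Agent.Lib.GW.Basic

set_option autoImplicit false
set_option linter.unusedSectionVars false

namespace CA.GW

open Cfsg CA CA.FStar CA.Loc Subgroup

variable {G : Type*} [Group G] [Finite G] {A B L M R X Y P Q : Subgroup G} {p q r : ℕ} {π : Set ℕ}

theorem norm_le_coatom [IsSimpleGroup G] (hA : IsCoatom A) (hX : X ⊴ A) (h1 : X ≠ ⊥) : 𝐍(X) ≤ A := by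
  by_contra h
  have h2 : 𝐍(X) = ⊤ := hA.2 _ (lt_of_le_of_ne hX.norm fun e => h e.ge)
  rcases (normalizer_eq_top_iff.1 h2).eq_bot_or_eq_top with e | e
  · exact h1 e
  · exact hA.1 (top_le_iff.1 (e.ge.trans hX.le))

theorem cent_le_coatom [IsSimpleGroup G] (hA : IsCoatom A) (hX : X ⊴ A) (h1 : X ≠ ⊥) : 𝐂(X) ≤ A :=
  (norms_of_cents le_rfl).trans (norm_le_coatom hA hX h1)

theorem pc_fit (p : ℕ) (A : Subgroup G) : piCoreOf {p} A ≤ fittingOf A :=
  le_fittingOf (piCoreOf_normalIn _ _) (piCoreOf_piGrp _ _).nilpotent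

theorem le_pc_of_fit (hX : X ≤ fittingOf A) (hp : PiGrp π X) : X ≤ piCoreOf π A :=
  (le_piCoreOf_of_nilpotent (fittingOf_nilpotent A) hX hp).trans
    (piCoreOf_le_of_normalIn _ (fittingOf_normalIn A))

theorem nil_le_of (hX : Group.IsNilpotent X) (h : ∀ p, p.Prime → piCoreOf {p} X ≤ L) : X ≤ L :=
  le_of_forall_sylowIn_le fun p hp _ => ⟨_, hall_piCoreOf_of_nilpotent hX _, h p hp⟩

theorem fit_le_of (h : ∀ p, p.Prime → piCoreOf {p} A ≤ L) : fittingOf A ≤ L :=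
  nil_le_of (fittingOf_nilpotent A) fun p hp =>
    (piCoreOf_le_of_normalIn _ (fittingOf_normalIn A)).trans (h p hp)

theorem fit_compl (h : piCoreOf {q} A = ⊥) : PiGrp {q}ᶜ (fittingOf A) :=
  (hall_piCoreOf_of_nilpotent (fittingOf_nilpotent A) {q}).eq_bot_iff.1
    (eq_bot_iff.2 (h ▸ piCoreOf_le_of_normalIn _ (fittingOf_normalIn A)))

theorem fit_eq_pc (h : ∀ q, q.Prime → q ≠ p → piCoreOf {q} A = ⊥) : fittingOf A = piCoreOf {p} A :=
  le_antisymm (fit_le_of fun q hq => by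
    by_cases e : q = p
    · rw [e]
    · rw [h q hq e]; exact bot_le) (pc_fit p A)

theorem zpc_normal (p : ℕ) (A : Subgroup G) : 𝐙(piCoreOf {p} A) ⊴ A :=
  ⟨inf_le_left.trans (piCoreOf_le _ _), norms_center (piCoreOf_norm _ _)⟩

theorem zpc_ne (h : piCoreOf {p} A ≠ ⊥) : 𝐙(piCoreOf {p} A) ≠ ⊥ :=
  center_ne_bot_nil (piCoreOf_piGrp _ _).nilpotent h

theorem zpc_cent (p : ℕ) (A : Subgroup G) : 𝐙(piCoreOf {p} A) ≤ 𝐂(fittingOf A) :=
  cents_symm (fit_le_of fun q _ => by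
    by_cases e : q = p
    · rw [e]; exact cents_symm inf_le_right
    · exact cents_mono ((piCoreOf_normalIn {q} A).cents_of_coprime (piCoreOf_normalIn {p} A)
        ((piCoreOf_piGrp _ _).coprime_of_ne (piCoreOf_piGrp _ _) e)) le_rfl inf_le_left)

/-- `F(A) ∩ L` is self-centralizing in `F(A)`. -/
def SC (A L : Subgroup G) : Prop := fittingOf A ⊓ 𝐂(fittingOf A ⊓ L) ≤ L

theorem sc_of' (hX : X ≤ fittingOf A) (hL : X ≤ L) (h : fittingOf A ⊓ 𝐂(X) ≤ L) : SC A L :=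
  (inf_le_inf_left _ (cent_mono (le_inf hX hL))).trans h

theorem sc_of (hX : X ≤ fittingOf A) (h : 𝐍(X) ≤ L) : SC A L :=
  sc_of' hX (le_normalizer.trans h) (inf_le_right.trans ((norms_of_cents le_rfl).trans h))

theorem SC.mono (h : SC A L) (hL : L ≤ M) : SC A M :=
  (inf_le_inf_left _ (cent_mono (inf_le_inf_left _ hL))).trans (le_trans h hL)

theorem SC.center (h : SC A L) (p : ℕ) : 𝐙(piCoreOf {p} A) ≤ L :=
  le_trans (le_inf (inf_le_left.trans (pc_fit p A)) ((zpc_cent p A).trans (cent_mono inf_le_left))) h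

theorem SC.cents (h : SC A L) (hc : CopAct (fittingOf A) R) (hR : R ≤ 𝐂(fittingOf A ⊓ L)) :
    R ≤ 𝐂(fittingOf A) :=
  hc.cents_of_nil_self_cent (fittingOf_nilpotent A) inf_le_left hR (le_inf inf_le_left h)

/-- A subgroup of `A ∩ L` of order prime to `|F(A)|` and normalized by `F(A) ∩ L` centralizes `F(A)`. -/
theorem SC.cents' (h : SC A L) (hA : R ≤ A) (hL : R ≤ L)
    (hc : (Nat.card (fittingOf A)).Coprime (Nat.card R)) (hn : fittingOf A ⊓ L ≤ 𝐍(R)) :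
    R ≤ 𝐂(fittingOf A) := by
  have n1 : R ≤ 𝐍(fittingOf A) := hA.trans (fittingOf_normalIn A).norm
  haveI := fittingOf_nilpotent A
  exact h.cents (copAct_left n1 hc inferInstance) (cents_of_norms_of_coprime hn
    (norms_inf n1 (hL.trans le_normalizer))
    (Nat.Coprime.coprime_dvd_right (card_dvd_of_le' inf_le_left) hc.symm))

theorem b1a (cA : A ⊓ 𝐂(fittingOf A) ≤ fittingOf A) (h : SC A L) (hq : piCoreOf {q} A = ⊥) :
    piCoreOf {q} L ⊓ A = ⊥ := by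
  have hR : PiGrp {q} (piCoreOf {q} L ⊓ A) := (piCoreOf_piGrp _ _).inf_left _
  refine hR.eq_bot ((fit_compl hq).of_le (le_trans (le_inf inf_le_right ?_) cA))
  exact h.cents' inf_le_right (inf_le_left.trans (piCoreOf_le _ _)) ((fit_compl hq).coprime' hR)
    (norms_inf (inf_le_right.trans (piCoreOf_norm _ _))
      (inf_le_left.trans ((fittingOf_le A).trans le_normalizer)))

variable [IsSimpleGroup G]

theorem b1b (hA : IsCoatom A) (h : SC A L) (hp : piCoreOf {p} A ≠ ⊥) :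
    piCoreOf {p}ᶜ (fittingOf A) ⊓ L ≤ 𝐂(piCoreOf {p} L) := by
  have hV : PiGrp {p}ᶜ (piCoreOf {p}ᶜ (fittingOf A) ⊓ L) := (piCoreOf_piGrp _ _).inf_left _
  have nV : piCoreOf {p}ᶜ (fittingOf A) ⊓ L ≤ 𝐍(piCoreOf {p} L) := inf_le_right.trans (piCoreOf_norm _ _)
  have VA : piCoreOf {p}ᶜ (fittingOf A) ⊓ L ≤ fittingOf A := inf_le_left.trans (piCoreOf_le _ _)
  have hB : PiGrp {p} (piCoreOf {p} A ⊓ L) := (piCoreOf_piGrp _ _).inf_left _
  have hAB : piCoreOf {p}ᶜ (fittingOf A) ⊓ L ≤ 𝐂(piCoreOf {p} A ⊓ L) :=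
    cents_symm (cents_of_pi_nil (fittingOf_nilpotent A) (inf_le_left.trans (pc_fit p A)) VA hB hV)
  refine (copAct_p_left nV (piCoreOf_piGrp _ _) hV).cents_of_axb (piCoreOf_piGrp _ _) hB
    (inf_le_right.trans (piCoreOf_norm _ _)) hAB ?_ hV
  refine cents_of_norms_of_coprime (norms_inf ?_ (inf_le_left.trans ((piCoreOf_le _ _).trans le_normalizer)))
    (norms_inf nV (norms_cent (norms_of_cents hAB))) (hV.coprime' ((piCoreOf_piGrp _ _).inf_left _))
  exact (inf_le_right.trans ((cent_mono (le_inf inf_le_left (h.center p))).trans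
    (cent_le_coatom hA (zpc_normal p A) (zpc_ne hp)))).trans ((fittingOf_normalIn A).piCoreOf _).norm

theorem b1b' (hA : IsCoatom A) (h : SC A L) (hp : piCoreOf {p} A ≠ ⊥) (hr : piCoreOf {r} A ≠ ⊥)
    (hpr : p ≠ r) : piCoreOf {p} L ≤ A := by
  refine (cents_symm (le_trans (le_inf ?_ (h.center r)) (b1b hA h hp))).trans
    (cent_le_coatom hA (zpc_normal r A) (zpc_ne hr))
  exact le_piCoreOf_of_nilpotent (fittingOf_nilpotent A) (inf_le_left.trans (pc_fit r A))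
    (((piCoreOf_piGrp {r} A).inf_left _).compl_singleton (by simpa using hpr))

theorem b1_fit (hA : IsCoatom A) (h : SC A L)
    (hπ : ∀ q, q.Prime → piCoreOf {q} A = ⊥ → piCoreOf {q} L = ⊥) (hp : piCoreOf {p} A ≠ ⊥)
    (hr : piCoreOf {r} A ≠ ⊥) (hpr : p ≠ r) : fittingOf L ≤ A := fit_le_of fun s hs => by
  by_cases e : piCoreOf {s} A = ⊥
  · rw [hπ s hs e]; exact bot_le
  by_cases e' : s = p
  · exact e' ▸ b1b' hA h hp hr hpr
  · exact b1b' hA h e hp e'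

theorem b1_core (hA : IsCoatom A) (cL : L ⊓ 𝐂(fittingOf L) ≤ fittingOf L) (h1 : fittingOf A ≤ L)
    (h2 : fittingOf L ≤ A) (hr : piCoreOf {r} A ≠ ⊥) (hpr : p ≠ r) :
    piCoreOf {p} A ≤ piCoreOf {p} L := by
  set V := piCoreOf {p}ᶜ (fittingOf A) with hV
  set N := piCoreOf {p}ᶜ (fittingOf L) with hN
  have VA : V ⊴ A := (fittingOf_normalIn A).piCoreOf _
  have NL : N ⊴ L := (fittingOf_normalIn L).piCoreOf _
  have VL : V ≤ L := (piCoreOf_le _ _).trans h1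
  have Vp : PiGrp {p}ᶜ V := piCoreOf_piGrp _ _
  have Np : PiGrp {p}ᶜ N := piCoreOf_piGrp _ _
  have V1 : V ≠ ⊥ := fun e => hr (eq_bot_iff.2 (e ▸ le_piCoreOf_of_nilpotent (fittingOf_nilpotent A)
    (pc_fit r A) ((piCoreOf_piGrp {r} A).compl_singleton (by simpa using hpr))))
  have hP := piCoreOf_normalIn {p} L
  have VP : V ≤ 𝐂(piCoreOf {p} L) := cents_of_norms_of_coprime (((pc_fit p L).trans h2).trans VA.norm)
    (VL.trans hP.norm) (Vp.coprime' (piCoreOf_piGrp _ _))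
  have hF : N ⊔ piCoreOf {p} L = fittingOf L := by
    refine le_antisymm (sup_le (piCoreOf_le _ _) (pc_fit p L)) ?_
    rw [← (dprod_piCoreOf_of_nilpotent (fittingOf_nilpotent L) {p}).1, sup_comm]
    exact sup_le_sup_left (piCoreOf_le_of_normalIn _ (fittingOf_normalIn L)) _
  have NP : N ≤ 𝐂(piCoreOf {p} L) := NL.cents_piCoreOf Np
  have key : ∀ k ∈ L ⊓ 𝐂(N), PiElt {p} k → k ∈ 𝐂(V) := by
    intro k hk kp
    have hU : zpowers k ≤ L ⊓ 𝐂(N) := zpowers_le.2 hk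
    have c1 : ⁅V, zpowers k⁆ ≤ fittingOf L := by
      refine le_trans ?_ cL
      rw [← hF, cent_sup, inf_inf_distrib_left L]
      · exact le_inf ((commutator_mono VL hU).trans (comm_le_right NL.cent.norm))
          ((commutator_mono (le_inf VL VP) (hU.trans inf_le_left)).trans (comm_le_left hP.cent.norm))
    have Tp : PiGrp {p}ᶜ (V ⊔ N) := Vp.sup Np (Or.inr (VL.trans NL.norm))
    have TP : V ⊔ N ≤ 𝐂(piCoreOf {p} L) := sup_le VP NP
    have nF : V ⊔ N ≤ 𝐍(fittingOf L) := (sup_le VL NL.le).trans (fittingOf_normalIn L).norm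
    have c2 : ⁅V ⊔ N, zpowers k⁆ ≤ fittingOf L :=
      comm_sup_le c1 ((comm_le_left ((hU.trans inf_le_left).trans NL.norm)).trans (piCoreOf_le _ _))
        (le_sup_left.trans nF) (le_sup_right.trans nF)
    have FD : fittingOf L ≤ (V ⊔ N) ⊔ piCoreOf {p} L := hF ▸ sup_le_sup_right le_sup_right _
    have nD : zpowers k ≤ 𝐍((V ⊔ N) ⊔ piCoreOf {p} L) := by
      refine le_normalizer_iff_commutator_le_left.2 (comm_sup_le (c2.trans FD) ?_
        (norms_self_of_le le_sup_left) (norms_self_of_le le_sup_right))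
      exact (comm_le_left ((hU.trans inf_le_left).trans hP.norm)).trans le_sup_right
    have nT : zpowers k ≤ 𝐍(V ⊔ N) := nD.trans
      ((hall_of_sup_left (π := {p}ᶜ) (Or.inl (norms_of_cents (cents_symm TP))) Tp
        (by rw [compl_compl]; exact piCoreOf_piGrp _ _)).norm_le_of_normal
        (sup_le le_normalizer (norms_of_cents (cents_symm TP))))
    have c3 : ⁅V ⊔ N, zpowers k⁆ ≤ N :=
      le_piCoreOf_of_nilpotent (fittingOf_nilpotent L) c2 (Tp.of_le (comm_le_left nT))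
    exact cent_mono le_sup_left (zpowers_le.1
      ((copAct_p_right nT Tp (piGrp_zpowers.2 kp)).cents_of_comm_le c3 (hU.trans inf_le_right)))
  have WA : piEltGen {p} (L ⊓ 𝐂(N)) ≤ A :=
    le_trans ((closure_le _).2 fun k hk => key k hk.1 hk.2) (cent_le_coatom hA VA V1)
  have WL : piEltGen {p} (L ⊓ 𝐂(N)) ⊴ L :=
    ⟨(piEltGen_le _ _).trans inf_le_left, norms_piEltGen _ NL.cent.norm⟩
  refine (piCoreOf_le_piCoreOf_of_le _ ?_ WA).trans (piCoreOf_le_of_normalIn _ WL)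
  refine (piCoreOf_piGrp _ _).le_piEltGen (le_inf ((pc_fit p A).trans h1) ?_)
  exact cents_of_norms_of_coprime (((piCoreOf_le _ _).trans h2).trans (piCoreOf_norm _ _))
    (((pc_fit p A).trans h1).trans NL.norm) ((piCoreOf_piGrp _ _).coprime Np)

/-- Bender's lemma. -/
theorem b1c (hA : IsCoatom A) (hL : IsCoatom L) (cA : A ⊓ 𝐂(fittingOf A) ≤ fittingOf A)
    (cL : L ⊓ 𝐂(fittingOf L) ≤ fittingOf L) (h : SC A L)
    (hπ : ∀ q, q.Prime → piCoreOf {q} A = ⊥ → piCoreOf {q} L = ⊥) (hp : piCoreOf {p} A ≠ ⊥)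
    (hr : piCoreOf {r} A ≠ ⊥) (hpr : p ≠ r) : L = A := by
  have h2 := b1_fit hA h hπ hp hr hpr
  have h' : SC L A := inf_le_left.trans h2
  have hπ' : ∀ q, piCoreOf {q} L = ⊥ → piCoreOf {q} A = ⊥ := fun q e => by
    by_contra e'
    exact zpc_ne e' (eq_bot_iff.2 (b1a cL h' e ▸ le_inf inf_le_left (h.center q)))
  have hp' : piCoreOf {p} L ≠ ⊥ := fun e => hp (hπ' p e)
  have hr' : piCoreOf {r} L ≠ ⊥ := fun e => hr (hπ' r e)
  have h1 := b1_fit hL h' (fun q _ => hπ' q) hp' hr' hpr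
  have e : piCoreOf {p} A = piCoreOf {p} L :=
    le_antisymm (b1_core hA cL h1 h2 hr hpr) (b1_core hL cA h2 h1 hr' hpr)
  exact le_antisymm ((e ▸ piCoreOf_norm {p} L).trans (norm_le_coatom hA (piCoreOf_normalIn _ _) hp))
    ((e ▸ piCoreOf_norm {p} A).trans (norm_le_coatom hL (piCoreOf_normalIn _ _) hp'))

omit [IsSimpleGroup G] in
theorem cj_Je [Fact p.Prime] (g : G) (P : Subgroup G) : cj g (Je p P) = Je p (cj g P) := by
  have key : ∀ (g : G) (P : Subgroup G), cj g (Je p P) ≤ Je p (cj g P) := fun g P =>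
    cj_le_iff.2 (sSup_le fun A hA => cj_le_iff.1 (le_Je (by
      rw [mem_AE, pRank_cj]; exact hA.cj g)))
  refine le_antisymm (key g P) (le_cj_iff.2 ?_)
  simpa using key g⁻¹ (cj g P)

theorem zj_eq (h2 : p ≠ 2) (hG : CD G) (hA : IsCoatom A) (cA : A ⊓ 𝐂(piCoreOf {p} A) ≤ piCoreOf {p} A)
    (h1 : piCoreOf {p} A ≠ ⊥) (hP : SylowIn p P A) : 𝐍(𝐙(Je p P)) = A ∧ SylowIn p P ⊤ := by
  haveI := Fact.mk ((piCoreOf_piGrp _ _).prime_of_ne_bot h1)
  have h3 := zj_coreD h2 (hG.of_inj _ A.subtype_injective) cA hP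
  have P1 : P ≠ ⊥ := fun e => h1 (eq_bot_iff.2 (e ▸ hP.piCoreOf_le))
  have h4 := norm_le_coatom hA ⟨inf_le_left.trans ((Je_le p P).trans hP.le), h3⟩
    (center_ne_bot_nil (hP.piGrp.of_le (Je_le p P)).nilpotent (Je_ne_bot (hP.isPGroup Fact.out) P1))
  exact ⟨le_antisymm h4 h3, hP.of_norm_le_top ((norms_center (norm_le_norm_Je P)).trans h4)⟩

/-- Maximal subgroups of odd characteristic `p` are conjugate. -/
theorem zj_conj (h2 : p ≠ 2) (hG : CD G) (hA : IsCoatom A) (hL : IsCoatom L)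
    (cA : A ⊓ 𝐂(piCoreOf {p} A) ≤ piCoreOf {p} A) (cL : L ⊓ 𝐂(piCoreOf {p} L) ≤ piCoreOf {p} L)
    (h1 : piCoreOf {p} A ≠ ⊥) (h1' : piCoreOf {p} L ≠ ⊥) : ∃ g, L = cj g A := by
  haveI := Fact.mk ((piCoreOf_piGrp _ _).prime_of_ne_bot h1)
  obtain ⟨P, hP⟩ := exists_sylowIn p A
  obtain ⟨Q, hQ⟩ := exists_sylowIn p L
  obtain ⟨e1, s1⟩ := zj_eq h2 hG hA cA h1 hP
  obtain ⟨e2, s2⟩ := zj_eq h2 hG hL cL h1' hQ
  obtain ⟨g, -, rfl⟩ := s1.exists_cj s2
  exact ⟨g, by rw [← e1, ← e2, cj_normalizer, cj_center, cj_Je]⟩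

end CA.GW
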