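/-
Automorphisms of `L₂(q)`, `q` odd: every automorphism is induced by a semilinear map.
-/
import Cfsg.Agent.Lib.Br.GL2
import Cfsg.Agent.Lib.Classical.Dickson

set_option autoImplicit false
set_option linter.unusedSectionVars false

namespace CA.GW
open Matrix Matrix.SpecialLinearGroup CA.SL2 CA.Br
open scoped MatrixGroups

variable {F : Type*} [Field F]

/-- conjugation of `SL₂` by an element of `GL₂` -/
noncomputable def cjS (A : L2 F) (g : SL(2, F)) : SL(2, F) :=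
  ⟨(A * toGL g * A⁻¹ : L2 F), by
    rw [← GeneralLinearGroup.val_det_apply, map_mul, map_mul, map_inv, coeToGL_det, mul_one, mul_inv_cancel,
      Units.val_one]⟩

theorem toGL_cjS (A : L2 F) (g : SL(2, F)) : toGL (cjS A g) = A * toGL g * A⁻¹ := Units.ext rfl

/-- `GL₂ → Aut(SL₂)` -/
noncomputable def piH : L2 F →* MulAut SL(2, F) := MonoidHom.mk' (fun A =>
  { toFun := cjS A
    invFun := cjS A⁻¹
    left_inv := fun g => toGL_injective (by rw [toGL_cjS, toGL_cjS]; group)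
    right_inv := fun g => toGL_injective (by rw [toGL_cjS, toGL_cjS]; group)
    map_mul' := fun g h => toGL_injective (by rw [map_mul, toGL_cjS, toGL_cjS, toGL_cjS, map_mul]; group) })
  fun A B => MulEquiv.ext fun g => toGL_injective (by
    change toGL (cjS (A * B) g) = toGL (cjS A (cjS B g))
    rw [toGL_cjS, toGL_cjS, toGL_cjS]; group)

theorem toGL_piH (A : L2 F) (g : SL(2, F)) : toGL (piH A g) = A * toGL g * A⁻¹ := toGL_cjS A g

theorem piH_toGL (g : SL(2, F)) : piH (toGL g) = MulAut.conj g :=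
  MulEquiv.ext fun h => toGL_injective (by rw [toGL_piH, MulAut.conj_apply, map_mul, map_mul, map_inv])

theorem piH_eq_iff {A : L2 F} {g h : SL(2, F)} : piH A g = h ↔ A * toGL g = toGL h * A := by
  rw [← toGL_injective.eq_iff, toGL_piH, mul_inv_eq_iff_eq_mul]

/-- field automorphisms of `SL₂` -/
noncomputable def sH : RingAut F →* MulAut SL(2, F) := MonoidHom.mk' (fun σ =>
  { toFun := SpecialLinearGroup.map (σ : F →+* F)
    invFun := SpecialLinearGroup.map (σ.symm : F →+* F)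
    left_inv := fun g => by ext i j; simp
    right_inv := fun g => by ext i j; simp
    map_mul' := map_mul _ })
  fun σ τ => MulEquiv.ext fun g => by ext i j; rfl

theorem sH_ent (σ : RingAut F) (g : SL(2, F)) (i j : Fin 2) : sH σ g i j = σ (g i j) := rfl

/-- field automorphisms of `GL₂` -/
noncomputable def gm (σ : RingAut F) : L2 F →* L2 F := GeneralLinearGroup.map (σ : F →+* F)

theorem gm_ent (σ : RingAut F) (g : L2 F) (i j : Fin 2) : gm σ g i j = σ (g i j) := rfl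
theorem toGL_sH (σ : RingAut F) (g : SL(2, F)) : toGL (sH σ g) = gm σ (toGL g) := Units.ext rfl
theorem toGL_ent (g : SL(2, F)) (i j : Fin 2) : (toGL g : L2 F) i j = g i j := rfl

theorem sH_piH (σ : RingAut F) (A : L2 F) : sH σ * piH A = piH (gm σ A) * sH σ :=
  MulEquiv.ext fun g => toGL_injective (by
    rw [MulAut.mul_apply, MulAut.mul_apply, toGL_sH, toGL_piH, toGL_piH, toGL_sH, map_mul, map_mul, map_inv])

theorem sext {g h : SL(2, F)} (h0 : g 0 0 = h 0 0) (h1 : g 0 1 = h 0 1) (h2 : g 1 0 = h 1 0) (h3 : g 1 1 = h 1 1) :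
    g = h := by
  ext i j; fin_cases i <;> fin_cases j <;> assumption

theorem s_ent {g h : SL(2, F)} (e : g = h) :
    g 0 0 = h 0 0 ∧ g 0 1 = h 0 1 ∧ g 1 0 = h 1 0 ∧ g 1 1 = h 1 1 := by subst e; simp

theorem up_00 (b : F) : up b 0 0 = 1 := by simp [up_coe]
theorem up_01 (b : F) : up b 0 1 = b := by simp [up_coe]
theorem up_10 (b : F) : up b 1 0 = 0 := by simp [up_coe]
theorem up_11 (b : F) : up b 1 1 = 1 := by simp [up_coe]
theorem lo_00 (b : F) : lo b 0 0 = 1 := by simp [lo_coe]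
theorem lo_01 (b : F) : lo b 0 1 = 0 := by simp [lo_coe]
theorem lo_10 (b : F) : lo b 1 0 = b := by simp [lo_coe]
theorem lo_11 (b : F) : lo b 1 1 = 1 := by simp [lo_coe]
theorem neg_ent (g : SL(2, F)) (i j : Fin 2) : (-g) i j = -g i j := by simp
theorem one_ent00 : (1 : SL(2, F)) 0 0 = 1 := by simp
theorem one_ent01 : (1 : SL(2, F)) 0 1 = 0 := by simp
theorem one_ent10 : (1 : SL(2, F)) 1 0 = 0 := by simp
theorem one_ent11 : (1 : SL(2, F)) 1 1 = 1 := by simp

local macro "ent" " at " h:Lean.Parser.Tactic.locationHyp : tactic =>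
  `(tactic| simp only [SL2.mul_apply', neg_ent, up_00, up_01, up_10, up_11, lo_00, lo_01, lo_10, lo_11,
    one_ent00, one_ent01, one_ent10, one_ent11] at $h)

theorem piH_neg (A : L2 F) (g : SL(2, F)) : piH A (-g) = -piH A g := by
  have : piH A (-1) = -1 := piH_eq_iff.2 (ext2 (by simp [mul_ent, toGL_ent]) (by simp [mul_ent, toGL_ent])
    (by simp [mul_ent, toGL_ent]) (by simp [mul_ent, toGL_ent]))
  rw [← neg_one_mul, map_mul, this, neg_one_mul]

theorem lo_add (a b : F) : lo (a + b) = lo a * lo b := transvection_add _ a b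

/-- `ι` has kernel `±1` -/
def PM {Y : Type*} [Group Y] (ι : SL(2, F) →* Y) : Prop := ∀ g, ι g = 1 ↔ g = 1 ∨ g = -1

variable {Y : Type*} [Group Y] {ι f : SL(2, F) →* Y}

theorem PM.eq (h : PM ι) {a b : SL(2, F)} : ι a = ι b ↔ a = b ∨ a = -b := by
  rw [← mul_inv_eq_one, ← map_inv, ← map_mul, h, mul_inv_eq_one, mul_inv_eq_iff_eq_mul, neg_one_mul]

theorem PM.neg (h : PM ι) (a : SL(2, F)) : ι (-a) = ι a := h.eq.2 (.inr rfl)

theorem PM.comp (h : PM ι) (A : L2 F) : PM (ι.comp (piH A).toMonoidHom) := fun g => by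
  change ι (piH A g) = 1 ↔ _
  have e1 : piH A g = 1 ↔ g = 1 := map_eq_one_iff _ (piH A).injective
  have e2 : piH A g = -1 ↔ g = -1 := by rw [← (piH A).injective.eq_iff (a := g), piH_neg, map_one]
  rw [h, e1, e2]

theorem range_comp (hr : ∀ g, ∃ h, f g = ι h) (A : L2 F) : ∀ g, ∃ h, f g = ι.comp (piH A).toMonoidHom h := fun g => by
  obtain ⟨h, e⟩ := hr g
  exact ⟨(piH A).symm h, by simpa using e⟩

theorem PM.up_inj (h : PM ι) (h2 : (2 : F) ≠ 0) {a b : F} (e : ι (up a) = ι (up b)) : a = b := by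
  rcases h.eq.1 e with e | e <;> obtain ⟨e0, e1, -, -⟩ := s_ent e <;> ent at e0 e1
  · exact e1
  · exact absurd (by linear_combination e0) h2

theorem PM.lo_inj (h : PM ι) (h2 : (2 : F) ≠ 0) {a b : F} (e : ι (lo a) = ι (lo b)) : a = b := by
  rcases h.eq.1 e with e | e <;> obtain ⟨e0, -, e1, -⟩ := s_ent e <;> ent at e0 e1
  · exact e1
  · exact absurd (by linear_combination e0) h2

theorem PM.com_up (h : PM ι) (h2 : (2 : F) ≠ 0) {a : F} (ha : a ≠ 0) {v : SL(2, F)} (hv : tr v = 2)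
    (e : ι v * ι (up a) = ι (up a) * ι v) : ∃ b, v = up b := by
  rw [← map_mul, ← map_mul] at e
  have hd := det_eq v
  rw [tr] at hv
  rcases h.eq.1 e with e | e <;> obtain ⟨e0, e1, e2, e3⟩ := s_ent e <;> ent at e0 e1 e2 e3
  · have h1 : v 1 0 = 0 := mul_left_cancel₀ ha (by linear_combination -e0)
    have h3 : v 0 0 = v 1 1 := mul_left_cancel₀ ha (by linear_combination e1)
    exact ⟨_, eq_up_of h1 (mul_left_cancel₀ h2 (by linear_combination hv - h3))⟩
  · have h1 : v 1 0 = 0 := mul_left_cancel₀ h2 (by linear_combination e2)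
    have h3 : v 0 0 = 0 := mul_left_cancel₀ h2 (by linear_combination e0 - a * h1)
    rw [h1, h3] at hd
    simp at hd

theorem PM.com_lo (h : PM ι) (h2 : (2 : F) ≠ 0) {a : F} (ha : a ≠ 0) {v : SL(2, F)} (hv : tr v = 2)
    (e : ι v * ι (lo a) = ι (lo a) * ι v) : ∃ b, v = lo b := by
  rw [← map_mul, ← map_mul] at e
  have hd := det_eq v
  rw [tr] at hv
  rcases h.eq.1 e with e | e <;> obtain ⟨e0, e1, e2, e3⟩ := s_ent e <;> ent at e0 e1 e2 e3
  · have h1 : v 0 1 = 0 := mul_left_cancel₀ ha (by linear_combination e0)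
    have h3 : v 0 0 = v 1 1 := mul_left_cancel₀ ha (by linear_combination -e2)
    have h4 : v 1 1 = 1 := mul_left_cancel₀ h2 (by linear_combination hv - h3)
    exact ⟨v 1 0, sext (by rw [lo_00, h3, h4]) (by rw [lo_01, h1]) (lo_10 _).symm (by rw [lo_11, h4])⟩
  · have h1 : v 0 1 = 0 := mul_left_cancel₀ h2 (by linear_combination e1)
    have h3 : v 0 0 = 0 := mul_left_cancel₀ h2 (by linear_combination e0 - a * h1)
    rw [h1, h3] at hd
    simp at hd

variable [Fintype F]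

theorem aut_norm (h2 : (2 : F) ≠ 0) (hι : PM ι) (hf : PM f) (φ ψ : F → F) (hφ : ∀ b, f (up b) = ι (up (φ b)))
    (hψ : ∀ b, f (lo b) = ι (lo (ψ b))) (h1 : φ 1 = 1) : ∃ σ : RingAut F, ∀ g, f g = ι (sH σ g) := by
  have add : ∀ a b, φ (a + b) = φ a + φ b := fun a b => hι.up_inj h2 (by
    rw [← hφ, up_add, up_add, map_mul, map_mul, hφ, hφ])
  have inj : Function.Injective φ := fun a b e => hf.up_inj h2 (by rw [hφ, hφ, e])
  have z : φ 0 = 0 := by simpa using add 0 0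
  have z' : ψ 0 = 0 := hι.lo_inj h2 (by rw [← hψ]; simp)
  have ne : ∀ b, b ≠ 0 → φ b ≠ 0 := fun b hb e => hb (inj (e.trans z.symm))
  have k1 : ∀ b, b ≠ 0 → 1 + φ b * ψ (-b⁻¹) = 0 := fun b hb => by
    have e : up b * lo (-b⁻¹) * up b * up 1 = lo (-(b⁻¹) ^ 2) * (up b * lo (-b⁻¹) * up b) := by
      refine sext ?_ ?_ ?_ ?_ <;>
        simp only [SL2.mul_apply', up_00, up_01, up_10, up_11, lo_00, lo_01, lo_10, lo_11] <;> field_simp <;> ring
    have e' := congrArg f e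
    simp only [map_mul, hφ, hψ, h1] at e'
    simp only [← map_mul] at e'
    rcases hι.eq.1 e' with e | e <;> obtain ⟨e0, e1, -, -⟩ := s_ent e <;> ent at e0 e1
    · linear_combination e1
    · exact mul_left_cancel₀ h2 (by linear_combination e0)
  have neg : ∀ a, φ (-a) = -φ a := fun a => by linear_combination z - add a (-a) + congrArg φ (add_neg_cancel a)
  have k2 : ∀ b x, b ≠ 0 → φ (b ^ 2 * x) = φ b ^ 2 * ψ x := fun b x hb => by
    have e : up b * lo (-b⁻¹) * up b * lo x = up (-(b ^ 2 * x)) * (up b * lo (-b⁻¹) * up b) := by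
      refine sext ?_ ?_ ?_ ?_ <;>
        simp only [SL2.mul_apply', up_00, up_01, up_10, up_11, lo_00, lo_01, lo_10, lo_11] <;> field_simp <;> ring
    have e' := congrArg f e
    simp only [map_mul, hφ, hψ, neg] at e'
    simp only [← map_mul] at e'
    have k := k1 b hb
    rcases hι.eq.1 e' with e | e <;> obtain ⟨e0, -, e1, -⟩ := s_ent e <;> ent at e0 e1
    · linear_combination (φ (b ^ 2 * x) + φ b ^ 2 * ψ x) * k - φ b * e0
    · exact absurd (by linear_combination 2 * k - φ b * e1 + φ b * ψ x * k) h2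
  have k3 : ∀ x, ψ x = φ x := fun x => by simpa [h1] using (k2 1 x one_ne_zero).symm
  have k4 : ∀ b, φ (b ^ 2) = φ b ^ 2 := fun b => by
    by_cases hb : b = 0
    · simp [hb, z]
    · simpa [k3, h1] using k2 b 1 hb
  have mul : ∀ a b, φ (a * b) = φ a * φ b := fun a b => by
    have := k4 (a + b)
    rw [show (a + b) ^ 2 = a ^ 2 + (a * b + a * b) + b ^ 2 by ring, add, add, add, add, k4, k4] at this
    exact mul_left_cancel₀ h2 (by linear_combination this)
  let σ : RingAut F := RingEquiv.ofBijective (⟨⟨⟨φ, h1⟩, mul⟩, z, add⟩ : F →+* F)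
    ⟨inj, Finite.surjective_of_injective inj⟩
  have hσ : ∀ x, σ x = φ x := fun _ => rfl
  refine ⟨σ, Lin.transvection_induction _ (fun i j hij c => ?_) fun A B hA hB => by rw [map_mul, map_mul, map_mul, hA, hB]⟩
  fin_cases i <;> fin_cases j
  · exact absurd rfl hij
  · refine (hφ c).trans (congrArg ι (sext ?_ ?_ ?_ ?_)) <;> change _ = σ (up c _ _) <;>
      simp only [up_00, up_01, up_10, up_11, h1, z, hσ]
  · refine (hψ c).trans (congrArg ι (sext ?_ ?_ ?_ ?_)) <;> change _ = σ (lo c _ _) <;>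
      simp only [lo_00, lo_01, lo_10, lo_11, h1, z, hσ, k3]
  · exact absurd rfl hij

theorem PM.unip (hι : PM ι) (hr : ∀ g, ∃ h, f g = ι h) (p : ℕ) [hp : Fact p.Prime] [CharP F p] (p2 : p ≠ 2)
    {g : SL(2, F)} (hg : tr g = 2) : ∃ u, u ^ p = 1 ∧ f g = ι u := by
  obtain ⟨u, e⟩ := hr g
  have h1 : ι (u ^ p) = 1 := by rw [map_pow, ← e, ← map_pow, pow_char_of_tr p hg, map_one]
  rcases (hι _).1 h1 with h | h
  · exact ⟨u, h, e⟩
  · exact ⟨-u, by rw [(hp.out.odd_of_ne_two p2).neg_pow, h, neg_neg], by rw [e, hι.neg]⟩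

theorem tr_lo (a : F) : tr (lo a) = 2 := by rw [tr, lo_00, lo_11]; norm_num

/-- every automorphism of `L₂(q)` is semilinear -/
theorem aut (hF : Odd (Fintype.card F)) (hι : PM ι) (hf : PM f) (hr : ∀ g, ∃ h, f g = ι h) :
    ∃ A σ, ∀ g, f g = ι (piH A (sH σ g)) := by
  have h2 := two_ne_zero_of_odd hF
  obtain ⟨p, hp, n, hp', -⟩ := FiniteField.card' F
  have : Fact p.Prime := ⟨hp'⟩
  have p2 : p ≠ 2 := fun e => h2 (by subst e; exact_mod_cast CharP.cast_eq_zero F 2)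
  have trp : ∀ u : SL(2, F), u ^ p = 1 → tr u = 2 := fun u hu =>
    let ⟨_, hx⟩ := exists_US_of_pow p hu; tr_of_mem_US hx
  -- step 1
  have s1 : ∀ ι : SL(2, F) →* Y, PM ι → (∀ g, ∃ h, f g = ι h) → (∃ a, f (up 1) = ι (up a)) →
      ∃ φ : F → F, ∀ b, f (up b) = ι (up (φ b)) := fun ι hι hr ⟨a, ha⟩ => by
    have a0 : a ≠ 0 := fun e => one_ne_zero (hf.up_inj h2 (a := 1) (b := 0) (by rw [ha, e]; simp))
    have : ∀ b, ∃ c, f (up b) = ι (up c) := fun b => by
      obtain ⟨u, hu, e⟩ := hι.unip hr p p2 (tr_up b)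
      obtain ⟨c, rfl⟩ := hι.com_up h2 a0 (trp u hu) (by rw [← e, ← ha, ← map_mul, ← map_mul, ← up_add, ← up_add, add_comm])
      exact ⟨c, e⟩
    choose φ hφ using this
    exact ⟨φ, hφ⟩
  have s2 : ∀ ι : SL(2, F) →* Y, PM ι → (∀ g, ∃ h, f g = ι h) → (∃ a, f (lo 1) = ι (lo a)) →
      ∃ φ : F → F, ∀ b, f (lo b) = ι (lo (φ b)) := fun ι hι hr ⟨a, ha⟩ => by
    have a0 : a ≠ 0 := fun e => one_ne_zero (hf.lo_inj h2 (a := 1) (b := 0) (by rw [ha, e]; simp))
    have : ∀ b, ∃ c, f (lo b) = ι (lo c) := fun b => by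
      obtain ⟨u, hu, e⟩ := hι.unip hr p p2 (tr_lo b)
      obtain ⟨c, rfl⟩ := hι.com_lo h2 a0 (trp u hu) (by rw [← e, ← ha, ← map_mul, ← map_mul, ← lo_add, ← lo_add, add_comm])
      exact ⟨c, e⟩
    choose φ hφ using this
    exact ⟨φ, hφ⟩
  have s3 : ∀ ι : SL(2, F) →* Y, PM ι → (∀ g, ∃ h, f g = ι h) → (∃ a, f (up 1) = ι (up a)) →
      (∃ a, f (lo 1) = ι (lo a)) → ∃ A σ, ∀ g, f g = ι (piH A (sH σ g)) := fun ι hι hr ⟨a, ha⟩ ⟨b, hb⟩ => by
    have a0 : a ≠ 0 := fun e => one_ne_zero (hf.up_inj h2 (a := 1) (b := 0) (by rw [ha, e]; simp))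
    set A : L2 F := dg (Units.mk0 a a0, 1)
    have e1 : piH A (up 1) = up a := piH_eq_iff.2 (by
      refine ext2 ?_ ?_ ?_ ?_ <;> simp [A, mul_ent, toGL_ent, up_00, up_01, up_10, up_11])
    have e2 : piH A (lo (a * b)) = lo b := piH_eq_iff.2 (by
      refine ext2 ?_ ?_ ?_ ?_ <;> simp [A, mul_ent, toGL_ent, lo_00, lo_01, lo_10, lo_11, mul_comm])
    have e3 : f (up 1) = ι.comp (piH A).toMonoidHom (up 1) := ha.trans (congrArg ι e1.symm)
    obtain ⟨φ, hφ⟩ := s1 _ (hι.comp A) (range_comp hr A) ⟨1, e3⟩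
    obtain ⟨ψ, hψ⟩ := s2 _ (hι.comp A) (range_comp hr A) ⟨a * b, hb.trans (congrArg ι e2.symm)⟩
    obtain ⟨σ, hσ⟩ := aut_norm h2 (hι.comp A) hf φ ψ hφ hψ ((hι.comp A).up_inj h2 ((hφ 1).symm.trans e3))
    exact ⟨A, σ, hσ⟩
  have s4 : ∀ ι : SL(2, F) →* Y, PM ι → (∀ g, ∃ h, f g = ι h) → (∃ a, f (up 1) = ι (up a)) →
      ∃ A σ, ∀ g, f g = ι (piH A (sH σ g)) := fun ι hι hr ⟨a, ha⟩ => by
    obtain ⟨φ, hφ⟩ := s1 ι hι hr ⟨a, ha⟩
    have inj : Function.Injective φ := fun a b e => hf.up_inj h2 (by rw [hφ, hφ, e])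
    obtain ⟨v, hv, e⟩ := hι.unip hr p p2 (tr_lo 1)
    have t := trp v hv
    have d := det_eq v
    rw [tr] at t
    have v0 : v 1 0 ≠ 0 := fun h => by
      rw [h] at d
      have h1 : v 1 1 = 1 := by
        have : (v 1 1 - 1) ^ 2 = 0 := by linear_combination v 1 1 * t - d
        exact sub_eq_zero.1 (pow_eq_zero_iff two_ne_zero |>.1 this)
      obtain ⟨b, hb⟩ := Finite.surjective_of_injective inj (v 0 1)
      rw [eq_up_of h h1, ← hb, ← hφ] at e
      rcases hf.eq.1 e with e | e <;> obtain ⟨-, -, e1, -⟩ := s_ent e <;> ent at e1 <;> simp at e1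
    set A : L2 F := toGL (up ((v 0 0 - 1) / v 1 0))
    have e1 : piH A (up a) = up a := by
      rw [piH_toGL, MulAut.conj_apply, ← up_add, add_comm, up_add, mul_inv_cancel_right]
    have e2 : piH A (lo (v 1 0)) = v := piH_eq_iff.2 (by
      refine ext2 ?_ ?_ ?_ ?_ <;>
        simp only [A, mul_ent, toGL_ent, up_00, up_01, up_10, up_11, lo_00, lo_01, lo_10, lo_11] <;> field_simp
      · ring
      · linear_combination d - v 0 0 * t
      · ring
      · linear_combination -t)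
    obtain ⟨B, σ, h⟩ := s3 _ (hι.comp A) (range_comp hr A) ⟨a, ha.trans (congrArg ι e1.symm)⟩
      ⟨v 1 0, e.trans (congrArg ι e2.symm)⟩
    exact ⟨A * B, σ, fun g => by rw [h, map_mul]; rfl⟩
  obtain ⟨u, hu, e⟩ := hι.unip hr p p2 (tr_up 1)
  obtain ⟨x, hx⟩ := exists_US_of_pow p hu
  obtain ⟨g, rfl⟩ := exists_smul_e0 x
  rw [US_smul, Subgroup.mem_smul_pointwise_iff_exists] at hx
  obtain ⟨A, hA, rfl⟩ := hx
  obtain ⟨a, rfl⟩ := mem_US_e0.1 hA
  obtain ⟨B, σ, h⟩ := s4 _ (hι.comp (toGL g)) (range_comp hr _) ⟨a, e.trans (by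
    change _ = ι (piH (toGL g) (up a))
    rw [piH_toGL]; rfl)⟩
  exact ⟨toGL g * B, σ, fun g => by rw [h, map_mul]; rfl⟩

end CA.GW
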