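/-
Finite-field facts used for the tori of `PGL₂(q)` and the action of field automorphisms on them.
-/
import Cfsg.Agent.Lib.GW.Aut
import Mathlib.NumberTheory.Multiplicity

set_option autoImplicit false
set_option linter.unusedSectionVars false

namespace CA.GW
open CA.Br QuadraticAlgebra

/-- `(k^r - 1)/(k - 1)` is not a power of `r` up to a factor 2 -/
theorem lte_contra {r j : ℕ} (hr : r.Prime) (r2 : r ≠ 2) {k : ℤ} (hk : 3 ≤ |k|) (ko : Odd k)
    (h : k ^ r - 1 ∣ 2 * (k - 1) * r ^ j) : False := by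
  have ro := hr.odd_of_ne_two r2
  have r3 : 3 ≤ r := by have := hr.two_le; omega
  set Φ := ∑ i ∈ Finset.range r, k ^ i with hΦ
  have e : Φ * (k - 1) = k ^ r - 1 := geom_sum_mul k r
  have k1 : k - 1 ≠ 0 := fun h => by rw [sub_eq_zero.1 h] at hk; simp at hk
  have h1 : Φ ∣ 2 * r ^ j := by
    rw [← e, show 2 * (k - 1) * (r : ℤ) ^ j = 2 * r ^ j * (k - 1) by ring] at h
    exact (mul_dvd_mul_iff_right k1).1 h
  have h2 : Odd Φ := by
    have : ∀ n : ℕ, (Odd (∑ i ∈ Finset.range n, k ^ i) ↔ Odd n) := fun n => by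
      induction n with
      | zero => simp
      | succ n ih =>
        rw [Finset.sum_range_succ, Int.odd_add', Nat.odd_add_one, ← ih, Int.not_odd_iff_even]
        exact iff_true_left ko.pow
    exact (this r).2 ro
  have h3 : Φ ∣ r ^ j := (Int.isCoprime_two_right.2 h2).dvd_of_dvd_mul_left h1
  have h4 : Φ.natAbs ∣ r ^ j := by simpa using Int.natAbs_dvd_natAbs.2 h3
  obtain ⟨i, -, hi⟩ := (Nat.dvd_prime_pow hr).1 h4
  have h5 : Φ.natAbs ≤ r := by
    rcases Nat.lt_or_ge i 2 with h | h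
    · rw [hi]; interval_cases i <;> simp [hr.one_le]
    · exfalso
      have d2 : (r : ℤ) ^ 2 ∣ Φ := by
        rw [← Int.natAbs_dvd_natAbs, hi]; simpa using pow_dvd_pow r h
      have d1 : (r : ℤ) ∣ k - 1 := by
        have : Fact r.Prime := ⟨hr⟩
        have : (r : ℤ) ∣ k ^ r - 1 := e ▸ ((dvd_pow_self _ two_ne_zero).trans d2).mul_right _
        rw [← ZMod.intCast_zmod_eq_zero_iff_dvd] at this ⊢
        push_cast at this ⊢
        rwa [ZMod.pow_card] at this
      obtain ⟨b, hb⟩ := d1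
      have := odd_sq_dvd_geom_sum₂_sub (1 : ℤ) b ro
      simp only [one_pow, mul_one, show 1 + (r : ℤ) * b = k by linear_combination -hb] at this
      have d3 : (r : ℤ) ^ 2 ∣ r := by simpa [hΦ] using (dvd_sub d2 this)
      have := Int.le_of_dvd (by omega) d3
      nlinarith
  have h6 : |Φ| ≤ r := by rw [Int.abs_eq_natAbs]; exact_mod_cast h5
  have h7 : |k| ^ r ≤ r * (|k| + 1) + 1 := by
    have a1 : |k ^ r| ≤ |k ^ r - 1| + 1 := by simpa using abs_add_le (k ^ r - 1) 1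
    have a2 : |k - 1| ≤ |k| + 1 := by simpa using abs_sub k 1
    rw [← e, abs_mul, abs_pow] at a1
    nlinarith [abs_nonneg Φ, abs_nonneg (k - 1), mul_le_mul h6 a2 (abs_nonneg _) (by positivity)]
  have h8 : ∀ n : ℕ, ((n + 3 : ℕ) : ℤ) * (|k| + 1) + 1 < |k| ^ (n + 3) := fun n => by
    induction n with
    | zero => push_cast; nlinarith [sq_nonneg (|k| - 3), mul_le_mul hk hk (by norm_num) (by positivity)]
    | succ n ih => rw [show n + 1 + 3 = n + 3 + 1 by ring, pow_succ]; push_cast at ih ⊢; nlinarith [mul_le_mul ih.le hk (by norm_num) (by positivity), (Nat.cast_nonneg n : (0 : ℤ) ≤ n)]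
  obtain ⟨n, rfl⟩ : ∃ n, r = n + 3 := ⟨r - 3, by omega⟩
  exact absurd (h8 n) (not_lt.2 h7)

variable {F : Type*} [Field F] [Fintype F]
local notation "𝔮" => Fintype.card F

theorem exists_gen : ∃ g : Fˣ, orderOf g = 𝔮 - 1 ∧ ∀ x : Fˣ, ∃ k : ℕ, g ^ k = x := by
  obtain ⟨g, hg⟩ := IsCyclic.exists_generator (α := Fˣ)
  exact ⟨g, (orderOf_eq_card_of_forall_mem_zpowers hg).trans a_card_units, fun x =>
    (Submonoid.mem_powers_iff _ _).1 ((mem_powers_iff_mem_zpowers).2 (hg x))⟩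

theorem gen_nsq (hF : Odd 𝔮) {g : Fˣ} (hg : ∀ x : Fˣ, ∃ k : ℕ, g ^ k = x) : ¬ IsSquare (g : F) := fun h => by
  obtain ⟨a, ha⟩ := FiniteField.exists_nonsquare (a_char hF)
  have a0 : a ≠ 0 := fun e => ha (e ▸ IsSquare.zero)
  obtain ⟨k, hk⟩ := hg (Units.mk0 a a0)
  have := congrArg Units.val hk
  rw [Units.val_pow_eq_pow_val, Units.val_mk0] at this
  exact ha (this ▸ h.pow k)

theorem nsq_mul (hF : Odd 𝔮) {a b : F} (ha : ¬ IsSquare a) (hb : ¬ IsSquare b) : IsSquare (a * b) := by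
  have a0 : a ≠ 0 := fun e => ha (e ▸ IsSquare.zero)
  have b0 : b ≠ 0 := fun e => hb (e ▸ IsSquare.zero)
  have h := a_char hF
  rw [FiniteField.isSquare_iff h a0] at ha
  rw [FiniteField.isSquare_iff h b0] at hb
  rw [FiniteField.isSquare_iff h (mul_ne_zero a0 b0), mul_pow, (FiniteField.pow_dichotomy h a0).resolve_left ha,
    (FiniteField.pow_dichotomy h b0).resolve_left hb, neg_mul_neg, one_mul]

theorem sq_pow_iff {a : F} (ha : ¬ IsSquare a) (k : ℕ) : IsSquare (a ^ k) ↔ Even k := by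
  have a0 : a ≠ 0 := fun e => ha (e ▸ IsSquare.zero)
  refine ⟨fun h => Nat.not_odd_iff_even.1 fun ⟨m, hm⟩ => ha ?_, fun ⟨m, hm⟩ => ⟨a ^ m, by rw [hm, pow_add]⟩⟩
  obtain ⟨b, hb⟩ := h
  exact ⟨b / a ^ m, by field_simp; rw [sq b, ← hb, hm]; ring⟩

theorem qa_norm {c : F} (u : QuadraticAlgebra F c 0) : u.norm = u.re ^ 2 - c * u.im ^ 2 := by
  rw [norm_def]; ring

/-- the torus of `PGL₂(q)` attached to `F[ω]`, `ω² = c`, is cyclic of order `q ∓ 1` -/
theorem tor_alg (hF : Odd 𝔮) {c : F} (hc : c ≠ 0) : ∃ (u₀ : QuadraticAlgebra F c 0) (n : ℕ),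
    (n + 1 = 𝔮 ∨ n = 𝔮 + 1) ∧ ¬ IsSquare u₀.norm ∧ (∀ k : ℕ, (u₀ ^ k).im = 0 ↔ n ∣ k) ∧
      ∀ u : QuadraticAlgebra F c 0, u.norm ≠ 0 → ∃ (k : ℕ) (l : F), l ≠ 0 ∧ u = l • u₀ ^ k := by
  have h2 := CA.SL2.two_ne_zero_of_odd hF
  have q1 : 1 < 𝔮 := Fintype.one_lt_card
  by_cases hs : IsSquare c
  · obtain ⟨d, rfl⟩ := hs
    have d0 : d ≠ 0 := left_ne_zero_of_mul hc
    obtain ⟨g, go, hg⟩ := exists_gen (F := F)
    set u₀ : QuadraticAlgebra F (d * d) 0 := ⟨(g + 1) / 2, (g - 1) / (2 * d)⟩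
    have hp : ∀ k : ℕ, (u₀ ^ k).re + d * (u₀ ^ k).im = g ^ k ∧ (u₀ ^ k).re - d * (u₀ ^ k).im = 1 := fun k => by
      induction k with
      | zero => simp
      | succ k ih =>
        rw [pow_succ, pow_succ, re_mul, im_mul]
        simp only [u₀]
        constructor
        · rw [← ih.1]; field_simp; ring
        · field_simp; linear_combination (2 : F) * ih.2
    refine ⟨u₀, 𝔮 - 1, .inl (by omega), ?_, fun k => ?_, fun u hu => ?_⟩
    · rw [show u₀.norm = g by rw [qa_norm]; simp only [u₀]; field_simp; ring]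
      exact gen_nsq hF hg
    · rw [← go, orderOf_dvd_iff_pow_eq_one, ← Units.val_eq_one, Units.val_pow_eq_pow_val]
      obtain ⟨e1, e2⟩ := hp k
      exact ⟨fun h => by rw [h] at e1 e2; linear_combination e2 - e1,
        fun h => mul_left_cancel₀ (mul_ne_zero h2 d0) (by linear_combination e1 - e2 + h)⟩
    · rw [qa_norm, show u.re ^ 2 - d * d * u.im ^ 2 = (u.re + d * u.im) * (u.re - d * u.im) by ring] at hu
      have a0 := left_ne_zero_of_mul hu
      have b0 := right_ne_zero_of_mul hu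
      obtain ⟨k, hk⟩ := hg (Units.mk0 _ (div_ne_zero a0 b0))
      have hk' : (g : F) ^ k * (u.re - d * u.im) = u.re + d * u.im := by
        have := congrArg Units.val hk
        rw [Units.val_pow_eq_pow_val, Units.val_mk0] at this
        rw [this, div_mul_cancel₀ _ b0]
      obtain ⟨e1, e2⟩ := hp k
      refine ⟨k, _, b0, QuadraticAlgebra.ext (mul_left_cancel₀ h2 ?_) (mul_left_cancel₀ (mul_ne_zero h2 d0) ?_)⟩
      · simp only [re_smul, smul_eq_mul]; linear_combination -hk' - (u.re - d * u.im) * (e1 + e2)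
      · simp only [im_smul, smul_eq_mul]; linear_combination -hk' - (u.re - d * u.im) * (e1 - e2)
  · have := a_fact hs
    classical
    have : Finite (QuadraticAlgebra F c 0) := Finite.of_equiv _ (equivProd c 0).symm
    have : Fintype (QuadraticAlgebra F c 0) := Fintype.ofFinite _
    have hcard : Fintype.card (QuadraticAlgebra F c 0) = 𝔮 * 𝔮 := by
      rw [Fintype.card_congr (equivProd c 0), Fintype.card_prod]
    obtain ⟨g, go, hg⟩ := exists_gen (F := QuadraticAlgebra F c 0)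
    have all : ∀ u : QuadraticAlgebra F c 0, u.norm ≠ 0 → ∃ k : ℕ, u = (g : QuadraticAlgebra F c 0) ^ k := fun u hu => by
      obtain ⟨k, hk⟩ := hg (Units.mk0 u fun e => hu (by rw [e, QuadraticAlgebra.norm_zero]))
      exact ⟨k, by simpa using (congrArg Units.val hk).symm⟩
    refine ⟨g, 𝔮 + 1, .inr rfl, fun h => ?_, fun k => ?_, fun u hu => ?_⟩
    · obtain ⟨a, ha⟩ := FiniteField.exists_nonsquare (a_char hF)
      have a0 : a ≠ 0 := fun e => ha (e ▸ IsSquare.zero)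
      obtain ⟨w, hw, e⟩ := a_norm_surj hF hs (Units.mk0 a a0)
      obtain ⟨w1, w2⟩ := (Hyp.mem_WW hc).1 hw
      have e1 : (⟨w 0 0, w 1 0⟩ : QuadraticAlgebra F c 0).norm = a := by
        have := congrArg Units.val e
        rw [a_det_val, Units.val_mk0, aDet, ← w1, w2] at this
        rw [qa_norm, ← this]; ring
      obtain ⟨k, hk⟩ := all _ (e1 ▸ a0)
      exact ha (by rw [← e1, hk, map_pow]; exact h.pow k)
    · have e1 : 𝔮 + 1 ∣ k ↔ orderOf g ∣ k * (𝔮 - 1) := by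
        rw [go, hcard, show 𝔮 * 𝔮 - 1 = (𝔮 + 1) * (𝔮 - 1) by rw [← Nat.sq_sub_sq, sq, one_pow]]
        exact (Nat.mul_dvd_mul_iff_right (by omega)).symm
      rw [e1, orderOf_dvd_iff_pow_eq_one, pow_mul, ← mul_left_inj (g ^ k), ← pow_succ, Nat.sub_add_cancel q1.le, one_mul,
        ← Units.val_inj, Units.val_pow_eq_pow_val, Units.val_pow_eq_pow_val]
      generalize (g : QuadraticAlgebra F c 0) ^ k = v
      obtain ⟨a, b⟩ := v
      rw [a_frob hF hs]
      exact ⟨fun h => by simp only at h; simp [h], fun h => mul_left_cancel₀ h2 (by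
        have := congrArg QuadraticAlgebra.im h; simp only at this ⊢; linear_combination -this)⟩
    · obtain ⟨k, hk⟩ := all u hu
      exact ⟨k, 1, one_ne_zero, by rw [one_smul, hk]⟩

theorem re_pow {c : F} (p e : ℕ) [hp : Fact p.Prime] [CharP F p] (p2 : p ≠ 2) (u : QuadraticAlgebra F c 0) :
    (u ^ p ^ e).re = u.re ^ p ^ e := by
  have : CharP (QuadraticAlgebra F c 0) p := charP_of_injective_algebraMap algebraMap_injective p
  obtain ⟨m, hm⟩ : Odd (p ^ e) := (hp.out.odd_of_ne_two p2).pow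
  have e2 : (omega : QuadraticAlgebra F c 0) ^ 2 = algebraMap F _ c := by rw [sq, omega_mul_omega_eq_mk]; rfl
  obtain ⟨a, b⟩ := u
  have e1 : (⟨a, b⟩ : QuadraticAlgebra F c 0) = algebraMap F _ a + algebraMap F _ b * omega := by
    ext <;> simp [algebraMap_eq]
  conv_lhs => rw [e1, add_pow_char_pow, mul_pow, ← map_pow, ← map_pow]
  conv_lhs => rw [show (omega : QuadraticAlgebra F c 0) ^ p ^ e = algebraMap F _ (c ^ m) * omega by
    rw [hm, pow_succ, pow_mul, e2, map_pow]]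
  simp [algebraMap_eq]

theorem frob_ex (p : ℕ) [hp : Fact p.Prime] [CharP F p] (σ : RingAut F) : ∃ e, ∀ x, σ x = x ^ p ^ e := by
  let _ := ZMod.algebra F p
  obtain ⟨e, he⟩ := FiniteField.exists_forall_apply_eq_pow (k := ZMod p) (p := p) F
    (AlgEquiv.ofRingEquiv (f := σ) fun x => by
      obtain ⟨n, rfl⟩ := ZMod.natCast_zmod_surjective x
      simp)
  exact ⟨e, by simpa using he⟩

theorem aut_comm (σ ρ : RingAut F) : σ * ρ = ρ * σ := by
  obtain ⟨p, hp, n, hp', -⟩ := FiniteField.card' F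
  have : Fact p.Prime := ⟨hp'⟩
  obtain ⟨e, he⟩ := frob_ex p σ
  obtain ⟨f, hf⟩ := frob_ex p ρ
  ext x
  change σ (ρ x) = ρ (σ x)
  rw [he, hf, hf, he, ← pow_mul, ← pow_mul, mul_comm]

theorem frob_pow {σ : RingAut F} {k : ℕ} (h : ∀ x, σ x = x ^ k) (m : ℕ) (x : F) : (σ ^ m) x = x ^ k ^ m := by
  induction m with
  | zero => simp
  | succ m ih => rw [pow_succ', pow_succ, pow_mul, ← ih, ← h]; rfl

theorem frob_id {p f e : ℕ} (hp : p.Prime) (hq : 𝔮 = p ^ f) : (∀ x : F, x ^ p ^ e = x) ↔ f ∣ e := by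
  constructor
  · intro h
    obtain ⟨g, go, -⟩ := exists_gen (F := F)
    have h1 : g ^ (p ^ e - 1) = 1 := by
      rw [← mul_left_inj g, ← pow_succ, Nat.sub_add_cancel (Nat.one_le_pow _ _ hp.pos), one_mul, ← Units.val_inj,
        Units.val_pow_eq_pow_val, h]
    rw [← orderOf_dvd_iff_pow_eq_one, go, hq, ← Nat.gcd_eq_left_iff_dvd, Nat.pow_sub_one_gcd_pow_sub_one] at h1
    have h2 : p ^ f.gcd e = p ^ f := by
      have := Nat.one_le_pow (f.gcd e) p hp.pos
      have := Nat.one_le_pow f p hp.pos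
      omega
    exact Nat.gcd_eq_left_iff_dvd.1 (Nat.pow_right_injective hp.two_le h2)
  · rintro ⟨m, rfl⟩ x
    rw [pow_mul, ← hq, FiniteField.pow_card_pow]

/-- a non-trivial `r`-element of `Aut F` has a power `x ↦ x ^ q₀`, `q₀ ^ r = q` -/
theorem frob_norm (p : ℕ) [hp : Fact p.Prime] [CharP F p] {r j : ℕ} (hr : r.Prime) {σ : RingAut F} (h1 : σ ≠ 1)
    (h2 : σ ^ r ^ j = 1) : ∃ m e, 0 < e ∧ (p ^ e) ^ r = 𝔮 ∧ ∀ x, (σ ^ m) x = x ^ p ^ e := by
  obtain ⟨f, -, hq⟩ := FiniteField.card F p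
  obtain ⟨e, he⟩ := frob_ex p σ
  have d1 : (f : ℕ) ∣ e * r ^ j := (frob_id hp.out hq).1 fun x => by rw [pow_mul, ← frob_pow he, h2]; rfl
  have d2 : ¬ (f : ℕ) ∣ e := fun h => h1 (RingEquiv.ext fun x => by rw [he, (frob_id hp.out hq).2 h]; rfl)
  have fp : 0 < (f : ℕ) := f.2
  generalize (f : ℕ) = f at *
  obtain ⟨g, e', f', gp, cop, rfl, rfl⟩ := Nat.exists_coprime' (Nat.gcd_pos_of_pos_right e fp)
  have d3 : f' ∣ r ^ j := by
    rw [mul_comm e', mul_comm f', mul_assoc] at d1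
    exact cop.symm.dvd_of_dvd_mul_left (Nat.dvd_of_mul_dvd_mul_left gp d1)
  obtain ⟨i, -, rfl⟩ := (Nat.dvd_prime_pow hr).1 d3
  obtain _ | i := i
  · exact absurd (by simp) d2
  obtain ⟨m, hm⟩ := Nat.exists_mul_mod_eq_one_of_coprime cop (Nat.one_lt_pow (by omega) hr.one_lt)
  refine ⟨m * r ^ i, g * r ^ i, Nat.mul_pos gp (Nat.pow_pos hr.pos), by rw [← pow_mul, hq]; ring_nf, fun x => ?_⟩
  obtain ⟨b, hb⟩ : ∃ b, e' * m = r ^ (i + 1) * b + 1 := ⟨e' * m / r ^ (i + 1), by have := Nat.div_add_mod (e' * m) (r ^ (i + 1)); omega⟩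
  rw [frob_pow he, ← pow_mul, show e' * g * (m * r ^ i) = r ^ (i + 1) * g * (b * r ^ i) + g * r ^ i by
    linear_combination g * r ^ i * hb, pow_add, pow_mul x, (frob_id hp.out hq).2 (dvd_mul_right _ _)]

/-- surjectivity of the norm onto the fixed field of an involution -/
theorem norm_ex {k : ℕ} (hk : k ^ 2 = 𝔮) {c : F} (c0 : c ≠ 0) (hc : c ^ k = c) : ∃ d : F, d * d ^ k = c := by
  obtain ⟨g, go, hg⟩ := exists_gen (F := F)
  have q1 : 1 < 𝔮 := Fintype.one_lt_card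
  have k1 : 1 < k := by by_contra h; interval_cases k <;> omega
  obtain ⟨j, hj⟩ := hg (Units.mk0 c c0)
  have h1 : g ^ (j * (k - 1)) = 1 := by
    rw [pow_mul, hj, ← mul_left_inj (Units.mk0 c c0), ← pow_succ, Nat.sub_add_cancel k1.le, one_mul, ← Units.val_inj,
      Units.val_pow_eq_pow_val, Units.val_mk0, hc]
  rw [← orderOf_dvd_iff_pow_eq_one, go, ← hk, ← one_pow 2, Nat.sq_sub_sq] at h1
  obtain ⟨i, rfl⟩ := (Nat.mul_dvd_mul_iff_right (by omega)).1 h1
  refine ⟨(g : F) ^ i, ?_⟩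
  have := congrArg Units.val hj
  rw [Units.val_pow_eq_pow_val, Units.val_mk0] at this
  rw [← this]; ring

/-- some `θ` avoids the roots of a binary quadratic form in `θ, θ^k` -/
theorem theta_ex {k : ℕ} (hk : k ^ 2 = 𝔮) (k3 : 3 ≤ k) (t d : F) :
    ∃ θ : F, θ * θ + θ * θ ^ k * t + θ ^ k * θ ^ k * d ≠ 0 := by
  obtain ⟨g, go, -⟩ := exists_gen (F := F)
  by_contra h
  push Not at h
  obtain ⟨k, rfl⟩ : ∃ k', k = k' + 1 := ⟨k - 1, by omega⟩
  have g0 := g.ne_zero
  have key : ∀ θ : F, θ ≠ 0 → 1 + θ ^ k * t + θ ^ k * θ ^ k * d = 0 := fun θ h0 =>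
    mul_left_cancel₀ (mul_ne_zero h0 h0) (by linear_combination h θ)
  have ne : ∀ i, 0 < i → i ≤ 2 → ((g : F) ^ k) ^ i ≠ 1 := fun i h1 h2 e => by
    rw [← pow_mul, ← Units.val_pow_eq_pow_val, Units.val_eq_one, ← orderOf_dvd_iff_pow_eq_one, go, ← hk] at e
    have := Nat.le_of_dvd (Nat.mul_pos (by omega) h1) e
    have : k * i ≤ k * 2 := Nat.mul_le_mul_left _ h2
    have : (k + 1) ^ 2 = k * k + 2 * k + 1 := by ring
    have : 2 * 2 ≤ k * k := Nat.mul_le_mul (by omega) (by omega)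
    omega
  have e0 := key 1 one_ne_zero
  have e1 := key g g0
  have e2 := key (g ^ 2) (pow_ne_zero _ g0)
  have n1 := sub_ne_zero.2 (ne 1 one_pos (by norm_num))
  have n2 := sub_ne_zero.2 (ne 2 two_pos le_rfl)
  rw [one_pow] at e0
  rw [← pow_mul, mul_comm 2, pow_mul] at e2
  have x0 : (g : F) ^ k ≠ 0 := pow_ne_zero _ g0
  generalize (g : F) ^ k = x at *
  have f1 : t + (x + 1) * d = 0 := mul_left_cancel₀ n1 (by linear_combination e1 - e0)
  have f2 : t + (x ^ 2 + 1) * d = 0 := mul_left_cancel₀ n2 (by linear_combination e2 - e0)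
  have f3 : d = 0 := mul_left_cancel₀ (mul_ne_zero x0 n1) (by linear_combination f2 - f1)
  exact one_ne_zero (by linear_combination e0 - f1 + x * f3 : (1 : F) = 0)

end CA.GW
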