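/-
`PΓL₂(q)` inside `Aut(SL₂(q))`: tori, field automorphisms.
-/
import Cfsg.Agent.Lib.GW.L2a
import Cfsg.Agent.Lib.GW.Basic

set_option autoImplicit false
set_option linter.unusedSectionVars false

namespace CA.GW
open Matrix Matrix.SpecialLinearGroup CA.SL2 CA.Br Subgroup
open scoped MatrixGroups

variable {F : Type*} [Field F]

theorem piH_sc (c : Fˣ) : piH (dg (c, c)) = 1 :=
  MulEquiv.ext fun g => piH_eq_iff.2 (sc_comm c _)

theorem sc_of_comm {A : L2 F} (h1 : A * toGL (up 1) = toGL (up 1) * A) (h2 : A * toGL (lo 1) = toGL (lo 1) * A) :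
    aSc A := by
  obtain ⟨e0, e1, -, -⟩ := a_ent h1
  obtain ⟨f0, -, -, -⟩ := a_ent h2
  simp only [mul_ent, toGL_ent, up_00, up_01, up_10, up_11, lo_00, lo_01, lo_10] at e0 e1 f0
  exact ⟨by linear_combination f0, by linear_combination -e0, by linear_combination e1⟩

theorem piH_eq_one {A : L2 F} : piH A = 1 ↔ aSc A :=
  ⟨fun h => sc_of_comm (piH_eq_iff.1 (by rw [h]; rfl)) (piH_eq_iff.1 (by rw [h]; rfl)),
    fun h => by obtain ⟨c, rfl⟩ := a_sc_dg h; exact piH_sc c⟩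

theorem piH_eq {A B : L2 F} : piH A = piH B ↔ ∃ c, A = dg (c, c) * B := by
  constructor
  · intro h
    obtain ⟨c, hc⟩ := a_sc_dg (piH_eq_one.1 (show piH (A * B⁻¹) = 1 by rw [map_mul, map_inv, h, mul_inv_cancel]))
    exact ⟨c, by rw [← hc, inv_mul_cancel_right]⟩
  · rintro ⟨c, rfl⟩
    rw [map_mul, piH_sc, one_mul]

/-- the inner automorphisms -/
def Kh (F : Type*) [Field F] : Subgroup (MulAut SL(2, F)) := (MulAut.conj : SL(2, F) →* _).range
/-- the automorphisms induced by `GL₂` -/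
noncomputable def Ph (F : Type*) [Field F] : Subgroup (MulAut SL(2, F)) := (piH : L2 F →* _).range

theorem aDet_dg (c : Fˣ) : aDet (dg (c, c) : L2 F) = c * c := by simp [aDet]
theorem aTr_dg (c : Fˣ) (A : L2 F) : aTr (dg (c, c) * A) = c * aTr A := by simp [aTr, mul_ent]; ring
theorem aDet_toGL (g : SL(2, F)) : aDet (toGL g : L2 F) = 1 := det_eq g
theorem aDet_one : aDet (1 : L2 F) = 1 := by simp [aDet]
theorem aDet_pow (A : L2 F) (k : ℕ) : aDet (A ^ k) = aDet A ^ k := by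
  induction k with
  | zero => simp [aDet_one]
  | succ k ih => rw [pow_succ, pow_succ, a_det_mul, ih]
theorem aDet_inv (A : L2 F) : aDet A⁻¹ = (aDet A)⁻¹ :=
  eq_inv_of_mul_eq_one_left (by rw [← a_det_mul, inv_mul_cancel, aDet_one])
theorem aDet_gm (σ : RingAut F) (A : L2 F) : aDet (gm σ A) = σ (aDet A) := by simp [aDet, gm_ent]
theorem aTr_gm (σ : RingAut F) (A : L2 F) : aTr (gm σ A) = σ (aTr A) := by simp [aTr, gm_ent]
theorem gm_mul (σ ρ : RingAut F) (A : L2 F) : gm (σ * ρ) A = gm σ (gm ρ A) := Units.ext rfl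
theorem gm_one (A : L2 F) : gm 1 A = A := by ext i j; rfl
theorem gm_dg (σ : RingAut F) (c : Fˣ) :
    gm σ (dg (c, c)) = dg (Units.map (σ : F →* F) c, Units.map (σ : F →* F) c) := by
  refine ext2 ?_ ?_ ?_ ?_ <;> simp [gm_ent]

theorem piH_mem_K {A : L2 F} : piH A ∈ Kh F ↔ IsSquare (aDet A) := by
  constructor
  · rintro ⟨g, hg⟩
    obtain ⟨c, rfl⟩ := piH_eq.1 (hg.symm.trans (piH_toGL g).symm)
    exact ⟨c, by rw [a_det_mul, aDet_dg, aDet_toGL, mul_one]⟩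
  · rintro ⟨d, hd⟩
    have d0 : d ≠ 0 := left_ne_zero_of_mul (hd ▸ a_det_ne A)
    set c := (Units.mk0 d d0)⁻¹
    have h1 : aDet (dg (c, c) * A) = 1 := by rw [a_det_mul, aDet_dg, hd]; simp only [c]; simp; field_simp
    refine ⟨⟨(dg (c, c) * A : L2 F), by rw [det_fin_two]; exact h1⟩, (piH_toGL _).symm.trans ?_⟩
    exact piH_eq.2 ⟨c, Units.ext rfl⟩

theorem Kh_le : Kh F ≤ Ph F := by
  rintro _ ⟨g, rfl⟩
  exact ⟨toGL g, piH_toGL g⟩

/-- `y` is semilinear with field part `σ` -/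
def Sem (σ : RingAut F) (y : MulAut SL(2, F)) : Prop := ∃ A, y = piH A * sH σ

theorem Sem.mul {σ ρ : RingAut F} {x y : MulAut SL(2, F)} (hx : Sem σ x) (hy : Sem ρ y) : Sem (σ * ρ) (x * y) := by
  obtain ⟨A, rfl⟩ := hx
  obtain ⟨B, rfl⟩ := hy
  exact ⟨A * gm σ B, by rw [mul_assoc, ← mul_assoc (sH σ), sH_piH, map_mul, map_mul]; group⟩

theorem sem_one {y : MulAut SL(2, F)} : Sem 1 y ↔ y ∈ Ph F :=
  ⟨fun ⟨A, h⟩ => ⟨A, by rw [h, map_one, mul_one]⟩, fun ⟨A, h⟩ => ⟨A, by rw [h, map_one, mul_one]⟩⟩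

theorem Sem.pow {σ : RingAut F} {x : MulAut SL(2, F)} (hx : Sem σ x) (m : ℕ) : Sem (σ ^ m) (x ^ m) := by
  induction m with
  | zero => exact sem_one.2 (by simpa using one_mem _)
  | succ m ih => rw [pow_succ, pow_succ]; exact ih.mul hx

theorem Sem.eq_one {σ : RingAut F} {x : MulAut SL(2, F)} (hx : Sem σ x) (h : x ∈ Ph F) : σ = 1 := by
  obtain ⟨A, rfl⟩ := hx
  obtain ⟨B, hB⟩ := (mul_mem_cancel_left (show piH A ∈ Ph F from ⟨A, rfl⟩)).1 h
  have h1 : piH B = 1 := piH_eq_one.2 (sc_of_comm (piH_eq_iff.1 (by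
    rw [hB]; refine sext ?_ ?_ ?_ ?_ <;> simp [sH_ent, up_00, up_01, up_10, up_11])) (piH_eq_iff.1 (by
    rw [hB]; refine sext ?_ ?_ ?_ ?_ <;> simp [sH_ent, lo_00, lo_01, lo_10, lo_11])))
  ext b
  have := congrArg (fun α : MulAut SL(2, F) => α (up b) 0 1) (hB.symm.trans h1)
  simpa [sH_ent, up_01] using this

theorem sem_conj (A B : L2 F) (σ : RingAut F) :
    piH A * sH σ * piH B * (piH A * sH σ)⁻¹ = piH (A * gm σ B * A⁻¹) := by
  rw [mul_assoc (piH A), sH_piH, map_mul, map_mul, map_inv]; group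

theorem Sem.conj {σ : RingAut F} {x y : MulAut SL(2, F)} (hx : Sem σ x) (h : y ∈ Ph F) : x * y * x⁻¹ ∈ Ph F := by
  obtain ⟨A, rfl⟩ := hx
  obtain ⟨B, rfl⟩ := h
  exact ⟨_, (sem_conj A B σ).symm⟩

theorem tr_zero {B : L2 F} (hB : ¬ aSc B) (h : aSc (B * B)) : aTr B = 0 := by
  by_contra ht
  obtain ⟨e0, e1, e2⟩ := h
  simp only [mul_ent] at e0 e1 e2
  exact hB ⟨mul_left_cancel₀ ht (by rw [aTr]; linear_combination e0),
    mul_left_cancel₀ ht (by rw [aTr]; linear_combination e1), mul_left_cancel₀ ht (by rw [aTr]; linear_combination e2)⟩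

theorem sc_sq {B : L2 F} (h : aTr B = 0) : aSc (B * B) := by
  rw [aTr] at h
  refine ⟨?_, ?_, ?_⟩ <;> simp only [mul_ent]
  · linear_combination B 0 1 * h
  · linear_combination B 1 0 * h
  · linear_combination (B 0 0 - B 1 1) * h

theorem par {B C : L2 F} (hB : ¬ aSc B) (h : C * B = B * C) :
    ∃ b, C 0 1 = b * B 0 1 ∧ C 1 0 = b * B 1 0 ∧ C 0 0 - C 1 1 = b * (B 0 0 - B 1 1) := by
  obtain ⟨e0, e1, e2, -⟩ := a_ent h
  simp only [mul_ent] at e0 e1 e2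
  by_cases h1 : B 0 1 = 0
  · by_cases h2 : B 1 0 = 0
    · have h3 : B 0 0 - B 1 1 ≠ 0 := fun e => hB ⟨h1, h2, sub_eq_zero.1 e⟩
      refine ⟨(C 0 0 - C 1 1) / (B 0 0 - B 1 1), ?_, ?_, ?_⟩ <;> field_simp
      · linear_combination -e1
      · linear_combination e2
    · refine ⟨C 1 0 / B 1 0, ?_, ?_, ?_⟩ <;> field_simp
      · linear_combination e0
      · linear_combination -e2
  · refine ⟨C 0 1 / B 0 1, ?_, ?_, ?_⟩ <;> field_simp
    · linear_combination -e0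
    · linear_combination e1

theorem comm2 {B C D : L2 F} (hB : ¬ aSc B) (h1 : C * B = B * C) (h2 : D * B = B * D) : C * D = D * C := by
  obtain ⟨a, a1, a2, a3⟩ := par hB h1
  obtain ⟨b, b1, b2, b3⟩ := par hB h2
  rw [sub_eq_iff_eq_add] at a3 b3
  refine ext2 ?_ ?_ ?_ ?_ <;> simp only [mul_ent, a1, a2, a3, b1, b2, b3] <;> ring

theorem comm_lift {B C : L2 F} (h : piH B * piH B ≠ 1) (e : piH C * piH B = piH B * piH C) : C * B = B * C := by
  rw [← map_mul, ← map_mul, piH_eq] at e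
  obtain ⟨c, hc⟩ := e
  have t : aTr B ≠ 0 := fun t => h (by rw [← map_mul]; exact piH_eq_one.2 (sc_sq t))
  have h1 := a_tr_of (show dg (c, c) * B * C = C * B by rw [hc, mul_assoc])
  rw [aTr_dg] at h1
  obtain rfl : c = 1 := Units.ext (mul_right_cancel₀ t (by simpa using h1))
  rw [hc, Prod.mk_one_one, map_one, one_mul]

theorem cab_B {y a b : MulAut SL(2, F)} (hy : y ∈ Ph F) (h : y * y ≠ 1) (ha : a ∈ Ph F) (hb : b ∈ Ph F)
    (ca : a * y = y * a) (cb : b * y = y * b) : a * b = b * a := by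
  obtain ⟨Y, rfl⟩ := hy
  obtain ⟨A, rfl⟩ := ha
  obtain ⟨B, rfl⟩ := hb
  rw [← map_mul, comm2 (fun e => h (by rw [piH_eq_one.2 e, one_mul])) (comm_lift h ca) (comm_lift h cb), map_mul]

theorem comm_pm {S C : L2 F} (e : piH C * piH S = piH S * piH C) :
    C * S = S * C ∨ C * S = dg (-1, -1) * (S * C) := by
  rw [← map_mul, ← map_mul, piH_eq] at e
  obtain ⟨c, hc⟩ := e
  have h1 := congrArg aDet hc
  rw [a_det_mul, a_det_mul, a_det_mul, aDet_dg] at h1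
  have h2 : (c : F) * c = 1 := mul_right_cancel₀ (mul_ne_zero (a_det_ne S) (a_det_ne C)) (by linear_combination -h1)
  rcases mul_self_eq_one_iff.1 h2 with h | h
  · obtain rfl : c = 1 := Units.ext h
    exact .inl (by rw [hc, Prod.mk_one_one, map_one, one_mul])
  · obtain rfl : c = -1 := Units.ext h
    exact .inr hc

theorem tr_anti (h2 : (2 : F) ≠ 0) {S C : L2 F} (e : C * S = dg (-1, -1) * (S * C)) : aTr C = 0 := by
  have h1 := a_tr_of (g := dg (-1, -1) * C) (h := S) (x := C) (by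
    rw [mul_assoc, e, ← mul_assoc, ← map_mul]; simp [Prod.mk_one_one])
  rw [aTr_dg] at h1
  exact mul_left_cancel₀ h2 (by simpa using (by linear_combination -h1 : 2 * aTr C = (1 + ((-1 : Fˣ) : F)) * aTr C))

/-- `g = u.re + u.im S` -/
def IsW (S : L2 F) (u : QuadraticAlgebra F (-aDet S) 0) (g : L2 F) : Prop :=
  g 0 0 = u.re + u.im * S 0 0 ∧ g 0 1 = u.im * S 0 1 ∧ g 1 0 = u.im * S 1 0 ∧ g 1 1 = u.re - u.im * S 0 0

section W
variable {S g h : L2 F} {u v : QuadraticAlgebra F (-aDet S) 0}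

theorem s11 (t : aTr S = 0) : S 1 1 = -S 0 0 := by rw [aTr] at t; linear_combination t

theorem sdet (t : aTr S = 0) : aDet S = -(S 0 0 * S 0 0) - S 0 1 * S 1 0 := by rw [aDet, s11 t]; ring

theorem IsW.ext (hg : IsW S u g) (hh : IsW S u h) : g = h :=
  ext2 (hg.1.trans hh.1.symm) (hg.2.1.trans hh.2.1.symm) (hg.2.2.1.trans hh.2.2.1.symm) (hg.2.2.2.trans hh.2.2.2.symm)

theorem IsW.mul (t : aTr S = 0) (hg : IsW S u g) (hh : IsW S v h) : IsW S (u * v) (g * h) := by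
  obtain ⟨a0, a1, a2, a3⟩ := hg
  obtain ⟨b0, b1, b2, b3⟩ := hh
  have d := sdet t
  refine ⟨?_, ?_, ?_, ?_⟩ <;>
    simp only [mul_ent, a0, a1, a2, a3, b0, b1, b2, b3, QuadraticAlgebra.re_mul, QuadraticAlgebra.im_mul]
  · linear_combination u.im * v.im * d
  · ring
  · ring
  · linear_combination u.im * v.im * d

theorem IsW.pow (t : aTr S = 0) (hg : IsW S u g) (k : ℕ) : IsW S (u ^ k) (g ^ k) := by
  induction k with
  | zero => rw [pow_zero, pow_zero]; refine ⟨?_, ?_, ?_, ?_⟩ <;> simp [QuadraticAlgebra.re_one, QuadraticAlgebra.im_one]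
  | succ k ih => rw [pow_succ, pow_succ]; exact ih.mul t hg

theorem IsW.smul (hg : IsW S u g) (l : Fˣ) : IsW S ((l : F) • u) (dg (l, l) * g) := by
  obtain ⟨a0, a1, a2, a3⟩ := hg
  refine ⟨?_, ?_, ?_, ?_⟩ <;> simp [mul_ent, a0, a1, a2, a3] <;> ring

theorem IsW.det (t : aTr S = 0) (hg : IsW S u g) : aDet g = u.norm := by
  obtain ⟨a0, a1, a2, a3⟩ := hg
  rw [QuadraticAlgebra.norm_def, aDet, a0, a1, a2, a3]
  linear_combination -u.im * u.im * sdet t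

theorem IsW.tr (hg : IsW S u g) : aTr g = 2 * u.re := by rw [aTr, hg.1, hg.2.2.2]; ring

theorem IsW.comm (t : aTr S = 0) (hg : IsW S u g) : g * S = S * g := by
  obtain ⟨a0, a1, a2, a3⟩ := hg
  refine ext2 ?_ ?_ ?_ ?_ <;> simp only [mul_ent, a0, a1, a2, a3, s11 t] <;> ring

theorem IsW.sc (h2 : (2 : F) ≠ 0) (t : aTr S = 0) (hS : ¬ aSc S) (hg : IsW S u g) : aSc g ↔ u.im = 0 := by
  obtain ⟨a0, a1, a2, a3⟩ := hg
  refine ⟨fun ⟨e0, e1, e2⟩ => by_contra fun h => hS ⟨mul_left_cancel₀ h (by rw [← a1, e0, mul_zero]),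
    mul_left_cancel₀ h (by rw [← a2, e1, mul_zero]), mul_left_cancel₀ h ?_⟩, fun h => ?_⟩
  · rw [s11 t]; linear_combination e2 - a0 + a3
  · exact ⟨by simp [a1, h], by simp [a2, h], by simp [a0, a3, h]⟩

theorem isW_self (t : aTr S = 0) : IsW S ⟨0, 1⟩ S := ⟨by simp, by simp, by simp, by simp [s11 t]⟩

theorem isW_ex (t : aTr S = 0) (hu : u.norm ≠ 0) : ∃ g, IsW S u g :=
  ⟨m2 (u.re + u.im * S 0 0) (u.im * S 0 1) (u.im * S 1 0) (u.re - u.im * S 0 0) (by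
    rw [QuadraticAlgebra.norm_def] at hu
    exact fun e => hu (by linear_combination e + u.im * u.im * sdet t)), rfl, rfl, rfl, rfl⟩

theorem isW_of_comm (h2 : (2 : F) ≠ 0) (t : aTr S = 0) (hS : ¬ aSc S) (e : g * S = S * g) : ∃ u, IsW S u g := by
  obtain ⟨b, b1, b2, b3⟩ := par hS e
  rw [s11 t] at b3
  refine ⟨⟨(g 0 0 + g 1 1) / 2, b⟩, ?_, b1, b2, ?_⟩ <;> field_simp
  · linear_combination b3
  · linear_combination -b3
end W

variable [Fintype F]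
local notation "𝔮" => Fintype.card F

theorem anti_ex (hF : Odd 𝔮) {S : L2 F} (t : aTr S = 0) (hS : ¬ aSc S) :
    ∃ V : L2 F, aDet V = 1 ∧ V * S = dg (-1, -1) * (S * V) := by
  obtain ⟨P, hP⟩ := a_comp hS
  have h0 := a_det_ne S
  obtain ⟨a, b, h⟩ := FiniteField.exists_root_sum_quadratic (R := F) (f := Polynomial.X ^ 2)
    (g := Polynomial.C (aDet S) * Polynomial.X ^ 2 + Polynomial.C 0 * Polynomial.X + Polynomial.C 1)
    (by simp) (Polynomial.degree_quadratic h0) (Nat.odd_iff.1 hF)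
  simp only [Polynomial.eval_pow, Polynomial.eval_X, Polynomial.eval_add, Polynomial.eval_mul,
    Polynomial.eval_C] at h
  have e : a * -a - aDet S * b * b = 1 := by linear_combination -h
  set V := m2 a (aDet S * b) b (-a) (by rw [e]; exact one_ne_zero)
  set C := m2 0 (-aDet S) 1 (aTr S) (by simpa using h0)
  have e1 : V * C = dg (-1, -1) * (C * V) := by
    refine ext2 ?_ ?_ ?_ ?_ <;> simp [V, C, mul_ent, t] <;> ring
  refine ⟨P * V * P⁻¹, (a_det_of (a_cj P V)).trans e, ?_⟩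
  rw [show S = P * C * P⁻¹ by rw [← hP, mul_inv_cancel_right]]
  calc P * V * P⁻¹ * (P * C * P⁻¹) = P * (V * C) * P⁻¹ := by group
    _ = _ := by rw [e1, ← mul_assoc P, ← sc_comm]; group

/-- the torus of `PGL₂(q)` through an involution -/
theorem torB (hF : Odd 𝔮) (h5 : 5 ≤ 𝔮) {s : MulAut SL(2, F)} (hs : s ∈ Ph F) (s2 : Inv2 s) :
    ∃ (τ : MulAut SL(2, F)) (n : ℕ), τ ∈ Ph F ∧ orderOf τ = n ∧ (n + 1 = 𝔮 ∨ n = 𝔮 + 1) ∧
      (∀ k : ℕ, τ ^ k ∈ Kh F ↔ Even k) ∧ s ∈ zpowers τ ∧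
      (∃ v ∈ Kh F, v * s = s * v ∧ v ∉ zpowers τ ∧
        ∀ c ∈ Ph F, c * s = s * c → c ∉ zpowers τ → c * c = 1 ∧ c * v ∈ zpowers τ) ∧
      (∀ y ∈ zpowers τ, y * y ≠ 1 → ∀ c ∈ Ph F, c * y = y * c → c ∈ zpowers τ) ∧
      ∀ (p e : ℕ) [Fact p.Prime] [CharP F p] (σ : RingAut F), (∀ x, σ x = x ^ p ^ e) → ∀ y, Sem σ y → y * s = s * y →
        y * τ * y⁻¹ = τ ^ p ^ e ∨ y * τ * y⁻¹ * τ ^ p ^ e = 1 := by
  have h2 := two_ne_zero_of_odd hF
  obtain ⟨S, rfl⟩ := hs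
  have hS : ¬ aSc S := fun e => s2.ne (piH_eq_one.2 e)
  have t : aTr S = 0 := tr_zero hS (piH_eq_one.1 (by rw [map_mul, s2.sq]))
  obtain ⟨u₀, n, hn, ns, him, hall⟩ := tor_alg hF (neg_ne_zero.2 (a_det_ne S))
  obtain ⟨T, hT⟩ := isW_ex t (u := u₀) fun e => ns (by rw [e]; exact IsSquare.zero)
  have ord : orderOf (piH T) = n := by
    have : ∀ k, orderOf (piH T) ∣ k ↔ n ∣ k := fun k => by
      rw [orderOf_dvd_iff_pow_eq_one, ← map_pow, piH_eq_one, (hT.pow t k).sc h2 t hS, him]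
    exact Nat.dvd_antisymm ((this n).2 dvd_rfl) ((this _).1 dvd_rfl)
  have fin : IsOfFinOrder (piH T) := orderOf_pos_iff.1 (by omega)
  have memW : ∀ g, g * S = S * g → piH g ∈ zpowers (piH T) := fun g e => by
    obtain ⟨u, hu⟩ := isW_of_comm h2 t hS e
    obtain ⟨k, l, l0, rfl⟩ := hall u (hu.det t ▸ a_det_ne g)
    rw [hu.ext ((hT.pow t k).smul (Units.mk0 l l0)), map_mul, piH_sc, one_mul, map_pow]
    exact pow_mem (mem_zpowers _) k
  have memW' : ∀ g, piH g ∈ zpowers (piH T) → g * S = S * g := fun g e => by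
    obtain ⟨k, hk⟩ := (Submonoid.mem_powers_iff _ _).1 (fin.mem_powers_iff_mem_zpowers.2 e)
    rw [← map_pow, eq_comm, piH_eq] at hk
    obtain ⟨c, rfl⟩ := hk
    exact ((hT.pow t k).smul c).comm t
  obtain ⟨V, hV, aV⟩ := anti_ex hF t hS
  have neg : ∀ g : L2 F, g = dg (-1, -1) * g → False := fun g e => by
    have := congrArg (fun x : L2 F => x 0 0) (right_eq_mul.1 e)
    simp only [dg_00, one_00, Units.val_neg, Units.val_one] at this
    exact h2 (by linear_combination -this)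
  have dich : ∀ c ∈ Ph F, c * piH S = piH S * c → c ∉ zpowers (piH T) → c * c = 1 ∧ c * piH V ∈ zpowers (piH T) := by
    rintro _ ⟨C, rfl⟩ e hc
    have a := (comm_pm e).resolve_left fun e => hc (memW C e)
    refine ⟨by rw [← map_mul]; exact piH_eq_one.2 (sc_sq (tr_anti h2 a)), ?_⟩
    rw [← map_mul]
    refine memW _ ?_
    rw [mul_assoc, aV, ← mul_assoc C, ← sc_comm, mul_assoc, ← mul_assoc C, a, mul_assoc, ← mul_assoc (dg _), ← map_mul]
    simp [Prod.mk_one_one, mul_assoc]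
  refine ⟨piH T, n, ⟨T, rfl⟩, ord, hn, fun k => ?_, memW S rfl, ⟨piH V, piH_mem_K.2 (hV ▸ IsSquare.one), ?_,
    fun e => neg (S * V) ((memW' V e).symm.trans aV), dich⟩, ?_, ?_⟩
  · rw [← map_pow, piH_mem_K, aDet_pow, hT.det t, sq_pow_iff ns]
  · rw [← map_mul, aV, map_mul, piH_sc, one_mul, map_mul]
  · rintro y hy y2 _ ⟨C, rfl⟩ e
    obtain ⟨Y, rfl⟩ : y ∈ Ph F := zpowers_le.2 (show piH T ∈ Ph F from ⟨T, rfl⟩) hy
    exact memW C (comm2 (fun e => y2 (by rw [piH_eq_one.2 e, one_mul])) (comm_lift y2 e) (memW' Y hy).symm)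
  · rintro p e hp _ σ hσ _ ⟨A, rfl⟩ c
    have p2 : p ≠ 2 := fun e => h2 (by subst e; exact_mod_cast CharP.cast_eq_zero F 2)
    have c1 : piH T * piH S = piH S * piH T := by rw [← map_mul, hT.comm t, map_mul]
    have T2 : piH T * piH T ≠ 1 := fun e => by
      have := Nat.le_of_dvd two_pos (ord ▸ orderOf_dvd_of_pow_eq_one ((pow_two _).trans e))
      omega
    generalize hy : piH A * sH σ = y at c
    have m : y * piH T * y⁻¹ ∈ zpowers (piH T) := by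
      by_contra h
      refine T2 ?_
      have := (dich _ (hy ▸ Sem.conj ⟨A, rfl⟩ ⟨T, rfl⟩) (by
        calc y * piH T * y⁻¹ * piH S = y * piH T * y⁻¹ * (piH S * y) * y⁻¹ := by group
          _ = y * (piH T * piH S) * y⁻¹ := by rw [← c]; group
          _ = _ := by rw [c1, ← mul_assoc, c]; group) h).1
      rwa [conj_mul, conj_eq_one_iff] at this
    rw [← hy, sem_conj] at m ⊢
    obtain ⟨u, hu⟩ := isW_of_comm h2 t hS (memW' _ m)
    have hw := hT.pow t (p ^ e)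
    have r1 : u.re = (u₀ ^ p ^ e).re := mul_left_cancel₀ h2 (by
      rw [← hu.tr, a_tr_of (a_cj A _), aTr_gm, hT.tr, map_mul, map_ofNat, hσ, re_pow p e p2])
    have r2 : u.norm = (u₀ ^ p ^ e).norm := by
      rw [← hu.det t, a_det_of (a_cj A _), aDet_gm, hT.det t, hσ, map_pow]
    rw [qa_norm, qa_norm, r1, sub_right_inj, mul_right_inj' (neg_ne_zero.2 (a_det_ne S)), sq_eq_sq_iff_eq_or_eq_neg] at r2
    rcases r2 with r2 | r2
    · obtain rfl : u = u₀ ^ p ^ e := QuadraticAlgebra.ext r1 r2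
      exact .inl (by rw [hu.ext hw, map_pow])
    · refine .inr ?_
      rw [← map_pow, ← map_mul, piH_eq_one, (hu.mul t hw).sc h2 t hS, QuadraticAlgebra.im_mul, r1, r2]
      ring

theorem mul_mem_K (hF : Odd 𝔮) {a b : MulAut SL(2, F)} (ha : a ∈ Ph F) (hb : b ∈ Ph F) (a1 : a ∉ Kh F)
    (b1 : b ∉ Kh F) : a * b ∈ Kh F := by
  obtain ⟨A, rfl⟩ := ha
  obtain ⟨B, rfl⟩ := hb
  rw [piH_mem_K] at a1 b1
  rw [← map_mul, piH_mem_K, a_det_mul]
  exact nsq_mul hF a1 b1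

theorem comm_mem_K (hF : Odd 𝔮) {σ ρ : RingAut F} {x y : MulAut SL(2, F)} (hx : Sem σ x) (hy : Sem ρ y) :
    x * y * x⁻¹ * y⁻¹ ∈ Kh F := by
  obtain ⟨A, rfl⟩ := hx
  obtain ⟨B, rfl⟩ := hy
  have e : ∀ (A B : L2 F) (σ ρ : RingAut F), piH A * sH σ * (piH B * sH ρ) = piH (A * gm σ B) * sH (σ * ρ) :=
    fun A B σ ρ => by rw [mul_assoc, ← mul_assoc (sH σ), sH_piH, map_mul, map_mul]; group
  rw [mul_assoc, ← _root_.mul_inv_rev, e, e, aut_comm ρ σ, _root_.mul_inv_rev, mul_assoc, mul_inv_cancel_left, ← map_inv,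
    ← map_mul, piH_mem_K, a_det_mul, aDet_inv, a_det_mul, a_det_mul, aDet_gm, aDet_gm]
  obtain ⟨p, hp, n, hp', hn⟩ := FiniteField.card' F
  have : Fact p.Prime := ⟨hp'⟩
  have po : Odd p := (Nat.odd_pow_iff n.ne_zero).1 (hn ▸ hF)
  obtain ⟨e, he⟩ := frob_ex p σ
  obtain ⟨f, hf⟩ := frob_ex p ρ
  obtain ⟨i, hi⟩ : Odd (p ^ e) := po.pow
  obtain ⟨j, hj⟩ : Odd (p ^ f) := po.pow
  have a0 := a_det_ne A
  have b0 := a_det_ne B
  exact ⟨aDet B ^ i / aDet A ^ j, by rw [he, hf, hi, hj]; field_simp; ring⟩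

/-- a field automorphism of odd prime order does not act nilpotently on a torus -/
theorem al_B (hF : Odd 𝔮) (h5 : 5 ≤ 𝔮) {s τ y : MulAut SL(2, F)} {n r j : ℕ} {σ : RingAut F} (ord : orderOf τ = n)
    (hn : n + 1 = 𝔮 ∨ n = 𝔮 + 1)
    (fr : ∀ (p e : ℕ) [Fact p.Prime] [CharP F p] (σ : RingAut F), (∀ x, σ x = x ^ p ^ e) → ∀ y, Sem σ y →
      y * s = s * y → y * τ * y⁻¹ = τ ^ p ^ e ∨ y * τ * y⁻¹ * τ ^ p ^ e = 1)
    (cP : ∀ c ∈ Ph F, c * s = s * c → c * c ≠ 1 → c * τ = τ * c)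
    (hr : r.Prime) (r2 : r ≠ 2) (hy : Sem σ y) (c : y * s = s * y) (yr : y ^ r ^ j = 1)
    (h : ∀ m : ℕ, ∃ i, (y ^ m * τ ^ 2 * (y ^ m)⁻¹ * (τ ^ 2)⁻¹) ^ r ^ i = 1) : y ∈ Ph F := by
  by_contra hP
  obtain ⟨p, hp, f, hp', hq⟩ := FiniteField.card' F
  have : Fact p.Prime := ⟨hp'⟩
  have po : Odd p := (Nat.odd_pow_iff f.ne_zero).1 (hq ▸ hF)
  obtain ⟨m, e, e0, he, hσ⟩ := frob_norm p hr (σ := σ) (fun e => hP (sem_one.1 (e ▸ hy)))
    ((hy.pow (r ^ j)).eq_one (yr ▸ one_mem _))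
  have p3 : 3 ≤ p ^ e := (show 3 ≤ p by have := hp'.two_le; obtain ⟨k, hk⟩ := po; omega).trans (Nat.le_self_pow e0.ne' p)
  obtain ⟨i, hi⟩ := h m
  have cm : Commute (y ^ m) s := Commute.pow_left c m
  have hz := hy.pow m
  have zr : (y ^ m) ^ r ^ j = 1 := by rw [← pow_mul, mul_comm, pow_mul, yr, one_pow]
  obtain ⟨k, ka, hk⟩ : ∃ k : ℤ, |k| = (p ^ e : ℕ) ∧ y ^ m * τ * (y ^ m)⁻¹ = τ ^ k := by
    rcases fr p e _ hσ _ hz cm with h | h
    · exact ⟨(p ^ e : ℕ), abs_of_nonneg (by positivity), by rw [h, _root_.zpow_natCast]⟩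
    · exact ⟨-(p ^ e : ℕ), by rw [abs_neg]; exact abs_of_nonneg (by positivity),
        by rw [_root_.zpow_neg, _root_.zpow_natCast]; exact eq_inv_of_mul_eq_one_left h⟩
  have s1 : (σ ^ m) ^ r = 1 := RingEquiv.ext fun x => by rw [frob_pow hσ, he, FiniteField.pow_card]; rfl
  generalize y ^ m = z at hi cm hz zr hk
  have it : ∀ l : ℕ, z ^ l * τ * (z ^ l)⁻¹ = τ ^ k ^ l := fun l => by
    induction l with
    | zero => simp
    | succ l ih =>
      rw [pow_succ', _root_.mul_inv_rev, show z * z ^ l * τ * ((z ^ l)⁻¹ * z⁻¹) = z * (z ^ l * τ * (z ^ l)⁻¹) * z⁻¹ by group,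
        ih, ← _root_.conj_zpow, hk, ← _root_.zpow_mul, pow_succ']
  have c1 : z ^ r * τ = τ * z ^ r := by
    by_cases h2 : z ^ r * z ^ r = 1
    · rw [eq_one_of_odd (((hr.odd_of_ne_two r2).pow (n := j)).of_dvd_nat (orderOf_dvd_of_pow_eq_one (by
        rw [← pow_mul, mul_comm, pow_mul, zr, one_pow]))) h2, one_mul, mul_one]
    · exact cP _ (sem_one.1 (s1 ▸ hz.pow r)) (cm.pow_left r) h2
  have d1 : (n : ℤ) ∣ k ^ r - 1 := by
    rw [← ord, orderOf_dvd_iff_zpow_eq_one, _root_.zpow_sub, ← it, c1, mul_inv_cancel_right, _root_.zpow_one, mul_inv_cancel]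
  have d2 : (n : ℤ) ∣ 2 * (k - 1) * r ^ i := by
    rw [← ord, orderOf_dvd_iff_zpow_eq_one, ← hi, ← conj_pow, hk, ← _root_.zpow_natCast, ← _root_.zpow_natCast, ← _root_.zpow_natCast τ,
      ← _root_.zpow_mul, ← _root_.zpow_neg, ← _root_.zpow_add, ← _root_.zpow_mul]
    congr 1; push_cast; ring
  have ko : Odd k := by rw [← odd_abs, ka]; exact_mod_cast po.pow
  have kr : k ^ r = 𝔮 ∨ k ^ r = -𝔮 := eq_or_eq_neg_of_abs_eq (by rw [abs_pow, ka, ← he]; norm_cast)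
  refine lte_contra (j := i) hr r2 (by rw [ka]; exact_mod_cast p3) ko (Dvd.dvd.trans ?_ d2)
  have nd : ¬ (n : ℤ) ∣ 2 := fun h => by have := Int.le_of_dvd two_pos h; omega
  rcases kr with h | h <;> rw [h] at d1 ⊢ <;> rcases hn with e | e
  · exact ⟨1, by omega⟩
  · exact absurd (by simpa [show (n : ℤ) - (𝔮 - 1) = 2 by omega] using dvd_sub (dvd_refl (n : ℤ)) d1) nd
  · exact absurd (by simpa [show -(n : ℤ) - (-𝔮 - 1) = 2 by omega] using dvd_sub (dvd_neg.2 (dvd_refl (n : ℤ))) d1) nd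
  · exact ⟨-1, by omega⟩

theorem four_fix (h2 : (2 : F) ≠ 0) (p : ℕ) [hp : Fact p.Prime] [CharP F p] (σ : RingAut F) : ∃ g₁ g₂ : L2 F,
    gm σ g₁ = g₁ ∧ gm σ g₂ = g₂ ∧ aDet g₁ = 1 ∧ aDet g₂ = 1 ∧ Inv2 (piH g₁) ∧ Inv2 (piH g₂) ∧ piH g₁ ≠ piH g₂ ∧
      piH g₁ * piH g₂ = piH g₂ * piH g₁ := by
  have : NeZero p := ⟨hp.out.ne_zero⟩
  obtain ⟨a, b, hab⟩ := CharP.sq_add_sq F p (-1)
  push_cast at hab
  refine ⟨m2 0 1 (-1) 0 (by simp), m2 a b b (-a) (fun e => one_ne_zero (by linear_combination e + hab : (1 : F) = 0)),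
    ext2 ?_ ?_ ?_ ?_, ext2 ?_ ?_ ?_ ?_, by simp [aDet], ?_,
    ⟨by rw [← map_mul]; exact piH_eq_one.2 (sc_sq (by simp [aTr])), fun e => by simpa using (piH_eq_one.1 e).1⟩,
    ⟨by rw [← map_mul]; exact piH_eq_one.2 (sc_sq (by simp [aTr])), fun e => ?_⟩, fun e => ?_, ?_⟩
  iterate 8 simp [gm_ent]
  · simp only [aDet, m2_00, m2_01, m2_10, m2_11]; linear_combination -hab
  · obtain ⟨e0, -, e1⟩ := piH_eq_one.1 e
    simp only [m2_00, m2_01, m2_11] at e0 e1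
    have : (a : F) = 0 := mul_left_cancel₀ h2 (by linear_combination e1)
    rw [this, e0] at hab; simp at hab
  · obtain ⟨l, hl⟩ := piH_eq.1 e
    obtain ⟨-, e1, e2, -⟩ := a_ent hl
    simp only [mul_ent, m2_00, m2_01, m2_10, m2_11, dg_00, dg_01, dg_10, dg_11] at e1 e2
    exact h2 (by linear_combination e1 - e2)
  · rw [← map_mul, ← map_mul, piH_eq]
    exact ⟨-1, by refine ext2 ?_ ?_ ?_ ?_ <;> simp [mul_ent]⟩

/-- a field involution centralizes a four-group of `L₂(q)` -/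
theorem field_inv (hF : Odd 𝔮) {s : MulAut SL(2, F)} {σ : RingAut F} (hs : Sem σ s) (s2 : s * s = 1)
    (hP : s ∉ Ph F) : ∃ a ∈ Kh F, ∃ b ∈ Kh F, Inv2 a ∧ Inv2 b ∧ a ≠ b ∧ a * b = b * a ∧ s * a = a * s ∧ s * b = b * s := by
  have h2 := two_ne_zero_of_odd hF
  obtain ⟨p, hp, f, hp', hq⟩ := FiniteField.card' F
  have : Fact p.Prime := ⟨hp'⟩
  have po : Odd p := (Nat.odd_pow_iff f.ne_zero).1 (hq ▸ hF)
  have σ1 : σ ≠ 1 := fun e => hP (sem_one.1 (e ▸ hs))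
  have σ2 : σ * σ = 1 := (hs.mul hs).eq_one (s2 ▸ one_mem _)
  obtain ⟨m, e, e0, he, hσ⟩ := frob_norm p (j := 1) Nat.prime_two σ1 (by rw [pow_one, sq, σ2])
  have p3 : 3 ≤ p ^ e := (show 3 ≤ p by have := hp'.two_le; obtain ⟨k, hk⟩ := po; omega).trans (Nat.le_self_pow e0.ne' p)
  replace hσ : ∀ x, σ x = x ^ p ^ e := by
    rcases Nat.even_or_odd' m with ⟨l, rfl | rfl⟩
    · rw [pow_mul, sq, σ2, one_pow] at hσ
      have h1 := Nat.le_of_dvd e0 ((frob_id hp' hq).1 fun x => (hσ x).symm)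
      have h3 := Nat.pow_right_injective hp'.two_le (show p ^ (e * 2) = p ^ (f : ℕ) by rw [pow_mul, he, hq])
      omega
    · rwa [pow_succ, pow_mul, sq, σ2, one_pow, one_mul] at hσ
  have inv : ∀ x, σ (σ x) = x := fun x => by rw [← RingAut.mul_apply, σ2]; rfl
  obtain ⟨A, rfl⟩ := hs
  have ginv : ∀ B, gm σ (gm σ B) = B := fun B => by rw [← gm_mul, σ2, gm_one]
  obtain ⟨c, hc⟩ := a_sc_dg (piH_eq_one.1 (show piH (A * gm σ A) = 1 by
    rw [← s2, mul_assoc, ← mul_assoc (sH σ), sH_piH, mul_assoc, ← map_mul, σ2, map_one, mul_one, map_mul]))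
  have c1 : σ c = c := by
    have h1 := congrArg (gm σ) hc
    rw [map_mul, ginv, gm_dg, show gm σ A * A = A⁻¹ * (A * gm σ A) * A by group, hc, ← sc_comm, mul_assoc,
      inv_mul_cancel, mul_one] at h1
    exact (congrArg (fun g : L2 F => g 0 0) h1).symm
  obtain ⟨d, hd⟩ := norm_ex he c.ne_zero (hσ c ▸ c1)
  rw [← hσ] at hd
  have d0 : d ≠ 0 := left_ne_zero_of_mul (hd ▸ c.ne_zero)
  set A' := dg ((Units.mk0 d d0)⁻¹, (Units.mk0 d d0)⁻¹) * A with hA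
  have hA1 : A' * gm σ A' = 1 := by
    rw [hA, map_mul, gm_dg, mul_assoc, ← mul_assoc A, ← sc_comm, mul_assoc, hc, ← map_mul, ← map_mul, ← map_one dg]
    have : (Units.mk0 d d0)⁻¹ * (Units.map (σ : F →* F) (Units.mk0 d d0)⁻¹ * c) = 1 := Units.ext (by
      have : σ d ≠ 0 := right_ne_zero_of_mul (hd ▸ c.ne_zero)
      simp [← hd]; field_simp)
    exact congrArg dg (Prod.ext this this)
  rw [show piH A = piH A' by rw [hA, map_mul, piH_sc, one_mul]]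
  generalize A' = A at hA1
  obtain ⟨θ, hθ⟩ := theta_ex he p3 (aTr A) (aDet A)
  rw [← hσ] at hθ
  obtain ⟨B, hB⟩ : ∃ B, A * gm σ B = B := by
    refine ⟨m2 (θ + σ θ * A 0 0) (σ θ * A 0 1) (σ θ * A 1 0) (θ + σ θ * A 1 1)
      (fun e => hθ (by rw [aTr, aDet]; linear_combination e)), ?_⟩
    obtain ⟨e0, e1, e2, e3⟩ := a_ent hA1
    simp only [mul_ent, gm_ent, one_00, one_01, one_10, one_11] at e0 e1 e2 e3
    refine ext2 ?_ ?_ ?_ ?_ <;> simp only [mul_ent, gm_ent, m2_00, m2_01, m2_10, m2_11, map_add, map_mul, inv]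
    · linear_combination θ * e0
    · linear_combination θ * e1
    · linear_combination θ * e2
    · linear_combination θ * e3
  have key : ∀ g : L2 F, gm σ g = g → piH A * sH σ * piH (B * g * B⁻¹) = piH (B * g * B⁻¹) * (piH A * sH σ) :=
    fun g hg => by
      rw [← mul_inv_eq_iff_eq_mul, sem_conj, map_mul (gm σ), map_mul (gm σ), map_inv, hg,
        show A * (gm σ B * g * (gm σ B)⁻¹) * A⁻¹ = A * gm σ B * g * (A * gm σ B)⁻¹ by group, hB]
  obtain ⟨g₁, g₂, f1, f2, d1, d2, i1, i2, ne, cm⟩ := four_fix h2 p σ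
  have cj : ∀ g, piH (B * g * B⁻¹) = piH B * piH g * (piH B)⁻¹ := fun g => by rw [map_mul, map_mul, map_inv]
  refine ⟨piH (B * g₁ * B⁻¹), piH_mem_K.2 (by rw [a_det_of (a_cj B g₁), d1]; exact IsSquare.one), piH (B * g₂ * B⁻¹),
    piH_mem_K.2 (by rw [a_det_of (a_cj B g₂), d2]; exact IsSquare.one), ?_, ?_, ?_, ?_, key _ f1, key _ f2⟩
  · rw [cj]; exact i1.conj _
  · rw [cj]; exact i2.conj _
  · rw [cj, cj]; exact fun e => ne (mul_left_cancel (mul_right_cancel e))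
  · rw [cj, cj, conj_mul, conj_mul, cm]

end CA.GW
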