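/-
Almost simple groups with socle `L₂(q)` and dihedral Sylow 2-subgroups.
-/
import Cfsg.Agent.Lib.GW.L2b

set_option autoImplicit false
set_option linter.unusedSectionVars false

namespace CA.GW
open Cfsg CA CA.FStar Matrix.SpecialLinearGroup CA.SL2 CA.Br Subgroup
open scoped MatrixGroups

section
variable {G : Type*} [Group G] [Finite G] {X K P D T Y : Subgroup G} {v s : G} {q p : ℕ}

theorem relIndex_two (hv : v ∈ D) (hT : v ∉ T) (h : ∀ a ∈ D, a ∉ T → a * v ∈ T) : T.relIndex D = 2 :=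
  relIndex_eq_two_iff.2 ⟨v, hv, fun b hb => by
    by_cases hb' : b ∈ T
    · exact .inr ⟨hb', fun e => hT ((mul_mem_cancel_left hb').1 e)⟩
    · exact .inl ⟨h b hb hb', hb'⟩⟩

theorem mem_norm_of (h : ∀ x ∈ T, v * x * v⁻¹ ∈ T) : v ∈ 𝐍(T) :=
  mem_normalizer_of_cj_le (by rintro _ ⟨x, hx, rfl⟩; exact h x hx)

theorem qs_of_simple (hs : IsSimpleGroup K) (hc : K ⊓ 𝐂(K) = ⊥) : QS K := by
  have h1 : ∀ N, N ⊴ K → N = ⊥ ∨ N = K := fun N hN => by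
    have : (N.subgroupOf K).Normal := (normal_subgroupOf_iff_le_normalizer hN.1).2 hN.2
    rcases this.eq_bot_or_eq_top with h | h
    · exact .inl (by rwa [subgroupOf_eq_bot, disjoint_iff, inf_eq_left.2 hN.1] at h)
    · exact .inr (le_antisymm hN.1 (subgroupOf_eq_top.1 h))
  have h2 : K ≠ ⊥ := (nontrivial_iff_ne_bot K).1 hs.toNontrivial
  refine ⟨(h1 _ ⟨der_le K, norms_der le_normalizer⟩).resolve_left fun h => h2 ?_, h2,
    fun N hN => (h1 N hN).imp_left fun (h : N = ⊥) => by rw [h]; exact bot_le⟩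
  rw [← hc, eq_comm, inf_eq_left]
  exact commutator_eq_bot_iff_le_centralizer.1 h

/-- the torus through an involution -/
def TorP (X K P : Subgroup G) (q : ℕ) (s : G) : Prop := ∃ T : Subgroup G, s ∈ T ∧ Dih (P ⊓ 𝐂[s]) T ∧
  Dih (K ⊓ 𝐂[s]) (K ⊓ T) ∧ (2 * Nat.card ↥(K ⊓ T) + 1 = q ∨ 2 * Nat.card ↥(K ⊓ T) = q + 1) ∧
  (s ∈ K ↔ Even (Nat.card ↥(K ⊓ T))) ∧ (∀ y ∈ T, y * y ≠ 1 → P ⊓ 𝐂[y] = T ∧ P ⊓ 𝐍(zpowers y) = P ⊓ 𝐂[s]) ∧
  ∀ F ≤ X ⊓ 𝐂[s], Group.IsNilpotent F → Odd (Nat.card F) → K ⊓ T ≤ 𝐍(F) → F ≤ K ⊓ T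

theorem cent_inv_of (hd : Dih (P ⊓ 𝐂[s]) T) (hs : s ∈ T) (s2 : Inv2 s) (h : ∀ y ∈ T, y * y ≠ 1 → P ⊓ 𝐂[y] = T)
    {y g : G} (hy : y ∈ T) (y2 : y * y ≠ 1) (hg : g ∈ P) (hy' : g * y * g⁻¹ ∈ T) : g ∈ 𝐂[s] := by
  have h1 : g * s * g⁻¹ ∈ T := by
    rw [← h _ hy' (by rwa [conj_mul, Ne, conj_eq_one_iff])]
    refine mem_inf.2 ⟨P.mul_mem (P.mul_mem hg (hd.le hs).1) (P.inv_mem hg), mem_cent1_iff.2 ?_⟩
    rw [conj_mul, conj_mul, hd.comm hs hy]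
  exact mem_cent1_iff.2 (mul_inv_eq_iff_eq_mul.1 (hd.uniq h1 hs (s2.conj g) s2))

theorem ll_of (h5 : 5 ≤ q) (KP : K ≤ P) (KX : K ≤ X) (cab : ∀ y ∈ P, y * y ≠ 1 → IsMulCommutative ↥(P ⊓ 𝐂[y]))
    (tor : ∀ s ∈ X, Inv2 s → TorP X K P q s) (hs : s ∈ X) (s2 : Inv2 s) (p2 : p ≠ 2) (hY : Y ≤ K) (Yp : PiGrp {p} Y)
    (hn : K ⊓ 𝐂[s] ≤ 𝐍(Y)) : Y ≤ 𝐂[s] := by
  by_cases h0 : Y = ⊥
  · exact h0 ▸ bot_le
  have ho : Odd (Nat.card Y) := odd_iff.2 fun r hr hd (e : r = 2) => p2 ((Yp r hr hd).symm.trans e)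
  have sq' : ∀ y ∈ Y, y ≠ 1 → y * y ≠ 1 := fun y hy y1 e => y1 (eq_one_of_odd (odd_of_mem ho hy) e)
  obtain ⟨z, hz, z1⟩ := (bot_or_exists_ne_one _).resolve_left (center_ne_bot_nil Yp.nilpotent h0)
  have ab : ∀ a ∈ Y, ∀ b ∈ Y, a * b = b * a := fun a ha b hb =>
    congrArg Subtype.val ((cab z (KP (hY hz.1)) (sq' z hz.1 z1)).is_comm.comm
      ⟨a, KP (hY ha), mem_cent1_iff.2 (hz.2 a ha)⟩ ⟨b, KP (hY hb), mem_cent1_iff.2 (hz.2 b hb)⟩)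
  obtain ⟨T, sT, d1, d2, c1, c2, c3, -⟩ := tor s hs s2
  obtain ⟨v, hv, vT⟩ := d2.exists
  have key : ∀ w ∈ K ⊓ 𝐂[s], w ∉ K ⊓ T → ∀ y ∈ Y, w * y * w⁻¹ = y⁻¹ := fun w hw wT y hy => by
    have w2 := d2.inv2 hw wT
    by_contra hne
    have m : w * y * w⁻¹ * y ∈ Y := mul_mem (conj_mem_of_mem_normalizer (hn hw) hy) hy
    have y1 : w * y * w⁻¹ * y ≠ 1 := fun e => hne (eq_inv_of_mul_eq_one_left e)
    have cw : w * y * w⁻¹ * y ∈ 𝐂[w] := by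
      rw [mem_cent1_iff, ab _ (conj_mem_of_mem_normalizer (hn hw) hy) y hy]
      conv_rhs => rw [← ab _ (conj_mem_of_mem_normalizer (hn hw) hy) y hy]
      rw [w2.inv, ← mul_assoc, ← mul_assoc, ← mul_assoc, ← mul_assoc, ← mul_assoc, w2.sq, one_mul, mul_assoc _ w w, w2.sq,
        mul_one]
    generalize w * y * w⁻¹ * y = x at m y1 cw
    obtain ⟨T', wT', e1, e2, f1, f2, f3, -⟩ := tor w (KX hw.1) w2
    have xT : x ∈ T' := e1.mem_of_sq ⟨KP (hY m), cw⟩ (sq' x m y1)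
    have hc : K ⊓ T ≤ 𝐂[w] := fun g hg => by
      have g1 := conj_mem_of_mem_normalizer (hn (d2.le hg)) m
      refine cent_inv_of e1 wT' w2 (fun y a b => (f3 y a b).1) xT (sq' x m y1) (KP hg.1) ?_
      rw [← (f3 x xT (sq' x m y1)).1]
      exact ⟨KP (hY g1), mem_cent1_iff.2 (ab _ g1 _ m)⟩
    have h2 := d2.card_le_of_cent hw wT hc
    obtain ⟨k, hk⟩ := f2.1 hw.1
    have h3 : Nat.card ↥(K ⊓ T') = 2 := by omega
    have h4 := orderOf_dvd_natCard (⟨x, hY m, xT⟩ : ↥(K ⊓ T'))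
    rw [h3, orderOf_dvd_iff_pow_eq_one, sq, Subtype.ext_iff] at h4
    exact sq' x m y1 h4
  have hc : ∀ g ∈ K ⊓ T, ∀ y ∈ Y, g * y = y * g := fun g hg y hy => by
    have h1 := key (v * g) (mul_mem hv (d2.le hg)) (Dih.mul_not_mem vT hg) y hy
    rw [← key v hv vT y hy, mul_inv_rev, ← mul_assoc, mul_left_inj, mul_assoc v, mul_assoc v, mul_right_inj] at h1
    exact mul_inv_eq_iff_eq_mul.1 h1
  intro y hy
  by_cases h : ∀ g ∈ K ⊓ T, g * g = 1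
  · have := d2.card_le h
    exact mem_cent1_iff.2 (hc s ⟨c2.2 (by rw [show Nat.card ↥(K ⊓ T) = 2 by omega]; exact even_two), sT⟩ y hy).symm
  · push Not at h
    obtain ⟨g, hg, g2⟩ := h
    exact (d1.le ((c3 g hg.2 g2).1 ▸ (⟨KP (hY hy), mem_cent1_iff.2 (hc g hg y hy).symm⟩ : y ∈ P ⊓ 𝐂[g]))).2
end

section
variable {F : Type*} [Field F] [Fintype F] {Y : Type*} [Group Y] {ι : SL(2, F) →* Y}

theorem PM.aut_ext (hF : Odd (Fintype.card F)) (hι : PM ι) {α β : MulAut SL(2, F)} (h : ∀ g, ι (α g) = ι (β g)) :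
    α = β := by
  have h2 := two_ne_zero_of_odd hF
  obtain ⟨p, hp, n, hp', hn⟩ := FiniteField.card' F
  have : Fact p.Prime := ⟨hp'⟩
  have po : Odd p := (Nat.odd_pow_iff n.ne_zero).1 (hn ▸ hF)
  have key : ∀ u : SL(2, F), tr u = 2 → α u = β u := fun u hu => (hι.eq.1 (h u)).resolve_right fun e => by
    have e' := congrArg (· ^ p) e
    simp only [po.neg_pow, ← map_pow, pow_char_of_tr p hu, map_one] at e'
    have := (s_ent e').1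
    rw [neg_ent, one_ent00] at this
    exact h2 (by linear_combination this)
  refine MulEquiv.ext (Lin.transvection_induction _ (fun i j hij c => ?_) fun A B hA hB => by rw [map_mul, map_mul, hA, hB])
  fin_cases i <;> fin_cases j
  · exact absurd rfl hij
  · exact key _ (tr_up c)
  · exact key _ (tr_lo c)
  · exact absurd rfl hij

theorem pm_mk : PM (QuotientGroup.mk' (center SL(2, F))) := fun g => by
  rw [QuotientGroup.mk'_apply, QuotientGroup.eq_one_iff]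
  refine ⟨fun h => ?_, fun h => ?_⟩
  · obtain ⟨r, h1, h2⟩ := Matrix.SpecialLinearGroup.mem_center_iff.1 h
    rw [Fintype.card_fin, sq, mul_self_eq_one_iff] at h1
    rcases h1 with rfl | rfl
    · exact .inl (Subtype.ext (by rw [← h2]; simp))
    · exact .inr (Subtype.ext (by rw [← h2]; ext i j; fin_cases i <;> fin_cases j <;> simp))
  · rcases h with rfl | rfl
    · exact one_mem _
    · exact Subgroup.mem_center_iff.2 fun g => by simp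
end

variable {G : Type*} [Group G] [Finite G] {X K : Subgroup G} {q : ℕ}

theorem l2t (hK : K ⊴ X) (hc : X ⊓ 𝐂(K) = ⊥) (hd : DSyl X) (h : IsL2 K q) : ∃ P, L2T X K P q := by
  obtain ⟨hq, h3, F, _, _, rfl, ⟨e⟩⟩ := h
  have h5 : 5 ≤ Fintype.card F := by obtain ⟨k, hk⟩ := hq; omega
  let ι : SL(2, F) →* G := K.subtype.comp (e.symm.toMonoidHom.comp (QuotientGroup.mk' _))
  have hι : PM ι := fun g => by
    rw [← pm_mk g]
    exact (map_eq_one_iff _ K.subtype_injective).trans (map_eq_one_iff _ e.symm.injective)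
  have ιK : ∀ g, ι g ∈ K := fun g => (e.symm _).2
  have Kι : ∀ k ∈ K, ∃ g, ι g = k := fun k hk => by
    obtain ⟨g, hg⟩ := QuotientGroup.mk'_surjective _ (e ⟨k, hk⟩)
    exact ⟨g, congrArg Subtype.val ((congrArg e.symm hg).trans (e.symm_apply_apply _))⟩
  have ex : ∀ x : X, ∃ β : MulAut SL(2, F), (∃ σ, Sem σ β) ∧ ∀ g, x * ι g * (x : G)⁻¹ = ι (β g) := fun x => by
    obtain ⟨A, σ, h⟩ := aut (f := (MulAut.conj (x : G)).toMonoidHom.comp ι) hq hι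
      (fun g => (conj_eq_one_iff (a := (x : G))).trans (hι g)) fun g => by
        obtain ⟨k, hk⟩ := Kι _ (conj_mem_of_mem_normalizer (hK.2 x.2) (ιK g))
        exact ⟨k, hk.symm⟩
    exact ⟨_, ⟨σ, A, rfl⟩, h⟩
  choose β hβ hβ' using ex
  let Φ : X →* MulAut SL(2, F) := MonoidHom.mk' β fun x y => hι.aut_ext hq fun g => by
    rw [MulAut.mul_apply, ← hβ', ← hβ', ← hβ', Subgroup.coe_mul]; group
  have φ1 : ∀ x ∈ X, ∀ g, x * ι g * x⁻¹ = ι (pel Φ x g) := fun x hx g => by rw [pel_of_mem Φ hx]; exact hβ' ⟨x, hx⟩ g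
  have φs : ∀ x ∈ X, ∃ σ, Sem σ (pel Φ x) := fun x hx => by rw [pel_of_mem Φ hx]; exact hβ ⟨x, hx⟩
  have φ0 : ∀ x ∈ X, pel Φ x = 1 → x = 1 := fun x hx h => mem_bot.1 (hc ▸ (⟨hx, fun k hk => by
    obtain ⟨g, rfl⟩ := Kι k hk
    have := φ1 x hx g
    rw [h, mul_inv_eq_iff_eq_mul] at this
    exact this.symm⟩ : x ∈ X ⊓ 𝐂(K)))
  have φi : ∀ {x y}, x ∈ X → y ∈ X → (pel Φ x = pel Φ y ↔ x = y) := fun {x y} hx hy =>
    ⟨fun h => mul_inv_eq_one.1 (φ0 _ (mul_mem hx (inv_mem hy)) (by rw [pel_mul Φ hx (inv_mem hy), pel_inv Φ hy, h,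
      mul_inv_cancel])), fun h => h ▸ rfl⟩
  have φι : ∀ g, pel Φ (ι g) = MulAut.conj g := fun g => hι.aut_ext hq fun h => by
    rw [← φ1 _ (hK.1 (ιK g)), MulAut.conj_apply, map_mul, map_mul, map_inv]
  have φK : ∀ {x}, x ∈ X → (pel Φ x ∈ Kh F ↔ x ∈ K) := fun {x} hx =>
    ⟨fun ⟨g, hg⟩ => (φi (hK.1 (ιK g)) hx).1 ((φι g).trans hg) ▸ ιK g, fun h => by
      obtain ⟨g, rfl⟩ := Kι x h; exact ⟨g, (φι g).symm⟩⟩
  have Kφ : ∀ a ∈ Kh F, ∃ k ∈ K, pel Φ k = a := fun _ ⟨g, hg⟩ => ⟨ι g, ιK g, (φι g).trans hg⟩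
  have φc : ∀ {x y}, x ∈ X → y ∈ X → (pel Φ x * pel Φ y = pel Φ y * pel Φ x ↔ x * y = y * x) := fun {x y} hx hy => by
    rw [← pel_mul Φ hx hy, ← pel_mul Φ hy hx, φi (mul_mem hx hy) (mul_mem hy hx)]
  have φ2 : ∀ {x}, x ∈ X → (pel Φ x * pel Φ x = 1 ↔ x * x = 1) := fun {x} hx => by
    rw [← pel_mul Φ hx hx, ← pel_one Φ, φi (mul_mem hx hx) (one_mem _)]
  have φv : ∀ {x}, x ∈ X → (Inv2 (pel Φ x) ↔ Inv2 x) := fun {x} hx =>
    ⟨fun h => ⟨(φ2 hx).1 h.sq, fun e => h.ne (by rw [e, pel_one])⟩, fun h => ⟨(φ2 hx).2 h.sq, fun e => h.ne (φ0 x hx e)⟩⟩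
  set P := pcomap Φ (Ph F)
  have PX : P ≤ X := pcomap_le_dom _ _
  have KP : K ≤ P := fun k hk => mem_pcomap.2 ⟨hK.1 hk, Kh_le ((φK (hK.1 hk)).2 hk)⟩
  have mP : ∀ {x}, x ∈ P → pel Φ x ∈ Ph F := fun h => (mem_pcomap.1 h).2
  have mulK : ∀ a ∈ P, ∀ b ∈ P, a ∉ K → b ∉ K → a * b ∈ K := fun a ha b hb a1 b1 =>
    (φK (mul_mem (PX ha) (PX hb))).1 (by
      rw [pel_mul Φ (PX ha) (PX hb)]
      exact mul_mem_K hq (mP ha) (mP hb) (mt (φK (PX ha)).1 a1) (mt (φK (PX hb)).1 b1))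
  obtain ⟨S, R, hS, hR, -⟩ := hd
  have invP : ∀ s ∈ X, Inv2 s → s ∈ P := fun s hs s2 => by
    by_contra hP
    obtain ⟨σ, hσ⟩ := φs s hs
    obtain ⟨a', ha', b', hb', a2, b2, ab, c1, c2, c3⟩ := field_inv hq hσ ((φ2 hs).2 s2.sq) fun h => hP (mem_pcomap.2 ⟨hs, h⟩)
    obtain ⟨a, ha, rfl⟩ := Kφ a' ha'
    obtain ⟨b, hb, rfl⟩ := Kφ b' hb'
    rw [φc (hK.1 ha) (hK.1 hb)] at c1
    rw [φc hs (hK.1 ha)] at c2
    rw [φc hs (hK.1 hb)] at c3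
    obtain ⟨V, hV, mV⟩ := four_of ((φv (hK.1 ha)).1 a2) ((φv (hK.1 hb)).1 b2) (fun e => ab (e ▸ rfl)) c1
    have VK : V ≤ K := fun x hx => by
      rcases (mV x).1 hx with rfl | rfl | rfl | rfl
      exacts [one_mem _, ha, hb, mul_mem ha hb]
    obtain ⟨g, hg, h⟩ := (hR.syl_four hS hV (VK.trans hK.1)).exists_conj_mem (x := s) ⟨hs, fun x hx => by
      rcases (mV x).1 hx with rfl | rfl | rfl | rfl
      · simp
      · exact c2.symm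
      · exact c3.symm
      · rw [mul_assoc, ← c3, ← mul_assoc, ← c2, mul_assoc]⟩ s2.piElt
    exact hP (KP (by simpa [mul_assoc] using conj_mem_of_mem_normalizer (hK.2 (inv_mem hg.1)) (VK h)))
  have cab : ∀ y ∈ P, y * y ≠ 1 → IsMulCommutative ↥(P ⊓ 𝐂[y]) := fun y hy y2 =>
    ⟨⟨fun a b => Subtype.ext ((φc (PX a.2.1) (PX b.2.1)).1 (cab_B (mP hy) (mt (φ2 (PX hy)).1 y2) (mP a.2.1) (mP b.2.1)
      ((φc (PX a.2.1) (PX hy)).2 (mem_cent1_iff.1 a.2.2)) ((φc (PX b.2.1) (PX hy)).2 (mem_cent1_iff.1 b.2.2))))⟩⟩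
  have tor : ∀ s ∈ X, Inv2 s → TorP X K P (Fintype.card F) s := fun s hs s2 => by
    have sP := invP s hs s2
    obtain ⟨τ, n, τP, ord, hn, τK, sτ, ⟨v', hv', vs, vτ, dich⟩, cen, fr⟩ := torB hq h5 (mP sP) ((φv hs).2 s2)
    obtain ⟨v, hv, rfl⟩ := Kφ v' hv'
    rw [φc (hK.1 hv) hs] at vs
    have fin : IsOfFinOrder τ := orderOf_pos_iff.1 (by omega)
    have pw : ∀ {z}, z ∈ zpowers τ → ∃ k : ℕ, τ ^ k = z := fun h =>
      (Submonoid.mem_powers_iff _ _).1 (fin.mem_powers_iff_mem_zpowers.2 h)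
    have zc : ∀ {a b}, a ∈ zpowers τ → b ∈ zpowers τ → a * b = b * a := fun ⟨i, hi⟩ ⟨j, hj⟩ => by
      rw [← hi, ← hj]; exact zpow_mul_comm τ i j
    set T := pcomap Φ (zpowers τ)
    have TX : T ≤ X := pcomap_le_dom _ _
    have mT : ∀ {x}, x ∈ T → pel Φ x ∈ zpowers τ := fun h => (mem_pcomap.1 h).2
    have sT : s ∈ T := mem_pcomap.2 ⟨hs, sτ⟩
    have vT : v ∉ T := fun h => vτ (mT h)
    have dc : ∀ a ∈ P ⊓ 𝐂[s], a ∉ T → a * a = 1 ∧ a * v ∈ T := fun a ha aT => by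
      obtain ⟨h1, h2⟩ := dich _ (mP ha.1) ((φc (PX ha.1) hs).2 (mem_cent1_iff.1 ha.2))
        fun h => aT (mem_pcomap.2 ⟨PX ha.1, h⟩)
      exact ⟨(φ2 (PX ha.1)).1 h1, mem_pcomap.2 ⟨mul_mem (PX ha.1) (hK.1 hv), by rwa [pel_mul Φ (PX ha.1) (hK.1 hv)]⟩⟩
    have inj : ∀ A ≤ X, pker Φ ⊓ A = ⊥ := fun A hA => eq_bot_iff.2 fun x hx => φ0 x (hA hx.2) (mem_pker.1 hx.1).2
    have d1 : Dih (P ⊓ 𝐂[s]) T := ⟨fun x hx => ⟨pcomap_mono Φ (zpowers_le.2 τP) hx,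
        mem_cent1_iff.2 ((φc (TX hx) hs).1 (zc (mT hx) sτ))⟩,
      isCyclic_of_surjective _ (pmapEquiv TX (inj T TX)).symm.surjective
        (hH := cyclic_of_le inferInstance (pmap_pcomap_le Φ _)),
      relIndex_two ⟨KP hv, mem_cent1_iff.2 vs⟩ vT fun a ha aT => (dc a ha aT).2, fun a ha aT => (dc a ha aT).1⟩
    have d2 : Dih (K ⊓ 𝐂[s]) (K ⊓ T) := by
      have := d1.inf (L := K ⊓ 𝐂[s]) (inf_le_inf_right _ KP) fun h => vT (h ⟨hv, mem_cent1_iff.2 vs⟩)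
      rwa [inf_assoc, inf_eq_right.2 (d1.le.trans inf_le_right : T ≤ 𝐂[s])] at this
    obtain ⟨m, hm⟩ : ∃ m, n = 2 * m := by obtain ⟨k, hk⟩ := hq; exact ⟨n / 2, by omega⟩
    obtain ⟨τ₂, h2K, h2⟩ := Kφ _ ((τK 2).2 even_two)
    have h2T : τ₂ ∈ T := mem_pcomap.2 ⟨hK.1 h2K, h2 ▸ pow_mem (mem_zpowers τ) 2⟩
    have card : Nat.card ↥(K ⊓ T) = m := by
      rw [← card_pmap_of_inj (f := Φ) (inf_le_left.trans hK.1) (inj _ (inf_le_left.trans hK.1)),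
        show pmap Φ (K ⊓ T) = zpowers (τ ^ 2) from le_antisymm ?_ (zpowers_le.2 (h2 ▸ pel_mem_pmap Φ ⟨h2K, h2T⟩)),
        Nat.card_zpowers, orderOf_pow' _ two_ne_zero, ord, hm, Nat.gcd_mul_right_left, Nat.mul_div_cancel_left _ two_pos]
      intro z hz
      obtain ⟨x, hx, rfl⟩ := (mem_pmap_of_le (inf_le_left.trans hK.1)).1 hz
      obtain ⟨k, hk⟩ := pw (mT hx.2)
      obtain ⟨j, rfl⟩ := (τK k).1 (hk ▸ (φK (hK.1 hx.1)).2 hx.1)
      rw [← hk, ← two_mul, pow_mul]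
      exact pow_mem (mem_zpowers _) j
    have c3 : ∀ y ∈ T, y * y ≠ 1 → P ⊓ 𝐂[y] = T := fun y hy y2 => le_antisymm (fun c hc => mem_pcomap.2 ⟨PX hc.1,
      cen _ (mT hy) (mt (φ2 (TX hy)).1 y2) _ (mP hc.1) ((φc (PX hc.1) (TX hy)).2 (mem_cent1_iff.1 hc.2))⟩)
      fun c hc => ⟨(d1.le hc).1, mem_cent1_iff.2 (d1.comm hc hy)⟩
    refine ⟨T, sT, d1, d2, by omega, ?_, fun y hy y2 => ⟨c3 y hy y2, le_antisymm (fun g hg => ⟨hg.1,
      cent_inv_of d1 sT s2 c3 hy y2 hg.1 (zpowers_le.2 hy (conj_mem_of_mem_normalizer hg.2 (mem_zpowers y)))⟩)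
      (le_inf inf_le_left (d1.norm (zpowers_le.2 hy)))⟩, fun A hA nil oA nA => ?_⟩
    · obtain ⟨k, hk⟩ := pw sτ
      have h1 : 2 * m ∣ k * 2 := by
        rw [← hm, ← ord, orderOf_dvd_iff_pow_eq_one, pow_mul, hk, sq, φ2 hs, s2.sq]
      have h2 : ¬ 2 * m ∣ k := fun h => ((φv hs).2 s2).ne (by
        rw [← hk, ← orderOf_dvd_iff_pow_eq_one, ord, hm]; exact h)
      rw [mul_comm k] at h1
      obtain ⟨j, rfl⟩ := Nat.dvd_of_mul_dvd_mul_left two_pos h1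
      have h3 : ¬ Even j := fun ⟨i, hi⟩ => h2 ⟨i, by rw [hi]; ring⟩
      rw [card, ← φK hs, ← hk, τK, Nat.even_mul]
      exact or_iff_left h3
    · have AP : A ≤ P := le_of_forall_sylowIn_le fun r hr hd => ⟨_, hall_piCoreOf_of_nilpotent nil {r}, fun y hy => by
        have yA := hA (piCoreOf_le _ _ hy)
        have pg := PG.isPGroup_iff_mem.1 ((piCoreOf_piGrp {r} A).isPGroup hr)
        obtain ⟨σ, hσ⟩ := φs y yA.1
        obtain ⟨j, hj⟩ := pg y hy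
        refine mem_pcomap.2 ⟨yA.1, al_B hq h5 ord hn fr (fun c hc c1 c2 => zc (by_contra fun h => c2 (dich c hc c1 h).1)
          (mem_zpowers τ)) hr (fun e => oA.not_two_dvd_nat (e ▸ hd)) hσ ((φc yA.1 hs).2 (mem_cent1_iff.1 yA.2))
          (j := j) (by rw [← pel_pow Φ yA.1, hj, pel_one]) fun m => ?_⟩
        have h1 : y ^ m * τ₂ * (y ^ m)⁻¹ * τ₂⁻¹ ∈ piCoreOf {r} A := by
          rw [mul_assoc (y ^ m), mul_assoc (y ^ m)]
          exact mul_mem (pow_mem hy m) (conj_mem_of_mem_normalizer (norms_piCoreOf {r} nA ⟨h2K, h2T⟩) (inv_mem (pow_mem hy m)))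
        obtain ⟨i, hi⟩ := pg _ h1
        exact ⟨i, by rw [← h2, ← pel_pow Φ yA.1, ← pel_comm Φ (pow_mem yA.1 m) (hK.1 h2K),
          ← pel_pow Φ (hA (piCoreOf_le _ _ h1)).1, hi, pel_one]⟩⟩
      refine le_inf (fun y hy => by_contra fun h => ?_) (d1.odd_le (le_inf AP (hA.trans inf_le_right)) oA)
      obtain ⟨w, hw, rfl⟩ := exists_sqrt (odd_of_mem oA hy)
      have wA := zpowers_le.2 hy hw
      exact h (by_contra fun h => h (mulK w (AP wA) w (AP wA) (fun e => h (mul_mem e e)) fun e => h (mul_mem e e)))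
  have sim : IsSimpleGroup K :=
    have := Matrix.ProjectiveSpecialLinearGroup.rank_two_simple (F := F) (by rw [Nat.card_eq_fintype_card]; omega)
    e.isSimpleGroup
  refine ⟨P, hq, h5, ?_, KP, hK, ⟨PX, fun x hx => mem_norm_of fun y hy => ?_⟩,
    qs_of_simple sim (le_bot_iff.1 (hc ▸ inf_le_inf_right _ hK.1)), sim, ?_, hc, ?_, ?_, ?_, cab, tor,
    fun s hs s2 p p2 Y hY Yp hn => ll_of h5 KP hK.1 cab tor hs s2 p2 hY Yp hn⟩
  · obtain ⟨p, -, n, hp, hn⟩ := FiniteField.card' F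
    exact ⟨p, n, hp, hn⟩
  · obtain ⟨σ, hσ⟩ := φs x hx
    exact mem_pcomap.2 ⟨mul_mem (mul_mem hx (PX hy)) (inv_mem hx), by rw [pel_conj Φ hx (PX hy)]; exact hσ.conj (mP hy)⟩
  · have h1 := Lin.card_center_mul_card_PSL (ι := Fin 2) (R := F)
    rw [Lin.card_center_SL, Lin.card_SL_two, Fintype.card_fin, Nat.card_eq_fintype_card,
      Nat.gcd_eq_left (Nat.Odd.sub_odd hq odd_one).two_dvd] at h1
    rw [Nat.card_congr e.toEquiv, h1]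
  · by_cases h : P ≤ K
    · exact .inl (relIndex_eq_one.2 h)
    · obtain ⟨v, hv, vK⟩ := SetLike.not_le_iff_exists.1 h
      exact .inr (relIndex_two hv vK fun a ha aK => mulK a ha v hv aK vK)
  · obtain ⟨s, hs, sR⟩ := hR.exists
    have SP : S ≤ P := fun x hx => by
      by_cases h : x ∈ R
      · exact (mul_mem_cancel_left (invP s (hS.le hs) (hR.inv2 hs sR))).1
          (invP _ (hS.le (mul_mem hs hx)) (hR.inv2 (mul_mem hs hx) (Dih.mul_not_mem sR h)))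
      · exact invP x (hS.le hx) (hR.inv2 hx h)
    exact Nat.not_even_iff_odd.1 fun h => hS.not_dvd Nat.prime_two (h.two_dvd.trans (relIndex_dvd_of_le_left _ SP))
  · refine commutator_le.2 fun x hx y hy => (φK (mul_mem (mul_mem (mul_mem hx hy) (inv_mem hx)) (inv_mem hy))).1 ?_
    obtain ⟨σ, hσ⟩ := φs x hx
    obtain ⟨ρ, hρ⟩ := φs y hy
    rw [pel_comm Φ hx hy]
    exact comm_mem_K hq hσ hρ

end CA.GW
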