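/-
Gorenstein–Walter: the ambient form `CL2` of the `L₂(q)` structure of a proper subgroup with a component.
-/
import Cfsg.Agent.Lib.GW.Defs

set_option autoImplicit false

namespace CA.GW

open Cfsg CA CA.FStar Subgroup

/-- Ambient form of `L2T` when `E = E(L) ≠ 1`; `O = O(L) = C_L(E)`, `P ⊇ E O` is the `PGL₂` part. -/
structure CL2 {G : Type*} [Group G] (L P : Subgroup G) (q : ℕ) : Prop where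
  odd : Odd q
  five : 5 ≤ q
  pp : ∃ p f : ℕ, p.Prime ∧ q = p ^ f
  EP : lay L ⊔ 𝐎(L) ≤ P
  PL : P ⊴ L
  card : 2 * (𝐎(L)).relIndex (lay L) = q * (q ^ 2 - 1)
  idx : (lay L ⊔ 𝐎(L)).relIndex P = 1 ∨ (lay L ⊔ 𝐎(L)).relIndex P = 2
  oddi : Odd (P.relIndex L)
  der : ⁅L, L⁆ ≤ lay L ⊔ 𝐎(L)
  cab : ∀ y ∈ P, y * y ∉ 𝐎(L) → ⁅P ⊓ 𝐂[y], P ⊓ 𝐂[y]⁆ ≤ 𝐎(L)
  /-- `C_E(s) = C_{Z(E)}(s) × D`, `D` dihedral with torus `T` -/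
  tor : ∀ s ∈ L, Inv2 s → ∃ D T : Subgroup G, Dih D T ∧ D ⊓ 𝐎(L) = ⊥ ∧ lay L ⊓ 𝐂[s] = D ⊔ (lay L ⊓ 𝐎(L) ⊓ 𝐂[s]) ∧
    L ⊓ 𝐂[s] ≤ 𝐍(T) ∧
    (2 * Nat.card T + 1 = q ∨ 2 * Nat.card T = q + 1) ∧ (s ∈ lay L ↔ Even (Nat.card T)) ∧ (s ∈ lay L → s ∈ T) ∧
    (∀ y ∈ T, y * y ≠ 1 → lay L ⊓ 𝐂[y] = T ⊔ (lay L ⊓ 𝐎(L)) ∧ P ⊓ 𝐍(zpowers y) ≤ 𝐎(L) ⊔ (P ⊓ 𝐂[s])) ∧
    (∀ w ∈ L ⊓ 𝐂[s], Inv2 w → w ≠ s → ∀ x ∈ T, w * x * w⁻¹ = x⁻¹) ∧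
    ∀ F ≤ L ⊓ 𝐂[s], Group.IsNilpotent F → Odd (Nat.card F) → T ≤ 𝐍(F) → F ≤ 𝐎(L) ⊔ T

end CA.GW
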