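/-
The alternating group of degree 7: Carmichael's presentation, and subgroups of small index.
-/
import Cfsg.Agent.Lib.Zas.Small

set_option autoImplicit false
set_option linter.unusedSectionVars false

namespace CA.GW

open Subgroup CA Equiv

variable {G : Type*} [Group G]

theorem carm_step [Finite G] {s : Set G} {y : G} (hs : ∀ x ∈ s, x * x * x = 1) (hy : y * y * y = 1)
    (h1 : ∀ x ∈ s, y * x * y * x = 1) (h2 : ∀ x ∈ s, ∀ z ∈ s, x ≠ z → x * z * x * z = 1) :
    Nat.card (closure (insert y s)) ≤ (s.ncard + 3) * Nat.card (closure s) := by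
  set K := closure s
  let R : Set G := insert 1 (insert y (insert y⁻¹ ((· * y⁻¹) '' s)))
  have hR : R.ncard ≤ s.ncard + 3 :=
    (Set.ncard_insert_le _ _).trans (Nat.succ_le_succ ((Set.ncard_insert_le _ _).trans (Nat.succ_le_succ
      ((Set.ncard_insert_le _ _).trans (Nat.succ_le_succ (Set.ncard_image_le (Set.toFinite _)))))))
  have r1 : (1 : G) ∈ R := Or.inl rfl
  have r2 : y ∈ R := Or.inr (Or.inl rfl)
  have r3 : y⁻¹ ∈ R := Or.inr (Or.inr (Or.inl rfl))
  have r4 : ∀ x ∈ s, x * y⁻¹ ∈ R := fun x hx => Or.inr (Or.inr (Or.inr ⟨x, hx, rfl⟩))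
  have m : ∀ x ∈ s, x ∈ K := fun x hx => subset_closure hx
  have sq : ∀ x : G, x * x * x = 1 → x * x = x⁻¹ := fun x h => eq_inv_of_mul_eq_one_left h
  have yxy : ∀ x ∈ s, y * x * y = x⁻¹ := fun x hx => eq_inv_of_mul_eq_one_left (h1 x hx)
  have step : ∀ g ∈ insert y s, ∀ r ∈ R, ∃ r' ∈ R, ∃ k ∈ K, g * r = r' * k := by
    rintro g (rfl | hg) r (rfl | rfl | rfl | ⟨x, hx, rfl⟩)
    · exact ⟨_, r2, 1, one_mem _, rfl⟩
    · exact ⟨_, r3, 1, one_mem _, by rw [sq _ hy, mul_one]⟩
    · exact ⟨_, r1, 1, one_mem _, by simp⟩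
    · refine ⟨_, r4 x hx, x⁻¹, inv_mem (m x hx), ?_⟩
      calc g * (x * g⁻¹) = (g * x * g) * (g * g)⁻¹ := by group
        _ = (x * x) * g := by rw [yxy x hx, sq _ hy, sq _ (hs x hx), inv_inv]
        _ = x * g⁻¹ * (g * x * g) := by group
        _ = _ := by rw [yxy x hx]
    · exact ⟨_, r1, g, m g hg, by simp⟩
    · exact ⟨_, r3, g⁻¹, inv_mem (m g hg), by rw [← yxy g hg]; group⟩
    · exact ⟨_, r4 g hg, 1, one_mem _, by simp⟩
    · by_cases e : g = x
      · subst e
        refine ⟨_, r2, g, m g hg, ?_⟩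
        rw [← mul_assoc, sq _ (hs g hg), ← yxy g hg]; group
      · refine ⟨_, r4 x hx, x⁻¹ * g, mul_mem (inv_mem (m x hx)) (m g hg), ?_⟩
        have e1 : g * x = x⁻¹ * g⁻¹ := by
          rw [← mul_inv_rev]; exact eq_inv_of_mul_eq_one_left (by simpa [mul_assoc] using h2 g hg x hx e)
        calc g * (x * y⁻¹) = g * x * y⁻¹ := by group
          _ = x * (x * g⁻¹ * y⁻¹) := by rw [e1, ← sq _ (hs x hx)]; group
          _ = x * y⁻¹ * ((y * x * y) * (y * g * y)⁻¹) := by group
          _ = _ := by rw [yxy x hx, yxy g hg, inv_inv]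
  have step' : ∀ g ∈ insert y s, ∀ z, (∃ r ∈ R, ∃ k ∈ K, z = r * k) → ∃ r ∈ R, ∃ k ∈ K, g * z = r * k := by
    rintro g hg _ ⟨r, hr, k, hk, rfl⟩
    obtain ⟨r', hr', k', hk', e⟩ := step g hg r hr
    exact ⟨r', hr', k' * k, mul_mem hk' hk, by rw [← mul_assoc, e, mul_assoc]⟩
  have key : ∀ g ∈ closure (insert y s), ∃ r ∈ R, ∃ k ∈ K, g = r * k := fun g hg => by
    induction hg using closure_induction_left with
    | one => exact ⟨1, r1, 1, one_mem _, by simp⟩
    | mul_left x hx z _ ih => exact step' x hx z ih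
    | inv_mul_cancel x hx z _ ih =>
      rw [← sq x (by rcases hx with rfl | hx; exacts [hy, hs x hx]), mul_assoc]
      exact step' x hx _ (step' x hx z ih)
  choose! r hr k hk e using key
  refine le_trans (Nat.card_le_card_of_injective (β := R × K) (fun g => (⟨r g, hr g g.2⟩, ⟨k g, hk g g.2⟩))
    fun a b h => Subtype.ext ?_) ?_
  · have e1 : r a = r b := Subtype.ext_iff.1 (Prod.ext_iff.1 h).1
    have e2 : k a = k b := Subtype.ext_iff.1 (Prod.ext_iff.1 h).2
    rw [e a a.2, e b b.2, e1, e2]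
  · rw [Nat.card_prod, Nat.card_coe_set_eq]; exact Nat.mul_le_mul_right _ hR

theorem carm_card [Finite G] (l : List G) (h3 : ∀ x ∈ l, x * x * x = 1)
    (h2 : l.Pairwise fun x z => x * z * x * z = 1) : 2 * Nat.card (closure {x | x ∈ l}) ≤ (l.length + 2).factorial := by
  classical
  induction l with
  | nil => simp
  | cons y l ih =>
    obtain ⟨h1, h2⟩ := List.pairwise_cons.1 h2
    haveI : Std.Symm fun x z : G => x * z * x * z = 1 := ⟨fun a b h => by
      calc b * a * b * a = b * (a * b * a * b) * b⁻¹ := by group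
        _ = 1 := by rw [h]; simp⟩
    have := carm_step (s := {x | x ∈ l}) (y := y) (fun x hx => h3 x (List.mem_cons_of_mem _ hx))
      (h3 y List.mem_cons_self) h1 fun x hx z hz ne => h2.forall hx hz ne
    have h4 : {x | x ∈ l}.ncard ≤ l.length := by
      rw [← List.coe_toFinset, Set.ncard_coe_finset]; exact l.toFinset_card_le
    have h5 := ih (fun x hx => h3 x (List.mem_cons_of_mem _ hx)) h2
    rw [show {x | x ∈ y :: l} = insert y {x | x ∈ l} by ext; simp, List.length_cons, Nat.factorial_succ]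
    calc _ ≤ 2 * ((l.length + 3) * Nat.card (closure {x | x ∈ l})) :=
          Nat.mul_le_mul_left _ (this.trans (Nat.mul_le_mul_right _ (by omega)))
      _ = (l.length + 3) * (2 * Nat.card (closure {x | x ∈ l})) := by ring
      _ ≤ _ := Nat.mul_le_mul_left _ h5

theorem card_A7 : Nat.card (alternatingGroup (Fin 7)) = 2520 := by
  rw [nat_card_alternatingGroup]; simp [Nat.factorial]

/-- the three-cycles through `5` and `6` -/
def c7 (i : Fin 5) : alternatingGroup (Fin 7) :=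
  ⟨swap 5 6 * swap (i.castLE (by norm_num)) 5, Perm.mem_alternatingGroup.2 (by revert i; decide)⟩

theorem c7_gen {H : Subgroup (alternatingGroup (Fin 7))} (h : ∀ i, c7 i ∈ H) : H = ⊤ := by
  have k : ∀ a b : Fin 7, a ≠ b → swap 5 6 * swap a b = 1 ∨ ∃ i, swap 5 6 * swap a b = (c7 i).1 ∨
      swap 5 6 * swap a b = (c7 i * c7 i).1 ∨ ∃ j, swap 5 6 * swap a b = (c7 i * c7 j * c7 j * c7 i).1 := by
    decide +kernel
  have h1 : ∀ a b : Fin 7, a ≠ b → swap 5 6 * swap a b ∈ H.map (alternatingGroup (Fin 7)).subtype := fun a b ne => by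
    rcases k a b ne with e | ⟨i, e | e | ⟨j, e⟩⟩ <;> rw [e]
    exacts [one_mem _, ⟨_, h i, rfl⟩, ⟨_, mul_mem (h i) (h i), rfl⟩,
      ⟨_, mul_mem (mul_mem (mul_mem (h i) (h j)) (h j)) (h i), rfl⟩]
  have : alternatingGroup (Fin 7) ≤ H.map (alternatingGroup (Fin 7)).subtype := by
    refine Perm.closure_three_cycles_eq_alternating.ge.trans ((closure_le _).2 fun s hs => ?_)
    obtain ⟨x, hx⟩ := Finset.card_pos.1 (show 0 < s.support.card by rw [hs.card_support]; norm_num)
    have h2 := Perm.mem_support.1 hx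
    rw [SetLike.mem_coe, (Perm.IsThreeCycle.eq_swap_mul_swap_iff_mem_support hs).2 hx]
    simpa [mul_assoc] using mul_mem (inv_mem (h1 x (s x) h2.symm)) (h1 (s x) (s (s x)) (s.injective.ne h2.symm))
  refine eq_top_iff.2 fun g _ => ?_
  obtain ⟨g', hg', e⟩ := this g.2
  exact Subtype.ext e ▸ hg'

theorem carmichael [Finite G] (x : Fin 5 → G) (h3 : ∀ i, x i * x i * x i = 1)
    (h2 : ∀ i j, i ≠ j → x i * x j * x i * x j = 1) : ∃ φ : alternatingGroup (Fin 7) →* G, ∀ i, φ (c7 i) = x i := by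
  let y : Fin 5 → alternatingGroup (Fin 7) × G := fun i => (c7 i, x i)
  have c3 : ∀ i, c7 i * c7 i * c7 i = 1 := by decide +kernel
  have c2 : ∀ i j, i ≠ j → c7 i * c7 j * c7 i * c7 j = 1 := by decide +kernel
  have hc := carm_card (List.ofFn y) (fun z hz => by
      obtain ⟨i, rfl⟩ := List.mem_ofFn.1 hz
      exact Prod.ext (c3 i) (h3 i))
    (List.pairwise_ofFn.2 fun i j h => Prod.ext (c2 i j h.ne) (h2 i j h.ne))
  set Γ := closure {z | z ∈ List.ofFn y}
  have my : ∀ i, y i ∈ Γ := fun i => subset_closure (List.mem_ofFn.2 ⟨i, rfl⟩)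
  let f : Γ →* alternatingGroup (Fin 7) := (MonoidHom.fst _ _).comp Γ.subtype
  have hf : Function.Bijective f := (MonoidHom.range_eq_top.1 (c7_gen fun i => ⟨⟨_, my i⟩, rfl⟩)).bijective_of_nat_card_le
    (by rw [card_A7]; simp only [List.length_ofFn, Nat.factorial] at hc; omega)
  refine ⟨((MonoidHom.snd _ _).comp Γ.subtype).comp (MulEquiv.ofBijective f hf).symm.toMonoidHom, fun i => ?_⟩
  have : (MulEquiv.ofBijective f hf).symm (c7 i) = ⟨_, my i⟩ := (MulEquiv.symm_apply_eq _).2 rfl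
  simp only [MonoidHom.comp_apply, MulEquiv.coe_toMonoidHom, this]; rfl

theorem a7_of_carm [Finite G] (hG : Nat.card G = 2520) (x : Fin 5 → G) (h0 : x 0 ≠ 1) (h3 : ∀ i, x i * x i * x i = 1)
    (h2 : ∀ i j, i ≠ j → x i * x j * x i * x j = 1) : Nonempty (G ≃* alternatingGroup (Fin 7)) := by
  obtain ⟨φ, hφ⟩ := carmichael x h3 h2
  haveI := alternatingGroup.isSimpleGroup (α := Fin 7) (by simp)
  have : Function.Injective φ := (MonoidHom.ker_eq_bot_iff _).1 (φ.normal_ker.eq_bot_or_eq_top.resolve_right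
    fun e => h0 (hφ 0 ▸ MonoidHom.mem_ker.1 (e ▸ mem_top _)))
  exact ⟨(MulEquiv.ofBijective φ (this.bijective_of_nat_card_le (by rw [card_A7, hG]))).symm⟩

theorem a7_of_index [Finite G] [IsSimpleGroup G] (hG : Nat.card G = 2520) {H : Subgroup G} (hH : H ≠ ⊤)
    (h : H.index ≤ 7) : Nonempty (G ≃* alternatingGroup (Fin 7)) := by
  have hp := Zas.perfect_of_card (G := G) (by rw [hG]; norm_num)
  have h7 := Zas.le_of_dvd_factorial (hG ▸ Zas.dvd_factorial hp hH) (k := 7) (by decide)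
  let e : G ⧸ H ≃ Fin 7 := Finite.equivFinOfCardEq (le_antisymm h h7)
  let f : G →* Perm (Fin 7) := e.permCongrHom.toMonoidHom.comp (MulAction.toPermHom G (G ⧸ H))
  have hf : Function.Injective f := e.permCongrHom.injective.comp (Zas.toPerm_injective hH)
  let f' : G →* alternatingGroup (Fin 7) := f.codRestrict _ fun g =>
    Abelianization.commutator_subset_ker (Perm.sign.comp f) (hp ▸ mem_top g)
  exact ⟨MulEquiv.ofBijective f' (((MonoidHom.injective_codRestrict _ _ _).2 hf).bijective_of_nat_card_le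
    (by rw [card_A7, hG]))⟩

theorem orb_card {Ω : Type*} [MulAction G Ω] (A : Subgroup G) (x : Ω) :
    Nat.card ↥(A ⊓ MulAction.stabilizer G x) * {y | ∃ g ∈ A, g • x = y}.ncard = Nat.card A := by
  have h1 : MulAction.stabilizer A x = (MulAction.stabilizer G x).subgroupOf A := by ext; rfl
  rw [inf_comm, ← card_inf_mul_relIndex (MulAction.stabilizer G x) A, relIndex, ← h1, MulAction.index_stabilizer]
  congr 2
  ext y
  exact ⟨fun ⟨h, hh, e⟩ => ⟨⟨h, hh⟩, e⟩, fun ⟨h, e⟩ => ⟨h, h.2, e⟩⟩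

theorem cls_card (A : Subgroup G) (x : G) :
    Nat.card ↥(A ⊓ 𝐂[x]) * {y | ∃ g ∈ A, g * x * g⁻¹ = y}.ncard = Nat.card A := by
  letI : MulAction G G := MulAction.compHom G (MulAut.conj (G := G))
  have h1 : MulAction.stabilizer G x = 𝐂[x] := by
    ext h
    rw [MulAction.mem_stabilizer_iff, mem_cent1_iff, ← mul_inv_eq_iff_eq_mul]
    rfl
  rw [← h1]
  exact orb_card A x

end CA.GW
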