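/-
Recognition of `A₇` from the commuting graph on the 35 conjugates of a subgroup of order 3.
-/
import Cfsg.Agent.Lib.GW.A7a

set_option autoImplicit false
set_option linter.unusedSectionVars false

namespace CA.GW

open Subgroup CA

theorem ncard_four {α : Type*} (a b c d : α) : ({a, b, c, d} : Set α).ncard ≤ 4 :=
  (Set.ncard_insert_le _ _).trans (Nat.succ_le_succ ((Set.ncard_insert_le _ _).trans (Nat.succ_le_succ
    ((Set.ncard_insert_le _ _).trans (Nat.succ_le_succ (Set.ncard_singleton _).le)))))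

/-- The subgroup `M = (A₄ × 3) : 2` and the normalizer of a Sylow 3-subgroup. -/
structure A7D (G : Type*) [Group G] where
  t : G
  v : G
  a : G
  s : G
  n : G
  V : Subgroup G
  P : Subgroup G
  M : Subgroup G
  cG : Nat.card G = 2520
  cM : Nat.card M = 72
  mem_V : ∀ {w : G}, w ∈ V ↔ w = 1 ∨ w = t ∨ w = v ∨ w = t * v
  VV : ∀ {w : G}, w ∈ V → w * w = 1
  t1 : t ≠ 1
  V_le : V ≤ M
  P_le : P ≤ M
  M_norm : M ≤ 𝐍(V)
  M_eq : M = 𝐍(zpowers a)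
  aP : a ∈ P
  oa : orderOf a = 3
  Pcomm : ∀ {p q : G}, p ∈ P → q ∈ P → p * q = q * p
  P3 : ∀ {p : G}, p ∈ P → p * p * p = 1
  aV : ∀ {w : G}, w ∈ V → a * w = w * a
  VP : V ⊓ P = ⊥
  sM : s ∈ M
  ss : s * s = 1
  sP : ∀ {p : G}, p ∈ P → s * p * s⁻¹ = p⁻¹
  dec : ∀ {g : G}, g ∈ M → ∃ w ∈ V, ∃ p ∈ P, g = w * p ∨ g = w * p * s
  three : ∀ {i c : G}, i ∈ V → i ≠ 1 → c * c * c = 1 → c * i = i * c → c ∈ zpowers a
  two : ∃ t0, ∀ w ∈ V, s * w = w * s → w = 1 ∨ w = t0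
  sV : ∃ w ∈ V, s * w ≠ w * s
  conj : ∃ h, h * s * h⁻¹ = t
  nP : n ∈ 𝐍(P)
  nM : n ∉ M
  nn : n * n ∈ M
  ns : n⁻¹ * s * n ∈ M
  cQ : Nat.card ↥(M ⊓ 𝐍(P)) ≤ 18

namespace A7D

variable {G : Type*} [Group G] [Finite G] (D : A7D G)

theorem a1 : D.a ≠ 1 := fun e => by have := D.oa; rw [e, orderOf_one] at this; omega
theorem tV : D.t ∈ D.V := D.mem_V.2 (Or.inr (Or.inl rfl))
theorem cjV {g w : G} (hg : g ∈ D.M) (hw : w ∈ D.V) : g * w * g⁻¹ ∈ D.V := conj_mem_of_mem_normalizer (D.M_norm hg) hw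
theorem U_le : zpowers D.a ≤ D.P := zpowers_le.2 D.aP
theorem mem_M {g : G} (h : g * D.a * g⁻¹ ∈ zpowers D.a) : g ∈ D.M :=
  D.M_eq ▸ mem_normalizer_of_cj_le (by rw [cj_zpowers]; exact zpowers_le.2 h)
theorem cjU {g c : G} (hg : g ∈ D.M) (h : c ∈ zpowers D.a) : g * c * g⁻¹ ∈ zpowers D.a :=
  conj_mem_of_mem_normalizer (D.M_eq ▸ hg) h
theorem UV {c w : G} (h : c ∈ zpowers D.a) (hw : w ∈ D.V) : c * w = w * c :=
  mem_cent1_iff.1 (zpowers_le.2 (mem_cent1_iff.2 (D.aV hw)) h)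
theorem eq_one {x : G} (h1 : x ∈ D.V) (h2 : x ∈ D.P) : x = 1 := mem_bot.1 (D.VP ▸ mem_inf.2 ⟨h1, h2⟩)
theorem sa : D.s * D.a ≠ D.a * D.s := fun e => D.a1 (by
  have h1 := D.sP D.aP
  rw [e, mul_inv_cancel_right] at h1
  have h2 := D.P3 D.aP
  rwa [mul_assoc, mul_eq_one_iff_eq_inv.2 h1, mul_one] at h2)
theorem VP_a {w p : G} (hw : w ∈ D.V) (hp : p ∈ D.P) : w * p * D.a = D.a * (w * p) := by
  rw [mul_assoc, D.Pcomm hp D.aP, ← mul_assoc, ← D.aV hw, mul_assoc]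
theorem dec_a {g : G} (hg : g ∈ D.M) (h : g * D.a = D.a * g) : ∃ w ∈ D.V, ∃ p ∈ D.P, g = w * p := by
  obtain ⟨w, hw, p, hp, e | rfl⟩ := D.dec hg
  · exact ⟨w, hw, p, hp, e⟩
  · exact absurd (mul_left_cancel (a := w * p) (by
      rw [← mul_assoc, h, ← mul_assoc (w * p), D.VP_a hw hp, mul_assoc, mul_assoc, mul_assoc])) D.sa
theorem b_not : D.n * D.a * D.n⁻¹ ∉ zpowers D.a := fun h => D.nM (D.mem_M h)
theorem bP : D.n * D.a * D.n⁻¹ ∈ D.P := conj_mem_of_mem_normalizer D.nP D.aP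
theorem b'P : D.n⁻¹ * D.a * D.n ∈ D.P := conj_inv_mem_of_mem_normalizer D.nP D.aP
theorem b'_not : D.n⁻¹ * D.a * D.n ∉ zpowers D.a := fun h =>
  D.nM (inv_mem_iff.1 (D.mem_M (by rwa [inv_inv])))

/-- the base vertex -/
def x0 : G ⧸ D.M := ((1 : G) : G ⧸ D.M)
/-- a neighbour of the base vertex -/
def x1 : G ⧸ D.M := D.n • D.x0
/-- adjacency -/
def adj (x y : G ⧸ D.M) : Prop := ∃ g : G, g • D.x0 = x ∧ g • D.x1 = y

theorem fix0 {g : G} : g • D.x0 = D.x0 ↔ g ∈ D.M := by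
  rw [x0, MulAction.Quotient.smul_mk, eq_comm, QuotientGroup.eq]; simp
theorem fix1 {g : G} : g • D.x1 = D.x1 ↔ D.n⁻¹ * g * D.n ∈ D.M := by
  rw [← fix0, mul_smul, mul_smul, inv_smul_eq_iff]; rfl
theorem P_x1 {p : G} (hp : p ∈ D.P) : p • D.x1 = D.x1 := D.fix1.2 (D.P_le (conj_inv_mem_of_mem_normalizer D.nP hp))
theorem s_x1 : D.s • D.x1 = D.x1 := D.fix1.2 D.ns
theorem n_x1 : D.n • D.x1 = D.x0 := by rw [x1, ← mul_smul, D.fix0.2 D.nn]
variable {D} in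
theorem adj.smul {x y : G ⧸ D.M} (h : D.adj x y) (k : G) : D.adj (k • x) (k • y) := by
  obtain ⟨g, rfl, rfl⟩ := h
  exact ⟨k * g, mul_smul _ _ _, mul_smul _ _ _⟩
variable {D} in
theorem adj.symm {x y : G ⧸ D.M} (h : D.adj x y) : D.adj y x := by
  obtain ⟨g, rfl, rfl⟩ := h
  exact ⟨g * D.n, mul_smul _ _ _, by rw [mul_smul, n_x1]⟩
theorem adj01 : D.adj D.x0 D.x1 := ⟨1, one_smul _ _, one_smul _ _⟩
theorem M_x1 {g : G} (hg : g ∈ D.M) : ∃ w ∈ D.V, g • D.x1 = w • D.x1 ∧ w⁻¹ * g ∈ 𝐍(D.P) := by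
  have hs : D.s ∈ 𝐍(D.P) := mem_normalizer_of_cj_le (cj_le_iff'.2 fun p hp => D.sP hp ▸ inv_mem hp)
  obtain ⟨w, hw, p, hp, rfl | rfl⟩ := D.dec hg
  · exact ⟨w, hw, by rw [mul_smul, D.P_x1 hp], by simpa using le_normalizer hp⟩
  · exact ⟨w, hw, by rw [mul_smul, mul_smul, D.s_x1, D.P_x1 hp], by
      simpa [mul_assoc] using mul_mem (le_normalizer hp) hs⟩
theorem nbr {y : G ⧸ D.M} (h : D.adj D.x0 y) : ∃ w ∈ D.V, y = w • D.x1 := by
  obtain ⟨g, h0, rfl⟩ := h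
  obtain ⟨w, hw, e, -⟩ := D.M_x1 (D.fix0.1 h0)
  exact ⟨w, hw, e⟩
theorem P_comm {p w : G} (hp : p ∈ D.P) (h : p ∉ zpowers D.a) (hw : w ∈ D.V) (e : p * w = w * p) : w = 1 :=
  by_contra fun w1 => h (D.three hw w1 (D.P3 hp) e)
theorem commV {g w : G} (hg : g ∈ D.M) (hw : w ∈ D.V) : w * g * w⁻¹ * g⁻¹ ∈ D.V := by
  simpa [mul_assoc] using mul_mem hw (D.cjV hg (inv_mem hw))
theorem V_free {w : G} (hw : w ∈ D.V) (e : w • D.x1 = D.x1) : w = 1 := by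
  have h1 := conj_mem_of_mem_normalizer D.nP (D.U_le (D.cjU (D.fix1.1 e) (mem_zpowers D.a)))
  have h2 := D.eq_one (D.commV (D.P_le D.bP) hw) (mul_mem (by simpa [mul_assoc] using h1) (inv_mem D.bP))
  exact D.P_comm D.bP D.b_not hw (mul_inv_eq_iff_eq_mul.1 (mul_inv_eq_one.1 h2)).symm

/-- `c` belongs to the subgroup of order 3 attached to `x` -/
def Ux (x : G ⧸ D.M) (c : G) : Prop := ∀ g : G, g • D.x0 = x → g⁻¹ * c * g ∈ zpowers D.a
theorem ux {g c : G} (h : c ∈ zpowers D.a) : D.Ux (g • D.x0) (g * c * g⁻¹) := fun k hk => by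
  simpa [mul_assoc] using D.cjU (D.fix0.1 (show (k⁻¹ * g) • D.x0 = D.x0 by rw [mul_smul, ← hk, inv_smul_smul])) h
variable {D} in
theorem adj.comm {x y : G ⧸ D.M} (h : D.adj x y) {c d : G} (hc : D.Ux x c) (hd : D.Ux y d) :
    c * d = d * c ∧ c • y = y := by
  obtain ⟨g, rfl, rfl⟩ := h
  have h1 := D.U_le (hc g rfl)
  have h2 := conj_mem_of_mem_normalizer D.nP (D.U_le (hd (g * D.n) (mul_smul _ _ _)))
  refine ⟨?_, ?_⟩
  · refine mul_right_cancel (b := g) ?_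
    simpa [mul_assoc] using D.Pcomm h1 h2
  · have := D.P_x1 h1
    rwa [mul_smul, mul_smul, inv_smul_eq_iff] at this
theorem uniq {g i : G} (hi : i ∈ D.V) (i1 : i ≠ 1) (e : g * D.a * g⁻¹ * i = i * (g * D.a * g⁻¹)) : g ∈ D.M :=
  D.mem_M (D.three hi i1 (by rw [conj_mul, conj_mul, D.P3 D.aP]; simp) e)

theorem no4 {x x' y y' : G ⧸ D.M} (h1 : D.adj x y) (h2 : D.adj x y') (h3 : D.adj x' y) (h4 : D.adj x' y')
    (ne : x ≠ x') : y = y' := by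
  obtain ⟨g, rfl, rfl⟩ := h1
  obtain ⟨w, hw, e⟩ := D.nbr (show D.adj D.x0 (g⁻¹ • y') by simpa using h2.smul g⁻¹)
  obtain ⟨k, hk, -⟩ := h3.smul g⁻¹
  replace h3 : D.adj (k • D.x0) (D.n • D.x0) := by simpa [hk, x1] using h3.smul g⁻¹
  replace h4 : D.adj (k • D.x0) ((w * D.n) • D.x0) := by
    have := h4.smul g⁻¹
    rwa [e, ← hk, x1, ← mul_smul w] at this
  have c1 := (h3.comm (D.ux (mem_zpowers _)) (D.ux (mem_zpowers _))).1
  have c2 := (h4.comm (D.ux (mem_zpowers _)) (D.ux (mem_zpowers _))).1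
  by_cases i1 : w * (D.n * D.a * D.n⁻¹) * w⁻¹ * (D.n * D.a * D.n⁻¹)⁻¹ = 1
  · rw [D.P_comm D.bP D.b_not hw (mul_inv_eq_iff_eq_mul.1 (mul_inv_eq_one.1 i1)).symm, one_smul,
      inv_smul_eq_iff] at e
    exact e.symm
  refine absurd ?_ ne
  rw [show w * D.n * D.a * (w * D.n)⁻¹ = w * (D.n * D.a * D.n⁻¹) * w⁻¹ by group] at c2
  have := D.uniq (g := k) (D.commV (D.P_le D.bP) hw) i1 (mem_cent1_iff.1 (mul_mem (mem_cent1_iff.2 c2.symm)
    (inv_mem (mem_cent1_iff.2 c1.symm)))).symm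
  rw [D.fix0.2 this] at hk
  rw [hk, smul_inv_smul]

theorem perm3 {c : G} (hc : c ∈ D.M) (h3 : c * c * c = 1) (h : ∀ w ∈ D.V, c * w = w * c → w = 1) {w : G}
    (hw : w ∈ D.V) (w1 : w ≠ 1) : ∃ k ∈ zpowers c, w = k * D.t * k⁻¹ := by
  have hB := D.cjV hc D.tV
  have hC := D.cjV hc hB
  have B1 : c * D.t * c⁻¹ ≠ 1 := fun e => D.t1 (conj_eq_one_iff.1 e)
  have C1 : c * (c * D.t * c⁻¹) * c⁻¹ ≠ 1 := fun e => B1 (conj_eq_one_iff.1 e)
  have n1 : c * D.t * c⁻¹ ≠ D.t := fun e => D.t1 (h _ D.tV (mul_inv_eq_iff_eq_mul.1 e))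
  have n2 : c * (c * D.t * c⁻¹) * c⁻¹ ≠ c * D.t * c⁻¹ := fun e => B1 (h _ hB (mul_inv_eq_iff_eq_mul.1 e))
  have n3 : c * (c * D.t * c⁻¹) * c⁻¹ ≠ D.t := fun e => n1 (by
    nth_rw 1 [← e]
    calc _ = (c * c * c) * D.t * (c * c * c)⁻¹ := by group
      _ = _ := by rw [h3]; simp)
  have : w = D.t ∨ w = c * D.t * c⁻¹ ∨ w = c * (c * D.t * c⁻¹) * c⁻¹ := by
    have := D.mem_V.1 hB; have := D.mem_V.1 hC; have := D.mem_V.1 hw
    grind
  rcases this with e | e | e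
  exacts [⟨1, one_mem _, by simp [e]⟩, ⟨c, mem_zpowers c, e⟩,
    ⟨c * c, mul_mem (mem_zpowers c) (mem_zpowers c), by rw [e]; group⟩]

theorem card_cs : Nat.card ↥(D.M ⊓ 𝐂[D.s]) ≤ 4 := by
  obtain ⟨t0, h0⟩ := D.two
  have k : ∀ w ∈ D.V, ∀ p ∈ D.P, D.s * (w * p) = w * p * D.s → w * p = 1 ∨ w * p = t0 := fun w hw p hp e => by
    have h1 : w⁻¹ * (D.s * w * D.s⁻¹) = p * p := by
      calc _ = w⁻¹ * (D.s * (w * p) * D.s⁻¹) * (D.s * p * D.s⁻¹)⁻¹ := by group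
        _ = _ := by rw [e, D.sP hp]; group
    have h2 := D.eq_one (h1 ▸ mul_mem (inv_mem hw) (D.cjV D.sM hw)) (mul_mem hp hp)
    have h3 := D.P3 hp
    rw [h2, one_mul] at h3
    rw [h3, mul_one] at e ⊢
    exact h0 w hw e
  refine (Set.ncard_le_ncard (t := {1, t0, D.s, t0 * D.s}) (fun g hg => ?_) (Set.toFinite _)).trans
    (ncard_four _ _ _ _)
  obtain ⟨w, hw, p, hp, rfl | rfl⟩ := D.dec hg.1
  · rcases k w hw p hp (mem_cent1_iff.1 hg.2).symm with e | e <;> simp [e]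
  · rcases k w hw p hp (mul_right_cancel (b := D.s) (by
      rw [mul_assoc D.s, ← mem_cent1_iff.1 hg.2])) with e | e <;> simp [e]

section
variable {h : G} (hh : h * D.s * h⁻¹ = D.t)
include hh

theorem V_z {w : G} (hw : w ∈ D.V) (e : w • h • D.x0 = h • D.x0) : w = 1 ∨ w = D.t := by
  have k : ∀ i ∈ D.V, h⁻¹ * i * h * D.a = D.a * (h⁻¹ * i * h) → i = 1 := fun i hi e => by_contra fun i1 => by
    have hM := D.uniq (g := h) hi i1 (by
      calc _ = h * (D.a * (h⁻¹ * i * h)) * h⁻¹ := by group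
        _ = _ := by rw [← e]; group)
    have := D.cjV (inv_mem hM) D.tV
    rw [← hh] at this
    exact D.sa (D.aV (by simpa [mul_assoc] using this)).symm
  obtain ⟨u, hu, p, hp, e | e⟩ := D.dec (D.fix0.1 (show (h⁻¹ * w * h) • D.x0 = D.x0 by
    rw [mul_smul, mul_smul, e, inv_smul_smul]))
  · exact Or.inl (k w hw (e ▸ D.VP_a hu hp))
  · refine Or.inr ((mul_inv_eq_one.1 (k _ (mul_mem hw (inv_mem D.tV)) ?_)))
    rw [show h⁻¹ * (w * D.t⁻¹) * h = u * p by rw [← hh, ← mul_inv_eq_iff_eq_mul.2 e]; group]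
    exact D.VP_a hu hp
theorem t_z : D.t • h • D.x0 = h • D.x0 := by rw [← hh, mul_smul, inv_smul_smul, mul_smul, D.fix0.2 D.sM]
theorem st_z {A : Subgroup G} (hA : A ≤ D.M ⊓ MulAction.stabilizer G (h • D.x0)) : Nat.card A ≤ 4 := by
  refine le_trans ?_ D.card_cs
  rw [← card_cj h⁻¹]
  refine card_le_of_le' (cj_le_iff'.2 fun g hg => ?_)
  obtain ⟨h1, h2⟩ := hA hg
  replace h2 : g • h • D.x0 = h • D.x0 := h2
  have h3 := (D.V_z hh (D.cjV h1 D.tV) (by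
    rw [mul_smul, mul_smul, inv_smul_eq_iff.2 h2.symm, D.t_z hh, h2])).resolve_left
    fun e => D.t1 (conj_eq_one_iff.1 e)
  refine ⟨D.fix0.1 (by rw [inv_inv, mul_smul, mul_smul, h2, inv_smul_smul]), mem_cent1_iff.2 ?_⟩
  rw [← hh] at h3
  calc _ = h⁻¹ * (g * (h * D.s * h⁻¹) * g⁻¹) * g * h := by group
    _ = _ := by rw [h3]; group
end

theorem card_nbr (y : G ⧸ D.M) : {z | D.adj y z}.ncard ≤ 4 := by
  induction y using QuotientGroup.induction_on with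
  | H g =>
    refine (Set.ncard_le_ncard (t := {g • D.x1, g • D.t • D.x1, g • D.v • D.x1, g • (D.t * D.v) • D.x1})
      (fun z hz => ?_) (Set.toFinite _)).trans (ncard_four _ _ _ _)
    obtain ⟨w, hw, e⟩ := D.nbr (y := g⁻¹ • z) (by simpa [x0] using adj.smul hz g⁻¹)
    rw [inv_smul_eq_iff.1 e]
    rcases D.mem_V.1 hw with rfl | rfl | rfl | rfl <;> simp

theorem st_y2 : Nat.card ↥(D.M ⊓ MulAction.stabilizer G (D.n • D.t • D.x1)) ≤ 6 := by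
  have a2 : D.adj (D.n • D.t • D.x1) D.x1 := ((D.fix0.2 (D.V_le D.tV) ▸ D.adj01.smul D.t).smul D.n).symm
  have ne : D.x0 ≠ D.n • D.t • D.x1 := fun e =>
    D.t1 (D.V_free D.tV (MulAction.injective D.n (e.symm.trans D.n_x1.symm)))
  have := card_mul_card_le (A := D.M ⊓ MulAction.stabilizer G (D.n • D.t • D.x1)) (B := zpowers D.a)
    (M := D.M ⊓ 𝐍(D.P)) (fun g hg => by
      obtain ⟨w, hw, e, h⟩ := D.M_x1 hg.1
      have h2 : g • D.n • D.t • D.x1 = D.n • D.t • D.x1 := hg.2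
      have b1 := D.adj01.smul g
      have b2 := a2.smul g
      rw [D.fix0.2 hg.1] at b1
      rw [h2] at b2
      rw [D.no4 b1 D.adj01 b2 a2 ne] at e
      rw [D.V_free hw e.symm, inv_one, one_mul] at h
      exact ⟨hg.1, h⟩) (le_inf (D.U_le.trans D.P_le) (D.U_le.trans le_normalizer))
  rw [Nat.card_zpowers, D.oa, show D.M ⊓ MulAction.stabilizer G (D.n • D.t • D.x1) ⊓ zpowers D.a = ⊥ from ?_,
    card_bot] at this
  · have := D.cQ; omega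
  haveI : Fact (Nat.card (zpowers D.a)).Prime := ⟨by rw [Nat.card_zpowers, D.oa]; norm_num⟩
  refine (eq_bot_or_eq_of_prime_card (by rw [Nat.card_zpowers, D.oa]; norm_num) inf_le_right).resolve_right
    fun e => ?_
  have h2 : D.a • D.n • D.t • D.x1 = D.n • D.t • D.x1 := (e.ge (mem_zpowers _)).1.2
  have h3 := D.V_free (mul_mem (inv_mem D.tV) (D.cjV (D.P_le D.b'P) D.tV)) (by
    rw [mul_smul, mul_smul _ _⁻¹, D.P_x1 (inv_mem D.b'P), mul_smul, mul_smul, mul_smul, h2]; simp)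
  exact D.t1 (D.P_comm D.b'P D.b'_not D.tV (mul_inv_eq_iff_eq_mul.1 (inv_mul_eq_one.1 h3).symm))

theorem exists_m {h w : G} (hh : h * D.s * h⁻¹ = D.t) (hw : w ∈ D.V) (ne : D.s * w ≠ w * D.s) :
    ∃ m ∈ D.M, m • D.n • D.t • D.x1 = h • w • D.x1 := by
  by_contra hn
  have a0 : D.adj (h • D.x0) (h • w • D.x1) := (D.fix0.2 (D.V_le hw) ▸ D.adj01.smul w).smul h
  have a2 : D.adj (D.n • D.t • D.x1) D.x1 := ((D.fix0.2 (D.V_le D.tV) ▸ D.adj01.smul D.t).smul D.n).symm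
  have ne2 : D.x0 ≠ D.n • D.t • D.x1 := fun e =>
    D.t1 (D.V_free D.tV (MulAction.injective D.n (e.symm.trans D.n_x1.symm)))
  have ty : D.t • h • w • D.x1 ≠ h • w • D.x1 := fun e => ne (by
    rw [← hh, mul_smul, inv_smul_smul, mul_smul, smul_left_cancel_iff] at e
    have := D.V_free (mul_mem (inv_mem hw) (D.cjV D.sM hw)) (by
      rw [mul_smul, mul_smul, inv_smul_eq_iff.2 D.s_x1.symm, mul_smul, e, inv_smul_smul])
    exact mul_inv_eq_iff_eq_mul.1 (inv_mul_eq_one.1 this).symm)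
  have fx : ∀ y, ∀ g ∈ D.M, g • y = h • D.x0 → ∃ u ∈ D.V, u ≠ 1 ∧ u • y = y := fun y g hg e =>
    ⟨_, D.cjV (inv_mem hg) D.tV, fun e => D.t1 (conj_eq_one_iff.1 e), by
      rw [inv_inv, mul_smul, mul_smul, e, D.t_z hh, ← e, inv_smul_smul]⟩
  have Vc : ∀ u ∈ D.V, ∀ u' ∈ D.V, u * u' = u' * u := fun u hu u' hu' => by
    rw [← mul_inv_eq_one, mul_inv_rev, inv_eq_of_mul_eq_one_right (D.VV hu), inv_eq_of_mul_eq_one_right (D.VV hu'),
      D.VV (mul_mem hu hu')]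
  have o1 := orb_card D.M (h • D.x0)
  have o2 := orb_card D.M (D.n • D.t • D.x1)
  have o3 := orb_card D.M (h • w • D.x1)
  have o4 := orb_card (D.M ⊓ MulAction.stabilizer G (h • w • D.x1)) (h • D.x0)
  have s1 := D.st_z hh le_rfl
  have s2 := D.st_y2
  have s4 := D.st_z hh (A := D.M ⊓ MulAction.stabilizer G (h • w • D.x1) ⊓ MulAction.stabilizer G (h • D.x0))
    (inf_le_inf_right _ inf_le_left)
  have s5 : {y | ∃ g ∈ D.M ⊓ MulAction.stabilizer G (h • w • D.x1), g • h • D.x0 = y}.ncard ≤ 4 :=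
    (Set.ncard_le_ncard (by
      rintro _ ⟨g, hg, rfl⟩
      have h2 : g • h • w • D.x1 = h • w • D.x1 := hg.2
      exact h2 ▸ a0.symm.smul g) (Set.toFinite _)).trans (D.card_nbr (h • w • D.x1))
  have dj : ∀ x y : G ⧸ D.M, (∀ g ∈ D.M, g • x ≠ y) → Disjoint {z | ∃ g ∈ D.M, g • x = z} {z | ∃ g ∈ D.M, g • y = z} :=
    fun x y hxy => Set.disjoint_left.2 (by
      rintro _ ⟨g, hg, rfl⟩ ⟨k, hk, e⟩
      exact hxy _ (mul_mem (inv_mem hk) hg) (by rw [mul_smul, ← e, inv_smul_smul]))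
  have d1 := dj (D.n • D.t • D.x1) (h • D.x0) fun g hg e => by
    obtain ⟨u, hu, u1, e⟩ := fx _ g hg e
    exact u1 (D.V_free hu (D.no4 (D.fix0.2 (D.V_le hu) ▸ D.adj01.smul u) D.adj01 (e ▸ a2.smul u) a2 ne2))
  have d2 := dj (h • w • D.x1) (h • D.x0) fun g hg e => by
    obtain ⟨u, hu, u1, e⟩ := fx _ g hg e
    refine ty (D.no4 (x' := u • h • D.x0) (D.t_z hh ▸ a0.smul D.t) a0 ?_ (e ▸ a0.smul u) fun e' => ?_)
    · have := (a0.smul D.t).smul u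
      rwa [D.t_z hh, ← mul_smul u D.t, Vc u hu _ D.tV, mul_smul, e] at this
    · rcases D.V_z hh hu e'.symm with rfl | rfl
      exacts [u1 rfl, ty e]
  have d3 := dj (D.n • D.t • D.x1) (h • w • D.x1) fun g hg e => hn ⟨g, hg, e⟩
  have tot := Set.ncard_le_card ({z | ∃ g ∈ D.M, g • D.n • D.t • D.x1 = z} ∪ {z | ∃ g ∈ D.M, g • h • w • D.x1 = z} ∪
    {z | ∃ g ∈ D.M, g • h • D.x0 = z})
  rw [Set.ncard_union_eq (Set.disjoint_union_left.2 ⟨d1, d2⟩), Set.ncard_union_eq d3, ← index_eq_card] at tot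
  have ci := D.M.card_mul_index
  rw [D.cM] at o1 o2 o3 ci
  rw [D.cG] at ci
  generalize {y | ∃ g ∈ D.M, g • h • D.x0 = y}.ncard = A at *
  generalize {y | ∃ g ∈ D.M, g • D.n • D.t • D.x1 = y}.ncard = B at *
  generalize {y | ∃ g ∈ D.M, g • h • w • D.x1 = y}.ncard = C at *
  have hA : 18 ≤ A := by nlinarith
  have hB : 12 ≤ B := by nlinarith
  have hC : Nat.card ↥(D.M ⊓ MulAction.stabilizer G (h • w • D.x1)) ≤ 16 := by nlinarith
  have hC' : C ≤ 5 := by omega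
  interval_cases C <;> omega

include D in
theorem a7 : Nonempty (G ≃* alternatingGroup (Fin 7)) := by
  obtain ⟨h, hh⟩ := D.conj
  obtain ⟨w0, hw0, ne⟩ := D.sV
  obtain ⟨m, hm, e⟩ := D.exists_m hh hw0 ne
  have a0 : D.adj (h • D.x0) (h • w0 • D.x1) := (D.fix0.2 (D.V_le hw0) ▸ D.adj01.smul w0).smul h
  have a2 : D.adj D.x1 (D.n • D.t • D.x1) := (D.fix0.2 (D.V_le D.tV) ▸ D.adj01.smul D.t).smul D.n
  obtain ⟨b, hb⟩ : ∃ b, b = m * D.n * D.t * (D.n⁻¹ * D.a * D.n)⁻¹ * (m * D.n * D.t)⁻¹ := ⟨_, rfl⟩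
  have ub : D.Ux (h • w0 • D.x1) b := by
    have := D.ux (g := m * D.n * D.t * D.n) (inv_mem (D.cjU (inv_mem D.nn) (mem_zpowers D.a)))
    rw [mul_smul, mul_smul, mul_smul, show D.n • D.x0 = D.x1 from rfl, e] at this
    convert this using 1
    rw [hb]; group
  have b3 : b * b * b = 1 := by rw [hb, conj_mul, conj_mul, D.P3 (inv_mem D.b'P)]; simp
  have cjsq : ∀ k x y : G, y * y = 1 → x = k * y * k⁻¹ → x * x = 1 := fun k x y h e => by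
    rw [e, conj_mul, h]; simp
  have am := D.cjU hm (mem_zpowers D.a)
  have r1 : m * D.a * m⁻¹ * b * (m * D.a * m⁻¹ * b) = 1 :=
    cjsq (m * D.n) _ _ (D.VV (mul_mem (D.cjV (D.P_le D.b'P) D.tV) (inv_mem D.tV))) (by rw [hb]; group)
  have r2 : b * (D.t * b * D.t⁻¹) * (b * (D.t * b * D.t⁻¹)) = 1 := by
    obtain ⟨c1, -⟩ := a0.comm (D.ux (mem_zpowers _)) ub
    obtain ⟨-, c2⟩ := a0.symm.comm ub (D.ux (mem_zpowers _))
    obtain ⟨u, hu, p, hp, e⟩ := D.dec_a (g := h⁻¹ * b * h) (D.fix0.1 (by rw [mul_smul, mul_smul, c2, inv_smul_smul]))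
      (by calc _ = h⁻¹ * (b * (h * D.a * h⁻¹)) * h := by group
        _ = _ := by rw [← c1]; group)
    refine cjsq h _ _ (D.VV (mul_mem hu (D.cjV (D.P_le hp) (D.cjV D.sM hu)))) ?_
    calc _ = h * ((h⁻¹ * b * h) * (D.s * (h⁻¹ * b * h) * D.s⁻¹)) * h⁻¹ := by rw [← hh]; group
      _ = h * (u * p * (D.s * u * D.s⁻¹) * (D.s * p * D.s⁻¹)) * h⁻¹ := by rw [e]; group
      _ = _ := by rw [D.sP hp]; group
  have r3 : ∀ w ∈ D.V, w ≠ 1 → b * (w * b * w⁻¹) * (b * (w * b * w⁻¹)) = 1 := fun w hw w1 => by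
    obtain ⟨c1, -⟩ := (e ▸ a2.smul m).comm (mul_smul m D.n D.x0 ▸ D.ux (g := m * D.n) (mem_zpowers _)) ub
    have e1 : m * D.n * D.a * (m * D.n)⁻¹ = m * (D.n * D.a * D.n⁻¹) * m⁻¹ := by group
    rw [e1] at c1
    obtain ⟨k, hk, rfl⟩ := D.perm3 (mul_mem (mul_mem hm (D.P_le D.bP)) (inv_mem hm))
      (by rw [conj_mul, conj_mul, D.P3 D.bP]; simp) (fun u hu e => conj_eq_one_iff.1
        (D.P_comm D.bP D.b_not (D.cjV (inv_mem hm) hu) (by
          calc _ = m⁻¹ * (m * (D.n * D.a * D.n⁻¹) * m⁻¹ * u) * m := by group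
            _ = _ := by rw [e]; group))) hw w1
    have kb := mem_cent1_iff.1 (zpowers_le.2 (mem_cent1_iff.2 c1) hk)
    refine cjsq k _ _ r2 ?_
    calc _ = b * k * D.t * (k⁻¹ * (b * k)) * D.t⁻¹ * k⁻¹ := by group
      _ = _ := by rw [← kb]; group
  have r4 : ∀ u ∈ D.V, m * D.a * m⁻¹ * (u * b * u⁻¹) * (m * D.a * m⁻¹) * (u * b * u⁻¹) = 1 := fun u hu => by
    rw [mul_assoc]
    refine cjsq u _ _ r1 ?_
    rw [← mul_assoc, ← mul_assoc, D.UV am hu]; group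
  have r5 : ∀ u ∈ D.V, ∀ u' ∈ D.V, u ≠ u' → u * b * u⁻¹ * (u' * b * u'⁻¹) * (u * b * u⁻¹) * (u' * b * u'⁻¹) = 1 :=
    fun u hu u' hu' ne => by
      rw [mul_assoc]
      exact cjsq u _ _ (r3 _ (mul_mem (inv_mem hu) hu') fun e => ne (inv_mul_eq_one.1 e)) (by group)
  have sw : ∀ x y : G, x * y * x * y = 1 → y * x * y * x = 1 := fun x y h => by
    calc _ = y * (x * y * x * y) * y⁻¹ := by group
      _ = _ := by rw [h]; simp
  have vV : D.v ∈ D.V := D.mem_V.2 (by simp)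
  have hV : (1 : G) ≠ D.v ∧ D.t ≠ D.v := by
    have k : ∀ w ∈ D.V, (w = 1 ∨ w = D.t) → D.t = D.n * D.a * D.n⁻¹ * D.t * (D.n * D.a * D.n⁻¹)⁻¹ ∨
      D.n * D.a * D.n⁻¹ * D.t * (D.n * D.a * D.n⁻¹)⁻¹ ≠ w := fun w _ h => by
      rcases h with rfl | rfl
      exacts [Or.inr fun e => D.t1 (conj_eq_one_iff.1 e), (em _).imp Eq.symm id]
    have n1 : D.t ≠ D.n * D.a * D.n⁻¹ * D.t * (D.n * D.a * D.n⁻¹)⁻¹ := fun e =>
      D.t1 (D.P_comm D.bP D.b_not D.tV (mul_inv_eq_iff_eq_mul.1 e.symm))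
    have h1 := D.cjV (D.P_le D.bP) D.tV
    refine ⟨fun e => (k _ h1 ?_).elim n1 fun h => h rfl, fun e => (k _ h1 ?_).elim n1 fun h => h rfl⟩
    · have := D.mem_V.1 h1
      rw [← e, mul_one] at this; tauto
    · have := D.mem_V.1 h1
      rw [← e, D.VV D.tV] at this; tauto
  let f : Fin 4 → G := ![1, D.t, D.v, D.t * D.v]
  have fV : ∀ i, f i ∈ D.V := fun i => by
    fin_cases i
    exacts [one_mem _, D.tV, vV, mul_mem D.tV vV]
  have tv : (1 : G) ≠ D.t * D.v := fun e => hV.2 (mul_left_cancel (a := D.t) (by rw [D.VV D.tV, e]))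
  have fi : ∀ i j, i ≠ j → f i ≠ f j := fun i j => by
    have := D.t1
    fin_cases i <;> fin_cases j <;> simp [f, this, this.symm, hV.1, hV.1.symm, hV.2, hV.2.symm, tv, tv.symm]
  refine a7_of_carm D.cG (Fin.cons (m * D.a * m⁻¹) fun i => f i * b * (f i)⁻¹)
    (fun e => D.a1 (conj_eq_one_iff.1 e)) (fun i => ?_) fun i j => ?_
  · refine Fin.cases (D.P3 (D.U_le am)) (fun i => ?_) i
    rw [Fin.cons_succ, conj_mul, conj_mul, b3]; simp
  · refine Fin.cases (Fin.cases (fun h => absurd rfl h) (fun j _ => r4 _ (fV j)) j)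
      (fun i => Fin.cases (fun _ => sw _ _ (r4 _ (fV i)))
        (fun j h => r5 _ (fV i) _ (fV j) (fi i j fun e => h (e ▸ rfl))) j) i

end A7D

end CA.GW
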