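/-
A simple group of order 2520 with the involution centralizer of `A₇` is `A₇`.
-/
import Cfsg.Agent.Lib.GW.A7b

set_option autoImplicit false
set_option linter.unusedSectionVars false

namespace CA.GW

open Subgroup CA Cfsg

variable {G : Type*} [Group G] [Finite G]

/-- the four-group generated by two commuting involutions -/
def four (t v : G) (tt : t * t = 1) (vv : v * v = 1) (vt : v * t = t * v) : Subgroup G where
  carrier := {1, t, v, t * v}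
  one_mem' := Or.inl rfl
  mul_mem' := by
    have h1 : ∀ x, t * (t * x) = x := fun x => by rw [← mul_assoc, tt, one_mul]
    have h2 : ∀ x, v * (t * x) = t * (v * x) := fun x => by rw [← mul_assoc, vt, mul_assoc]
    rintro a b (rfl | rfl | rfl | rfl) (rfl | rfl | rfl | rfl) <;> simp [mul_assoc, tt, vv, vt, h1, h2]
  inv_mem' := by
    rintro a (rfl | rfl | rfl | rfl) <;>
      simp [inv_eq_of_mul_eq_one_right tt, inv_eq_of_mul_eq_one_right vv, vt]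

theorem cube_of_mem {a c : G} (ha : orderOf a = 3) (hc : c ∈ zpowers a) : c * c * c = 1 := by
  rw [← pow_three', ← orderOf_dvd_iff_pow_eq_one, ← ha]; exact orderOf_dvd_of_mem_zpowers hc

theorem a7 [IsSimpleGroup G] (hG : Nat.card G = 2520) {t u v : G} (ht : orderOf t = 2)
    (one : ∀ i : G, orderOf i = 2 → IsConj t i) (hC : Nat.card 𝐂[t] = 24) (hu : orderOf u = 3)
    (hU : 𝐂[t] ≤ 𝐍(zpowers u)) (ut : u * t = t * u) (hv : orderOf v = 2) (vt : v ≠ t) (vt' : v * t = t * v)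
    (uv : u * v = v * u) (hn : ¬ 𝐂[t] ≤ 𝐂[u]) (hd : ¬ 𝐂[t] ≤ 𝐂[v]) : Nonempty (G ≃* alternatingGroup (Fin 7)) := by
  by_contra hA
  haveI := Fact.mk Nat.prime_three
  haveI := Fact.mk Nat.prime_two
  obtain ⟨tt, t1⟩ : t * t = 1 ∧ t ≠ 1 := by rw [← sq]; exact (orderOf_eq_prime_iff.1 ht)
  obtain ⟨vv, v1⟩ : v * v = 1 ∧ v ≠ 1 := by rw [← sq]; exact (orderOf_eq_prime_iff.1 hv)
  have u1 : u ≠ 1 := (orderOf_eq_prime_iff.1 hu).2
  have tv1 : t * v ≠ 1 := fun e => vt (mul_left_cancel (a := t) (e.trans tt.symm))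
  have cU : Nat.card (zpowers u) = 3 := by rw [Nat.card_zpowers, hu]
  have pU : IsPGroup 3 (zpowers u) := IsPGroup.of_card (n := 1) cU
  set V := four t v tt vv vt' with hV
  have mem_V : ∀ {w}, w ∈ V ↔ w = 1 ∨ w = t ∨ w = v ∨ w = t * v := Iff.rfl
  have tV : t ∈ V := mem_V.2 (by simp)
  have vV : v ∈ V := mem_V.2 (by simp)
  have Vt : V ≤ 𝐂[t] := by
    rintro _ (rfl | rfl | rfl | rfl)
    exacts [one_mem _, self_mem_cent1 _, mem_cent1_iff.2 vt', mul_mem (self_mem_cent1 _) (mem_cent1_iff.2 vt')]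
  have Vv : V ≤ 𝐂[v] := by
    rintro _ (rfl | rfl | rfl | rfl)
    exacts [one_mem _, mem_cent1_iff.2 vt'.symm, self_mem_cent1 _,
      mul_mem (mem_cent1_iff.2 vt'.symm) (self_mem_cent1 _)]
  have Vu : V ≤ 𝐂[u] := by
    rintro _ (rfl | rfl | rfl | rfl)
    exacts [one_mem _, mem_cent1_iff.2 ut.symm, mem_cent1_iff.2 uv.symm,
      mul_mem (mem_cent1_iff.2 ut.symm) (mem_cent1_iff.2 uv.symm)]
  have VV : ∀ {w}, w ∈ V → w * w = 1 := by
    rintro _ (rfl | rfl | rfl | rfl)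
    exacts [mul_one _, tt, vv, by rw [mul_assoc, ← mul_assoc v, vt', mul_assoc, vv, mul_one, tt]]
  have cV : Nat.card V = 4 := by
    change ({1, t, v, t * v} : Set G).ncard = 4
    rw [Set.ncard_insert_of_notMem (by simp [t1.symm, v1.symm, tv1.symm]),
      Set.ncard_insert_of_notMem (by simp [vt.symm, v1]), Set.ncard_pair (by simp [t1])]
  have UV : zpowers u ≤ 𝐂(V) := zpowers_le.2 (mem_cent_iff_le_cent1.2 Vu)
  have odd3 : ∀ x : G, x * x = 1 → x * x * x = 1 → x = 1 := fun x h2 h3 => by rwa [h2, one_mul] at h3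
  have cVU : Nat.card ↥(V ⊔ zpowers u) = 12 := by
    rw [card_sup_of_disjoint (Or.inl (norms_of_cents UV)) (eq_bot_iff.2 fun x hx =>
      odd3 x (VV hx.1) (cube_of_mem hu hx.2)), cV, cU]
  have half : ∀ A, V ⊔ zpowers u ≤ A → A < 𝐂[t] → A = V ⊔ zpowers u := fun A h1 h2 => by
    refine (eq_of_le_of_card_le h1 ?_).symm
    obtain ⟨k, hk⟩ := card_dvd_of_le' h1
    have := card_lt_of_lt' h2
    have : 0 < Nat.card A := Nat.card_pos
    rw [cVU] at hk ⊢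
    omega
  have Ut : zpowers u ≤ 𝐂[t] := zpowers_le.2 (mem_cent1_iff.2 ut)
  have tu : 𝐂[t] ⊓ 𝐂[u] = V ⊔ zpowers u := half _ (sup_le (le_inf Vt Vu) (le_inf Ut (zpowers_le.2 (self_mem_cent1 _))))
    (inf_lt_left.2 hn)
  have tv : 𝐂[t] ⊓ 𝐂[v] = V ⊔ zpowers u := half _ (sup_le (le_inf Vt Vv)
    (le_inf Ut (zpowers_le.2 (mem_cent1_iff.2 uv)))) (inf_lt_left.2 hd)
  have invV : ∀ i ∈ 𝐂[t] ⊓ 𝐂[u], i * i = 1 → i ∈ V := fun i hi h2 => by
    obtain ⟨w, hw, c, hc, rfl⟩ := (mem_sup_of_norm_right (norms_of_cents UV)).1 (tu ▸ hi)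
    rw [mul_assoc, ← mul_assoc c, ← mem_cent_iff.1 (UV hc) w hw, mul_assoc, ← mul_assoc, VV hw, one_mul] at h2
    rw [odd3 c h2 (cube_of_mem hu hc), mul_one]; exact hw
  have sylU : SylowIn 3 (zpowers u) 𝐂[t] := sylowIn_mk Nat.prime_three Ut pU (by
    have := card_mul_relIndex Ut; rw [cU, hC] at this; omega)
  have three0 : ∀ c, c * c * c = 1 → c * t = t * c → c ∈ zpowers u := fun c h3 hc =>
    sylU.le_of_norm' (Q := zpowers c) ((piGrp_singleton_iff Nat.prime_three).2 (IsPGroup.of_card_dvd_pow (n := 1) (by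
      rw [Nat.card_zpowers]; exact orderOf_dvd_of_pow_eq_one (by rwa [pow_one, pow_three']))))
      (zpowers_le.2 (mem_cent1_iff.2 hc)) ((zpowers_le.2 (mem_cent1_iff.2 hc)).trans hU) (mem_zpowers c)
  have nU : ∀ g, g * u * g⁻¹ ∈ zpowers u → g ∈ 𝐍(zpowers u) := fun g h =>
    mem_normalizer_of_cj_le (by rw [cj_zpowers]; exact zpowers_le.2 h)
  have cube : ∀ g c : G, c * c * c = 1 → g * c * g⁻¹ * (g * c * g⁻¹) * (g * c * g⁻¹) = 1 := fun g c h => by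
    rw [conj_mul, conj_mul, h]; simp
  have u3 := cube_of_mem hu (mem_zpowers u)
  have cjc : ∀ g x y : G, x * (g * y * g⁻¹) = g * y * g⁻¹ * x → g⁻¹ * x * g⁻¹⁻¹ * y = y * (g⁻¹ * x * g⁻¹⁻¹) :=
    fun g x y h => by
      calc _ = g⁻¹ * (x * (g * y * g⁻¹)) * g := by group
        _ = _ := by rw [h]; group
  have cjt : ∀ i ∈ V, i ≠ 1 → ∃ g ∈ 𝐍(zpowers u), g * t * g⁻¹ = i := fun i hi i1 => by
    obtain ⟨g, rfl⟩ := isConj_iff.1 (one i (orderOf_eq_prime (by rw [sq, VV hi]) i1))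
    exact ⟨g, inv_mem_iff.1 (nU _ (three0 _ (cube _ _ u3) (cjc _ _ _ (mem_cent1_iff.1 (Vu hi)).symm))), rfl⟩
  have three : ∀ {i c : G}, i ∈ V → i ≠ 1 → c * c * c = 1 → c * i = i * c → c ∈ zpowers u := fun hi i1 h3 hc => by
    obtain ⟨g, hg, rfl⟩ := cjt _ hi i1
    simpa [mul_assoc] using conj_mem_of_mem_normalizer hg (three0 _ (cube _ _ h3) (cjc _ _ _ hc))
  have cu : 𝐂(zpowers u) = 𝐂[u] := by
    ext x; rw [mem_cent_iff_le_cent1, zpowers_le, mem_cent1_comm]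
  have nV : ∀ g ∈ 𝐍(zpowers u), ∀ i ∈ V, g * i * g⁻¹ = t → g ∈ 𝐍(V) := fun g hg i hi e =>
    mem_normalizer_of_cj_le (cj_le_iff'.2 fun w hw => invV _ ⟨mem_cent1_iff.2 (by
      rw [← e, conj_mul, conj_mul]
      congr 2
      rw [← mul_inv_eq_one, mul_inv_rev, inv_eq_of_mul_eq_one_right (VV hw), inv_eq_of_mul_eq_one_right (VV hi),
        VV (mul_mem hw hi)]),
      cu ▸ conj_mem_of_mem_normalizer (normalizer_le_normalizer_centralizer _ hg) (cu ▸ Vu hw)⟩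
      (by rw [conj_mul, VV hw]; simp))
  have tM : 𝐂[t] ≤ 𝐍(V) := fun g hg => nV g (hU hg) t tV (mul_inv_eq_iff_eq_mul.2 (mem_cent1_iff.1 hg))
  have cM : Nat.card 𝐍(V) = 72 := by
    have := cls_card 𝐍(V) t
    rw [inf_eq_right.2 tM, hC, show {y | ∃ g ∈ 𝐍(V), g * t * g⁻¹ = y} = {t, v, t * v} from ?_,
      Set.ncard_insert_of_notMem (by simp [vt.symm, v1]), Set.ncard_pair (by simp [t1])] at this
    · exact this.symm
    refine Set.Subset.antisymm ?_ fun i hi => ?_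
    · rintro _ ⟨g, hg, rfl⟩
      exact (mem_V.1 (conj_mem_of_mem_normalizer hg tV)).resolve_left fun e => t1 (conj_eq_one_iff.1 e)
    · obtain ⟨g, hg, e⟩ := cjt i (Or.inr hi) (by rcases hi with rfl | rfl | rfl <;> assumption)
      exact ⟨g, inv_mem_iff.1 (nV _ (inv_mem hg) i (Or.inr hi) (by rw [← e]; group)), e⟩
  have MU : 𝐍(V) ≤ 𝐍(zpowers u) := fun g hg => nU g (three0 _ (cube _ _ u3) (by
    simpa using cjc g⁻¹ u t (mem_cent1_iff.1 (Vu (conj_mem_of_mem_normalizer (inv_mem hg) tV))).symm))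
  have M_eq : 𝐍(V) = 𝐍(zpowers u) := by
    by_contra ne
    refine hA (a7_of_index hG (Zas.norm_ne_top (X := zpowers u) (by simpa using u1) fun e => by
      rw [e, card_top] at cU; omega) ?_)
    obtain ⟨k, hk⟩ := card_dvd_of_le' MU
    have h1 := card_lt_of_lt' (lt_of_le_of_ne MU ne)
    have h2 := 𝐍(zpowers u).card_mul_index
    rw [hk, cM, hG] at h2
    rw [hk, cM] at h1
    have h3 : k * 𝐍(zpowers u).index = 35 := by linarith
    by_contra h4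
    have : k ≤ 4 := by nlinarith
    have : 2 ≤ k := by omega
    interval_cases k <;> omega
  obtain ⟨P, hP, hUP⟩ := exists_sylowIn_ge' Nat.prime_three pU (Ut.trans tM)
  have cP : Nat.card P = 3 ^ 2 := by
    rw [hP.card_eq_pow Nat.prime_three, cM]; congr 1; decide +kernel
  have Pc : ∀ {p q : G}, p ∈ P → q ∈ P → p * q = q * p := fun hp hq =>
    (mem_cent_iff.1 (abelian_iff.1 (abelian_of_card_eq_prime_sq cP) hq) _ hp)
  have uP : u ∈ P := hUP (mem_zpowers u)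
  have VP : V ⊓ P = ⊥ := inf_eq_bot_of_coprime (by rw [cV, cP]; norm_num)
  have eq1 : ∀ x ∈ V, x ∈ P → x = 1 := fun x h1 h2 => mem_bot.1 (VP ▸ mem_inf.2 ⟨h1, h2⟩)
  have VN : V ⊓ 𝐍(P) = ⊥ := eq_bot_iff.2 fun w hw => by_contra fun w1 => by
    obtain ⟨g, -, rfl⟩ := cjt w hw.1 w1
    have : P ≤ cj g 𝐂[t] := fun p hp => by
      rw [cj_centralizer_singleton, mem_cent1_comm, mem_cent1_iff, ← mul_inv_eq_iff_eq_mul, ← mul_inv_eq_one]
      exact eq1 _ (by simpa [mul_assoc] using mul_mem hw.1 (conj_mem_of_mem_normalizer (hP.le hp) (inv_mem hw.1)))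
        (mul_mem (conj_mem_of_mem_normalizer hw.2 hp) (inv_mem hp))
    have := card_dvd_of_le' this
    rw [card_cj, cP, hC] at this; omega
  have cK : Nat.card ↥(V ⊔ P) = 36 := by rw [card_sup_of_disjoint (Or.inl hP.le) VP, cV, cP]; rfl
  have Ku : V ⊔ P ≤ 𝐂[u] := sup_le Vu fun p hp => mem_cent1_iff.2 (Pc hp uP)
  have KM : V ⊔ P ≤ 𝐍(V) := sup_le le_normalizer hP.le
  have K_eq : V ⊔ P = 𝐍(V) ⊓ 𝐂[u] := eq_of_le_of_card_le (le_inf KM Ku) (by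
    obtain ⟨k, hk⟩ := card_dvd_of_le' (le_inf KM Ku)
    have := card_lt_of_lt' (inf_lt_left.2 fun h => hn (tM.trans h) : 𝐍(V) ⊓ 𝐂[u] < 𝐍(V))
    rw [cK] at hk ⊢; rw [cM] at this
    omega)
  have iK : ((V ⊔ P).subgroupOf 𝐍(V)).index = 2 := by
    have := card_mul_relIndex KM; rw [cK, cM] at this; change (V ⊔ P).relIndex 𝐍(V) = 2; omega
  have KP : ∀ x ∈ V ⊔ P, x ∈ 𝐍(P) → x ∈ P := fun x hx h => by
    obtain ⟨w, hw, p, hp, rfl⟩ := (mem_sup_of_norm_right hP.le).1 hx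
    have : w ∈ V ⊓ 𝐍(P) := ⟨hw, (mul_mem_cancel_right (le_normalizer hp)).1 h⟩
    rw [VN, mem_bot] at this
    rwa [this, one_mul]
  obtain ⟨r, hr, ru⟩ : ∃ r ∈ 𝐍(V) ⊓ 𝐍(P), r ∉ V ⊔ P := by
    by_contra h
    push Not at h
    refine hn (tM.trans (le_trans ?_ Ku))
    rw [← frattini_arg (N := V ⊔ P) (M := 𝐍(V)) ⟨KM, by
      rw [K_eq, ← cu]; exact norms_inf le_normalizer (norms_cent MU)⟩ (hP.of_le le_sup_right KM)]
    exact sup_le le_rfl h
  have idx : ∀ {a b : G}, a ∈ 𝐍(V) → b ∈ 𝐍(V) → (a * b ∈ V ⊔ P ↔ (a ∈ V ⊔ P ↔ b ∈ V ⊔ P)) := fun ha hb =>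
    mul_mem_iff_of_index_two iK (a := ⟨_, ha⟩) (b := ⟨_, hb⟩)
  have rr : r * r ∈ P := KP _ ((idx hr.1 hr.1).2 Iff.rfl) (mul_mem hr.2 hr.2)
  have P9 : ∀ p ∈ P, p ^ 9 = 1 := fun p hp => orderOf_dvd_iff_pow_eq_one.1 (by
    have := orderOf_dvd_natCard P hp; rwa [cP] at this)
  obtain ⟨s, hs, su, ss⟩ : ∃ s ∈ 𝐍(V) ⊓ 𝐍(P), s ∉ V ⊔ P ∧ s * s = 1 :=
    ⟨r ^ 9, pow_mem hr _, fun h => ru ((mul_mem_cancel_left (mem_sup_right (pow_mem rr 4))).1 (by
      rwa [← sq, ← pow_mul, ← pow_succ])), by rw [← P9 _ rr, ← sq, ← sq, ← pow_mul, ← pow_mul, mul_comm]⟩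
  have sn : ¬ (s * t = t * s ∧ s * v = v * s) := fun h =>
    su (sup_le_sup_left hUP V (tv ▸ mem_inf.2 ⟨mem_cent1_iff.2 h.1, mem_cent1_iff.2 h.2⟩))
  have sall : ∀ x ∈ V, ∀ y ∈ V, x ≠ 1 → y ≠ 1 → s * x = x * s → s * y = y * s → x = y := fun x hx y hy x1 y1 e1 e2 => by
    by_contra ne
    have m1 := mem_cent1_iff.2 e1.symm
    have m2 := mem_cent1_iff.2 e2.symm
    have k1 : t * v ∈ 𝐂[s] → t ∈ 𝐂[s] → v ∈ 𝐂[s] := fun a b => (mul_mem_cancel_left b).1 a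
    have k2 : t * v ∈ 𝐂[s] → v ∈ 𝐂[s] → t ∈ 𝐂[s] := fun a b => (mul_mem_cancel_right b).1 a
    have : t ∈ 𝐂[s] ∧ v ∈ 𝐂[s] := by
      have := mem_V.1 hx; have := mem_V.1 hy
      grind
    exact sn ⟨(mem_cent1_iff.1 this.1).symm, (mem_cent1_iff.1 this.2).symm⟩
  have si : s⁻¹ = s := inv_eq_of_mul_eq_one_right ss
  obtain ⟨t0, t0V, t01, st0⟩ : ∃ t0 ∈ V, t0 ≠ 1 ∧ s * t0 = t0 * s := by
    by_cases e : s * t = t * s
    · exact ⟨t, tV, t1, e⟩
    have h1 := conj_mem_of_mem_normalizer hs.1 tV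
    refine ⟨_, mul_mem tV h1, fun h => e (mul_inv_eq_iff_eq_mul.1 (mul_left_cancel (h.trans tt.symm))), ?_⟩
    nth_rw 1 [← mem_cent1_iff.1 (Vt h1)]
    rw [si]
    simp [mul_assoc, ← mul_assoc s s, ss]
  have cQ : Nat.card ↥(𝐍(V) ⊓ 𝐍(P)) ≤ 18 := by
    have := card_mul_card_le (M := 𝐍(V)) (A := V) (B := 𝐍(V) ⊓ 𝐍(P)) le_normalizer inf_le_left
    rw [le_bot_iff.1 ((inf_le_inf_left V inf_le_right).trans VN.le), card_bot, cV, cM] at this
    omega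
  have s1 : s ≠ 1 := fun e => su (e ▸ one_mem _)
  have os : orderOf s = 2 := orderOf_eq_prime (by rw [sq, ss]) s1
  have d18 : 18 ∣ Nat.card ↥(𝐍(V) ⊓ 𝐍(P)) := by
    have h1 := orderOf_dvd_natCard _ hs
    have h2 := card_dvd_of_le' (le_inf hP.le le_normalizer)
    rw [os] at h1; rw [cP] at h2; omega
  have cN : Nat.card 𝐍(P) = 36 := by
    have h1 := cls_card 𝐍(P) u
    have h2 : 𝐍(P) ⊓ 𝐂[u] = P := le_antisymm (fun x hx => KP x (K_eq ▸ mem_inf.2 ⟨M_eq ▸ nU x (by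
      rw [mem_cent1_iff.1 hx.2, mul_inv_cancel_right]; exact mem_zpowers u), hx.2⟩) hx.1)
      (le_inf le_normalizer (le_sup_right.trans Ku))
    have h3 : {y | ∃ g ∈ 𝐍(P), g * u * g⁻¹ = y}.ncard < Nat.card P := by
      refine Set.ncard_lt_ncard (t := (P : Set G)) ⟨?_, fun h => ?_⟩ (Set.toFinite _)
      · rintro _ ⟨g, hg, rfl⟩
        exact conj_mem_of_mem_normalizer hg uP
      obtain ⟨g, -, e⟩ := h P.one_mem
      exact u1 (conj_eq_one_iff.1 e)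
    have h4 := Zas.sylow_count_top Nat.prime_three (sylowIn_mk Nat.prime_three le_top (IsPGroup.of_card cP) (by
      have := P.card_mul_index
      rw [cP, hG] at this; rw [relIndex_top_right]; omega))
    have h5 := 𝐍(P).card_mul_index
    obtain ⟨k, hk⟩ := d18.trans (card_dvd_of_le' inf_le_right)
    rw [h2, cP] at h1; rw [cP] at h3; rw [hk, hG] at h5; rw [hk] at h1 ⊢
    have : k ≤ 4 := by omega
    unfold Nat.ModEq at h4
    interval_cases k <;> omega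
  have iQ : (𝐍(V).subgroupOf 𝐍(P)).index = 2 := by
    have h1 := card_inf_mul_relIndex 𝐍(V) 𝐍(P)
    have h2 : 0 < Nat.card ↥(𝐍(V) ⊓ 𝐍(P)) := Nat.card_pos
    rw [show Nat.card ↥(𝐍(V) ⊓ 𝐍(P)) = 18 by omega, cN] at h1
    change 𝐍(V).relIndex 𝐍(P) = 2; omega
  have idq : ∀ {a b : G}, a ∈ 𝐍(P) → b ∈ 𝐍(P) → (a * b ∈ 𝐍(V) ↔ (a ∈ 𝐍(V) ↔ b ∈ 𝐍(V))) := fun ha hb =>
    mul_mem_iff_of_index_two iQ (a := ⟨_, ha⟩) (b := ⟨_, hb⟩)
  obtain ⟨n, nP, nM⟩ : ∃ n ∈ 𝐍(P), n ∉ 𝐍(V) := by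
    by_contra h
    push Not at h
    rw [inf_eq_right.2 h, cN] at cQ; omega
  have P3 : ∀ {p : G}, p ∈ P → p * p * p = 1 := fun {p} hp => by
    let Ω : Subgroup G := ⟨⟨⟨{x | x ∈ P ∧ x ^ 3 = 1}, fun ha hb => ⟨mul_mem ha.1 hb.1, by
      rw [Commute.mul_pow (Pc ha.1 hb.1), ha.2, hb.2, one_mul]⟩⟩, one_mem _, one_pow _⟩,
      fun ha => ⟨inv_mem ha.1, by rw [inv_pow, ha.2, inv_one]⟩⟩
    have h1 : Ω ≤ P := fun x hx => hx.1
    have h2 : zpowers u < Ω := lt_of_le_of_ne (zpowers_le.2 ⟨uP, by rwa [pow_three']⟩) fun e => nM (M_eq ▸ nU n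
      (e ▸ ⟨conj_mem_of_mem_normalizer nP uP, by rw [pow_three', cube _ _ u3]⟩))
    have h3 := card_lt_of_lt' h2
    have h4 := card_dvd_of_le' h1
    rw [cP] at h4; rw [cU] at h3
    have h5 := Nat.le_of_dvd (by norm_num) h4
    have : Ω = P := eq_of_le_of_card_le h1 (by rw [cP]; generalize Nat.card Ω = k at *; interval_cases k <;> omega)
    rw [← pow_three']; exact (this ▸ hp : p ∈ Ω).2
  have sP : ∀ {p : G}, p ∈ P → s * p * s⁻¹ = p⁻¹ := fun {p} hp => by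
    have h1 := conj_mem_of_mem_normalizer hs.2 hp
    have h2 := mul_mem hp h1
    have h3 : p * (s * p * s⁻¹) ∈ 𝐂[s] := mem_cent1_iff.2 (by
      nth_rw 2 [Pc hp h1]
      rw [si]
      simp [mul_assoc, ← mul_assoc s s, ss])
    generalize hx : p * (s * p * s⁻¹) = x at h2 h3
    have h4 : x * t0 * x⁻¹ = t0 := sall _ (conj_mem_of_mem_normalizer (hP.le h2) t0V) _ t0V (by simpa using t01) t01
      (mem_cent1_iff.1 (mul_mem (mul_mem h3 (mem_cent1_iff.2 st0.symm)) (inv_mem h3))).symm st0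
    have h5 := three t0V t01 (P3 h2) (mul_inv_eq_iff_eq_mul.1 h4)
    rw [eq_inv_iff_mul_eq_one, ← Pc hp h1, hx]
    by_contra x1
    refine su (K_eq ▸ mem_inf.2 ⟨hs.1, mem_cent1_comm.1 (zpowers_le.1 ?_)⟩)
    rw [eq_zpowers_of_prime_card (cU ▸ Nat.prime_three) h5 x1]
    exact zpowers_le.2 h3
  obtain ⟨h, hh⟩ := isConj_iff.1 (one s os).symm
  refine hA (A7D.a7 {
    t := t, v := v, a := u, s := s, n := n, V := V, P := P, M := 𝐍(V), cG := hG, cM := cM, mem_V := mem_V, VV := VV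
    t1 := t1, V_le := le_normalizer, P_le := hP.le, M_norm := le_rfl, M_eq := M_eq, aP := uP, oa := hu, Pcomm := Pc
    P3 := P3, aV := fun hw => (mem_cent1_iff.1 (Vu hw)).symm, VP := VP, sM := hs.1, ss := ss, sP := sP
    dec := fun {g} hg => ?_, three := three, two := ⟨t0, fun w hw e => ?_⟩, sV := ?_, conj := ⟨h, hh⟩, nP := nP
    nM := nM, nn := (idq nP nP).2 Iff.rfl, ns := ?_, cQ := cQ })
  · by_cases h : g ∈ V ⊔ P
    · obtain ⟨w, hw, p, hp, e⟩ := (mem_sup_of_norm_right hP.le).1 h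
      exact ⟨w, hw, p, hp, Or.inl e.symm⟩
    · obtain ⟨w, hw, p, hp, e⟩ := (mem_sup_of_norm_right hP.le).1 ((idx hg hs.1).2 (iff_of_false h su))
      exact ⟨w, hw, p, hp, Or.inr (by rw [e, mul_assoc, ss, mul_one])⟩
  · exact or_iff_not_imp_left.2 fun w1 => sall _ hw _ t0V w1 t01 e st0
  · by_contra h
    push Not at h
    exact sn ⟨h t tV, h v vV⟩
  · exact (idq (mul_mem (inv_mem nP) hs.2) nP).2 (iff_of_false (fun h => nM (by
      simpa using (mul_mem_cancel_right (H := 𝐍(V)) hs.1).1 h)) nM)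

end CA.GW
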