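/-
Computations in `A₇ ≤ S₇`.
-/
import Cfsg.Agent.Lib.GW.A7
import Cfsg.Agent.Lib.GW.Defs
import Mathlib.GroupTheory.Perm.Centralizer
import Mathlib.GroupTheory.GroupAction.Jordan
import Mathlib.GroupTheory.GroupAction.SubMulAction.Combination

set_option autoImplicit false
set_option linter.unusedSectionVars false

namespace CA.GW

open Cfsg CA CA.FStar Subgroup Equiv

universe u

/-- The clause `cen` of `A7T`. -/
def Cen {G : Type*} [Group G] (X : Subgroup G) (s : G) : Prop :=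
  Nat.card ↥(X ⊓ 𝐂[s]) = 24 ∧ ∃ u V W, orderOf u = 3 ∧ 𝐎(X ⊓ 𝐂[s]) = zpowers u ∧
    Four V ∧ Four W ∧ s ∈ V ∧ s ∈ W ∧ V ≤ X ⊓ 𝐂[s] ∧ W ≤ X ⊓ 𝐂[s] ∧ V ≤ 𝐂[u] ∧
    (∀ w ∈ W, w ≠ 1 → w ≠ s → w * u * w⁻¹ = u⁻¹) ∧ X ⊓ 𝐍(zpowers u) = X ⊓ 𝐍(V) ∧
    Nat.card ↥(X ⊓ 𝐍(V)) = 72 ∧ Nat.card ↥(X ⊓ 𝐂[u]) = 36 ∧ X ⊓ 𝐂(W) = W ∧
    ∀ Y ≤ X, X ⊓ 𝐂[s] ≤ Y → Y = X ∨ Y ≤ 𝐍(V)

theorem solv_of_card (n : ℕ) : ∀ (G : Type u) [Group G] [Finite G], Nat.card G = n → n < 120 → ¬ 60 ∣ n →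
    Group.IsSolvable G := by
  induction n using Nat.strong_induction_on with
  | _ n ih =>
  intro G _ _ hG hn h6
  by_cases hs : ∃ N : Subgroup G, N.Normal ∧ N ≠ ⊥ ∧ N ≠ ⊤
  · obtain ⟨N, hN, h1, h2⟩ := hs
    have h3 := Subgroup.card_eq_card_quotient_mul_card_subgroup N
    have h4 : 1 < Nat.card N := (Subgroup.one_lt_card_iff_ne_bot N).mpr h1
    have h5 : 1 < Nat.card (G ⧸ N) := Subgroup.one_lt_index_of_ne_top h2
    rw [Group.isSolvable_iff_subgroup_quotient N]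
    exact ⟨ih _ (by nlinarith) N rfl (by nlinarith) fun h => h6 (h.trans (Dvd.intro_left _ (h3.symm.trans hG))),
      ih _ (by nlinarith) (G ⧸ N) rfl (by nlinarith) fun h => h6 (h.trans (Dvd.intro _ (h3.symm.trans hG)))⟩
  rcases subsingleton_or_nontrivial G with _ | _
  · infer_instance
  haveI : IsSimpleGroup G := ⟨fun N hN => by
    by_contra hc
    exact hs ⟨N, hN, not_or.1 hc⟩⟩
  by_cases hc : IsMulCommutative G
  · exact isSolvable_of_comm fun a b => hc.1.1 a b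
  have := Zas.card_mem (Zas.perfect_of_not_comm hc) (by omega)
  simp only [List.mem_cons, List.not_mem_nil, hG, or_false] at this
  omega

theorem four_four {G : Type*} [Group G] {t v : G} (tt : t * t = 1) (vv : v * v = 1) (vt : v * t = t * v) (t1 : t ≠ 1)
    (v1 : v ≠ 1) (ne : v ≠ t) : Four (four t v tt vv vt) := by
  have tv1 : t * v ≠ 1 := fun e => ne (mul_left_cancel (a := t) (e.trans tt.symm))
  refine ⟨?_, ?_⟩
  · change ({1, t, v, t * v} : Set G).ncard = 4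
    rw [Set.ncard_insert_of_notMem (by simp [t1.symm, v1.symm, tv1.symm]),
      Set.ncard_insert_of_notMem (by simp [ne.symm, v1]), Set.ncard_pair (by simp [t1])]
  · rintro _ (rfl | rfl | rfl | rfl)
    exacts [mul_one _, tt, vv, by rw [mul_assoc, ← mul_assoc v, vt, mul_assoc, vv, mul_one, tt]]

namespace A7k

abbrev S7 := Perm (Fin 7)
abbrev X7 : Subgroup S7 := alternatingGroup (Fin 7)
def s0 : S7 := swap 0 1 * swap 2 3
def v0 : S7 := swap 0 2 * swap 1 3
def w0 : S7 := swap 0 1 * swap 4 5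
def u0 : S7 := swap 4 5 * swap 5 6
def V0 : Subgroup S7 := four s0 v0 (by decide) (by decide) (by decide)
def W0 : Subgroup S7 := four s0 w0 (by decide) (by decide) (by decide)
abbrev Pd (g : S7) : Prop := 4 ≤ g 4 ∧ 4 ≤ g 5 ∧ 4 ≤ g 6

set_option maxRecDepth 100000 in
set_option synthInstance.maxSize 1000 in
theorem brute : ∀ g : S7, Pd g → (g * u0 = u0 * g ∨ g * u0 = u0 * u0 * g) ∧
    (g * s0 = s0 * g ∨ g * s0 = v0 * g ∨ g * s0 = s0 * v0 * g) ∧
    (g * v0 = s0 * g ∨ g * v0 = v0 * g ∨ g * v0 = s0 * v0 * g) ∧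
    (s0 * g = g * s0 → w0 * g = g * w0 → Perm.sign g = 1 → g = 1 ∨ g = s0 ∨ g = w0 ∨ g = s0 * w0) := by
  decide +kernel

theorem pd {g x y : S7} (e : g * x = y * g) (h : ∀ i j, (4 ≤ i → (x i = i → y j = j → 4 ≤ j) ∧ (x i ≠ i → y j ≠ j → 4 ≤ j))) :
    Pd g := by
  have k : ∀ i, 4 ≤ i → 4 ≤ g i := fun i hi => by
    have h1 : g (x i) = y (g i) := congr($e i)
    by_cases h2 : x i = i
    · exact (h i _ hi).1 h2 (by rw [← h1, h2])
    · exact (h i _ hi).2 h2 (h1 ▸ g.injective.ne h2)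
  exact ⟨k _ (by decide), k _ (by decide), k _ (by decide)⟩

theorem half {Z : Subgroup S7} {z : S7} (h : z ∈ Z) (hz : Perm.sign z ≠ 1) : Nat.card ↥(X7 ⊓ Z) * 2 = Nat.card Z := by
  rw [← card_inf_mul_relIndex X7 Z, ((Nat.dvd_prime Nat.prime_two).1 (alternatingGroup.index_eq_two (α := Fin 7) ▸
    relIndex_dvd_index_of_normal X7 Z)).resolve_left fun e => hz (relIndex_eq_one.1 e h)]

theorem ou : orderOf u0 = 3 := by
  haveI := Fact.mk Nat.prime_three
  exact orderOf_eq_prime (by decide) (by decide)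

theorem nU {g : S7} : g ∈ 𝐍(zpowers u0) ↔ Pd g := by
  refine ⟨fun h => ?_, fun h => mem_normalizer_of_cj_le ?_⟩
  · have := conj_mem_of_mem_normalizer h (mem_zpowers u0)
    rw [mem_zpowers_iff_mem_range_orderOf, ou, Finset.mem_image] at this
    obtain ⟨k, hk, e⟩ := this
    rw [Finset.mem_range] at hk
    rw [eq_comm, mul_inv_eq_iff_eq_mul] at e
    interval_cases k
    · exact absurd (by simpa using e) (by decide : u0 ≠ 1)
    all_goals exact pd e (by decide)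
  · rw [cj_zpowers, zpowers_le]
    rcases (brute g h).1 with e | e <;> rw [e, mul_inv_cancel_right]
    exacts [mem_zpowers _, mul_mem (mem_zpowers _) (mem_zpowers _)]

theorem sV : s0 ∈ V0 := Or.inr (Or.inl rfl)
theorem sW : s0 ∈ W0 := Or.inr (Or.inl rfl)
theorem sX : s0 ∈ X7 := Perm.mem_alternatingGroup.2 (by decide)

theorem nV {g : S7} : g ∈ 𝐍(V0) ↔ Pd g := by
  refine ⟨fun h => ?_, fun h => mem_normalizer_of_cj_le (cj_le_iff'.2 ?_)⟩
  · rcases conj_mem_of_mem_normalizer h sV with e | e | e | e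
    · exact absurd (conj_eq_one_iff.1 e) (by decide)
    all_goals exact pd (mul_inv_eq_iff_eq_mul.1 e) (by decide)
  · have k : ∀ x, g * x = s0 * g ∨ g * x = v0 * g ∨ g * x = s0 * v0 * g → g * x * g⁻¹ ∈ V0 := fun x h =>
      Or.inr (by simpa [mul_inv_eq_iff_eq_mul] using h)
    have h1 := k _ (brute g h).2.1
    have h2 := k _ (brute g h).2.2.1
    rintro _ (rfl | rfl | rfl | rfl)
    exacts [by simp, h1, h2, by rw [← conj_mul]; exact mul_mem h1 h2]

theorem cyu : u0.cycleType = {3} := by decide +kernel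

theorem c24 : Nat.card ↥(X7 ⊓ 𝐂[s0]) = 24 := by
  have h := half (Z := 𝐂[s0]) (z := swap 0 1) (mem_cent1_iff.2 (by decide)) (by decide)
  rw [Perm.nat_card_centralizer, show s0.cycleType = {2, 2} by decide +kernel] at h
  exact Nat.eq_of_mul_eq_mul_right two_pos (h.trans (by decide))

theorem c36 : Nat.card ↥(X7 ⊓ 𝐂[u0]) = 36 := by
  have h := half (Z := 𝐂[u0]) (z := swap 0 1) (mem_cent1_iff.2 (by decide)) (by decide)
  rw [Perm.nat_card_centralizer, cyu] at h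
  exact Nat.eq_of_mul_eq_mul_right two_pos (h.trans (by decide))

theorem c72 : Nat.card ↥(X7 ⊓ 𝐍(V0)) = 72 := by
  rw [← cls_card _ u0, inf_assoc, inf_eq_right.2 (show 𝐂[u0] ≤ 𝐍(V0) from fun g hg => nV.2 (pd (mem_cent1_iff.1 hg)
    (by decide))), c36,
    show {y | ∃ g ∈ X7 ⊓ 𝐍(V0), g * u0 * g⁻¹ = y} = {u0, u0 * u0} from ?_, Set.ncard_pair (by decide)]
  refine Set.Subset.antisymm ?_ ?_
  · rintro _ ⟨g, hg, rfl⟩
    simpa [mul_inv_eq_iff_eq_mul] using (brute g (nV.1 hg.2)).1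
  · rintro _ (rfl | rfl)
    exacts [⟨1, one_mem _, by simp⟩, ⟨w0, ⟨Perm.mem_alternatingGroup.2 (by decide), nV.2 (by decide)⟩, by decide⟩]

theorem le_four {t v : S7} {tt vv vt} {Z : Subgroup S7} (h1 : t ∈ Z) (h2 : v ∈ Z) : four t v tt vv vt ≤ Z := by
  rintro _ (rfl | rfl | rfl | rfl)
  exacts [one_mem _, h1, h2, mul_mem h1 h2]

theorem memC {g : S7} (h : Perm.sign g = 1 ∧ g * s0 = s0 * g) : g ∈ X7 ⊓ 𝐂[s0] := ⟨h.1, mem_cent1_iff.2 h.2⟩

theorem maxl (Y : Subgroup S7) (h1 : Y ≤ X7) (h2 : X7 ⊓ 𝐂[s0] ≤ Y) : Y = X7 ∨ Y ≤ 𝐍(V0) := by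
  refine or_iff_not_imp_right.2 fun h => le_antisymm h1 ?_
  obtain ⟨y, hy, h⟩ := SetLike.not_le_iff_exists.1 h
  have hu : u0 ∈ Y := h2 (memC (by decide))
  have k : ∀ a b : Fin 7, (4 ≤ a ↔ 4 ≤ b) → ∃ g ∈ [1, u0, u0⁻¹, s0, v0, s0 * v0], g a = b := by decide
  have k' : ∀ a b : Fin 7, (4 ≤ a ↔ 4 ≤ b) → ∃ g ∈ Y, g a = b := fun a b h => by
    obtain ⟨g, hg, e⟩ := k a b h
    exact ⟨g, by fin_cases hg <;> exact h2 (memC (by decide)), e⟩
  obtain ⟨i, hi, hj⟩ : ∃ i : Fin 7, 4 ≤ i ∧ ¬ 4 ≤ y i := by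
    by_contra hc
    push Not at hc
    exact h (nV.2 ⟨hc _ (by decide), hc _ (by decide), hc _ (by decide)⟩)
  haveI : MulAction.IsPretransitive Y (Fin 7) := (MulAction.isPretransitive_iff_base i).2 fun b => by
    by_cases hb : 4 ≤ b
    · obtain ⟨g, hg, e⟩ := k' i b (iff_of_true hi hb)
      exact ⟨⟨g, hg⟩, e⟩
    · obtain ⟨g, hg, e⟩ := k' _ b (iff_of_false hj hb)
      exact ⟨⟨g * y, mul_mem hg hy⟩, e⟩
  exact Perm.alternatingGroup_le_of_isPreprimitive_of_isThreeCycle_mem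
    (MulAction.IsPreprimitive.of_prime_card (by simp; norm_num)) cyu hu

theorem cen0 : Cen X7 s0 := by
  have hu : zpowers u0 ≤ X7 ⊓ 𝐂[s0] := zpowers_le.2 (memC (by decide))
  have cU : Nat.card (zpowers u0) = 3 := by rw [Nat.card_zpowers, ou]
  refine ⟨c24, u0, V0, W0, ou, (eq_of_le_of_card_le (le_piCoreOf ⟨hu, fun g hg => nU.2 (pd (mem_cent1_iff.1 hg.2)
      (by decide))⟩ ((piNum_compl_singleton Nat.prime_two).2 (by rw [cU]; decide))) ?_).symm,
    four_four _ _ _ (by decide) (by decide) (by decide), four_four _ _ _ (by decide) (by decide) (by decide), sV, sW,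
    le_four (memC (by decide)) (memC (by decide)), le_four (memC (by decide)) (memC (by decide)),
    le_four (mem_cent1_iff.2 (by decide)) (mem_cent1_iff.2 (by decide)), ?_, by ext g; simp only [mem_inf, nU, nV],
    c72, c36, le_antisymm (fun g hg => ?_) (le_inf (le_four sX (Perm.mem_alternatingGroup.2 (by decide))) (le_four (mem_cent_iff_le_cent1.2
      (le_four (mem_cent1_iff.2 rfl) (mem_cent1_iff.2 (by decide)))) (mem_cent_iff_le_cent1.2
      (le_four (mem_cent1_iff.2 (by decide)) (mem_cent1_iff.2 rfl))))), maxl⟩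
  · have h1 := card_dvd_of_le' (piCoreOf_le ({2} : Set ℕ)ᶜ (X7 ⊓ 𝐂[s0]))
    have h2 := (piNum_compl_singleton Nat.prime_two).1 (piCoreOf_piGrp ({2} : Set ℕ)ᶜ (X7 ⊓ 𝐂[s0]))
    rw [c24] at h1
    have h3 := Nat.le_of_dvd (by norm_num) h1
    rw [cU]
    generalize Nat.card ↥𝐎(X7 ⊓ 𝐂[s0]) = k at *
    interval_cases k <;> omega
  · rintro _ (rfl | rfl | rfl | rfl) h1 h2
    exacts [absurd rfl h1, absurd rfl h2, by decide, by decide]
  · have h1 := mem_cent_iff.1 hg.2 s0 sW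
    exact (brute g (pd h1.symm (by decide))).2.2.2 h1 (mem_cent_iff.1 hg.2 w0 (Or.inr (Or.inr (Or.inl rfl)))) hg.1

theorem cyc {z : S7} (hz : z ∈ X7) (hp : (orderOf z).Prime) : ∃ n, z.cycleType = Multiset.replicate n (orderOf z) ∧
    0 < n ∧ n * orderOf z ≤ 7 ∧ Even (n * orderOf z + n) := by
  obtain ⟨n, e⟩ := Perm.cycleType_prime_order hp
  have h1 := z.sum_cycleType_le
  have h2 := Perm.sign_of_cycleType z
  rw [Perm.mem_alternatingGroup.1 hz, eq_comm, neg_one_pow_eq_one_iff_even (by decide)] at h2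
  rw [e] at h1 h2
  exact ⟨n + 1, e, n.succ_pos, by simpa [add_mul, add_comm] using h1, by simpa [add_mul, add_comm] using h2⟩

theorem solv (y : S7) (hy : y ∈ X7) (y1 : y ≠ 1) : Group.IsSolvable ↥(X7 ⊓ 𝐂[y]) := by
  obtain ⟨p, hp, k, hk⟩ := Nat.exists_prime_and_dvd (mt orderOf_eq_one_iff.1 y1)
  have k0 : k ≠ 0 := fun e => (orderOf_pos y).ne' (by rw [hk, e, mul_zero])
  have ho : orderOf (y ^ k) = p := by
    rw [orderOf_pow_of_dvd k0 (hk ▸ dvd_mul_left k p), hk, Nat.mul_div_cancel _ (Nat.pos_of_ne_zero k0)]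
  obtain ⟨n, e, h0, h1, h2⟩ := cyc (pow_mem hy k) (ho ▸ hp)
  have h3 := Perm.nat_card_centralizer (y ^ k)
  rw [ho] at e h1 h2
  rw [e] at h3
  have h4 := hp.two_le
  have h5 : Nat.card 𝐂[y ^ k] < 120 ∧ ¬ 60 ∣ Nat.card 𝐂[y ^ k] := by
    have : p ≤ 7 := by nlinarith
    have : n ≤ 3 := by nlinarith
    rw [h3]
    interval_cases p <;> interval_cases n <;> first | omega | decide | (exfalso; revert h2; decide)
  exact solvable_of_le (solv_of_card _ _ rfl h5.1 h5.2) (inf_le_right.trans fun g hg =>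
    mem_cent1_comm.1 (pow_mem (mem_cent1_comm.1 hg) k))

theorem conj0 (s : X7) (hs : Inv2 (s : S7)) : IsConj (⟨s0, sX⟩ : X7) s := by
  haveI := Fact.mk Nat.prime_two
  have k : ∀ z ∈ X7, Inv2 z → z.cycleType = Multiset.replicate 2 2 := fun z hz h => by
    have ho : orderOf z = 2 := orderOf_eq_prime (by rw [sq, h.sq]) h.ne
    obtain ⟨n, e, h0, h1, h2⟩ := cyc hz (ho ▸ Nat.prime_two)
    rw [ho] at e h1 h2
    obtain rfl : n = 2 := by obtain ⟨m, hm⟩ := h2; omega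
    exact e
  exact alternatingGroup.isConj_of (Perm.isConj_iff_cycleType_eq.2 ((k _ sX ⟨by decide, by decide⟩).trans
    (k _ s.2 hs).symm)) (by decide)

open MulAction Pointwise in
theorem fix7 (H : Subgroup S7) (h : Nat.card H = 360) : ∃ j : Fin 7, H ≤ stabilizer S7 j := by
  classical
  let O : Finset (Fin 7) := (orbit H (0 : Fin 7)).toFinset
  have hO : H ≤ stabilizer S7 (O : Set (Fin 7)) := fun g hg => by
    rw [Set.coe_toFinset]; exact smul_orbit (⟨g, hg⟩ : H) (0 : Fin 7)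
  have h1 : O.card ∣ 360 := by
    rw [← h, ← Set.ncard_eq_toFinset_card', ← index_stabilizer]; exact index_dvd_card _
  have h2 : (Nat.choose 7 O.card) ∣ 14 := by
    let x : Set.powersetCard (Fin 7) O.card := ⟨O, rfl⟩
    haveI := Set.powersetCard.isPretransitive (α := Fin 7) (n := O.card)
    have h3 := index_stabilizer_of_transitive S7 x
    have h4 := H.card_mul_index
    rw [Set.powersetCard.card, Set.powersetCard.stabilizer_coe] at h3
    rw [h, Nat.card_perm] at h4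
    simp only [Nat.card_eq_fintype_card, Fintype.card_fin, Nat.factorial] at h3 h4
    rw [← h3, show 14 = H.index by omega]
    exact index_dvd_of_le hO
  have h3 : O.card ≤ 7 := O.card_le_univ
  have h4 : O.card = 1 ∨ Oᶜ.card = 1 := by
    rw [Finset.card_compl, Fintype.card_fin]
    generalize O.card = k at *
    interval_cases k <;> simp_all [Nat.choose]
  rcases h4 with h4 | h4 <;> obtain ⟨j, e⟩ := Finset.card_eq_one.1 h4
  · exact ⟨j, by rwa [e, Finset.coe_singleton, stabilizer_singleton] at hO⟩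
  · exact ⟨j, by rwa [← stabilizer_compl, ← Finset.coe_compl, e, Finset.coe_singleton, stabilizer_singleton] at hO⟩

open MulAction in
theorem c360 (j : Fin 7) : Nat.card ↥(X7 ⊓ stabilizer S7 j) = 360 := by
  haveI := alternatingGroup.isPretransitive_of_three_le_card (Fin 7) (by simp)
  have h1 := card_inf_mul_relIndex (stabilizer S7 j) X7
  rw [card_A7, inf_comm, show (stabilizer S7 j).relIndex X7 = 7 from
    (index_stabilizer_of_transitive X7 j).trans (by simp)] at h1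
  omega

end A7k

end CA.GW
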