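/-
Almost simple groups with socle `A₇` and dihedral Sylow 2-subgroups.
-/
import Cfsg.Agent.Lib.GW.A7j

set_option autoImplicit false
set_option linter.unusedSectionVars false

namespace CA.GW

open Cfsg CA CA.FStar Subgroup Equiv

section
variable {G G' : Type*} [Group G] [Finite G] [Group G'] [Finite G'] {X Z : Subgroup G} {f : X →* G'} {s : G}

theorem pmap_cent_inj (hf : pker f = ⊥) (hZ : Z ≤ X) : pmap f (X ⊓ 𝐂(Z)) = pmap f X ⊓ 𝐂(pmap f Z) := by
  refine le_antisymm (pmap_inf_cent_le f X Z) ?_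
  rintro z ⟨hz, hn⟩
  obtain ⟨a, ha, -, rfl⟩ := mem_pmap'.1 hz
  refine pel_mem_pmap f ⟨ha, zpowers_le.1 (comm_eq_bot_iff.1 (le_bot_iff.1 (hf ▸ ?_)))⟩
  exact (pmap_cents_iff (zpowers_le.2 ha) hZ).1 (pmap_zpowers f ha ▸ zpowers_le.2 hn)

theorem pmap_cent1_inj (hf : pker f = ⊥) (hs : s ∈ X) : pmap f (X ⊓ 𝐂[s]) = pmap f X ⊓ 𝐂[pel f s] := by
  rw [← cent_zpowers, ← cent_zpowers, pmap_cent_inj hf (zpowers_le.2 hs), pmap_zpowers f hs]

theorem Four.pmap (h : Four Z) (hf : pker f = ⊥) (hZ : Z ≤ X) : Four (pmap f Z) := by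
  refine ⟨(card_pmap_of_inj hZ (by simp [hf])).trans h.card, fun x hx => ?_⟩
  obtain ⟨a, ha, h1, rfl⟩ := mem_pmap'.1 hx
  rw [← pel_mul f h1 h1, h.sq a ha, pel_one]

theorem Cen.pmap (h : Cen X s) (hf : pker f = ⊥) (hs : s ∈ X) : Cen (pmap f X) (pel f s) := by
  obtain ⟨c, u, V, W, ou, hO, fV, fW, sV, sW, hV, hW, Vu, wu, nn, cV, cu, cW, mx⟩ := h
  have uX : u ∈ X := zpowers_le.1 (hO.ge.trans ((piCoreOf_le _ _).trans inf_le_left))
  have VX := hV.trans inf_le_left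
  have WX := hW.trans inf_le_left
  have cd : ∀ {Y}, Nat.card (CA.pmap f (X ⊓ Y)) = Nat.card ↥(X ⊓ Y) := card_pmap_of_inj inf_le_left (by simp [hf])
  have nm : ∀ {Y}, Y ≤ X → CA.pmap f X ⊓ 𝐍(CA.pmap f Y) = CA.pmap f (X ⊓ 𝐍(Y)) := fun h =>
    (pmap_inf_norm h (by simp [hf]) X).symm
  rw [Cen, ← pmap_cent1_inj hf hs]
  refine ⟨cd.trans c, pel f u, CA.pmap f V, CA.pmap f W, ?_, ?_, fV.pmap hf VX, fW.pmap hf WX, pel_mem_pmap f sV,
    pel_mem_pmap f sW, pmap_mono f hV, pmap_mono f hW, (pmap_mono f Vu).trans (pmap_cent1 f uX), fun w hw h1 h2 => ?_,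
    ?_, by rw [nm VX, cd, cV], by rw [← pmap_cent1_inj hf uX, cd, cu], by rw [← pmap_cent_inj hf WX, cW],
    fun Y h1 h2 => ?_⟩
  · rw [← Nat.card_zpowers, ← pmap_zpowers f uX, card_pmap_of_inj (zpowers_le.2 uX) (by simp [hf]), Nat.card_zpowers, ou]
  · rw [← pmap_piCoreOf_of_inj inf_le_left (by simp [hf]), hO, pmap_zpowers f uX]
  · obtain ⟨a, ha, h3, rfl⟩ := mem_pmap'.1 hw
    rw [← pel_conj f h3 uX, wu a ha (fun e => h1 (by rw [e, pel_one])) fun e => h2 (by rw [e]), pel_inv f uX]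
  · rw [← pmap_zpowers f uX, nm (zpowers_le.2 uX), nm VX, nn]
  · rw [← pmap_pcomap_of_le (h1.trans (pmap_le_range f X))]
    exact (mx _ (pcomap_le_dom f Y) ((le_pcomap_iff inf_le_left).2 h2)).imp (fun e => by rw [e]) (pmap_norms f)

end

variable {G : Type*} [Group G] [Finite G] {X K N : Subgroup G}

theorem simple_normal (h : IsSimpleGroup K) (hN : N ⊴ K) : N = ⊥ ∨ N = K :=
  hN.normal_subgroupOf.eq_bot_or_eq_top.imp (fun e => by rwa [subgroupOf_eq_bot, disjoint_iff, inf_eq_left.2 hN.1] at e)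
    fun e => le_antisymm hN.1 (subgroupOf_eq_top.1 e)

open A7k

theorem emb (e : X7 ≃* K) : pker (K.subtype.comp e.toMonoidHom) = ⊥ ∧ pmap (K.subtype.comp e.toMonoidHom) X7 = K := by
  refine ⟨eq_bot_iff.2 fun x hx => ?_, ?_⟩
  · obtain ⟨h1, h2⟩ := mem_pker.1 hx
    rw [pel_of_mem _ h1] at h2
    exact congrArg Subtype.val (e.map_eq_one_iff.1 (Subtype.ext h2))
  · rw [pmap_dom, MonoidHom.range_comp, MonoidHom.range_eq_top.2 e.surjective, ← MonoidHom.range_eq_map, range_subtype]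

theorem a7T (h : IsA7 K) : A7T K := by
  obtain ⟨e⟩ := h
  haveI := alternatingGroup.isSimpleGroup (α := Fin 7) (by simp)
  have hs : IsSimpleGroup K := e.isSimpleGroup
  have hc : Nat.card K = 2520 := (Nat.card_congr e.toEquiv).trans card_A7
  have cen : ∀ s ∈ K, Inv2 s → Cen K s := fun s hs h => by
    obtain ⟨g, hg⟩ := isConj_iff.1 (conj0 (e ⟨s, hs⟩) ⟨by
      rw [← coe_mul, ← map_mul, show (⟨s, hs⟩ * ⟨s, hs⟩ : K) = 1 from Subtype.ext h.sq, map_one, coe_one],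
      fun h' => h.ne (congrArg Subtype.val (e.map_eq_one_iff.1 (Subtype.ext h')))⟩)
    obtain ⟨h1, h2⟩ := emb ((MulAut.conj g).trans e.symm)
    have := cen0.pmap h1 sX
    rwa [h2, pel_of_mem _ sX, show (K.subtype.comp ((MulAut.conj g).trans e.symm).toMonoidHom) ⟨s0, sX⟩ = s from
      congrArg Subtype.val ((e.symm_apply_eq (y := ⟨s, hs⟩)).2 hg)] at this
  refine ⟨⟨?_, fun h => by rw [h, card_bot] at hc; omega, fun N hN => (simple_normal hs hN).imp_left fun h => h.le.trans bot_le⟩,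
    hs, hc, fun y hy y1 => ?_, cen, fun s hsK h p hp Y hY Yp hn => ?_⟩
  · have := congrArg (map K.subtype) (Zas.perfect_of_card (G := K) (by rw [hc]; norm_num))
    rwa [map_subtype_commutator, ← MonoidHom.range_eq_map, range_subtype] at this
  · obtain ⟨h1, h2⟩ := emb e.symm
    obtain ⟨a, ha, -, rfl⟩ := mem_pmap'.1 (h2.ge hy)
    exact solvable_of_le (solvable_pmap (solv a ha fun e => y1 (by rw [e, pel_one])) _)
      ((inf_le_inf_right _ h2.ge).trans (pmap_cent1_inj h1 ha).ge)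
  · obtain ⟨-, u, V, W, -, -, fV, -, sV, -, hV, -, -, -, -, -, -, -, mx⟩ := cen s hsK h
    have ho := PiNum.odd Yp (by simpa using hp.symm)
    rcases mx (K ⊓ 𝐍(Y)) inf_le_left (le_inf inf_le_left hn) with h1 | h1
    · rcases simple_normal hs ⟨hY, inf_eq_left.1 h1⟩ with rfl | rfl
      exacts [bot_le, absurd (hc ▸ ho) (by decide)]
    · exact fun y hy => mem_cent1_comm.1 (mem_cent_iff_le_cent1.1 (cents_of_norms_of_disjoint (hV.trans hn)
        ((le_inf hY le_normalizer).trans h1) (inf_eq_bot_of_coprime (by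
          rw [fV.card]; exact (Nat.coprime_two_right.2 ho).pow_right 2)) hy) sV)

theorem a7t (hK : K ⊴ X) (hc : X ⊓ 𝐂(K) = ⊥) (hd : DSyl X) (h : IsA7 K) : X = K ∧ A7T K := by
  classical
  refine ⟨?_, a7T h⟩
  have T := a7T h
  obtain ⟨e⟩ := h
  obtain ⟨h1, h2⟩ := emb e.symm
  set f := K.subtype.comp e.symm.toMonoidHom
  let Ω := {Y : Subgroup G // Y ≤ K ∧ Nat.card Y = 360}
  let H : Fin 7 → Ω := fun j => ⟨pmap f (X7 ⊓ MulAction.stabilizer S7 j), h2 ▸ pmap_mono f inf_le_left,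
    (card_pmap_of_inj inf_le_left (by simp [h1])).trans (c360 j)⟩
  have hΩ : Nat.card Ω ≤ 7 := (Nat.card_le_card_of_surjective H fun Y => by
    have hY : Y.1 ≤ f.range := Y.2.1.trans (h2.ge.trans (pmap_le_range f _))
    have h3 : Nat.card (pcomap f Y.1) = 360 := by rw [card_pcomap hY, h1, card_bot, Y.2.2]
    obtain ⟨j, hj⟩ := fix7 _ h3
    exact ⟨j, Subtype.ext (by
      rw [← pmap_pcomap_of_le hY, eq_of_le_of_card_eq (le_inf (pcomap_le_dom f _) hj) (h3.trans (c360 j).symm)])⟩).trans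
    (by simp)
  letI : MulAction X Ω :=
    { smul := fun x Y => ⟨cj x Y, cj_le_of_mem_normalizer Y.2.1 (hK.2 x.2), (card_cj _ _).trans Y.2.2⟩
      one_smul := fun Y => Subtype.ext (cj_one _)
      mul_smul := fun a b Y => Subtype.ext (cj_mul _ _ _) }
  let φ := MulAction.toPermHom X Ω
  have hφ : Function.Injective φ := by
    have hN := normalIn_map_subtype φ.ker
    have h3 := (simple_normal T.simple (hN.inf_right hK.1)).resolve_right fun h => by
      have h4 : K ≤ 𝐍((H 0).1) := fun x hx => by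
        obtain ⟨y, hy, rfl⟩ := (h.ge hx).1
        exact mem_normalizer_iff_cj.2 (congrArg Subtype.val (congr($hy (H 0)) :))
      have h5 := (H 0).2.2
      rcases simple_normal T.simple ⟨(H 0).2.1, h4⟩ with e | e <;> rw [e] at h5
      exacts [by rw [card_bot] at h5; omega, by rw [T.card] at h5; omega]
    rw [← MonoidHom.ker_eq_bot_iff, ← map_subtype_inj, Subgroup.map_bot, eq_bot_iff, ← hc]
    exact le_inf hN.1 (cents_of_norms_of_disjoint (hK.1.trans hN.2) (hN.1.trans hK.2) h3)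
  haveI := Fintype.ofFinite Ω
  have h3 : Nat.card X ∣ 5040 := (card_dvd_of_injective φ hφ).trans (by
    rw [Nat.card_perm]; exact Nat.factorial_dvd_factorial hΩ)
  obtain ⟨k, hk⟩ := card_dvd_of_le' hK.1
  refine (eq_of_le_of_card_le hK.1 (not_lt.1 fun hlt => ?_)).symm
  have h4 := Nat.le_of_dvd (by norm_num) h3
  rw [T.card] at hk hlt
  obtain ⟨S, R, hS, hR, -⟩ := hd
  have h5 := hS.card_eq_pow Nat.prime_two
  have h6 := card_mul_relIndex hR.le
  rw [show Nat.card X = 5040 by omega, show Nat.factorization 5040 2 = 4 by decide +kernel] at h5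
  rw [hR.idx, h5] at h6
  haveI := hR.cyc
  obtain ⟨r, hr⟩ := IsCyclic.exists_ofOrder_eq_natCard (α := R)
  have h7 : orderOf (φ ⟨r, hS.le (hR.le r.2)⟩) = 8 := by
    rw [orderOf_injective φ hφ, ← orderOf_coe, orderOf_coe r, hr]; omega
  have h8 : (8 : ℕ) ∣ 4 := by
    rw [← h7, ← Perm.lcm_cycleType, Multiset.lcm_dvd]
    intro n hn
    have h9 := h7 ▸ Perm.dvd_of_mem_cycleType hn
    have := (Perm.le_card_support_of_mem_cycleType hn).trans
      ((Finset.card_le_univ _).trans (Nat.card_eq_fintype_card.ge.trans hΩ))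
    interval_cases n <;> omega
  omega

end CA.GW
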