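/-
Gorenstein–Walter: general facts on sections with cyclic or dihedral 2-subgroups (`DG`).
-/
import Cfsg.Agent.Lib.GW.Basic
import Cfsg.Agent.Lib.G.Transfer
import Cfsg.Agent.Lib.FStar.Invol

set_option autoImplicit false

namespace CA.GW

open Cfsg CA CA.FStar Subgroup

variable {G : Type*} [Group G] [Finite G] {G' : Type*} [Group G'] [Finite G']
variable {D T R S L V X K N O E A B Y : Subgroup G} {s a b c x y z g : G}

section elem

omit [Finite G] in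
theorem two_of_sq (h : x * x = 1) : PiElt {2} x :=
  piElt_of_pow_eq_one (n := 2) ((piNum_prime Nat.prime_two).2 rfl) (by rw [pow_two, h])

omit [Finite G] in
theorem one_of_odd2 (hA : PiGrp {2}ᶜ A) (hx : x ∈ A) (h : x * x = 1) : x = 1 :=
  (two_of_sq h).eq_one (hA.piElt hx)

theorem core_pi (L : Subgroup G) : PiGrp {2}ᶜ 𝐎(L) := piCoreOf_piGrp _ L

theorem exists_inv2 (h : ¬ PiGrp {2}ᶜ A) : ∃ z ∈ A, Inv2 z := by
  rw [piGrp_compl_singleton Nat.prime_two, not_not] at h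
  obtain ⟨z, hz, e⟩ := exists_orderOf_eq_prime Nat.prime_two h
  exact ⟨z, hz, Inv.mul_self_of_orderOf e, Inv.ne_one_of_orderOf e⟩

theorem exists_inv2' (h : PiGrp {2} A) (h1 : A ≠ ⊥) : ∃ z ∈ A, Inv2 z :=
  exists_inv2 fun h' => h1 (h.eq_bot h')

theorem exists_inv2_ns (h : ¬ Group.IsSolvable A) : ∃ z ∈ A, Inv2 z :=
  exists_inv2 fun h' => h (solv_odd (odd_iff.2 h'))

omit [Finite G] in
theorem mul_mem_of_idx2 (h : A.relIndex B = 2) (ha : a ∈ B) (hb : b ∈ B) (ha' : a ∉ A) (hb' : b ∉ A) :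
    a * b ∈ A := by
  have := (mul_mem_iff_of_index_two (H := A.subgroupOf B) h (a := ⟨a, ha⟩) (b := ⟨b, hb⟩)).2
    (by simp [mem_subgroupOf, ha', hb'])
  exact this

theorem Four.nb (h : Four V) : V ≠ ⊥ := by
  rw [← one_lt_card_iff_ne_bot', h.card]; norm_num

theorem four_aut (h : Four V) (hX : X ≤ 𝐍(V)) : 𝐂(V).relIndex X ∣ 6 := by
  classical
  refine (card_quo_cent_dvd_card_aut hX).trans ?_
  have := Fintype.ofFinite V
  let φ : MulAut V →* Equiv.Perm {v : V // v ≠ 1} := MonoidHom.mk'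
    (fun σ => Equiv.Perm.subtypePerm σ.toEquiv fun v => by simp) fun σ τ => by ext; rfl
  have hφ : Function.Injective φ := by
    rw [injective_iff_map_eq_one]
    intro σ e
    ext1 v
    by_cases hv : v = 1
    · simp [hv]
    · exact congrArg Subtype.val (Equiv.congr_fun e ⟨v, hv⟩)
  have c : Nat.card (Equiv.Perm {v : V // v ≠ 1}) = 6 := by
    rw [Nat.card_eq_fintype_card, Fintype.card_perm, Fintype.card_subtype_compl, Fintype.card_subtype_eq,
      ← Nat.card_eq_fintype_card, h.card]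
    rfl
  rw [← c]
  exact card_dvd_of_injective φ hφ

theorem Four.cents_odd (h : Four V) (hy : y ∈ 𝐍(V)) (ho : Odd (orderOf y)) (ha : a ∈ V) (a1 : a ≠ 1)
    (e : y ∈ 𝐂[a]) : y ∈ 𝐂(V) := by
  obtain ⟨u, hu, u1, ua⟩ := h.exists ha
  have hm := h.mem ha hu a1 u1 ua.symm
  rw [mem_cent1_iff] at e
  have e1 : y * a * y⁻¹ = a := by rw [e, mul_inv_cancel_right]
  have key : y * u = u * y := by
    rcases (hm _).1 (conj_mem_of_mem_normalizer hy hu) with f | f | f | f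
    · exact absurd (by simpa using f) u1
    · exact absurd (by rw [← e1] at f; simpa using f) ua
    · exact mul_inv_eq_iff_eq_mul.1 f
    · have : y * y ∈ 𝐂[u] := by
        rw [mem_cent1_iff]
        have : y * y * u * (y * y)⁻¹ = u := by
          calc y * y * u * (y * y)⁻¹ = y * (y * u * y⁻¹) * y⁻¹ := by group
            _ = y * (a * u) * y⁻¹ := by rw [f]
            _ = (y * a * y⁻¹) * (y * u * y⁻¹) := by group
            _ = u := by rw [e1, f, Inv.mul_mul_cancel (h.sq a ha)]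
        exact mul_inv_eq_iff_eq_mul.1 this
      obtain ⟨k, hk⟩ := ho
      have h2 : y = (y * y) ^ (k + 1) := by
        rw [← pow_two, ← pow_mul, show 2 * (k + 1) = orderOf y + 1 by omega, pow_succ, pow_orderOf_eq_one, one_mul]
      rw [← mem_cent1_iff, h2]
      exact pow_mem this _
  rw [mem_cent_iff']
  intro v hv
  rcases (hm v).1 hv with rfl | rfl | rfl | rfl
  · simp
  · exact e
  · exact key
  · rw [← mul_assoc, e, mul_assoc, key, mul_assoc]

end elem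

section dih

theorem Dih.zc (h : Dih T R) (h1 : R ≠ ⊥) (h2 : PiGrp {2} T) : ∃ z ∈ R, Inv2 z ∧ T ≤ 𝐂[z] := by
  obtain ⟨z, hz, z2⟩ := exists_inv2' (h2.of_le h.le) h1
  refine ⟨z, hz, z2, fun x hx => mem_cent1_iff.2 ?_⟩
  by_cases hR : x ∈ R
  · exact abelian_iff'.1 (abelian_of_cyclic h.cyc) x hR z hz
  · have := h.inv hx hR hz
    rw [z2.inv] at this
    exact mul_inv_eq_iff_eq_mul.1 this

theorem dg_dich (h2 : PiGrp {2} T) (h1 : T ≠ ⊥) (h : IsCyclic T ∨ ∃ R, Dih T R ∧ R ≠ ⊥) :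
    Four T ∨ ∃ z ∈ T, Inv2 z ∧ 𝐍(T) ≤ 𝐂[z] := by
  rcases h with h | ⟨R, h, hR⟩
  · obtain ⟨z, hz, z2⟩ := exists_inv2' h2 h1
    refine Or.inr ⟨z, hz, z2, fun g hg => mem_cent1_iff.2 ?_⟩
    have := conj_mem_of_mem_normalizer (norms_of_cyclic h (zpowers_le.2 hz) le_rfl hg) (mem_zpowers z)
    rcases (mem_zpowers_sq z2.sq).1 this with e | e
    · exact absurd e (z2.conj g).ne
    · exact mul_inv_eq_iff_eq_mul.1 e
  by_cases hx : ∀ x ∈ R, x * x = 1
  · refine Or.inl ⟨?_, fun x hx' => (em (x ∈ R)).elim (hx x) (h.sq x hx')⟩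
    obtain ⟨r, hr, e⟩ := isCyclic_iff_exists_zpowers.1 h.cyc
    have r1 : r ≠ 1 := by rintro rfl; exact hR (by rw [e, zpowers_one_eq_bot])
    rw [h.card, e, Nat.card_zpowers, Inv.orderOf_eq_two (hx r hr) r1]
  · push Not at hx
    obtain ⟨x, hxR, hx⟩ := hx
    have x1 : x ≠ 1 := by rintro rfl; exact hx (mul_one 1)
    obtain ⟨z, hz, z2⟩ := exists_inv2' (h2.of_le ((zpowers_le.2 hxR).trans h.le)) (by simpa using x1)
    have zR : z ∈ R := zpowers_le.2 hxR hz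
    refine Or.inr ⟨z, h.le zR, z2, fun g hg => mem_cent1_iff.2 (mul_inv_eq_iff_eq_mul.1 ?_)⟩
    have h3 : g * x * g⁻¹ ∈ R := by
      by_contra h3
      have := h.sq _ (conj_mem_of_mem_normalizer hg (h.le hxR)) h3
      rw [conj_mul, conj_eq_one_iff] at this
      exact hx this
    have h4 : g * z * g⁻¹ ∈ R := by
      obtain ⟨k, rfl⟩ := mem_zpowers_iff.1 hz
      rw [← conj_zpow]; exact zpow_mem h3 k
    exact h.uniq h4 zR (z2.conj g) z2

theorem Dih.pm {D' : Subgroup G} {f : D' →* G'} (h : Dih D T) (hD : D ≤ D') (hk : pker f ⊓ D = ⊥) :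
    Dih (CA.pmap f D) (CA.pmap f T) := by
  have hT := h.le.trans hD
  refine ⟨pmap_mono f h.le, cyclic_pmap h.cyc f, ?_, fun s hs hT' => ?_⟩
  · have c1 := card_mul_relIndex (pmap_mono f h.le)
    rw [card_pmap_of_inj hD hk, card_pmap_of_inj hT (eq_bot_iff.2 (hk ▸ inf_le_inf_left _ h.le)), h.card,
      mul_comm 2] at c1
    exact Nat.eq_of_mul_eq_mul_left (card_pos' T) c1
  · obtain ⟨x, hx, rfl⟩ := (mem_pmap_of_le hD).1 hs
    rw [← pel_mul f (hD hx) (hD hx), h.sq x hx fun e => hT' (pel_mem_pmap f e), pel_one]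

/-- involutions of a dihedral 2-group outside a noncyclic subgroup of index 2 are conjugate -/
theorem Dih.outer (h : Dih S R) (h2 : PiGrp {2} S) (hA : A ≤ S) (hc : ¬ IsCyclic A)
    (hm : ∀ x ∈ S, ∀ y ∈ S, x ∉ A → y ∉ A → x * y ∈ A) (ha : a ∈ S) (hb : b ∈ S) (a2 : Inv2 a) (b2 : Inv2 b)
    (aA : a ∉ A) (bA : b ∉ A) : ∃ g ∈ S, g * b * g⁻¹ = a := by
  have hAR : ¬ A ≤ R := fun e => hc (cyclic_of_le h.cyc e)
  have h1 : A ⊓ R ≠ ⊥ := fun e => hc (isCyclic_of_prime_card' (by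
    rw [(h.inf hA hAR).card, e, card_bot]; exact Nat.prime_two))
  obtain ⟨z, hz, z2⟩ := exists_inv2' ((h2.of_le hA).inf_left R) h1
  have aR : a ∉ R := fun e => aA (h.uniq e hz.2 a2 z2 ▸ hz.1)
  have bR : b ∉ R := fun e => bA (h.uniq e hz.2 b2 z2 ▸ hz.1)
  obtain ⟨r, hr, e⟩ := isCyclic_iff_exists_zpowers.1 h.cyc
  have rA : r ∉ A := fun hrA => by
    obtain ⟨w, hw, wR⟩ := SetLike.not_le_iff_exists.1 hAR
    have h3 : a * w ∈ A := zpowers_le.2 hrA (e ▸ h.mul_mem ha (hA hw) aR wR)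
    exact aA ((A.mul_mem_cancel_right hw).1 h3)
  have h3 := h.mul_mem ha hb aR bR
  have h4 := hm a ha b hb aA bA
  rw [e] at h3
  obtain ⟨k, hk⟩ := mem_zpowers_iff.1 h3
  have rr : r * r ∈ A := hm r (h.le hr) r (h.le hr) rA rA
  rcases Int.even_or_odd' k with ⟨j, rfl | rfl⟩
  · refine ⟨r ^ j, h.le (zpow_mem hr j), ?_⟩
    have h5 := h.inv hb bR (R.inv_mem (zpow_mem hr j))
    rw [inv_inv] at h5
    calc r ^ j * b * (r ^ j)⁻¹ = r ^ j * (b * (r ^ j)⁻¹ * b⁻¹) * b := by group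
      _ = r ^ (2 * j) * b := by rw [h5, two_mul, zpow_add]
      _ = a := by rw [hk, Inv.mul_cancel_right b2.sq]
  · rw [← hk, zpow_add, zpow_one, zpow_mul, zpow_two] at h4
    exact absurd ((A.mul_mem_cancel_left (zpow_mem rr j)).1 h4) rA

end dih

/-- 2-subgroups are cyclic or dihedral, centralizers of involutions have normal 2-complements -/
structure DG (X : Subgroup G) : Prop where
  two : ∀ T ≤ X, PiGrp {2} T → IsCyclic T ∨ ∃ R, Dih T R ∧ R ≠ ⊥
  npc : ∀ s ∈ X, Inv2 s → NormalPCompl 2 (X ⊓ 𝐂[s])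

section dg

theorem DG.of_le (h : DG X) (hY : Y ≤ X) : DG Y :=
  ⟨fun T hT => h.two T (hT.trans hY), fun s hs s2 => (h.npc s (hY hs) s2).of_le (inf_le_inf_right _ hY)⟩

theorem DG.solv (h : DG X) (hs : s ∈ X) (s2 : Inv2 s) (hY : Y ≤ X) (hc : Y ≤ 𝐂[s]) : Group.IsSolvable Y :=
  solvable_of_le (solv_of_npc (h.npc s hs s2)) (le_inf hY hc)

theorem lift_inv {D' : Subgroup G} {f : D' →* G'} (hX : X ≤ D') (hk : PiGrp {2}ᶜ (pker f)) {u : G'}
    (hu : u ∈ pmap f X) (u2 : Inv2 u) : ∃ s ∈ X, Inv2 s ∧ pel f s = u := by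
  obtain ⟨s, hs, h2, rfl⟩ := exists_piElt_pel hX hu (two_of_sq u2.sq)
  refine ⟨s, hs, ⟨?_, fun e => u2.ne (by rw [e, pel_one])⟩, rfl⟩
  have : s * s ∈ pker f := mem_pker.2 ⟨D'.mul_mem (hX hs) (hX hs), by rw [pel_mul f (hX hs) (hX hs), u2.sq]⟩
  exact (h2.mul h2 rfl).eq_one (hk.piElt this)

omit [Finite G'] in
theorem Inv2.pm {D' : Subgroup G} {f : D' →* G'} (s2 : Inv2 s) (hs : s ∈ D') (hk : PiGrp {2}ᶜ (pker f)) :
    Inv2 (pel f s) :=
  ⟨by rw [← pel_mul f hs hs, s2.sq, pel_one], fun e => s2.ne (one_of_odd2 hk (mem_pker.2 ⟨hs, e⟩) s2.sq)⟩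

omit [Finite G'] in
theorem pm_cent {D' : Subgroup G} {f : D' →* G'} (hk : PiGrp {2}ᶜ (pker f)) (hs : s ∈ D') (s2 : Inv2 s)
    (hX : s ∈ 𝐍(X)) : pmap f (X ⊓ 𝐂[s]) = pmap f X ⊓ 𝐂[pel f s] := by
  have := (copAct_p_right ((zpowers_le.2 hs).trans (pker_normalIn f).norm) hk
    (piGrp_zpowers.2 (two_of_sq s2.sq))).pmap_inf_cent_ker (zpowers_le.2 hs) (zpowers_le.2 hX)
  rwa [pmap_zpowers f hs, cent_zpowers, cent_zpowers] at this

theorem DG.pm {D' : Subgroup G} {f : D' →* G'} (h : DG X) (hX : X ≤ D') (hk : PiGrp {2}ᶜ (pker f)) :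
    DG (pmap f X) := by
  refine ⟨fun U hU U2 => ?_, fun u hu u2 => ?_⟩
  · obtain ⟨T, hT, T2, rfl⟩ := exists_piGrp_singleton_pmap f hX U2 hU
    have hd := hk.inf_eq_bot' T2
    rcases h.two T hT T2 with e | ⟨R, e, hR⟩
    · exact Or.inl (cyclic_pmap e f)
    · refine Or.inr ⟨_, e.pm (hT.trans hX) hd, fun e' => hR (eq_bot_iff.2 ?_)⟩
      rw [pmap_eq_bot_iff (e.le.trans (hT.trans hX))] at e'
      exact hd ▸ le_inf e' e.le
  · obtain ⟨s, hs, s2, rfl⟩ := lift_inv hX hk hu u2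
    rw [← pm_cent hk (hX hs) s2 (le_normalizer hs)]
    exact (h.npc s hs s2).pmap f

theorem DG.quo (h : DG X) : DG (X /ₛ 𝐎(X)) :=
  h.pm (piCoreOf_norm _ X) (by rw [pker_qmk]; exact core_pi X)

theorem solv_of_four (hV : Four V) (hn : X ≤ 𝐍(V)) (hs : Group.IsSolvable ↥(X ⊓ 𝐂(V))) : Group.IsSolvable X := by
  have hN : X ⊓ 𝐂(V) ⊴ X := normalIn_inf_of_norm (norms_cent hn)
  refine solvable_of_quo hN.norm hs (solvable_of_zgroup (IsZGroup.of_squarefree ?_))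
  rw [card_quo hN.norm, inf_relIndex_left]
  exact Squarefree.squarefree_of_dvd (four_aut hV hn) (by decide +kernel)

theorem DG.o2 (h : DG X) (hN : N ⊴ X) (h1 : N ≠ ⊥) (h2 : PiGrp {2} N) : Group.IsSolvable X := by
  rcases dg_dich h2 h1 (h.two N hN.le h2) with hV | ⟨z, hz, z2, e⟩
  · obtain ⟨z, hz, z2⟩ := exists_inv2' h2 h1
    exact solv_of_four hV hN.norm (h.solv (hN.le hz) z2 inf_le_left (inf_le_right.trans (cent_le_cent1 hz)))
  · exact h.solv (hN.le hz) z2 le_rfl (hN.norm.trans e)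

theorem DG.dih (h : DG X) (hs : ¬ Group.IsSolvable X) (hT : SylowIn 2 T X) : ∃ R, Dih T R ∧ R ≠ ⊥ :=
  (h.two T hT.le hT.piGrp).resolve_left fun e => hs (solv_of_npc (npc_cyc hT e))

theorem DG.dsyl (h : DG X) (hs : ¬ Group.IsSolvable X) : DSyl X := by
  obtain ⟨T, hT⟩ := exists_sylowIn 2 X
  obtain ⟨R, hR⟩ := h.dih hs hT
  exact ⟨T, R, hT, hR⟩

theorem DG.comp (h : DG X) (hK : CompIn K X) : lay X = K := by
  refine le_antisymm (lay_le_iff.2 fun K' hK' => ?_) hK.le_lay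
  rcases hK'.eq_or_cents hK with e | e
  · exact e.le
  · obtain ⟨z, hz, z2⟩ := exists_inv2_ns hK.qs.not_solvable
    exact absurd (h.solv (hK.le hz) z2 hK'.le (e.trans (cent_le_cent1 hz))) hK'.qs.not_solvable

theorem DG.qs (h : DG X) (hE : lay X ≠ ⊥) : QS (lay X) := by
  obtain ⟨K, hK⟩ := exists_compIn hE
  rw [h.comp hK]; exact hK.qs

theorem lay_cents_core (X : Subgroup G) : lay X ≤ 𝐂(𝐎(X)) :=
  lay_cents_of_solvable (piCoreOf_normalIn _ X).subnormalIn (solv_core X)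

theorem DG.cent_lay (h : DG X) (hE : lay X ≠ ⊥) : X ⊓ 𝐂(lay X) = 𝐎(X) := by
  refine le_antisymm (le_piCoreOf (lay_normalIn X).cent ?_) (le_inf (piCoreOf_le _ X) (cents_symm (lay_cents_core X)))
  by_contra e
  obtain ⟨z, hz, z2⟩ := exists_inv2 e
  exact (h.qs hE).not_solvable (h.solv hz.1 z2 (lay_le X) (mem_cent_iff_le_cent1.1 hz.2))

theorem DG.fit (h : DG X) (hs : ¬ Group.IsSolvable X) : fittingOf X ≤ 𝐎(X) := by
  refine fittingOf_le_of_forall_piCoreOf_le fun p _ _ => ?_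
  by_cases e : p = 2
  · subst e
    by_contra e'
    exact hs (h.o2 (piCoreOf_normalIn _ X) (fun e => e' (e ▸ bot_le)) (piCoreOf_piGrp _ X))
  · exact piCoreOf_mono_pi (by simpa using Ne.symm e) X

theorem DG.lay_ne (h : DG X) (hY : Y ≤ X) (hs : ¬ Group.IsSolvable Y) (hc : Y ≤ 𝐂(𝐎(X))) : lay X ≠ ⊥ := by
  intro e
  have e2 : fstar X = fittingOf X := by rw [fstar_eq, e, bot_sup_eq]
  have := le_fstar_of_cents hY (by
    rw [e2]; exact hc.trans (cent_mono (h.fit fun e => hs (solvable_of_le e hY))))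
  rw [e2] at this
  exact hs (solvable_of_le (solvable_of_nilpotent (fittingOf_nilpotent X)) this)

omit [Finite G] in
theorem qs_simple (h : QS K) (hc : K ⊓ 𝐂(K) = ⊥) : IsSimpleGroup K := by
  have : Nontrivial K := (nontrivial_iff_ne_bot K).2 h.ne_bot
  refine ⟨fun N hN => ?_⟩
  rcases h.normal (normalIn_map_subtype N) with e | e
  · left
    rw [← subgroupOf_map_subtype' N, le_bot_iff.1 ((le_inf (map_subtype_le N) e).trans hc.le), bot_subgroupOf]
  · right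
    rw [← subgroupOf_map_subtype' N, e, subgroupOf_self]

omit [Finite G] in
theorem le_of_perf (hp : ⁅Y, Y⁆ = Y) (hO : Group.IsSolvable O) (hn : O ≤ 𝐍(E)) (h : Y ≤ E ⊔ O) : Y ≤ E := by
  have hY : Y ≤ 𝐍(E) := h.trans (sup_le le_normalizer hn)
  rw [← quo_eq_bot_iff hY]
  by_contra e
  have := der_lt_of_solvable (solvable_of_le (solvable_quo hO E) (by
    rw [← quo_sup_left hn]; exact quo_mono E h)) e
  rw [← quo_der hY, hp] at this
  exact this.ne rfl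

theorem mem_of_two (hO : PiGrp {2}ᶜ O) (hn : O ≤ 𝐍(E)) (hx : x ∈ E ⊔ O) (h2 : PiElt {2} x) : x ∈ E :=
  zpowers_le.1 ((piGrp_zpowers.2 h2).le_of_normal_of_relIndex (zpowers_le.2 hx) le_sup_left
    ((zpowers_le.2 hx).trans (sup_le le_normalizer hn)) (by rw [relIndex_sup_of_norm hn]; exact hO.relIndex E))

theorem quo_lay (h : DG X) (hE : lay X ≠ ⊥) : lay (X /ₛ 𝐎(X)) = lay X /ₛ 𝐎(X) := by
  have hn := (lay_le X).trans (piCoreOf_norm {2}ᶜ X)
  refine h.quo.comp ⟨((lay_normalIn X).quo _).subnormalIn, ((h.qs hE).subgroupOf hn).map ?_⟩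
  exact quo_ne_bot hn ((h.qs hE).not_le_of_solvable (solv_core X))

end dg

end CA.GW
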