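/-
Gorenstein–Walter: structure of the proper subgroups of a minimal counterexample.
-/
import Cfsg.Agent.Lib.GW.Str0
import Cfsg.Agent.Lib.GW.L2
import Cfsg.Agent.Lib.GW.A7k

set_option autoImplicit false

namespace CA.GW

open Cfsg CA CA.FStar Subgroup

universe u

/-- The two recognition theorems `l2t`, `a7t` (instance below). -/
class KT.{v} : Prop where
  l2t : ∀ {G : Type v} [Group G] [Finite G] {X K : Subgroup G} {q : ℕ}, K ⊴ X → X ⊓ 𝐂(K) = ⊥ → DSyl X → IsL2 K q →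
    ∃ P, L2T X K P q
  a7t : ∀ {G : Type v} [Group G] [Finite G] {X K : Subgroup G}, K ⊴ X → X ⊓ 𝐂(K) = ⊥ → DSyl X → IsA7 K →
    X = K ∧ A7T K

instance instKT.{v} : KT.{v} := ⟨l2t, a7t⟩

section gen
variable {G : Type*} [Group G] [Finite G] {X L V T : Subgroup G} {a c : G}

/-- solvable `DG` groups with trivial core -/
theorem DG.solv_str (h : DG X) (hs : Group.IsSolvable X) (hO : 𝐎(X) = ⊥) :
    PiGrp {2} X ∨ ∃ V, Four V ∧ V ⊴ X ∧ X ⊓ 𝐂(V) = V := by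
  have h2 : PiGrp {2} (fittingOf X) := piGrp_fittingOf_of_core_eq_bot hO
  have hN := fittingOf_normalIn X
  by_cases h1 : fittingOf X = ⊥
  · left; rw [(fittingOf_eq_bot_iff hs).1 h1]; exact piGrp_bot _
  rcases dg_dich h2 h1 (h.two _ hN.le h2) with hV | ⟨z, hz, z2, e⟩
  · exact Or.inr ⟨_, hV, hN, le_antisymm (cent_le_fittingOf hs) (le_inf hN.le hV.le_cent)⟩
  · left
    have := (h.npc z (hN.le hz) z2).of_le (le_inf le_rfl (hN.norm.trans e))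
    refine piGrp_of_relIndex (A := 𝐎(X)) ?_ this.piNum
    rw [hO, bot_inf_eq]; exact piGrp_bot _

theorem lift_four {O : Subgroup G} (hL : L ≤ 𝐍(O)) (hO : PiGrp {2}ᶜ O) {U : Subgroup (Quo O)} (hU : Four U)
    (h : U ≤ L /ₛ O) : ∃ V ≤ L, Four V ∧ V /ₛ O = U := by
  obtain ⟨V, hV, V2, rfl⟩ := exists_piGrp_singleton_pmap _ hL hU.piGrp h
  have hn := hV.trans hL
  refine ⟨V, hV, ⟨?_, fun x hx => ?_⟩, rfl⟩
  · rw [← card_quo_of_coprime hn (hO.coprime' V2), hU.card]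
  · have : x * x ∈ O := by
      rw [← qel_eq_one_iff (hn (V.mul_mem hx hx)), pel_mul _ (hn hx) (hn hx)]
      exact hU.sq _ (qel_mem_quo O hx)
    exact (V2.piElt (V.mul_mem hx hx)).eq_one (hO.piElt this)

end gen

variable {G : Type u} [Group G] [Finite G] (m : Min G) {L M E V Y Z T : Subgroup G} {s a b c x y : G} {p : ℕ}
include m

theorem Min.dg (L : Subgroup G) : DG L :=
  ⟨fun _ _ h => m.two h, fun _ _ s2 => m.npc s2 inf_le_right⟩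

theorem Min.str' [KT.{u}] (hL : L ≠ ⊤) (hs : ¬ Group.IsSolvable L) :
    (∃ P q, L2T (L /ₛ 𝐎(L)) (lay (L /ₛ 𝐎(L))) P q) ∨ (L /ₛ 𝐎(L) = lay (L /ₛ 𝐎(L)) ∧ A7T (L /ₛ 𝐎(L))) := by
  have hd := (m.dg L).quo
  have hO := piCoreOf_quo_self {2}ᶜ L
  have hs' : ¬ Group.IsSolvable ↥(L /ₛ 𝐎(L)) := fun e => hs (solvable_of_quo (piCoreOf_norm _ L) (solv_core L) e)
  have hlt : Nat.card ↥(L /ₛ 𝐎(L)) < Nat.card G :=
    (card_quo_le L _).trans_lt ((card_lt_of_lt' hL.lt_top).trans_eq card_top)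
  generalize L /ₛ 𝐎(L) = X at *
  have hE : lay X ≠ ⊥ := hd.lay_ne le_rfl hs' (by rw [hO, cent_bot']; exact le_top)
  have hc : X ⊓ 𝐂(lay X) = ⊥ := (hd.cent_lay hE).trans hO
  have hq := hd.qs hE
  have := qs_simple hq (le_bot_iff.1 ((inf_le_inf_right _ (lay_le X)).trans hc.le))
  rcases m.ind (lay X) ((card_le_of_le' (lay_le X)).trans_lt hlt) (by rw [← der_subgroupOf, hq.der, subgroupOf_self])
    ((hd.of_le (lay_le X)).dsyl hq.not_solvable).top with ⟨q, h⟩ | h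
  · obtain ⟨P, hP⟩ := KT.l2t (lay_normalIn X) hc (hd.dsyl hs') h
    exact Or.inl ⟨P, q, hP⟩
  · obtain ⟨e, h'⟩ := KT.a7t (lay_normalIn X) hc (hd.dsyl hs') h
    exact Or.inr ⟨e, by rw [e]; exact h'⟩

theorem Min.str [KT.{u}] (hL : L ≠ ⊤) (hs : ¬ Group.IsSolvable L) :
    (∃ K P q, L2T (L /ₛ 𝐎(L)) K P q) ∨ A7T (L /ₛ 𝐎(L)) :=
  (m.str' hL hs).imp (fun ⟨P, q, h⟩ => ⟨_, P, q, h⟩) And.right

theorem Min.str_solv (hs : Group.IsSolvable L) : NormalPCompl 2 L ∨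
    ∃ V, Four V ∧ 𝐎(L) ⊔ V ⊴ L ∧ ((𝐎(L) ⊔ V).relIndex L = 3 ∨ (𝐎(L) ⊔ V).relIndex L = 6) := by
  have hn := piCoreOf_normalIn {2}ᶜ L
  rcases (m.dg L).quo.solv_str (solvable_quo hs _) (piCoreOf_quo_self _ L) with h | ⟨U, hU, hN, hc⟩
  · exact Or.inl (normalPCompl_iff_quo.2 h)
  obtain ⟨V, hV, V4, rfl⟩ := lift_four hn.norm (core_pi L) hU hN.le
  have h6 := four_aut hU hN.norm
  rw [← inf_relIndex_left, hc] at h6
  have e : (V /ₛ 𝐎(L)).relIndex (L /ₛ 𝐎(L)) = (𝐎(L) ⊔ V).relIndex L := by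
    rw [← relIndex_coq hn.norm, coq_quo (hV.trans hn.norm)]
  by_cases h2 : (V /ₛ 𝐎(L)).relIndex (L /ₛ 𝐎(L)) ∣ 2
  · exact Or.inl (normalPCompl_iff_quo.2 (hU.piGrp.of_relIndex (((piNum_prime (π := {2}) Nat.prime_two).2 rfl).of_dvd h2)))
  · refine Or.inr ⟨V, V4, by rw [← coq_quo (hV.trans hn.norm)]; exact coq_normalIn hn hN, ?_⟩
    rw [e] at h6 h2
    have := Nat.le_of_dvd (by norm_num) h6
    generalize (𝐎(L) ⊔ V).relIndex L = n at *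
    interval_cases n <;> simp_all

set_option linter.unusedVariables false in
theorem Min.lay_qs (hL : L ≠ ⊤) (hE : lay L ≠ ⊥) : QS (lay L) := (m.dg L).qs hE

set_option linter.unusedVariables false in
theorem Min.cent_lay (hL : L ≠ ⊤) (hE : lay L ≠ ⊥) : L ⊓ 𝐂(lay L) = 𝐎(L) := (m.dg L).cent_lay hE

theorem Min.lay_ns (hE : lay L ≠ ⊥) (h : lay L ≤ Y) : ¬ Group.IsSolvable Y :=
  fun e => ((m.dg L).qs hE).not_le_of_solvable e h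

set_option linter.unusedVariables false in
theorem Min.fit_le (hL : L ≠ ⊤) (hE : lay L ≠ ⊥) : fittingOf L ≤ 𝐎(L) := (m.dg L).fit (m.lay_ns hE (lay_le L))

theorem Min.strE [KT.{u}] (hL : L ≠ ⊤) (hE : lay L ≠ ⊥) :
    (∃ P q, L2T (L /ₛ 𝐎(L)) (lay L /ₛ 𝐎(L)) P q) ∨ (L /ₛ 𝐎(L) = lay L /ₛ 𝐎(L) ∧ A7T (L /ₛ 𝐎(L))) :=
  quo_lay (m.dg L) hE ▸ m.str' hL (m.lay_ns hE (lay_le L))

omit m in
theorem core_norm_lay (L : Subgroup G) : 𝐎(L) ≤ 𝐍(lay L) := (piCoreOf_le _ L).trans (lay_normalIn L).norm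

omit m in
theorem le_lay_sup (hY : Y ≤ L) : Y ≤ lay L ⊔ 𝐎(L) ↔ Y /ₛ 𝐎(L) ≤ lay L /ₛ 𝐎(L) := by
  rw [quo_le_quo_iff (hY.trans (piCoreOf_norm _ L)) ((lay_le L).trans (piCoreOf_norm _ L)), sup_comm]

omit m in
theorem mem_lay_sup (hx : x ∈ L) : x ∈ lay L ⊔ 𝐎(L) ↔ qel 𝐎(L) x ∈ lay L /ₛ 𝐎(L) := by
  rw [qel_mem_quo_iff' (piCoreOf_norm _ L hx) ((lay_le L).trans (piCoreOf_norm _ L)), sup_comm]

omit m in
theorem two_mem_lay (hx : x ∈ L) (h2 : PiElt {2} x) : x ∈ lay L ↔ qel 𝐎(L) x ∈ lay L /ₛ 𝐎(L) :=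
  ⟨qel_mem_quo _, fun h => mem_of_two (core_pi L) (core_norm_lay L) ((mem_lay_sup hx).2 h) h2⟩

theorem Min.der_le [KT.{u}] (hL : L ≠ ⊤) (hE : lay L ≠ ⊥) : ⁅L, L⁆ ≤ lay L ⊔ 𝐎(L) := by
  rw [le_lay_sup (CA.der_le L), quo_der (piCoreOf_norm _ L)]
  rcases m.strE hL hE with ⟨P, q, h⟩ | ⟨h, -⟩
  · exact h.der
  · exact h ▸ CA.der_le _

theorem Min.le_lay [KT.{u}] (hL : L ≠ ⊤) (hE : lay L ≠ ⊥) (hY : Y ≤ L) (hp : ⁅Y, Y⁆ = Y) : Y ≤ lay L :=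
  le_of_perf hp (solv_core L) (core_norm_lay L) (hp.ge.trans ((der_mono hY).trans (m.der_le hL hE)))

set_option linter.unusedVariables false in
/-- a nonsolvable subgroup of `L` centralizing `O(L)` and normal in `L` forces a component -/
theorem Min.lay_ne (hL : L ≠ ⊤) (hY : Y ⊴ L) (hs : ¬ Group.IsSolvable Y) (hc : Y ≤ 𝐂(𝐎(L))) : lay L ≠ ⊥ :=
  (m.dg L).lay_ne hY.le hs hc

set_option linter.unusedVariables false in
theorem Min.lay_four (hL : L ≠ ⊤) (hE : lay L ≠ ⊥) (hs : s ∈ lay L) (s2 : Inv2 s) : ∃ V ≤ lay L, Four V ∧ s ∈ V :=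
  (m.dsyl_of (m.lay_ns hE le_rfl)).exists_four hs s2

theorem Min.two_mul [KT.{u}] (hL : L ≠ ⊤) (hE : lay L ≠ ⊥) (ha : a ∈ L) (hb : b ∈ L) (a2 : PiElt {2} a) (b2 : PiElt {2} b)
    (aE : a ∉ lay L) (bE : b ∉ lay L) : a * b ∈ lay L ⊔ 𝐎(L) := by
  have hn := piCoreOf_norm {2}ᶜ L
  rw [two_mem_lay ha a2] at aE
  rw [two_mem_lay hb b2] at bE
  rw [mem_lay_sup (L.mul_mem ha hb), pel_mul _ (hn ha) (hn hb)]
  rcases m.strE hL hE with ⟨P, q, h⟩ | ⟨h, -⟩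
  · have key : ∀ x ∈ L, PiElt {2} x → qel 𝐎(L) x ∈ P := fun x hx x2 =>
      zpowers_le.1 ((piGrp_zpowers.2 (x2.qel _)).le_of_normal_of_relIndex (zpowers_le.2 (qel_mem_quo _ hx)) h.PX.le
        ((zpowers_le.2 (qel_mem_quo _ hx)).trans h.PX.norm)
        ((piNum_compl_singleton Nat.prime_two).2 (by rw [← even_iff_two_dvd, Nat.not_even_iff_odd]; exact h.oddi)))
    rcases h.idx with e | e
    · exact absurd (relIndex_eq_one.1 e (key a ha a2)) aE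
    · exact mul_mem_of_idx2 e (key a ha a2) (key b hb b2) aE bE
  · exact absurd (h ▸ qel_mem_quo _ ha) aE

theorem Min.lay_inv [KT.{u}] (hL : L ≠ ⊤) (hE : lay L ≠ ⊥) (hV : Four V) (hVL : V ≤ L) : ∃ v ∈ V, v ≠ 1 ∧ v ∈ lay L := by
  obtain ⟨a, ha, b, hb, a1, b1, ab⟩ := hV.exists_two
  by_cases aE : a ∈ lay L
  · exact ⟨a, ha, a1, aE⟩
  by_cases bE : b ∈ lay L
  · exact ⟨b, hb, b1, bE⟩
  exact ⟨a * b, V.mul_mem ha hb, ((hV.inv2 ha a1).mul (hV.inv2 hb b1) ab (hV.comm ha hb)).ne,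
    mem_of_two (core_pi L) (core_norm_lay L) (m.two_mul hL hE (hVL ha) (hVL hb) (hV.piGrp.piElt ha)
      (hV.piGrp.piElt hb) aE bE) (hV.piGrp.piElt (V.mul_mem ha hb))⟩

theorem Min.lay_one (hE : lay L ≠ ⊥) (ha : a ∈ lay L) (hb : b ∈ lay L) (a2 : Inv2 a) (b2 : Inv2 b) :
    ∃ g ∈ lay L, g * a * g⁻¹ = b :=
  (m.dsyl_of (m.lay_ns hE le_rfl)).conj (lay_der L) ha hb a2 b2

omit m [Finite G] in
theorem conj_of_sup {N : Subgroup G} {g : G} (hn : a ∈ 𝐍(N)) (hg : g ∈ N ⊔ zpowers a) :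
    ∃ n ∈ N, ∃ k ∈ zpowers a, n * k = g ∧ n * a * n⁻¹ = g * a * g⁻¹ := by
  obtain ⟨n, hn, k, hk, rfl⟩ := (mem_sup_of_norm_right (zpowers_le.2 hn)).1 hg
  refine ⟨n, hn, k, hk, rfl, ?_⟩
  have := mem_cent1_iff.1 (zpowers_le.2 (self_mem_cent1 a) hk)
  rw [mul_assoc n k, this]; group

theorem Min.lay_conj [KT.{u}] (hL : L ≠ ⊤) (hE : lay L ≠ ⊥) (ha : a ∈ L) (hb : b ∈ L) (a2 : Inv2 a) (b2 : Inv2 b)
    (h : a ∈ lay L ↔ b ∈ lay L) : ∃ g ∈ lay L ⊔ 𝐎(L), g * a * g⁻¹ = b := by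
  by_cases aE : a ∈ lay L
  · obtain ⟨g, hg, e⟩ := m.lay_one hE aE (h.1 aE) a2 b2
    exact ⟨g, mem_sup_left hg, e⟩
  have bE : b ∉ lay L := fun e => aE (h.2 e)
  have hN : lay L ⊔ 𝐎(L) ⊴ L := (lay_normalIn L).sup (piCoreOf_normalIn _ L)
  have hH : lay L ⊔ 𝐎(L) ⊔ zpowers a ≤ L := sup_le hN.le (zpowers_le.2 ha)
  have key : ∀ x ∈ L, PiElt {2} x → x ∈ lay L ⊔ 𝐎(L) → x ∈ lay L := fun x _ h2 h =>
    mem_of_two (core_pi L) (core_norm_lay L) h h2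
  have bH : b ∈ lay L ⊔ 𝐎(L) ⊔ zpowers a := by
    have := mul_mem (mem_sup_left (m.two_mul hL hE hb ha b2.piElt a2.piElt bE aE))
      (mem_sup_right (mem_zpowers a) : a ∈ lay L ⊔ 𝐎(L) ⊔ zpowers a)
    rwa [Inv.mul_cancel_right a2.sq] at this
  obtain ⟨S, hS, aS⟩ := exists_sylowIn_ge a2.piGrp (le_sup_right : _ ≤ lay L ⊔ 𝐎(L) ⊔ zpowers a)
  rw [zpowers_le] at aS
  obtain ⟨g, hg, bS⟩ := hS.exists_conj_mem bH b2.piElt
  have hns := m.lay_ns hE (le_sup_left : _ ≤ lay L ⊔ 𝐎(L))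
  obtain ⟨R, hd, -⟩ := (m.dg _).dih (fun e => hns (solvable_of_le e le_sup_left)) hS
  have hSL := hS.le.trans hH
  obtain ⟨k, hk, e⟩ := hd.outer hS.piGrp (inf_le_left : S ⊓ (lay L ⊔ 𝐎(L)) ≤ S)
    (fun e => hns (solv_of_npc (m.npc_cyc (hS.inf_normal (hN.of_le le_sup_left hH)) e)))
    (fun x hx y hy h1 h2 => ⟨S.mul_mem hx hy, m.two_mul hL hE (hSL hx) (hSL hy) (hS.piGrp.piElt hx)
      (hS.piGrp.piElt hy) (fun e => h1 ⟨hx, mem_sup_left e⟩) fun e => h2 ⟨hy, mem_sup_left e⟩⟩)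
    bS aS (b2.conj g) a2 (fun e => bE (key b hb b2.piElt (by
      simpa [mul_assoc] using conj_inv_mem_of_mem_normalizer (hN.norm (hH hg)) e.2))) fun e => aE (key a ha a2.piElt e.2)
  obtain ⟨n, hn, -, -, -, e'⟩ := conj_of_sup (hN.norm ha) (mul_mem (inv_mem hg) (hS.le hk))
  refine ⟨n, hn, ?_⟩
  calc n * a * n⁻¹ = g⁻¹ * (k * a * k⁻¹) * g := by rw [e']; group
    _ = b := by rw [e]; group

theorem Min.swap_lt (hV : Four V) (hT : PiGrp {2} T) (h : V < T) (ha : a ∈ V) (hc : c ∈ V) (a1 : a ≠ 1) (c1 : c ≠ 1)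
    (ac : a ≠ c) (hTc : T ≤ 𝐂[c]) : ∃ g ∈ T ⊓ 𝐍(V), g * a * g⁻¹ = a * c := by
  obtain ⟨g, hg, gV⟩ := SetLike.exists_of_lt (lt_inf_normalizer_nil hT.nilpotent h)
  refine ⟨g, hg, ?_⟩
  have e := mem_cent1_iff.1 (hTc hg.1)
  rcases (hV.mem ha hc a1 c1 ac _).1 (conj_mem_of_mem_normalizer hg.2 ha) with f | f | f | f
  · exact absurd (conj_eq_one_iff.1 f) a1
  · refine absurd (m.mem_four hV (mem_cent_iff_le_cent1.2 (hV.le_of ha hc a1 c1 ac ?_ ?_)) (hT.piElt hg.1)) gV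
    · exact mem_cent1_iff.2 (mul_inv_eq_iff_eq_mul.1 f).symm
    · exact mem_cent1_iff.2 e.symm
  · rw [mul_inv_eq_iff_eq_mul, ← e] at f
    exact absurd (mul_left_cancel f) ac
  · exact f

set_option linter.unusedVariables false in
theorem Min.lay_rot (hL : L ≠ ⊤) (hE : lay L ≠ ⊥) (hV : Four V) (hVE : V ≤ lay L) (ha : a ∈ V) (hb : b ∈ V)
    (a1 : a ≠ 1) (b1 : b ≠ 1) : ∃ g ∈ lay L ⊓ 𝐍(V), g * a * g⁻¹ = b := by
  by_cases ab : a = b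
  · exact ⟨1, one_mem _, by simp [ab]⟩
  have a2 := hV.inv2 ha a1
  have c2 := a2.mul (hV.inv2 hb b1) ab (hV.comm ha hb)
  have hc := V.mul_mem ha hb
  obtain ⟨T, hT, hVT⟩ := exists_sylowIn_ge hV.piGrp (le_inf hVE (hV.le_cent1 hc))
  rcases hVT.lt_or_eq with h | rfl
  · obtain ⟨g, hg, e⟩ := m.swap_lt hV hT.piGrp h ha hc a1 c2.ne (fun e => b1 (by simpa using e))
      (hT.le.trans inf_le_right)
    exact ⟨g, ⟨(hT.le hg.1).1, hg.2⟩, by rw [e, Inv.mul_mul_cancel a2.sq]⟩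
  · obtain ⟨S, hS⟩ := exists_sylowIn 2 (lay L)
    obtain ⟨R, hd, hR⟩ := (m.dg _).dih (m.lay_ns hE le_rfl) hS
    obtain ⟨z, hz, z2, hzc⟩ := hd.zc hR hS.piGrp
    obtain ⟨k, hk, e⟩ := m.lay_one hE (hS.le (hd.le hz)) (hVE hc) z2 c2
    have h1 := hT.card_le (hS.piGrp.cj k) (le_inf (cj_le_of_le hS.le hk) (by
      rw [← e, ← cj_centralizer_singleton]; exact cj_mono k hzc))
    rw [card_cj] at h1
    obtain ⟨g, hg, e'⟩ := m.lay_one hE (hVE ha) (hVE hb) a2 (hV.inv2 hb b1)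
    obtain ⟨n, hn, e''⟩ := SylowIn.exists_norm_conj (hS.of_card_le hVE hV.piGrp h1) hg (hV.le_cent ha)
      (e' ▸ hV.le_cent hb)
    exact ⟨n, hn, e''.trans e'⟩

/-- `s` outer, `V = {1, s, v, sv}`, `v ∈ E`: an element of `E⟨s⟩` swaps `s` and `sv` -/
theorem Min.lay_swap (hL : L ≠ ⊤) (hE : lay L ≠ ⊥) (hs : s ∈ L) (s2 : Inv2 s) (hsE : s ∉ lay L) (ha : a ∈ lay L)
    (a2 : Inv2 a) (c : s * a = a * s) : ∃ g ∈ lay L ⊓ 𝐂[a], g * s * g⁻¹ = s * a := by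
  have sa : s ≠ a := fun e => hsE (e ▸ ha)
  obtain ⟨V, hV, hm⟩ := four_of s2 a2 sa c
  have sV := (hm s).2 (by simp)
  have aV := (hm a).2 (by simp)
  have hn := (lay_normalIn L).norm hs
  obtain ⟨T, hT, hVT⟩ := exists_sylowIn_ge hV.piGrp (le_inf (hV.le_of sV aV s2.ne a2.ne sa
    (mem_sup_right (mem_zpowers s)) (mem_sup_left ha : a ∈ lay L ⊔ zpowers s)) (hV.le_cent1 aV))
  have h : V < T := by
    refine hVT.lt_of_ne ?_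
    rintro rfl
    obtain ⟨W, hW, W4, aW⟩ := m.lay_four hL hE ha a2
    have h1 := (hT.inf_normal ((normalIn_sup_left (zpowers_le.2 hn)).inf_right
      (inf_le_left : (lay L ⊔ zpowers s) ⊓ 𝐂[a] ≤ _))).card_le W4.piGrp
      (le_inf hW (le_inf (hW.trans le_sup_left) (W4.le_cent1 aW)))
    rw [W4.card, ← hV.card] at h1
    exact hsE ((eq_of_le_of_card_le inf_le_left h1).ge sV).2.1
  obtain ⟨g, hg, e⟩ := m.swap_lt hV hT.piGrp h sV aV s2.ne a2.ne sa (hT.le.trans inf_le_right)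
  obtain ⟨n, hn', k, hk, rfl, e'⟩ := conj_of_sup hn (hT.le hg.1).1
  refine ⟨n, ⟨hn', ?_⟩, e'.trans e⟩
  exact ((𝐂[a]).mul_mem_cancel_right (zpowers_le.2 (mem_cent1_iff.2 c) hk)).1 (hT.le hg.1).2

end CA.GW
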