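/-
Gorenstein–Walter: the ambient structure `CL2` of a proper subgroup with a component, and local balance.
-/
import Cfsg.Agent.Lib.GW.Str
import Cfsg.Agent.Lib.GW.CL2

set_option autoImplicit false

namespace CA.GW

open Cfsg CA CA.FStar Subgroup

universe u

section gen
variable {G : Type*} [Group G] [Finite G] {X L O Y C U K P : Subgroup G} {s w : G} {p q : ℕ}

/-- an odd `p`-subgroup `Y = [Y, s]` of `O` normalized by `C_L(s)` lies in `O_p(L)`, case `O_p(L) = 1` -/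
theorem ll_core (hp : p ≠ 2) (hO : O ⊴ L) (ho : PiGrp {2}ᶜ O) (h0 : piCoreOf {p} L = ⊥) (hs : s ∈ L)
    (s2 : s * s = 1) (hY : Y ≤ O) (Yp : PiGrp {p} Y) (hc : ⁅Y, zpowers s⁆ = Y) (hn : L ⊓ 𝐂[s] ≤ 𝐍(Y)) : Y = ⊥ := by
  have hF : fittingOf O ⊴ L := hO.fittingOf
  have F' : PiGrp {p}ᶜ (fittingOf O) := piGrp_fittingOf_of_core_eq_bot (by
    rw [compl_compl]; exact le_bot_iff.1 (h0 ▸ piCoreOf_le_of_normalIn _ hO))
  have YF : Y ≤ 𝐍(fittingOf O) := hY.trans (hO.le.trans hF.norm)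
  have h1 : Y ≤ 𝐂(fittingOf O) := by
    refine trick s2 (odd_iff.2 (ho.of_le (fittingOf_le O))) (odd_iff.2 (ho.of_le hY)) (F'.coprime' Yp) (hF.norm hs) YF
      (hn ⟨hs, self_mem_cent1 s⟩) hc (comm_eq_bot_iff.1 (le_bot_iff.1 ?_))
    rw [← Yp.inf_eq_bot F']
    exact le_inf (comm_le_left ((inf_le_inf_right _ hF.le).trans hn))
      ((commutator_mono le_rfl inf_le_left).trans (comm_le_right YF))
  exact Yp.eq_bot (F'.of_le (le_fittingOf_of_cents (solv_odd (odd_iff.2 ho)) hY h1))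

/-- the solvable case of local balance -/
theorem DG.ll_solv (h : DG X) (hs : Group.IsSolvable X) (hO : 𝐎(X) = ⊥) (hx : s ∈ X) (s2 : Inv2 s) (hY : Y ≤ X)
    (Yo : PiGrp {2}ᶜ Y) (hn : X ⊓ 𝐂[s] ≤ 𝐍(Y)) : Y = ⊥ := by
  rcases h.solv_str hs hO with h2 | ⟨V, hV, hN, hc⟩
  · exact (h2.of_le hY).eq_bot Yo
  have hz : zpowers s ≤ 𝐍(V) := zpowers_le.2 (hN.norm hx)
  obtain ⟨v, hv, v1⟩ := exists_ne_one_mem' (meet_center_nil (hV.piGrp.sup s2.piGrp (Or.inl hz)).nilpotent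
    (normalIn_sup_left hz) hV.nb)
  have vs : v ∈ 𝐂[s] := cent_le_cent1 (mem_sup_right (mem_zpowers s)) hv.2.2
  have YV := hY.trans hN.norm
  have h1 : Y ≤ 𝐂[v] := by
    rw [← cent_zpowers, ← comm_eq_bot_iff, ← le_bot_iff, ← Yo.inf_eq_bot' hV.piGrp]
    exact le_inf (comm_le_left (zpowers_le.2 (hn ⟨hN.le hv.1, vs⟩)))
      ((commutator_mono le_rfl (zpowers_le.2 hv.1)).trans (comm_le_right YV))
  refine (hV.piGrp.of_le fun y hy => hc.le ⟨hY hy, ?_⟩).eq_bot Yo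
  exact hV.cents_odd (YV hy) (odd_elt_iff.2 (Yo.piElt hy)) hv.1 v1 (h1 hy)

/-- splitting off the central odd part of a dihedral-by-central group -/
theorem dih_split (hU : U ≤ C) (hi : U.relIndex C = 2) (hab : IsMulCommutative U) (ho : PiGrp {2}ᶜ O)
    (hZ : O ⊓ C ≤ 𝐂(C)) (hinv : ∀ w ∈ C, w ∉ U → ∀ x ∈ U, w * x * w⁻¹ * x ∈ O) (hw : w ∈ C) (wU : w ∉ U) :
    ∃ T ≤ U, O ⊓ T = ⊥ ∧ U ≤ T ⊔ (O ⊓ C) ∧ 𝐍(C) ⊓ 𝐍(U) ≤ 𝐍(T) ∧
      ∀ x ∈ U, x ∈ T ↔ w * x * w⁻¹ = x⁻¹ := by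
  have hc := abelian_iff'.1 hab
  let T : Subgroup G :=
    { carrier := {x | x ∈ U ∧ ∀ w ∈ C, w ∉ U → w * x * w⁻¹ = x⁻¹}
      one_mem' := ⟨U.one_mem, fun _ _ _ => by simp⟩
      mul_mem' := fun {x y} hx hy => ⟨U.mul_mem hx.1 hy.1, fun w hw wU => by
        rw [← conj_mul, hx.2 w hw wU, hy.2 w hw wU, hc x hx.1 y hy.1, _root_.mul_inv_rev]⟩
      inv_mem' := fun {x} hx => ⟨U.inv_mem hx.1, fun w hw wU => by rw [← conj_inv, hx.2 w hw wU]⟩ }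
  have hT : ∀ x ∈ U, x ∈ T ↔ w * x * w⁻¹ = x⁻¹ := fun x hx => by
    refine ⟨fun h => h.2 w hw wU, fun h => ⟨hx, fun v hv vU => ?_⟩⟩
    have h1 := mul_mem_of_idx2 hi (C.inv_mem hw) hv (fun e => wU (by simpa using e)) vU
    calc v * x * v⁻¹ = w * (w⁻¹ * v * x) * v⁻¹ := by group
      _ = x⁻¹ := by rw [hc _ h1 x hx, ← h]; group
  refine ⟨T, fun x hx => hx.1, eq_bot_iff.2 fun x hx => ?_, fun x hx => ?_, fun g hg => ?_, hT⟩
  · obtain ⟨h1, h2⟩ := mem_inf.1 hx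
    have h3 := h2.2 w hw wU
    rw [mem_cent_iff.1 (hZ ⟨h1, hU h2.1⟩) w hw, mul_inv_cancel_right] at h3
    exact one_of_odd2 ho h1 (by nth_rewrite 1 [h3]; exact inv_mul_cancel x)
  · have h1 := hinv w hw wU x hx
    obtain ⟨u, hu, e⟩ := exists_sqrt (odd_elt_iff.2 (ho.piElt h1))
    have nU : C ≤ 𝐍(U) := (Subgroup.normal_subgroupOf_iff_le_normalizer hU).1 (normal_of_index_eq_two hi)
    have h2 : w * x * w⁻¹ * x ∈ U := U.mul_mem (conj_mem_of_mem_normalizer (nU hw) hx) hx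
    have uU : u ∈ U := zpowers_le.2 h2 hu
    have uO : u ∈ O ⊓ C := ⟨zpowers_le.2 h1 hu, hU uU⟩
    have h3 : x * u⁻¹ ∈ T := by
      rw [hT _ (U.mul_mem hx (U.inv_mem uU))]
      have h4 := mem_cent_iff.1 (hZ uO) w hw
      have h5 := hc u uU x hx
      calc w * (x * u⁻¹) * w⁻¹ = (w * x * w⁻¹ * x) * x⁻¹ * (w * u * w⁻¹)⁻¹ := by group
        _ = u * (u * x⁻¹ * u⁻¹) := by rw [← e, h4]; group
        _ = (x * u⁻¹)⁻¹ := by rw [hc u uU _ (U.inv_mem hx)]; group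
    have := mul_mem (mem_sup_left h3) (mem_sup_right uO : u ∈ T ⊔ (O ⊓ C))
    rwa [inv_mul_cancel_right] at this
  · obtain ⟨g1, g2⟩ := mem_inf.1 hg
    refine mem_normalizer_of_cj_le (cj_le_iff'.2 fun x hx => ⟨conj_mem_of_mem_normalizer g2 hx.1, fun v hv vU => ?_⟩)
    have := hx.2 (g⁻¹ * v * g) (conj_inv_mem_of_mem_normalizer g1 hv) fun e => vU (by
      simpa [mul_assoc] using conj_mem_of_mem_normalizer g2 e)
    calc v * (g * x * g⁻¹) * v⁻¹ = g * (g⁻¹ * v * g * x * (g⁻¹ * v * g)⁻¹) * g⁻¹ := by group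
      _ = _ := by rw [this]; group

theorem dih_sup {T : Subgroup G} (hc : IsCyclic T) (w2 : w * w = 1) (wT : w ∉ T)
    (h : ∀ x ∈ T, w * x * w⁻¹ = x⁻¹) : Dih (T ⊔ zpowers w) T := by
  have hn : zpowers w ≤ 𝐍(T) := zpowers_le.2 (mem_normalizer_of_cj_le (cj_le_iff'.2 fun x hx => by
    rw [h x hx]; exact T.inv_mem hx))
  have w2' : Inv2 w := ⟨w2, fun e => wT (e ▸ T.one_mem)⟩
  refine ⟨le_sup_left, hc, ?_, fun x hx xT => ?_⟩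
  · have := card_inf_mul_relIndex T (zpowers w)
    rw [show T ⊓ zpowers w = ⊥ from eq_bot_iff.2 fun u hu =>
      ((mem_zpowers_sq w2).1 hu.2).elim id fun e => absurd (e ▸ hu.1) wT, w2'.card, card_bot, one_mul] at this
    rw [relIndex_sup_of_norm hn, this]
  · obtain ⟨t, ht, k, hk, rfl⟩ := (mem_sup_of_norm_right hn).1 hx
    rcases (mem_zpowers_sq w2).1 hk with rfl | rfl
    · exact absurd (by simpa using ht) xT
    · calc t * k * (t * k) = t * (k * t * k⁻¹) * (k * k) := by group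
        _ = 1 := by rw [h t ht, w2]; group

theorem L2T.two_mem (h : L2T X K P q) (hx : w ∈ X) (w2 : PiElt {2} w) : w ∈ P :=
  zpowers_le.1 ((piGrp_zpowers.2 w2).le_of_normal_of_relIndex (zpowers_le.2 hx) h.PX.le
    ((zpowers_le.2 hx).trans h.PX.norm)
    ((piNum_compl_singleton Nat.prime_two).2 (by rw [← even_iff_two_dvd, Nat.not_even_iff_odd]; exact h.oddi)))

theorem cl2_tor {Q : Subgroup (Quo 𝐎(L))} (h : L2T (L /ₛ 𝐎(L)) (lay L /ₛ 𝐎(L)) Q q) (hs : s ∈ L) (s2 : Inv2 s) :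
    ∃ D T : Subgroup G, Dih D T ∧ D ⊓ 𝐎(L) = ⊥ ∧ lay L ⊓ 𝐂[s] = D ⊔ (lay L ⊓ 𝐎(L) ⊓ 𝐂[s]) ∧
    L ⊓ 𝐂[s] ≤ 𝐍(T) ∧
    (2 * Nat.card T + 1 = q ∨ 2 * Nat.card T = q + 1) ∧ (s ∈ lay L ↔ Even (Nat.card T)) ∧ (s ∈ lay L → s ∈ T) ∧
    (∀ y ∈ T, y * y ≠ 1 → lay L ⊓ 𝐂[y] = T ⊔ (lay L ⊓ 𝐎(L)) ∧
      coq 𝐎(L) Q ⊓ 𝐍(zpowers y) ≤ 𝐎(L) ⊔ (coq 𝐎(L) Q ⊓ 𝐂[s])) ∧
    (∀ w ∈ L ⊓ 𝐂[s], Inv2 w → w ≠ s → ∀ x ∈ T, w * x * w⁻¹ = x⁻¹) ∧
    ∀ F ≤ L ⊓ 𝐂[s], Group.IsNilpotent F → Odd (Nat.card F) → T ≤ 𝐍(F) → F ≤ 𝐎(L) ⊔ T := by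
  have hO := piCoreOf_normalIn {2}ᶜ L
  have hn := hO.norm
  have ho := core_pi L
  have hEc := lay_cents_core L
  have hE := lay_normalIn L
  have hsE := two_mem_lay hs s2.piElt
  generalize lay L = E at *
  generalize 𝐎(L) = O at *
  have hk : PiGrp {2}ᶜ (pker (qmk O)) := by rw [pker_qmk]; exact ho
  have sq := s2.pm (hn hs) hk
  obtain ⟨W, sW, d1, d2, hq, he, hy, hF⟩ := h.tor _ (qel_mem_quo O hs) sq
  have cE := pm_cent hk (hn hs) s2 (hE.norm hs)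
  have cL := pm_cent hk (hn hs) s2 (le_normalizer hs)
  have cP := quo_inf_cent1_of_le (le_coq Q) (hn hs) (by rw [s2.ord]; exact (odd_iff.2 ho).coprime_two_right)
  rw [quo_coq] at cP
  have CL : E ⊓ 𝐂[s] ≤ L := inf_le_left.trans hE.le
  have Cn := CL.trans hn
  have mU : ∀ x ∈ E ⊓ 𝐂[s], x ∈ E ⊓ 𝐂[s] ⊓ coq O ((E /ₛ O) ⊓ W) ↔ qel O x ∈ (E /ₛ O) ⊓ W := fun x hx =>
    ⟨fun e => (mem_coq.1 e.2).2, fun e => ⟨hx, mem_coq.2 ⟨Cn hx, e⟩⟩⟩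
  have mC : ∀ x ∈ E ⊓ 𝐂[s], qel O x ∈ (E /ₛ O) ⊓ 𝐂[qel O s] := fun x hx => cE ▸ qel_mem_quo O hx
  have qU : (E ⊓ 𝐂[s] ⊓ coq O ((E /ₛ O) ⊓ W)) /ₛ O = (E /ₛ O) ⊓ W := by
    rw [pmap_inf_pcomap, cE, inf_eq_right.2 d2.le]
  have hZ : O ⊓ (E ⊓ 𝐂[s]) ≤ 𝐂(E ⊓ 𝐂[s]) := cents_mono (cents_symm hEc) inf_le_left inf_le_left
  obtain ⟨w', hw', wW'⟩ := d2.exists
  obtain ⟨w, hw, w2, rfl⟩ := lift_inv Cn hk (cE ▸ hw') (d2.inv2 hw' wW')
  have wU : w ∉ E ⊓ 𝐂[s] ⊓ coq O ((E /ₛ O) ⊓ W) := fun e => wW' ((mU w hw).1 e)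
  have hi : (E ⊓ 𝐂[s] ⊓ coq O ((E /ₛ O) ⊓ W)).relIndex (E ⊓ 𝐂[s]) = 2 := by
    rw [inf_relIndex_left, relIndex_coq Cn, cE, d2.idx]
  have hab : IsMulCommutative ↥(E ⊓ 𝐂[s] ⊓ coq O ((E /ₛ O) ⊓ W)) :=
    abelian_of_cyclic_pmap (inf_le_left.trans Cn) (by
      rw [pker_qmk]; exact cents_mono hZ (inf_le_inf_left _ inf_le_left) inf_le_left) (qU ▸ d2.cyc)
  have inv1 : ∀ v ∈ L, ∀ x ∈ L, qel O v * qel O x * (qel O v)⁻¹ = (qel O x)⁻¹ → v * x * v⁻¹ * x ∈ O :=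
    fun v hv x hx e => by
      have h1 := L.mul_mem (L.mul_mem hv hx) (L.inv_mem hv)
      rw [← qel_eq_one_iff (hn (L.mul_mem h1 hx)), pel_mul _ (hn h1) (hn hx), pel_conj _ (hn hv) (hn hx), e,
        inv_mul_cancel]
  obtain ⟨T, TU, TO, UT, nT, mT⟩ := dih_split inf_le_left hi hab ho hZ (fun v hv vU x hx =>
    inv1 v (CL hv) x (CL hx.1) (d2.inv (mC v hv) (fun e => vU ((mU v hv).2 e)) ((mU x hx.1).1 hx))) hw wU
  have TC : T ≤ E ⊓ 𝐂[s] := TU.trans inf_le_left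
  have Tn := TC.trans Cn
  have qT : T /ₛ O = (E /ₛ O) ⊓ W := by
    refine le_antisymm (qU ▸ quo_mono O TU) (qU.ge.trans ?_)
    rw [quo_le_quo_iff (inf_le_left.trans Cn) Tn]
    exact UT.trans (sup_le le_sup_right (inf_le_left.trans le_sup_left))
  have cT : Nat.card T = Nat.card ↥((E /ₛ O) ⊓ W) := by rw [← qT, card_quo_of_disjoint Tn TO]
  have cyT : IsCyclic T := by
    have : IsCyclic ↥(T /ₛ O) := qT ▸ d2.cyc
    exact isCyclic_of_surjective _ (quoEquivOfDisjoint Tn TO).symm.surjective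
  have d3 := dih_sup cyT w2.sq (fun e => wU (TU e)) fun x hx => (mT x (TU hx)).1 hx
  have DC : T ⊔ zpowers w ≤ E ⊓ 𝐂[s] := sup_le TC (zpowers_le.2 hw)
  have nW : (L /ₛ O) ⊓ 𝐂[qel O s] ≤ 𝐍((E /ₛ O) ⊓ W) := fun g hg => by
    refine mem_normalizer_of_cj_le (cj_le_iff'.2 fun x hx => ?_)
    have g2 : g * qel O s * g⁻¹ = qel O s := mul_inv_eq_iff_eq_mul.2 (mem_cent1_iff.1 hg.2)
    by_cases x2 : x * x = 1
    · by_cases x1 : x = 1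
      · rw [x1, mul_one, mul_inv_cancel]; exact one_mem _
      · have := d1.uniq hx.2 sW ⟨x2, x1⟩ sq
        rw [this, g2, ← this]; exact hx
    · refine d2.mem_of_sq (conj_mem_of_mem_normalizer (norms_inf (inf_le_left.trans h.KX.norm)
        (norms_cent1 inf_le_right) hg) (d2.le hx)) ?_
      rw [conj_mul, Ne, conj_eq_one_iff]; exact x2
  have nT' : L ⊓ 𝐂[s] ≤ 𝐍(T) := by
    have h1 : L ⊓ 𝐂[s] ≤ 𝐍(E ⊓ 𝐂[s]) := norms_inf (inf_le_left.trans hE.norm) (norms_cent1 inf_le_right)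
    exact (le_inf h1 (norms_inf h1 (norms_coq (inf_le_left.trans hn) (cL ▸ nW)))).trans nT
  have sqT : ∀ y ∈ T, y * y ≠ 1 → qel O y * qel O y ≠ 1 := fun y hy y2 e => by
    rw [← pel_mul _ (Tn hy) (Tn hy), qel_eq_one_iff (Tn (T.mul_mem hy hy))] at e
    exact y2 (mem_bot.1 (TO ▸ mem_inf.2 ⟨e, T.mul_mem hy hy⟩))
  have TW : ∀ y ∈ T, qel O y ∈ W := fun y hy => (qT ▸ qel_mem_quo O hy : qel O y ∈ (E /ₛ O) ⊓ W).2
  refine ⟨T ⊔ zpowers w, T, d3, eq_bot_iff.2 fun x hx => ?_, le_antisymm (fun x hx => ?_)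
    (sup_le DC (inf_le_inf_right _ inf_le_left)), nT', cT ▸ hq, cT ▸ hsE.trans he, fun e => ?_,
    fun y yT y2 => ⟨le_antisymm ?_ (sup_le (le_inf (TC.trans inf_le_left) ?_) ?_), ?_⟩, fun v hv v2 vs x hx => ?_,
    fun F hFL nF oF TF => ?_⟩
  · obtain ⟨x1, x2⟩ := mem_inf.1 hx
    by_cases e : x ∈ T
    · exact TO ▸ mem_inf.2 ⟨x2, e⟩
    · exact one_of_odd2 ho x2 (d3.sq x x1 e)
  · have h1 : E ⊓ 𝐂[s] ⊓ coq O ((E /ₛ O) ⊓ W) ≤ T ⊔ zpowers w ⊔ (E ⊓ O ⊓ 𝐂[s]) :=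
      UT.trans (sup_le_sup le_sup_left (le_inf (le_inf (inf_le_right.trans inf_le_left) inf_le_left)
        (inf_le_right.trans inf_le_right)))
    by_cases e : x ∈ E ⊓ 𝐂[s] ⊓ coq O ((E /ₛ O) ⊓ W)
    · exact h1 e
    · exact (Subgroup.mul_mem_cancel_right _ (mem_sup_left (mem_sup_right (mem_zpowers w)))).1
        (h1 (mul_mem_of_idx2 hi hx hw e wU))
  · have h1 : s ∈ E ⊓ 𝐂[s] := ⟨e, self_mem_cent1 s⟩
    rw [mT s ((mU s h1).2 ⟨qel_mem_quo O e, sW⟩), s2.inv]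
    exact mul_inv_eq_iff_eq_mul.2 (mem_cent1_iff.1 hw.2)
  · have h1 : E ⊓ 𝐂[y] ≤ O ⊔ T := by
      rw [← quo_le_quo_iff (inf_le_left.trans (hE.le.trans hn)) Tn, qT]
      refine (pmap_inf_le _ _ _).trans (le_inf inf_le_left ?_)
      rw [← (hy _ (TW y yT) (sqT y yT y2)).1]
      exact inf_le_inf h.KP (pmap_cent1 _ (Tn yT))
    rw [sup_comm, ← dedekind_right' (Or.inl Tn) (TC.trans inf_le_left)]
    exact le_inf inf_le_left h1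
  · exact fun x hx => mem_cent1_iff.2 (d3.comm hx yT)
  · exact le_inf inf_le_left (inf_le_right.trans ((cents_symm hEc).trans (cent_le_cent1 (TC yT).1)))
  · rw [← quo_le_quo_iff (inf_le_left.trans (coq_le_norm Q)) (inf_le_left.trans (coq_le_norm Q)), cP,
      ← (hy _ (TW y yT) (sqT y yT y2)).2, ← quo_zpowers (Tn yT)]
    exact (pmap_inf_norm_le _ _ _).trans (by rw [quo_coq])
  · have v2' := v2.pm (hn hv.1) hk
    have h1 : qel O v ∉ W := fun e => vs (by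
      have h2 := (qel_eq_iff' (hn hv.1) (hn hs)).1 (d1.uniq e sW v2' sq)
      refine mul_inv_eq_one.1 (one_of_odd2 ho h2 ?_)
      rw [s2.inv]
      calc v * s * (v * s) = v * (s * v) * s := by group
        _ = 1 := by rw [← mem_cent1_iff.1 hv.2, ← mul_assoc, v2.sq, one_mul, s2.sq])
    have h2 := inv1 v hv.1 x (CL (TC hx)) (d1.inv ⟨h.two_mem (qel_mem_quo O hv.1) v2'.piElt,
      (cL ▸ qel_mem_quo O hv : qel O v ∈ (L /ₛ O) ⊓ 𝐂[qel O s]).2⟩ h1 (TW x hx))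
    exact eq_inv_of_mul_eq_one_left (mem_bot.1 (TO ▸ mem_inf.2
      ⟨h2, T.mul_mem (conj_mem_of_mem_normalizer (nT' hv) hx) hx⟩))
  · rw [← quo_le_quo_iff (hFL.trans (inf_le_left.trans hn)) Tn, qT]
    exact hF _ (cL ▸ quo_mono O hFL) (nilpotent_quo nF O) (odd_card_quo oF O) (qT ▸ quo_norms O TF)

theorem cl2_of {Q : Subgroup (Quo 𝐎(L))} (h : L2T (L /ₛ 𝐎(L)) (lay L /ₛ 𝐎(L)) Q q) : CL2 L (coq 𝐎(L) Q) q := by
  have hO := piCoreOf_normalIn {2}ᶜ L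
  have hn := hO.norm
  have En := (lay_le L).trans hn
  refine ⟨h.odd, h.five, h.pp, sup_le ((le_coq_iff En).2 h.KP) (le_coq Q), coq_normalIn hO h.PX,
    by rw [← card_quo En, h.card], ?_, by rw [relIndex_coq hn]; exact h.oddi,
    by rw [le_lay_sup (der_le L), quo_der hn]; exact h.der, fun y hy y2 => ?_, fun s hs s2 => cl2_tor h hs s2⟩
  · rw [← relIndex_quo (normalIn_sup_right En) (coq_le_norm Q), quo_sup_right En, quo_coq]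
    exact h.idx
  · obtain ⟨y1, y3⟩ := mem_coq.1 hy
    rw [← abelian_quo_iff (inf_le_left.trans (coq_le_norm Q))]
    refine abelian_of_le (h.cab _ y3 fun e => y2 ?_) ((pmap_inf_le _ _ _).trans (inf_le_inf (quo_coq Q).le
      (pmap_cent1 _ y1)))
    rwa [← pel_mul _ y1 y1, qel_eq_one_iff (mul_mem y1 y1)] at e

end gen

variable {G : Type u} [Group G] [Finite G] (m : Min G) {L M E V Y Z T : Subgroup G} {s a b c x y : G} {p : ℕ}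
include m

/-- LL = B0 -/
theorem Min.ll [KT.{u}] (hL : L ≠ ⊤) (hs : s ∈ L) (s2 : Inv2 s) (hp : p ≠ 2) (hY : Y ≤ L) (Yp : PiGrp {p} Y)
    (hn : L ⊓ 𝐂[s] ≤ 𝐍(Y)) : ⁅Y, zpowers s⁆ ≤ piCoreOf {p} L := by
  have sY : s ∈ 𝐍(Y) := hn ⟨hs, self_mem_cent1 s⟩
  have Yo : PiGrp {2}ᶜ Y := Yp.compl_singleton (by simpa using hp.symm)
  have hc := (copAct_inv s2.sq (odd_iff.2 Yo) sY).comm_comm
  have hle : ⁅Y, zpowers s⁆ ≤ Y := comm_le_left (zpowers_le.2 sY)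
  replace hn := norms_commutator hn (norms_zpowers_of_cent1 inf_le_right)
  replace Yp := Yp.of_le hle
  replace Yo := Yo.of_le hle
  replace hY := hle.trans hY
  generalize ⁅Y, zpowers s⁆ = Y at *
  have key : ∀ N, N ⊴ L → PiGrp {2}ᶜ N → ⁅Y /ₛ N, zpowers (qel N s)⁆ = Y /ₛ N ∧
      (L /ₛ N) ⊓ 𝐂[qel N s] ≤ 𝐍(Y /ₛ N) ∧ Inv2 (qel N s) := fun N hN ho => by
    have hk : PiGrp {2}ᶜ (pker (qmk N)) := by rw [pker_qmk]; exact ho
    refine ⟨?_, ?_, s2.pm (hN.norm hs) hk⟩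
    · rw [← quo_zpowers (hN.norm hs), ← quo_commutator (hY.trans hN.norm) (zpowers_le.2 (hN.norm hs)), hc]
    · rw [← pm_cent hk (hN.norm hs) s2 (le_normalizer hs)]; exact quo_norms N hn
  have hO := piCoreOf_normalIn {2}ᶜ L
  have h1 : Y ≤ 𝐎(L) := by
    obtain ⟨k1, k2, k3⟩ := key _ hO (core_pi L)
    have hs' := qel_mem_quo 𝐎(L) hs
    have hY' := quo_mono 𝐎(L) hY
    rw [← quo_eq_bot_iff (hY.trans hO.norm)]
    by_cases e : Group.IsSolvable L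
    · exact (m.dg L).quo.ll_solv (solvable_quo e _) (piCoreOf_quo_self _ L) hs' k3 hY' (Yo.quo _) k2
    rw [← k1, comm_eq_bot_iff, cent_zpowers]
    rcases m.str hL e with ⟨K, P, q, h⟩ | h
    · exact h.ll _ hs' k3 p hp _ (k1.ge.trans ((comm_le_der hY' (zpowers_le.2 hs')).trans h.der)) (Yp.quo _)
        ((inf_le_inf_right _ h.KX.le).trans k2)
    · exact h.ll _ hs' k3 p hp _ hY' (Yp.quo _) k2
  have hQ := piCoreOf_normalIn {p} L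
  have Qo : PiGrp {2}ᶜ (piCoreOf {p} L) := (piCoreOf_piGrp _ L).compl_singleton (by simpa using hp.symm)
  obtain ⟨k1, k2, k3⟩ := key _ hQ Qo
  rw [← quo_eq_bot_iff (hY.trans hQ.norm)]
  exact ll_core hp (hO.quo _) ((core_pi L).quo _) (piCoreOf_quo_self _ L) (qel_mem_quo _ hs) k3.sq (quo_mono _ h1)
    (Yp.quo _) k1 k2

theorem Min.cmp [KT.{u}] (hL : L ≠ ⊤) (hE : lay L ≠ ⊥) :
    (∃ P q, CL2 L P q) ∨ (L = lay L ⊔ 𝐎(L) ∧ A7T (L /ₛ 𝐎(L))) := by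
  rcases m.strE hL hE with ⟨P, q, h⟩ | ⟨e, h⟩
  · exact Or.inl ⟨_, q, cl2_of h⟩
  · exact Or.inr ⟨le_antisymm ((le_lay_sup le_rfl).2 e.le) (sup_le (lay_le L) (piCoreOf_le _ L)), h⟩

end CA.GW
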