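/-
Gorenstein–Walter theorem: quasisimple subgroups normalized by the centralizer of one of their involutions.
-/
import Cfsg.Agent.Lib.GW.Basic

set_option autoImplicit false

namespace CA.GW

open Cfsg CA CA.FStar Subgroup

universe u

section
variable {G : Type*} [Group G] [Finite G] {D T X K P E L M N O V Y : Subgroup G} {s t w x y : G} {q : ℕ}

omit [Finite G] in
theorem Dih.le_of_inv (h : Dih D T) (hL : ∀ s ∈ D, s ∉ T → s ∈ L) : D ≤ L := fun x hx => by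
  obtain ⟨s, s1, s2⟩ := h.exists
  by_cases e : x ∈ T
  · exact (mul_mem_cancel_left (hL s s1 s2)).1 (hL _ (Subgroup.mul_mem _ s1 hx) (Dih.mul_not_mem s2 e))
  · exact hL x hx e

theorem mem_of_piElt {π : Set ℕ} (hN : N ⊴ M) (hi : PiNum πᶜ (N.relIndex M)) (hx : x ∈ M) (h : PiElt π x) : x ∈ N :=
  zpowers_le.1 ((piGrp_zpowers.2 h).le_of_normal_of_relIndex (zpowers_le.2 hx) hN.le (zpowers_le.2 (hN.norm hx)) hi)

theorem mem_of_mem_sup (hO : Odd (Nat.card O)) (hn : O ≤ 𝐍(E)) (hx : x ∈ O ⊔ E) (h : PiElt {2} x) : x ∈ E :=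
  mem_of_piElt (normalIn_sup_right hn) (by rw [sup_comm, relIndex_sup_of_norm hn]; exact (odd_iff.1 hO).relIndex E) hx h

theorem le_of_perfect (hY : ⁅Y, Y⁆ = Y) (hO : Group.IsSolvable O) (hn : O ≤ 𝐍(E)) (h : Y ≤ O ⊔ E) : Y ≤ E := by
  have h1 : Y ≤ 𝐍(E) := h.trans (sup_le hn le_normalizer)
  have h2 := quo_mono E h
  rw [quo_sup_right hn] at h2
  refine (quo_eq_bot_iff h1).1 (by_contra fun e => (der_lt_of_solvable (solvable_of_le (solvable_quo hO E) h2) e).ne ?_)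
  rw [← quo_der h1, hY]

omit [Finite G] in
/-- an element of odd order inverted by `s` is a commutator `[w, s]` -/
theorem exists_comm_of_inv (ho : Odd (orderOf x)) (i : s * x * s⁻¹ = x⁻¹) : ∃ w ∈ zpowers x, x = w * s * w⁻¹ * s⁻¹ := by
  obtain ⟨w, hw, e⟩ := exists_sqrt ho
  refine ⟨w, hw, ?_⟩
  rw [mul_assoc w, mul_assoc w, inv_of_mem_zpowers i (inv_mem hw), inv_inv, e]

omit [Finite G] in
theorem mem_of_inv (ho : Odd (orderOf x)) (i : s * x * s⁻¹ = x⁻¹) (hx : x ∈ 𝐍(E)) (hs : s ∈ E) : x ∈ E := by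
  obtain ⟨w, hw, e⟩ := exists_comm_of_inv ho i
  rw [e]; exact mul_mem (conj_mem_of_mem_normalizer (zpowers_le.2 hx hw) hs) (inv_mem hs)

omit [Finite G] in
theorem mem_comm_of_inv (ho : Odd (orderOf x)) (i : s * x * s⁻¹ = x⁻¹) (hx : x ∈ L) (hs : s ∈ M) : x ∈ ⁅L, M⁆ := by
  obtain ⟨w, hw, e⟩ := exists_comm_of_inv ho i
  rw [e]; exact comm_mem (zpowers_le.2 hx hw) hs

theorem qs_cents_core (hE : QS E) (hM : E ⊴ M) : 𝐎(M) ≤ 𝐂(E) :=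
  cents_symm (CompIn.cents_of_solvable ⟨hM.subnormalIn, hE⟩ (piCoreOf_normalIn _ _).subnormalIn (solv_core M))

theorem qs_quo (hE : QS E) (hn : E ≤ 𝐍(O)) (hO : Group.IsSolvable O) : QS (E /ₛ O) :=
  (hE.subgroupOf hn).map fun e => hE.not_le_of_solvable hO ((quo_eq_bot_iff hn).1 e)

omit [Finite G] in
theorem inv2_qel (hs : Inv2 s) (hn : s ∈ 𝐍(O)) (hO : Odd (Nat.card O)) : Inv2 (qel O s) :=
  ⟨by rw [← pel_mul _ hn hn, hs.sq, pel_one], fun e => hs.not_mem hO ((qel_eq_one_iff hn).1 e)⟩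

theorem quo_cent_inv (hs : Inv2 s) (hn : s ∈ 𝐍(O)) (hO : Odd (Nat.card O)) (hL : s ∈ 𝐍(L)) :
    (L ⊓ 𝐂[s]) /ₛ O = (L /ₛ O) ⊓ 𝐂[qel O s] :=
  quo_inf_cent1_ker hL hn (by rw [hs.ord]; exact Nat.coprime_two_right.2 hO)

/-- a four-group meets every nonsolvable normal subgroup -/
theorem DSyl.four_inv (hd : DSyl M) (hE : E ⊴ M) (hs : ¬ Group.IsSolvable E) (hV : Four V) (h : V ≤ M) :
    ∃ v ∈ V, v ≠ 1 ∧ v ∈ E := by
  obtain ⟨T, hT, h1⟩ := exists_sylowIn_ge hV.piGrp h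
  obtain ⟨R, hR, -⟩ := hd.exists hT
  have h2 : SylowIn 2 (T ⊓ E) E := hT.inf_normal hE
  have h3 : ¬ IsCyclic ↥(T ⊓ E) := fun e => hs (solv_of_npc (npc_cyc h2 e))
  have h4 := hR.inf (L := T ⊓ E) inf_le_left fun e => h3 (cyclic_of_le hR.cyc e)
  obtain ⟨z, hz, z2⟩ := h4.exists_inv (h2.piGrp.inf_left R) fun e =>
    h3 (isCyclic_of_prime_card' (by rw [h4.card, e, card_bot]; exact Nat.prime_two))
  obtain ⟨a, ha, b, hb, a1, b1, ab⟩ := hV.exists_two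
  have key : ∀ v ∈ V, v ≠ 1 → v ∈ R → ∃ v ∈ V, v ≠ 1 ∧ v ∈ E := fun v v1 v2 v3 =>
    ⟨v, v1, v2, hR.uniq hz.2 v3 z2 (hV.inv2 v1 v2) ▸ hz.1.2⟩
  by_cases e1 : a ∈ R
  · exact key a ha a1 e1
  by_cases e2 : b ∈ R
  · exact key b hb b1 e2
  exact key _ (mul_mem ha hb) ((hV.inv2 ha a1).mul (hV.inv2 hb b1) ab (hV.comm ha hb)).ne (hR.mul_mem (h1 ha) (h1 hb) e1 e2)

theorem L2T.memP (h : L2T X K P q) (hs : s ∈ X) (h2 : PiElt {2} s) : s ∈ P :=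
  mem_of_piElt h.PX ((piNum_compl_singleton Nat.prime_two).2 h.oddi.not_two_dvd_nat) hs h2

omit [Finite G] in
theorem L2T.eq_of (h : L2T X K P q) (hE : QS E) (hn : E ⊴ X) : E = K := by
  have h1 : E ≤ K := hE.der ▸ (der_mono hn.le).trans h.der
  exact (h.qs.normal (hn.of_le h1 h.KX.le)).resolve_left fun e => hE.ne_bot (eq_bot_iff.2 (h.cent ▸ le_inf hn.le e))

omit [Finite G] in
theorem A7T.eq_of (h : A7T X) (hE : QS E) (hn : E ⊴ X) : E = X :=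
  (h.qs.normal hn).resolve_left fun e => hE.not_cents (e.trans (cent_mono hn.le))

omit [Finite G] in
theorem L2T.card_cent (h : L2T X K P q) (hs : s ∈ X) (s2 : Inv2 s) : ∃ n, Nat.card ↥(K ⊓ 𝐂[s]) = 2 * n ∧
    (2 * n + 1 = q ∨ 2 * n = q + 1) ∧ (s ∈ K ↔ Even n) := by
  obtain ⟨T, -, -, h1, h2, h3, -⟩ := h.tor s hs s2
  exact ⟨_, h1.card, h2, h3⟩

/-- in `A₇` the centralizer of an involution is not dihedral -/
theorem A7T.not_dih (h : A7T X) (hs : s ∈ X) (s2 : Inv2 s) (hd : Dih D T) : ¬ X ⊓ 𝐂[s] ≤ D := fun e => by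
  obtain ⟨-, u, V, W, h1, h2, h3, -, -, -, h4, -, h5, -⟩ := h.cen s hs s2
  have u2 : u * u ≠ 1 := fun e => by
    have := orderOf_dvd_of_pow_eq_one (x := u) (n := 2) (by rw [pow_two, e])
    rw [h1] at this; exact absurd this (by decide)
  have h6 : u ∈ T := hd.mem_of_sq (e (piCoreOf_le {2}ᶜ _ (h2 ▸ mem_zpowers u))) u2
  obtain ⟨v, v1, v2⟩ := SetLike.not_le_iff_exists.1 (h3.not_le hd.cyc)
  have h7 := hd.inv (e (h4 v1)) v2 h6
  rw [mem_cent1_iff.1 (h5 v1), mul_inv_cancel_right] at h7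
  exact u2 (mul_eq_one_iff_eq_inv.2 h7)

theorem A7T.over (h : A7T X) (hE : QS E) (hX : E ≤ X) (hs : s ∈ E) (s2 : Inv2 s) (hc : X ⊓ 𝐂[s] ≤ 𝐍(E)) : X ≤ 𝐍(E) := by
  obtain ⟨-, u, V, W, h1, h2, -, -, -, -, -, -, -, -, h3, -, -, -, h4⟩ := h.cen s (hX hs) s2
  rcases h4 (X ⊓ 𝐍(E)) inf_le_left (le_inf inf_le_left hc) with e | e
  · exact inf_eq_left.1 e
  have h5 : E ≤ X ⊓ 𝐍(zpowers u) := h3 ▸ le_inf hX ((le_inf hX le_normalizer).trans e)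
  have h6 := der_cents_of_norms_cyclic inferInstance (h5.trans inf_le_right)
  rw [hE.der, cent_zpowers] at h6
  exact absurd (le_inf hX h6) (hE.not_le_of_solvable (h.solv u ((piCoreOf_le {2}ᶜ _).trans inf_le_left (h2 ▸ mem_zpowers u))
    fun e => by simp [e] at h1))

theorem L2T.core_norm (h : L2T X K P q) (hE : QS E) (hK : E ≤ K) : 𝐎(K ⊓ 𝐍(E)) = ⊥ := by
  refine eq_bot_iff.2 fun y hy => eq_one_of_odd (odd_of_mem (odd_core _) hy) (by_contra fun y2 => hE.not_cents ?_)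
  have h1 := qs_cents_core hE (M := K ⊓ 𝐍(E)) ⟨le_inf hK le_normalizer, inf_le_right⟩ hy
  have h2 : E ≤ P ⊓ 𝐂[y] := le_inf (hK.trans h.KP) (mem_cent_iff_le_cent1.1 h1)
  exact cents_of_abelian (h.cab y (h.KP (piCoreOf_le _ _ hy).1) y2) h2 h2

theorem over_arith {n a b : ℕ} (hn : Even n) (h3 : 3 ≤ n) (ha : 2 * a = (2 * n - 1) * ((2 * n - 1) ^ 2 - 1))
    (hb : 2 * b = (2 * n + 1) * ((2 * n + 1) ^ 2 - 1)) : ¬ a ∣ b := by
  obtain ⟨k, rfl⟩ := Nat.exists_eq_add_of_le' (show 1 ≤ n by omega)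
  have e1 : 2 * (k + 1) - 1 = 2 * k + 1 := by omega
  have e2 : (2 * k + 1) ^ 2 - 1 = 4 * k * (k + 1) := Nat.sub_eq_of_eq_add (by ring)
  have e3 : (2 * (k + 1) + 1) ^ 2 - 1 = 4 * (k + 1) * (k + 2) := Nat.sub_eq_of_eq_add (by ring)
  rw [e1, e2] at ha
  rw [e3] at hb
  intro h
  have h1 : 4 * (k + 1) * ((2 * k + 1) * k) ∣ 4 * (k + 1) * ((2 * k + 1) * k + 6 * (k + 1)) := by
    have := Nat.mul_dvd_mul_left 2 h
    rw [ha, hb] at this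
    convert this using 1 <;> ring
  have h2 := (Nat.dvd_add_right dvd_rfl).1 (Nat.dvd_of_mul_dvd_mul_left (by omega) h1)
  have h4 := Nat.le_of_dvd (by omega) h2
  have h5 : k ≤ 3 := by nlinarith
  obtain rfl : k = 3 := by obtain ⟨j, hj⟩ := hn; omega
  omega

theorem L2T.over {P0 : Subgroup G} {q0 : ℕ} (h : L2T X K P q) (hK : E ≤ K) (hs : s ∈ E) (s2 : Inv2 s) (hc : K ⊓ 𝐂[s] ≤ 𝐍(E))
    (h0 : L2T (K ⊓ 𝐍(E)) E P0 q0) : E = K := by
  have sX := h.KX.le (hK hs)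
  obtain ⟨T, -, -, hd, -⟩ := h.tor s sX s2
  obtain ⟨n, n1, n2, n3⟩ := h.card_cent sX s2
  obtain ⟨k, k1, k2, k3⟩ := h0.card_cent (h0.KX.le hs) s2
  have n4 := n3.1 (hK hs)
  have k4 := k3.1 hs
  have f5 := h0.five
  by_cases e : K ⊓ 𝐂[s] ≤ E
  · have e1 : E ⊓ 𝐂[s] = K ⊓ 𝐂[s] := le_antisymm (inf_le_inf_right _ hK) (le_inf e inf_le_right)
    obtain rfl : k = n := by rw [e1] at k1; omega
    have c1 := h.card
    have c2 := h0.card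
    have c3 := card_le_of_le' hK
    refine eq_of_le_of_card_le hK (by_contra fun c4 => ?_)
    have c5 : q0 < q := by_contra fun c5 => c4 (by
      have : q * (q ^ 2 - 1) ≤ q0 * (q0 ^ 2 - 1) :=
        Nat.mul_le_mul (by omega) (Nat.sub_le_sub_right (Nat.pow_le_pow_left (by omega) 2) 1)
      omega)
    obtain rfl : q = 2 * k + 1 := by omega
    obtain rfl : q0 = 2 * k - 1 := by omega
    exact over_arith n4 (by omega) c2 c1 (card_dvd_of_le' hK)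
  exfalso
  obtain ⟨w, w1, w2, w3⟩ : ∃ w ∈ K ⊓ 𝐂[s], w ∉ K ⊓ T ∧ w ∉ E := by
    by_contra! e'
    exact e (hd.le_of_inv e')
  have w4 := hd.inv2 w1 w2
  obtain ⟨n', m1, m2, m3⟩ := h.card_cent (h.KX.le w1.1) w4
  obtain ⟨k', l1, l2, l3⟩ := h0.card_cent ⟨w1.1, hc w1⟩ w4
  have m4 := m3.1 w1.1
  have l4 : ¬ Even k' := fun e => w3 (l3.2 e)
  have c1 : K ⊓ 𝐂[s] ≤ P0 := hd.le_of_inv fun x x1 x2 => h0.memP ⟨x1.1, hc x1⟩ (hd.inv2 x1 x2).piElt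
  have c2 := relIndex_dvd_of_norm h0.KP c1 hc
  have c3 := card_inf_mul_relIndex E (K ⊓ 𝐂[s])
  rw [← inf_assoc, inf_eq_left.2 hK, k1, n1] at c3
  have c4 : n ∣ 2 * k := by
    have : E.relIndex (K ⊓ 𝐂[s]) ∣ 2 := by rcases h0.idx with e | e <;> rw [e] at c2; exacts [c2.trans (one_dvd 2), c2]
    obtain ⟨j, hj⟩ := this
    exact ⟨j, by rw [hj, show n = k * E.relIndex (K ⊓ 𝐂[s]) by nlinarith]; ring⟩
  have c5 := card_dvd_of_le' (inf_le_inf_right 𝐂[w] hK)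
  obtain rfl : n' = n := by obtain ⟨i, hi⟩ := n4; obtain ⟨j, hj⟩ := m4; omega
  rw [l1, m1] at c5
  have c6 := (Nat.dvd_of_mul_dvd_mul_left two_pos c5).trans c4
  have c7 : k'.Coprime (2 * k) := by
    refine Nat.Coprime.mul_right (Nat.coprime_two_right.2 (Nat.not_even_iff_odd.1 l4)) ?_
    have : k' = k + 1 ∨ k = k' + 1 := by have := Nat.even_iff.1 k4; have := Nat.even_iff.not.1 l4; omega
    rcases this with rfl | rfl <;> simp
  have := c7.eq_one_of_dvd c6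
  omega

/-- an element of odd order centralizing `t ∈ K` and `w ∉ K` centralizes the Sylow 2-subgroups containing them -/
theorem L2T.cent_four (h : L2T X K P q) (ht : t ∈ K) (t2 : Inv2 t) (hw : w ∈ X ⊓ 𝐂[t]) (wK : w ∉ K) (w2 : Inv2 w)
    (hs : s ∈ K ⊓ 𝐂[t]) (s2 : Inv2 s) (st : s ≠ t) (h2 : PiElt {2} (s * w)) (hy : y ∈ X ⊓ 𝐂[t]) (yw : y ∈ 𝐂[w])
    (ho : Odd (orderOf y)) : y ∈ 𝐂[s] := by
  obtain ⟨T, h1, hd, -⟩ := h.tor t (h.KX.le ht) t2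
  have wP : w ∈ P ⊓ 𝐂[t] := ⟨h.memP hw.1 w2.piElt, hw.2⟩
  have sP : s ∈ P ⊓ 𝐂[t] := ⟨h.KP hs.1, hs.2⟩
  have h3 := hd.mul_mem sP wP (fun e => st (hd.uniq e h1 s2 t2)) fun e => wK (hd.uniq e h1 w2 t2 ▸ ht)
  have hn : zpowers y ≤ 𝐍(P ⊓ 𝐂[t]) := norms_inf (zpowers_le.2 (h.PX.norm hy.1)) (norms_cent1 (zpowers_le.2 hy.2))
  have h5 : y ∈ 𝐍(T) := mem_normalizer_of_cj_le (cj_le_iff'.2 fun x hx => by
    by_cases x2 : x * x = 1
    · by_cases x1 : x = 1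
      · simp [x1]
      · rwa [hd.uniq hx h1 ⟨x2, x1⟩ t2, mem_cent1_iff.1 hy.2, mul_inv_cancel_right]
    · exact hd.mem_of_sq (conj_mem_of_mem_normalizer (zpowers_le.1 hn) (hd.le hx)) fun e =>
        x2 (by rwa [conj_mul, conj_eq_one_iff] at e))
  have h6 := zpowers_le.1 (norms_of_cyclic hd.cyc (zpowers_le.2 h3) (zpowers_le.2 h5))
  have h7 := mem_cent_iff.1 (cent_of_cyclic (piGrp_zpowers.2 h2) inferInstance h6 ho) _ (mem_zpowers _)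
  rw [mul_assoc, ← mem_cent1_iff.1 yw, ← mul_assoc, ← mul_assoc, mul_left_inj] at h7
  exact mem_cent1_iff.2 h7.symm

end

/-- the structure of the nonsolvable proper subgroups -/
def Min.Str {G : Type u} [Group G] (_ : Min G) : Prop := ∀ L : Subgroup G, L ≠ ⊤ → ¬ Group.IsSolvable L →
  (∃ K P q, L2T (L /ₛ 𝐎(L)) K P q) ∨ A7T (L /ₛ 𝐎(L))

section
variable {G : Type u} [Group G] [Finite G] {m : Min G} (str : m.Str) {E L M V Z : Subgroup G} {s t w x y : G}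
include str

theorem Min.Str.at {O : Subgroup G} (hL : L ≠ ⊤) (hs : ¬ Group.IsSolvable L) (hO : 𝐎(L) = O) :
    (∃ K P q, L2T (L /ₛ O) K P q) ∨ A7T (L /ₛ O) := hO ▸ str L hL hs

theorem Min.Str.over (hE : QS E) (hs : s ∈ E) (s2 : Inv2 s) (hL : L ≠ ⊤) (hEL : E ≤ L) (hc : L ⊓ 𝐂[s] ≤ 𝐍(E)) : L ≤ 𝐍(E) := by
  have dE := m.dsyl_of hE.not_solvable
  obtain ⟨V, V1, hV, -⟩ := dE.exists_four hs s2
  have nO := piCoreOf_norm {2}ᶜ L
  have oO := odd_core L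
  set O := 𝐎(L) with hO
  have h1 : O ≤ 𝐍(E) := hV.gen ((V1.trans hEL).trans nO) oO fun v v1 v2 => by
    obtain ⟨g, hg, rfl⟩ := dE.conj hE.der hs (V1 v1) s2 (hV.inv2 v1 v2)
    have := cj_mono g hc
    rw [cj_inf, cj_eq_of_mem (hEL hg), cj_centralizer_singleton, cj_eq_of_mem (le_normalizer hg)] at this
    exact (inf_le_inf_right _ (piCoreOf_le _ _)).trans this
  have hq := qs_quo hE (hEL.trans nO) (solv_odd oO)
  have h2 : (L /ₛ O) ⊓ 𝐂[qel O s] ≤ 𝐍(E /ₛ O) := by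
    rw [← quo_cent_inv s2 (nO (hEL hs)) oO (le_normalizer (hEL hs))]; exact quo_norms O hc
  have h3 := inv2_qel s2 (nO (hEL hs)) oO
  have h4 : L /ₛ O ≤ 𝐍(E /ₛ O) := by
    rcases str.at hL (fun e => hE.not_le_of_solvable e hEL) hO.symm with ⟨K, P, q, h⟩ | h
    · have h5 : E /ₛ O ≤ K := hq.der ▸ (der_mono (quo_mono O hEL)).trans h.der
      have h6 : K ⊓ 𝐂[qel O s] ≤ 𝐍(E /ₛ O) := (inf_le_inf_right _ h.KX.le).trans h2
      have h7 : E ≤ coq O (K ⊓ 𝐍(E /ₛ O)) := (le_coq_iff (hEL.trans nO)).2 (le_inf h5 le_normalizer)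
      have h8 : 𝐎(coq O (K ⊓ 𝐍(E /ₛ O))) = O := by
        rw [← coq_piCoreOf (normalIn_coq _) (odd_iff.1 oO), quo_coq, h.core_norm hq h5, coq_bot]
      have h9 := str.at (fun e => hL (top_le_iff.1 (e ▸ coq_le_of_le_quo (piCoreOf_le _ _)
        (inf_le_left.trans h.KX.le)))) (fun e => hE.not_le_of_solvable e h7) h8
      rw [quo_coq] at h9
      have hn : E /ₛ O ⊴ K ⊓ 𝐍(E /ₛ O) := ⟨le_inf h5 le_normalizer, inf_le_right⟩
      rcases h9 with ⟨K0, P0, q0, h0⟩ | h0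
      · obtain rfl := h0.eq_of hq hn
        rw [h.over h5 (qel_mem_quo O hs) h3 h6 h0]; exact h.KX.norm
      · obtain ⟨T, -, -, hd, -⟩ := h.tor _ (quo_mono O hEL (qel_mem_quo O hs)) h3
        exact absurd (inf_le_inf_right _ inf_le_left) (h0.not_dih (hn.le (qel_mem_quo O hs)) h3 hd)
    · exact h.over hq (quo_mono O hEL) (qel_mem_quo O hs) h3 h2
  rw [quo_norms_iff nO (hEL.trans nO)] at h4
  exact fun g hg => mem_normalizer_of_cj_le (le_of_perfect (hE.cj g).der (solv_odd oO) h1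
    (cj_le_of_mem_normalizer le_sup_right (h4 hg)))

/-- an involution outside the normal quasisimple subgroup `E` forces type `PGL₂(q)` -/
theorem Min.Str.l2 (hE : QS E) (hM : E ⊴ M) (h1 : M ≠ ⊤) (hw : w ∈ M) (wE : w ∉ E) (w2 : Inv2 w) :
    ∃ P q, L2T (M /ₛ 𝐎(M)) (E /ₛ 𝐎(M)) P q ∧ qel 𝐎(M) w ∉ E /ₛ 𝐎(M) := by
  have nO := piCoreOf_norm {2}ᶜ M
  have hq := qs_quo hE (hM.le.trans nO) (solv_core M)
  have h2 : qel 𝐎(M) w ∉ E /ₛ 𝐎(M) := fun e => wE (mem_of_mem_sup (odd_core M) ((piCoreOf_le _ _).trans hM.norm)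
    ((qel_mem_quo_iff' (nO hw) (hM.le.trans nO)).1 e) w2.piElt)
  rcases str M h1 (fun e => hE.not_le_of_solvable e hM.le) with ⟨K, P, q, h⟩ | h
  · exact ⟨P, q, h.eq_of hq (hM.quo _) ▸ h, h2⟩
  · exact absurd (h.eq_of hq (hM.quo _) ▸ qel_mem_quo _ hw) h2

theorem Min.Str.cent_four (hE : QS E) (hM : E ⊴ M) (h1 : M ≠ ⊤) (hZ : Four Z) (hZM : Z ≤ M) (hy : y ∈ M) (ho : Odd (orderOf y))
    (hc : Z ≤ 𝐂[y]) : ∃ V ≤ E, Four V ∧ V ≤ 𝐂[y] := by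
  by_cases e : Z ≤ E
  · exact ⟨Z, e, hZ, hc⟩
  obtain ⟨w, w1, wE⟩ := SetLike.not_le_iff_exists.1 e
  have w2 := hZ.inv2 w1 fun e => wE (e ▸ one_mem E)
  obtain ⟨t, t1, t2, tE⟩ := (m.dsyl_of fun e => hE.not_le_of_solvable e hM.le).four_inv hM hE.not_solvable hZ hZM
  replace t2 := hZ.inv2 t1 t2
  obtain ⟨V0, V1, V2, V3⟩ := (m.dsyl_of hE.not_solvable).exists_four tE t2
  obtain ⟨T, hT, h2⟩ := exists_sylowIn_ge hZ.piGrp (le_inf hZM (hZ.le_cent1 t1))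
  have h3 : E ⊓ 𝐂[t] ⊴ M ⊓ 𝐂[t] := ⟨inf_le_inf_right _ hM.le, norms_inf (inf_le_left.trans hM.norm) (norms_cent1 inf_le_right)⟩
  obtain ⟨c, c1, c2⟩ := SylowIn.exists_cj_le (hT.inf_normal h3) V2.piGrp (le_inf V1 (V2.le_cent1 V3))
  have hV := V2.cj c
  have tV : t ∈ cj c V0 := by
    have := (conj_mem_cj (g := c)).2 V3
    rwa [mem_cent1_iff.1 c1.2, mul_inv_cancel_right] at this
  obtain ⟨s, s1, s2, s3⟩ := hV.exists tV
  replace s2 := hV.inv2 s1 s2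
  obtain ⟨P, q, h, h4⟩ := str.l2 hE hM h1 (hZM w1) wE w2
  have nO := piCoreOf_norm {2}ᶜ M
  have oO := odd_core M
  have sE : s ∈ E ⊓ 𝐂[t] := (c2 s1).2
  have sM := hM.le sE.1
  have tM := hM.le tE
  have cq : ∀ {a b : G}, a ∈ 𝐂[b] → b ∈ M → qel 𝐎(M) a ∈ 𝐂[qel 𝐎(M) b] := fun ha hb => pmap_cent1 _ (nO hb) (pel_mem_pmap _ ha)
  have h5 := h.cent_four (qel_mem_quo _ tE) (inv2_qel t2 (nO tM) oO) ⟨qel_mem_quo _ (hZM w1), cq (hZ.le_cent1 t1 w1) tM⟩ h4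
    (inv2_qel w2 (nO (hZM w1)) oO) ⟨qel_mem_quo _ sE.1, cq sE.2 tM⟩ (inv2_qel s2 (nO sM) oO)
    (fun e => (s2.mul t2 s3 (mem_cent1_iff.1 sE.2)).not_mem oO (by rw [qel_eq_iff' (nO sM) (nO tM), t2.inv] at e; exact e))
    (by rw [← pel_mul _ (nO sM) (nO (hZM w1))]; exact (hT.piGrp.piElt (mul_mem (c2 s1).1 (h2 w1))).qel _)
    ⟨qel_mem_quo _ hy, cq (mem_cent1_comm.1 (hc t1)) tM⟩ (cq (mem_cent1_comm.1 (hc w1)) (hZM w1))
    (odd_elt_iff.2 ((odd_elt_iff.1 ho).qel _))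
  rw [mem_cent1_iff, ← pel_mul _ (nO hy) (nO sM), ← pel_mul _ (nO sM) (nO hy),
    qel_eq_iff' (nO (mul_mem hy sM)) (nO (mul_mem sM hy))] at h5
  have h6 := mem_cent_iff'.1 (qs_cents_core hE hM h5) s sE.1
  have h7 : y * s * (s * y)⁻¹ = 1 := eq_one_of_odd (odd_of_mem oO h5) (by
    have := (s2.conj y).sq
    rw [show y * s * y⁻¹ = y * s * (s * y)⁻¹ * s by group, mul_assoc _ s, ← mul_assoc s, ← h6, mul_assoc, mul_assoc _ s s, s2.sq,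
      mul_one] at this
    rw [← this]; group)
  exact ⟨_, c2.trans (inf_le_right.trans inf_le_left), hV, hV.le_of tV s1 t2.ne s2.ne s3.symm (hc t1)
    (mem_cent1_iff.2 (mul_inv_eq_one.1 h7).symm)⟩

theorem Min.Str.A3 (hE : QS E) (tE : m.t ∈ E) (hN : 𝐂[m.t] ≤ 𝐍(E)) (hS : ¬ m.S ≤ E) : False := by
  have t2 := m.inv
  have h1 : 𝐍(E) ≠ ⊤ := m.norm_ne hE.ne_bot fun e => hS (e ▸ le_top)
  have hM := normalIn_normalizer E
  have nO := piCoreOf_norm {2}ᶜ 𝐍(E)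
  have oO := odd_core 𝐍(E)
  have OE := qs_cents_core hE hM
  have dE := m.dsyl_of hE.not_solvable
  obtain ⟨w, w1, w2, wE⟩ : ∃ w ∈ m.S, w ∉ m.R ∧ w ∉ E := by
    by_contra! e
    exact hS (m.dih.le_of_inv e)
  replace w2 := m.dih.inv2 w1 w2
  replace w1 := m.S_le w1
  have wt := mem_cent1_iff.1 w1
  have h := str.l2 hE hM h1 (hN w1) wE w2
  generalize 𝐎(𝐍(E)) = O at h nO oO OE
  obtain ⟨P, q, h, h2⟩ := h
  set M := 𝐍(E) with hMd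
  set t := m.t
  have tM := hM.le tE
  have wM := hN w1
  -- `O` is a TI-set
  have ti : ∀ y ∈ O, y ≠ 1 → ∀ g, g * y * g⁻¹ ∈ O → g ∈ M := fun y hy y1 g hg => by
    obtain ⟨V, V1, hV, -⟩ := dE.exists_four tE t2
    have k1 := cj_mono g (str.over hE tE t2 (m.cent1_ne y1) (mem_cent_iff_le_cent1.1 (OE hy)) (inf_le_right.trans hN))
    rw [cj_centralizer_singleton] at k1
    have k2 := le_cj_iff.1 ((V1.trans (mem_cent_iff_le_cent1.1 (OE hg))).trans k1)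
    obtain ⟨v, v1, v2, v3⟩ := (m.dsyl_of fun e => hE.not_le_of_solvable e hM.le).four_inv hM hE.not_solvable (hV.cj g⁻¹) k2
    replace v2 := (hV.cj g⁻¹).inv2 v1 v2
    obtain ⟨a, a1, a2⟩ := dE.conj hE.der tE v3 t2 v2
    obtain ⟨b, b1, b2⟩ := dE.conj hE.der (V1 (mem_cj_inv.1 v1)) tE (v2.conj g) t2
    have k3 : b * g * a ∈ M := hN (mem_cent1_iff.2 (mul_inv_eq_iff_eq_mul.1 (Eq.trans (by rw [← a2]; group) b2)))
    exact (mul_mem_cancel_left (hM.le b1)).1 ((mul_mem_cancel_right (hM.le a1)).1 k3)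
  obtain ⟨Z, hZ, eZ⟩ := four_of t2 w2 (fun e => wE (e ▸ tE)) wt.symm
  obtain ⟨g, -, g1, g2, g3⟩ := m.rot3 hZ ((eZ t).2 (by simp)) ((eZ w).2 (by simp)) t2.ne w2.ne fun e => wE (e ▸ tE)
  have tq := inv2_qel t2 (nO tM) oO
  have wq := inv2_qel w2 (nO wM) oO
  have cq : ∀ {a b : G}, a ∈ 𝐂[b] → b ∈ M → qel O a ∈ 𝐂[qel O b] := fun ha hb => pmap_cent1 _ (nO hb) (pel_mem_pmap _ ha)
  obtain ⟨n, n1, n2, n3⟩ := h.card_cent (qel_mem_quo _ tM) tq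
  obtain ⟨T, -, -, hd, k2, k3, k4, -⟩ := h.tor _ (qel_mem_quo _ wM) wq
  have n4 := n3.1 (qel_mem_quo _ tE)
  have k5 : Odd (Nat.card ↥((E /ₛ O) ⊓ T)) := Nat.not_even_iff_odd.1 fun e => h2 (k3.2 e)
  have f5 := h.five
  obtain ⟨x0, x1, r1⟩ := exists_prime_order_mem (A := (E /ₛ O) ⊓ T) fun e => by rw [e, card_bot] at k2; omega
  have r2 := orderOf_dvd_card_of_mem x1
  have r3 := odd_of_mem k5 x1
  have r4 : PiElt {orderOf x0} x0 := (piElt_of_orderOf_prime r1 rfl).2 rfl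
  have r5 : ¬ orderOf x0 ∣ 2 * n := fun e => by
    have e1 := (Nat.Coprime.dvd_mul_left (Nat.coprime_two_right.2 r3)).1 e
    have e2 : Nat.card ↥((E /ₛ O) ⊓ T) = n + 1 ∨ n = Nat.card ↥((E /ₛ O) ⊓ T) + 1 := by
      have := Nat.even_iff.1 n4; have := Nat.odd_iff.1 k5; omega
    rcases e2 with e2 | e2
    · rw [e2] at r2; exact r1.one_lt.ne' (Nat.dvd_one.1 ((Nat.dvd_add_right e1).1 r2))
    · rw [e2] at e1; exact r1.one_lt.ne' (Nat.dvd_one.1 ((Nat.dvd_add_right r2).1 e1))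
  have r6 : ∀ {y : G}, PiElt {orderOf x0} y → Odd (orderOf y) := fun hy =>
    odd_elt_iff.2 (PiNum.singleton_compl_singleton hy fun e => by rw [e] at r3; exact absurd r3 (by decide))
  have iT : ∀ y ∈ (E /ₛ O) ⊓ T, qel O t * y * (qel O t)⁻¹ = y⁻¹ := fun y hy =>
    hd.inv ⟨qel_mem_quo _ tE, cq (mem_cent1_comm.1 w1) wM⟩ (tq.not_mem k5) hy
  obtain ⟨x, xE, xw, xt, xr, xq⟩ : ∃ x ∈ E, x ∈ 𝐂[w] ∧ t * x * t⁻¹ = x⁻¹ ∧ PiElt {orderOf x0} x ∧ qel O x = x0 * x0 := by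
    have e1 := hd.le x1
    rw [← quo_cent_inv w2 (nO wM) oO wM, mem_quo ((inf_le_left.trans hM.le).trans nO)] at e1
    obtain ⟨a, a1, a2⟩ := e1
    have a3 : t * a⁻¹ * t⁻¹ ∈ E ⊓ 𝐂[w] := mul_mem (mul_mem ⟨tE, mem_cent1_comm.1 w1⟩ (inv_mem a1)) (inv_mem ⟨tE, mem_cent1_comm.1 w1⟩)
    have a4 := constt_mem {orderOf x0} (mul_mem a1 a3)
    refine ⟨_, a4.1, a4.2, inv_of_mem_zpowers ?_ (constt_mem_zpowers _ _), constt_piElt _ _, ?_⟩
    · rw [t2.inv]; simp only [mul_assoc, mul_inv_rev, inv_inv, t2.inv, t2.sq, mul_one]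
    · rw [pel_constt _ _ (nO (hM.le (mul_mem a1 a3).1)), pel_mul _ (nO (hM.le a1.1)) (nO (hM.le a3.1)),
        pel_conj _ (nO tM) (nO (hM.le (inv_mem a1.1))), pel_inv _ (nO (hM.le a1.1)), a2, iT _ (inv_mem x1), inv_inv]
      exact constt_eq_self (r4.mul r4 rfl)
  have x2 : x0 * x0 ≠ 1 := fun e => r1.one_lt.ne' (orderOf_eq_one_iff.2 (eq_one_of_odd r3 e))
  obtain ⟨y, rfl⟩ : ∃ y, x = g * y * g⁻¹ := ⟨g⁻¹ * x * g, by group⟩
  have y1 : y ≠ 1 := fun e => x2 (by rw [← xq, e]; simp [pel_one])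
  have yr : PiElt {orderOf x0} y := piElt_conj.1 xr
  have yt : y ∈ 𝐂[t] := by rwa [← g1, ← cj_centralizer_singleton, conj_mem_cj] at xw
  have y3 : t * w * y * (t * w)⁻¹ = y⁻¹ := by
    rw [← g3, conj_mul, conj_inv, conj_inv, conj_mul] at xt
    simpa using xt
  have yw : w * y * w⁻¹ = y⁻¹ := by
    rw [← wt, show w * t * y * (w * t)⁻¹ = w * (t * y * t⁻¹) * w⁻¹ by group, ← mem_cent1_iff.1 yt, mul_inv_cancel_right] at y3
    exact y3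
  have yM := hN yt
  have yO : y ∈ O := by
    have e1 := quo_mono O le_rfl (qel_mem_quo O (mem_comm_of_inv (r6 yr) yw yM wM))
    rw [quo_der nO] at e1
    have e2 := orderOf_dvd_card_of_mem (show qel O y ∈ (E /ₛ O) ⊓ 𝐂[qel O t] from ⟨h.der e1, cq yt tM⟩)
    rw [n1] at e2
    exact (qel_eq_one_iff (nO yM)).1 ((yr.qel O).eq_one (((piNum_compl_singleton r1).2 r5).of_dvd e2))
  have c1 : y ∈ 𝐂[g * y * g⁻¹] := mem_cent1_iff.2 (mem_cent_iff'.1 (OE yO) _ xE)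
  have c2 : y ∈ cj g E := by
    refine mem_of_inv (r6 yr) yw ?_ (g1 ▸ conj_mem_cj.2 tE)
    rw [← cj_normalizer]
    exact cj_mono g (str.over hE tE t2 (m.cent1_ne y1) (mem_cent_iff_le_cent1.1 (OE yO)) (inf_le_right.trans hN))
      (by rwa [cj_centralizer_singleton])
  have g4 : g * g * t * (g * g)⁻¹ = t * w := by rw [← g2, ← g1]; group
  have g5 : g * g * g ∈ M := hN (mem_cent1_iff.2 (mul_inv_eq_iff_eq_mul.1 (Eq.trans (by rw [← g4]; group) g3)))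
  have zE : g * g * y * (g * g)⁻¹ ∈ E := by
    have := (conj_mem_cj (g := g * g)).2 c2
    rwa [cj_cj, cj_eq_of_mem_normalizer g5] at this
  have z1 : g * g * y * (g * g)⁻¹ ∈ 𝐂[g * y * g⁻¹] := by
    rw [← cj_centralizer_singleton, show g * g * y * (g * g)⁻¹ = g * (g * y * g⁻¹) * g⁻¹ by group, conj_mem_cj]
    exact mem_cent1_comm.1 c1
  have z2 : g * g * y * (g * g)⁻¹ ∈ 𝐂[t * w] := by rwa [← g4, ← cj_centralizer_singleton, conj_mem_cj]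
  have zr : PiElt {orderOf x0} (g * g * y * (g * g)⁻¹) := piElt_conj.2 yr
  set z := g * g * y * (g * g)⁻¹
  have z3 : qel O z ∈ (E /ₛ O) ⊓ T := by
    have e1 := mul_mem x1 x1
    refine ⟨qel_mem_quo _ zE, ?_⟩
    rw [← (k4 _ e1.2 fun e => x2 (eq_one_of_odd (odd_of_mem k5 e1) e)).1, ← xq]
    exact ⟨h.KP (qel_mem_quo _ zE), cq z1 (hM.le xE)⟩
  have z4 : z ∈ O := (qel_eq_one_iff (nO (hM.le zE))).1 (eq_one_of_cent_inv (odd_of_mem k5 z3)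
    (mem_cent1_iff.1 (cq z2 (mul_mem tM wM))).symm (by
      rw [pel_mul _ (nO tM) (nO wM), ← iT _ z3, mul_assoc (qel O t), ← mem_cent1_iff.1 (hd.le z3).2]; group))
  exact wE ((mul_mem_cancel_left tE).1 (g4 ▸ conj_mem_of_mem_normalizer (ti y yO y1 _ z4) tE))

end

end CA.GW
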