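/-
Gorenstein–Walter: overgroups of components (A3).
-/
import Cfsg.Agent.Lib.GW.Kit
import Cfsg.Agent.Lib.GW.Over

set_option autoImplicit false

namespace CA.GW

open Cfsg CA CA.FStar Subgroup

universe u

variable [KT.{u}] {G : Type u} [Group G] [Finite G] (m : Min G) {L M E Z : Subgroup G} {s y : G}
include m

theorem Min.strP : m.Str := fun _ => m.str

theorem Min.A3 (hE : QS E) (tE : m.t ∈ E) (hN : 𝐂[m.t] ≤ 𝐍(E)) (hS : ¬ m.S ≤ E) : False := m.strP.A3 hE tE hN hS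

/-- an element of odd order centralizing a four-group of `L` centralizes a four-group of `E(L)` -/
theorem Min.cent_four_lay (hL : L ≠ ⊤) (hE : lay L ≠ ⊥) (hZ : Four Z) (hZL : Z ≤ L) (hy : y ∈ L) (ho : Odd (orderOf y))
    (hc : Z ≤ 𝐂[y]) : ∃ V ≤ lay L, Four V ∧ V ≤ 𝐂[y] :=
  m.strP.cent_four (m.lay_qs hL hE) (lay_normalIn L) hL hZ hZL hy ho hc

/-- A3: `s ∈ E = E(M)`, `E ≤ L < G`, `C_L(s) ≤ M`: `E` covers the nonsolvable part of `L` and `L ≤ M` -/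
theorem Min.over (hM : M ≠ ⊤) (hE : lay M ≠ ⊥) (hs : s ∈ lay M) (s2 : Inv2 s) (hL : L ≠ ⊤) (hEL : lay M ≤ L)
    (hc : ∀ v ∈ lay M, Inv2 v → L ⊓ 𝐂[v] ≤ 𝐍(lay M)) : L ≤ 𝐍(lay M) :=
  m.strP.over (m.lay_qs hM hE) hs s2 hL hEL (hc s hs s2)

end CA.GW
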