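import Cfsg.Agent.Lib.GW.TComb

/-! The set-up for the character theory of groups with dihedral Sylow 2-subgroups. -/

set_option autoImplicit false
set_option linter.unusedSectionVars false
set_option linter.style.haveILetI false

open scoped ComplexConjugate

namespace CA.GW

open CA.Ch CA.Blk Cfsg Subgroup

/-- a group with one class of involutions, `C(t) = U ⟨s, r⟩` with `⟨s, r⟩` dihedral of order `4m` -/
structure DS (G : Type*) [Group G] where
  m : ℕ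
  s : G
  r : G
  U : Subgroup G
  two : ∃ e, m = 2 ^ e
  os : orderOf s = 2 * m
  rr : r * r = 1
  rs : r * s * r⁻¹ = s⁻¹
  rn : r ∉ zpowers s
  odd : Odd (Nat.card U)
  UH : U ≤ 𝐂[s ^ m]
  HU : 𝐂[s ^ m] ≤ 𝐍(U)
  cov : ∀ h ∈ (𝐂[s ^ m] : Subgroup G), ∃ u ∈ U, ∃ i : ℕ, h = u * s ^ i ∨ h = u * (s ^ i * r)
  one : ∀ x, x * x = 1 → x ≠ 1 → IsConj (s ^ m) x

theorem ds_relIndex {G : Type*} [Group G] (H : Subgroup G) (x : G) :
    (𝐂[x]).relIndex H = Set.ncard {y | ∃ h ∈ H, y = h * x * h⁻¹} := by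
  letI : MulAction H G := MulAction.compHom G (MulAut.conj.comp H.subtype)
  have h1 : MulAction.stabilizer H x = (𝐂[x]).subgroupOf H := by
    ext h; rw [MulAction.mem_stabilizer_iff, mem_subgroupOf, mem_cent1_iff]
    exact mul_inv_eq_iff_eq_mul
  rw [relIndex, ← h1, MulAction.index_stabilizer]
  congr 1; ext y
  exact ⟨fun ⟨h, e⟩ => ⟨h, h.2, e.symm⟩, fun ⟨h, hh, e⟩ => ⟨⟨h, hh⟩, e.symm⟩⟩

theorem ds_constt_zpow {G : Type*} [Group G] [Finite G] (π : Set ℕ) (x : G) (k : ℤ) :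
    constt π (x ^ k) = constt π x ^ k := by
  have h := constt_comm π πᶜ x
  refine constt_unique ((constt_piElt π x).zpow k) ((constt_piElt πᶜ x).zpow k) ?_ ?_
  · exact (Commute.zpow_zpow h k k)
  · rw [← Commute.mul_zpow h, constt_mul_compl]

namespace DS
variable {G : Type*} [Group G] [Finite G] (D : DS G)

abbrev t : G := D.s ^ D.m
abbrev H : Subgroup G := 𝐂[D.s ^ D.m]
noncomputable abbrev N : ℕ := D.H.index
noncomputable abbrev k1 : ℕ := (𝐂[D.r] : Subgroup G).relIndex D.U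
noncomputable abbrev k2 : ℕ := (𝐂[D.s * D.r] : Subgroup G).relIndex D.U

theorem pos : 0 < D.m := by obtain ⟨e, h⟩ := D.two; rw [h]; positivity
theorem s2m : D.s ^ (2 * D.m) = 1 := by rw [← D.os]; exact pow_orderOf_eq_one _
theorem tt : D.t * D.t = 1 := by rw [← pow_add, ← two_mul, D.s2m]
theorem t1 : D.t ≠ 1 := pow_ne_one_of_lt_orderOf D.pos.ne' (by rw [D.os]; have := D.pos; omega)
theorem ti : D.t⁻¹ = D.t := inv_eq_of_mul_eq_one_right D.tt
theorem ri : D.r⁻¹ = D.r := inv_eq_of_mul_eq_one_right D.rr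
theorem rs_pow (i : ℕ) : D.r * D.s ^ i * D.r⁻¹ = (D.s ^ i)⁻¹ := by
  rw [← conj_pow, D.rs, inv_pow]
theorem r_mul (i : ℕ) : D.r * D.s ^ i = (D.s ^ i)⁻¹ * D.r := by rw [← D.rs_pow]; group
theorem r_mul' (i : ℕ) : D.r * (D.s ^ i)⁻¹ = ((D.s ^ i)⁻¹)⁻¹ * D.r := by
  rw [inv_inv, ← D.rs_pow i, ← mul_assoc, ← mul_assoc, D.rr, one_mul, D.ri]
theorem memH {g : G} : g ∈ D.H ↔ g * D.t = D.t * g := mem_cent1_iff
theorem sH (i : ℕ) : D.s ^ i ∈ D.H := D.memH.mpr (by rw [← pow_add, ← pow_add, add_comm])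
theorem rH : D.r ∈ D.H := D.memH.mpr (by rw [D.r_mul, D.ti])
theorem srH (i : ℕ) : D.s ^ i * D.r ∈ D.H := mul_mem (D.sH i) D.rH
theorem sr_sq (i : ℕ) : D.s ^ i * D.r * (D.s ^ i * D.r) = 1 := by
  rw [mul_assoc, ← mul_assoc D.r, D.r_mul, mul_assoc, D.rr]; group
theorem sr_ne (i : ℕ) : D.s ^ i * D.r ∉ zpowers D.s := fun h =>
  D.rn (by simpa using mul_mem (inv_mem (npow_mem_zpowers D.s i)) h)
theorem cj {h u : G} (hh : h ∈ D.H) (hu : u ∈ D.U) : h * u * h⁻¹ ∈ D.U :=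
  (mem_normalizer_iff.mp (D.HU hh) u).mp hu
theorem odd_of {u : G} (hu : u ∈ D.U) : Odd (orderOf u) :=
  Odd.of_dvd_nat D.odd (by simpa using orderOf_dvd_natCard (⟨u, hu⟩ : D.U))
theorem sq_one {u : G} (hu : u ∈ D.U) (h : u * u = 1) : u = 1 := by
  have h1 : orderOf u ∣ 2 := orderOf_dvd_of_pow_eq_one (by rw [pow_two, h])
  rcases (Nat.dvd_prime Nat.prime_two).mp h1 with e | e
  · exact orderOf_eq_one_iff.mp e
  · have := D.odd_of hu; rw [e] at this; exact absurd this (by decide)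
theorem one_of_odd {x : G} (hx : x ∈ zpowers D.s) (h : Odd (orderOf x)) : x = 1 := by
  obtain ⟨e, he⟩ := D.two
  have h1 : orderOf x ∣ 2 ^ (e + 1) := by
    rw [pow_succ', ← he, ← D.os]; exact orderOf_dvd_of_mem_zpowers hx
  obtain ⟨k, -, hk⟩ := (Nat.dvd_prime_pow Nat.prime_two).mp h1
  cases k with
  | zero => exact orderOf_eq_one_iff.mp hk
  | succ k => rw [hk] at h; exact absurd h (by simp [pow_succ])
theorem sU {x : G} (hx : x ∈ zpowers D.s) (h : x ∈ D.U) : x = 1 := D.one_of_odd hx (D.odd_of h)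
theorem srU {x : G} (hx : x ∈ zpowers D.s) : x * D.r ∉ D.U := fun h => by
  obtain ⟨i, rfl⟩ := (mem_powers_iff_mem_zpowers.mpr hx)
  exact D.sr_ne i (by rw [D.sq_one h (D.sr_sq i)]; exact one_mem _)
theorem sH' {x : G} (hx : x ∈ zpowers D.s) : x ∈ D.H := by
  obtain ⟨i, rfl⟩ := (mem_powers_iff_mem_zpowers.mpr hx); exact D.sH i

theorem sq_s {x : G} (hx : x ∈ zpowers D.s) (h : x * x = 1) : x = 1 ∨ x = D.t := by
  obtain ⟨i, rfl⟩ := (mem_powers_iff_mem_zpowers.mpr hx)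
  simp only at h ⊢
  rw [← pow_add, ← two_mul] at h
  have h1 := orderOf_dvd_of_pow_eq_one h
  rw [D.os] at h1
  obtain ⟨k, rfl⟩ := Nat.dvd_of_mul_dvd_mul_left two_pos h1
  rw [pow_mul]
  rcases Nat.even_or_odd' k with ⟨j, rfl | rfl⟩
  · left; rw [pow_mul, pow_two, D.tt, one_pow]
  · right; rw [pow_succ, pow_mul, pow_two, D.tt, one_pow, one_mul]

theorem pow_form {u x : G} (hu : u ∈ D.U) (hx : x ∈ D.H) (n : ℕ) :
    ∃ v ∈ D.U, (u * x) ^ n = v * x ^ n := by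
  induction n with
  | zero => exact ⟨1, one_mem _, by simp⟩
  | succ n ih =>
    obtain ⟨v, hv, e⟩ := ih
    exact ⟨v * (x ^ n * u * (x ^ n)⁻¹), mul_mem hv (D.cj (pow_mem hx n) hu), by
      rw [pow_succ, e, pow_succ]; group⟩

/-- `t` is the only involution of `U ⟨s⟩` -/
theorem inv_eq {u x : G} (hu : u ∈ D.U) (hx : x ∈ zpowers D.s) (h : u * x * (u * x) = 1)
    (h1 : u * x ≠ 1) : u * x = D.t := by
  obtain ⟨v, hv, e⟩ := D.pow_form hu (D.sH' hx) 2
  rw [pow_two, h, pow_two] at e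
  have h2 : x * x = 1 := D.sU (mul_mem hx hx) (by
    rw [eq_comm, mul_eq_one_iff_eq_inv] at e
    have := inv_mem hv
    rwa [e, inv_inv] at this)
  rcases D.sq_s hx h2 with rfl | rfl
  · rw [mul_one] at h h1; exact absurd (D.sq_one hu h) h1
  · have : u * u = 1 := by
      rw [← h, mul_assoc, ← mul_assoc D.t, ← D.memH.mp (D.UH hu), mul_assoc, D.tt, mul_one]
    rw [D.sq_one hu this, one_mul]

theorem t_mem {u x : G} (hu : u ∈ D.U) (hx : x ∈ zpowers D.s) (h1 : x ≠ 1) :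
    ∃ k : ℕ, (u * x) ^ k = D.t := by
  obtain ⟨v, hv, e⟩ := D.pow_form hu (D.sH' hx) (orderOf (u * x))
  rw [pow_orderOf_eq_one] at e
  have h2 : x ^ orderOf (u * x) = 1 := D.sU (pow_mem hx _) (by
    rw [eq_comm, mul_eq_one_iff_eq_inv] at e
    have := inv_mem hv
    rwa [e, inv_inv] at this)
  rcases Nat.even_or_odd' (orderOf (u * x)) with ⟨k, hk | hk⟩
  · obtain ⟨w, hw, e'⟩ := D.pow_form hu (D.sH' hx) k
    have h0 := orderOf_pos (u * x)
    refine ⟨k, ?_⟩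
    rw [e']
    refine D.inv_eq hw (pow_mem hx _) ?_ ?_
    · rw [← e', ← pow_add, ← two_mul, ← hk, pow_orderOf_eq_one]
    · rw [← e']; exact pow_ne_one_of_lt_orderOf (by omega) (by omega)
  · exact absurd (D.one_of_odd hx (Odd.of_dvd_nat ⟨k, hk⟩ (orderOf_dvd_of_pow_eq_one h2))) h1

theorem cent_le {u x : G} (hu : u ∈ D.U) (hx : x ∈ zpowers D.s) (h1 : x ≠ 1) :
    𝐂[constt {2} (u * x)] ≤ D.H := by
  obtain ⟨k, hk⟩ := D.t_mem hu hx h1
  have h2 : constt {2} (u * x) ^ (k : ℤ) = D.t := by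
    rw [← ds_constt_zpow, zpow_natCast, hk]
    exact constt_eq_self ((piElt_singleton_iff' Nat.prime_two).mpr ⟨1, by rw [pow_one, pow_two, D.tt]⟩)
  intro g hg
  rw [D.memH, ← h2]
  exact (Commute.zpow_right (mem_cent1_iff.mp hg) _)

/-- an element conjugating `U x'` into `U x` centralises `t` -/
theorem mem_of_cj {u x v x' y : G} (hu : u ∈ D.U) (hx : x ∈ zpowers D.s) (hv : v ∈ D.U)
    (hx' : x' ∈ zpowers D.s) (h1 : x' ≠ 1) (e : y * (v * x') * y⁻¹ = u * x) : y ∈ D.H := by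
  obtain ⟨k, hk⟩ := D.t_mem hv hx' h1
  obtain ⟨w, hw, e'⟩ := D.pow_form hu (D.sH' hx) k
  have h2 : w * x ^ k = y * D.t * y⁻¹ := by rw [← e', ← e, conj_pow, hk]
  have h3 := D.inv_eq hw (pow_mem hx k) (by rw [h2]; simp [mul_assoc, ← mul_assoc D.t, D.tt])
    (by rw [h2]; simpa using D.t1)
  rw [D.memH, ← mul_inv_eq_iff_eq_mul, ← h2, h3]

theorem mem_U {h : G} (hh : h ∈ D.H) (ho : Odd (orderOf h)) : h ∈ D.U := by
  obtain ⟨u, hu, i, e | e⟩ := D.cov h hh
  · by_cases h1 : D.s ^ i = 1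
    · rw [e, h1, mul_one]; exact hu
    · obtain ⟨k, hk⟩ := D.t_mem hu (npow_mem_zpowers D.s i) h1
      rw [← e] at hk
      exact absurd (D.one_of_odd (npow_mem_zpowers _ _) (Odd.of_dvd_nat ho (by
        have := orderOf_pow_dvd (x := h) k
        rwa [hk] at this))) D.t1
  · obtain ⟨v, hv, e'⟩ := D.pow_form hu (D.srH i) (orderOf h)
    obtain ⟨k, hk⟩ := ho
    rw [← e, pow_orderOf_eq_one, hk, pow_succ, pow_mul, pow_two, D.sr_sq, one_pow, one_mul,
      eq_comm, mul_eq_one_iff_eq_inv] at e'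
    have := inv_mem hv
    rw [e', inv_inv] at this
    exact absurd this (D.srU (npow_mem_zpowers _ _))

/-- summation over `H` -/
theorem sumH [Fintype G] [Fintype D.U] {R : Type*} [AddCommMonoid R] (F : G → R)
    (hF : ∀ y, y ∉ D.H → F y = 0) : ∑ y, F y = ∑ u : D.U, ∑ i ∈ Finset.range (2 * D.m),
      (F (u * D.s ^ i) + F (u * (D.s ^ i * D.r))) := by
  classical
  let e : D.U × Fin (2 * D.m) × Bool → G := fun x =>
    x.1 * (D.s ^ (x.2.1 : ℕ) * if x.2.2 then D.r else 1)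
  have hs : ∀ i j : Fin (2 * D.m), D.s ^ (i : ℕ) = D.s ^ (j : ℕ) → i = j := fun i j h =>
    Fin.ext (pow_injOn_Iio_orderOf (by rw [D.os]; exact i.2) (by rw [D.os]; exact j.2) h)
  have hz : ∀ i j : ℕ, D.s ^ i * (D.s ^ j)⁻¹ ∈ zpowers D.s := fun i j =>
    mul_mem (npow_mem_zpowers _ _) (inv_mem (npow_mem_zpowers _ _))
  have hz' : ∀ i j : ℕ, D.s ^ i * D.s ^ j ∈ zpowers D.s := fun i j =>
    mul_mem (npow_mem_zpowers _ _) (npow_mem_zpowers _ _)
  have he : Function.Injective e := by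
    rintro ⟨u, i, b⟩ ⟨v, j, c⟩ h
    simp only [e] at h
    have hm : (v : G)⁻¹ * u ∈ D.U := mul_mem (inv_mem v.2) u.2
    have key : (D.s ^ (j : ℕ) * (D.s ^ (i : ℕ))⁻¹ = (v : G)⁻¹ * u) → u = v ∧ i = j := by
      intro h1
      have h2 := D.sU (hz j i) (h1 ▸ hm)
      rw [h2, eq_comm, inv_mul_eq_one] at h1
      exact ⟨Subtype.ext h1.symm, (hs j i (mul_inv_eq_one.mp h2)).symm⟩
    cases b <;> cases c <;> simp only [Bool.false_eq_true, if_false, if_true, mul_one] at h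
    · obtain ⟨rfl, rfl⟩ := key (by rw [eq_inv_mul_iff_mul_eq, ← mul_assoc, ← h]; group); rfl
    · refine absurd ?_ (D.srU (hz' j i))
      convert hm using 1
      rw [eq_inv_mul_iff_mul_eq, mul_assoc, ← inv_inv (D.s ^ (i : ℕ)), ← D.r_mul' , ← mul_assoc,
        ← mul_assoc, mul_assoc (v : G), ← h]
      group
    · refine absurd ?_ (D.srU (hz' i j))
      convert inv_mem hm using 1
      rw [mul_inv_rev, inv_inv, eq_inv_mul_iff_mul_eq, mul_assoc, ← inv_inv (D.s ^ (j : ℕ)),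
        ← D.r_mul' , ← mul_assoc, ← mul_assoc, mul_assoc (u : G), h]
      group
    · rw [← mul_assoc, ← mul_assoc, mul_left_inj] at h
      obtain ⟨rfl, rfl⟩ := key (by rw [eq_inv_mul_iff_mul_eq, ← mul_assoc, ← h]; group); rfl
  rw [← Finset.sum_subset (Finset.subset_univ (Finset.univ.image e)), Finset.sum_image
    fun a _ b _ h => he h, Fintype.sum_prod_type]
  · refine Finset.sum_congr rfl fun u _ => ?_
    rw [Fintype.sum_prod_type, ← Fin.sum_univ_eq_sum_range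
      (fun i => F (u * D.s ^ i) + F (u * (D.s ^ i * D.r)))]
    refine Finset.sum_congr rfl fun i _ => ?_
    simp [e, add_comm]
  · intro y _ hy
    by_contra h
    have hH : y ∈ D.H := by by_contra h'; exact h (hF y h')
    obtain ⟨u, hu, i, e'⟩ := D.cov y hH
    have hi : i % (2 * D.m) < 2 * D.m := Nat.mod_lt _ (by have := D.pos; omega)
    have hp : D.s ^ (i % (2 * D.m)) = D.s ^ i := by rw [← D.os]; exact pow_mod_orderOf _ _
    apply hy
    rw [Finset.mem_image]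
    rcases e' with e' | e'
    · exact ⟨(⟨u, hu⟩, ⟨_, hi⟩, false), Finset.mem_univ _, by simp [e, hp, e']⟩
    · exact ⟨(⟨u, hu⟩, ⟨_, hi⟩, true), Finset.mem_univ _, by simp [e, hp, e']⟩

theorem cardH : Nat.card D.H = 4 * D.m * Nat.card D.U := by
  classical
  haveI := Fintype.ofFinite G
  have h := D.sumH (R := ℕ) (fun y => if y ∈ D.H then 1 else 0) fun y hy => if_neg hy
  rw [Finset.sum_boole, Finset.sum_congr rfl (g := fun _ => 4 * D.m) fun u _ => by
    rw [Finset.sum_congr rfl (g := fun _ => 2) fun i _ => by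
      rw [if_pos (mul_mem (D.UH u.2) (D.sH i)), if_pos (mul_mem (D.UH u.2) (D.srH i))]]
    simp; ring] at h
  simp only [Nat.cast_id, Finset.sum_const, Finset.card_univ, smul_eq_mul] at h
  rw [Nat.card_eq_fintype_card, Nat.card_eq_fintype_card, Fintype.card_subtype, h, mul_comm]

end DS

end CA.GW
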