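/-
Gorenstein–Walter theorem: reduction to a minimal simple counterexample, the set-up `DS`, Brauer–Suzuki–Wall.
-/
import Cfsg.Agent.Lib.GW.Basic
import Cfsg.Agent.Lib.GW.TSet
import Cfsg.Agent.S0251

set_option autoImplicit false

namespace CA.GW

open Cfsg CA CA.FStar Subgroup

universe u

section
variable {G : Type*} [Group G] [Finite G] {S R L M N : Subgroup G} {s r t : G}

theorem exists_DS (hS : SylowIn 2 S ⊤) (hd : Dih S (zpowers s)) (ht : t ∈ zpowers s) (t2 : Inv2 t)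
    (one : ∀ x, Inv2 x → IsConj t x) (r1 : r ∈ S) (r2 : r ∉ zpowers s) :
    ∃ D : DS G, D.s = s ∧ D.r = r ∧ D.t = t ∧ D.U = 𝐎(𝐂[t]) ∧ Nat.card S = 4 * D.m := by
  have sS : s ∈ S := hd.le (mem_zpowers s)
  obtain ⟨k, hk⟩ := (piElt_singleton_iff Nat.prime_two).1 (hS.piGrp.piElt sS)
  obtain _ | k := k
  · rw [orderOf_eq_one_iff.1 hk, zpowers_one_eq_bot] at ht
    exact absurd ht t2.ne
  have os : orderOf s = 2 * 2 ^ k := by rw [hk, pow_succ']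
  have e : s ^ 2 ^ k = t := hd.uniq (pow_mem (mem_zpowers s) _) ht ⟨by rw [← pow_add, ← two_mul, ← os, pow_orderOf_eq_one],
    pow_ne_one_of_lt_orderOf (by positivity) (by rw [os]; have := Nat.two_pow_pos k; omega)⟩ t2
  have hC := hd.cent ht t2.sq
  have npc : NormalPCompl 2 𝐂[t] := by simpa using hd.npc hS (mem_top t) t2
  refine ⟨⟨2 ^ k, s, r, 𝐎(𝐂[t]), ⟨k, rfl⟩, os, hd.sq r r1 r2, hd.inv r1 r2 (mem_zpowers s), r2, odd_core _,
    e ▸ piCoreOf_le _ _, e ▸ piCoreOf_norm _ _, fun h hh => ?_, fun x x2 x1 => e ▸ one x ⟨x2, x1⟩⟩, rfl, rfl, e, rfl, ?_⟩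
  · obtain ⟨u, hu, a, ha, rfl⟩ := (npc.sdprod (hS.of_le hC le_top)).exists_mul (e ▸ hh)
    refine ⟨u, hu, ?_⟩
    by_cases h : a ∈ zpowers s
    · obtain ⟨i, rfl⟩ := mem_powers_iff_mem_zpowers.2 h
      exact ⟨i, .inl rfl⟩
    · obtain ⟨i, hi⟩ := mem_powers_iff_mem_zpowers.2 (hd.mul_mem ha r1 h r2)
      exact ⟨i, .inr (by rw [show s ^ i = a * r from hi, mul_assoc a, hd.sq r r1 r2, mul_one])⟩
  · rw [hd.card, Nat.card_zpowers, os]; ring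

/-- the set-up `DS` for a subgroup `M ⊇ C(t)` with one class of involutions -/
theorem exists_DS_sub (hS : SylowIn 2 S ⊤) (hd : Dih S (zpowers s)) (ht : t ∈ zpowers s) (t2 : Inv2 t) (hM : 𝐂[t] ≤ M)
    (one : ∀ x ∈ M, Inv2 x → ∃ g ∈ M, g * t * g⁻¹ = x) (r1 : r ∈ S) (r2 : r ∉ zpowers s) :
    ∃ D : DS M, (D.s : G) = s ∧ (D.r : G) = r ∧ (D.t : G) = t ∧ D.U = 𝐎(𝐂[t]).subgroupOf M ∧ Nat.card S = 4 * D.m ∧
      D.N = (𝐂[t]).relIndex M ∧ D.k1 = (𝐂[r]).relIndex 𝐎(𝐂[t]) ∧ D.k2 = (𝐂[s * r]).relIndex 𝐎(𝐂[t]) := by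
  have SM := (hd.cent ht t2.sq).trans hM
  have sS : s ∈ S := hd.le (mem_zpowers s)
  have tM := hM (self_mem_cent1 t)
  have z : (zpowers s).subgroupOf M = zpowers (⟨s, SM sS⟩ : M) := by
    apply map_injective M.subtype_injective
    rw [map_subgroupOf_eq_of_le (zpowers_le.2 (SM sS)), MonoidHom.map_zpowers]; rfl
  obtain ⟨D, h1, h2, h3, h4, h5⟩ := exists_DS (G := M) (s := ⟨s, SM sS⟩) (r := ⟨r, SM r1⟩) (t := ⟨t, tM⟩)
    (hS.of_le SM le_top).subgroupOf_top (z ▸ hd.subgroupOf SM) (z ▸ ht) ⟨Subtype.ext t2.sq, fun e => t2.ne (congrArg Subtype.val e)⟩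
    (fun x x2 => by
      obtain ⟨g, g1, g2⟩ := one x x.2 ⟨congrArg Subtype.val x2.sq, fun e => x2.ne (Subtype.ext e)⟩
      exact isConj_iff.2 ⟨⟨g, g1⟩, Subtype.ext g2⟩) r1 (z ▸ r2)
  have h6 : D.U = 𝐎(𝐂[t]).subgroupOf M := by rw [h4, piCoreOf_subgroupOf _ hM, ← subgroupOf_cent1]
  have UM := (piCoreOf_le {2}ᶜ _).trans hM
  refine ⟨D, by rw [h1], by rw [h2], by rw [h3], h6, by rw [← h5, card_subgroupOf_of_le SM], ?_, ?_, ?_⟩
  · rw [show D.N = (𝐂[D.t]).index from rfl, h3, ← subgroupOf_cent1]; rfl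
  · rw [DS.k1, h2, h6, ← subgroupOf_cent1, relIndex_subgroupOf UM]
  · rw [DS.k2, h1, h2, h6, ← subgroupOf_cent1, relIndex_subgroupOf UM]; rfl

/-- a normal subgroup of even order of a perfect group with dihedral Sylow 2-subgroups is everything -/
theorem DSyl.eq_of_normal (hd : DSyl L) (hp : ⁅L, L⁆ = L) (hN : N ⊴ L) (he : ¬ Odd (Nat.card N)) : N = L := by
  obtain ⟨a, ha, e⟩ := exists_orderOf_eq_prime Nat.prime_two (even_iff_two_dvd.1 (Nat.not_odd_iff_even.1 he))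
  have all : ∀ b ∈ L, Inv2 b → b ∈ N := fun b hb b2 => by
    obtain ⟨g, hg, rfl⟩ := hd.conj hp (hN.le ha) hb (inv2_of_ord e) b2
    exact conj_mem_of_mem_normalizer (hN.norm hg) ha
  obtain ⟨S, R, hS, h, -⟩ := hd
  obtain ⟨s, s1, s2⟩ := h.exists
  have SN : S ≤ N := fun x hx => by
    by_cases e : x ∈ R
    · exact (mul_mem_cancel_left (all s (hS.le s1) (h.inv2 s1 s2))).1
        (all _ (hS.le (mul_mem s1 hx)) (h.inv2 (mul_mem s1 hx) (Dih.mul_not_mem s2 e)))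
    · exact all x (hS.le hx) (h.inv2 hx e)
  have h1 : Group.IsSolvable ↥(L /ₛ N) := solv_odd (odd_iff.2 ((piGrp_quo_iff_relIndex hN.norm).2 (hS.piNum_relIndex_of_le SN)))
  refine le_antisymm hN.le ((quo_eq_bot_iff hN.norm).1 (by_contra fun h2 => (der_lt_of_solvable h1 h2).ne ?_))
  rw [← quo_der hN.norm, hp]

theorem DSyl.simple (hd : DSyl (⊤ : Subgroup G)) (hp : commutator G = ⊤) (hO : 𝐎((⊤ : Subgroup G)) = ⊥) : IsSimpleGroup G := by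
  obtain ⟨S, R, -, -, h⟩ := id hd
  obtain ⟨x, -, x1⟩ := exists_ne_one_mem' h
  haveI : Nontrivial G := ⟨x, 1, x1⟩
  refine ⟨fun N hN => ?_⟩
  by_cases e : Odd (Nat.card N)
  · exact .inl (eq_bot_of_piCoreOf_eq_bot hO (normalIn_top N) (odd_iff.1 e))
  · exact .inr (hd.eq_of_normal (der_top.trans hp) (normalIn_top N) e)

theorem dsyl_of_equiv (S : Sylow 2 G) {n : ℕ} (hn : 2 ≤ n) (e : (S : Subgroup G) ≃* DihedralGroup n) : DSyl (⊤ : Subgroup G) := by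
  haveI : Fact (Nat.Prime 2) := ⟨Nat.prime_two⟩
  have hS := sylowIn_top S
  obtain ⟨t, ht, t1⟩ := exists_ne_one_mem' (center_ne_bot_nil hS.piGrp.nilpotent fun h => by
    have := Nat.card_congr e.toEquiv
    rw [h, card_bot, DihedralGroup.nat_card] at this; omega)
  obtain ⟨R, h1, h2, h3, h4⟩ := Zas.dih_exists' hn e ht.1 t1 fun x hx => mem_cent_iff.1 ht.2 x hx
  exact ⟨S, R, hS, ⟨h1, h2, h3, fun s s1 s2 => (Zas.dih_inv' hn e h1 h2 h3 s1 s2).1⟩, ne_bot_of_mem h4 t1⟩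

end

section
variable {G : Type u} [Group G] [Finite G] (m : Min G) {M : Subgroup G}

theorem Min.toDS {r : G} (r1 : r ∈ m.S) (r2 : r ∉ m.R) :
    ∃ D : DS G, zpowers D.s = m.R ∧ D.r = r ∧ D.t = m.t ∧ D.U = 𝐎(𝐂[m.t]) ∧ Nat.card m.S = 4 * D.m := by
  obtain ⟨s, -, e⟩ := isCyclic_iff_exists_zpowers.1 m.dih.cyc
  obtain ⟨D, h1, h⟩ := exists_DS m.syl (e ▸ m.dih) (e ▸ m.tR) m.inv (fun _ => m.conj) r1 (e ▸ r2)
  exact ⟨D, h1 ▸ e.symm, h⟩

theorem Min.toDS0 : ∃ D : DS G, D.t = m.t ∧ D.U = 𝐎(𝐂[m.t]) ∧ zpowers D.s = m.R ∧ D.r ∈ m.S ∧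
    Nat.card m.S = 4 * D.m := by
  obtain ⟨r, r1, r2⟩ := m.dih.exists
  obtain ⟨D, h1, h2, h3, h4, h5⟩ := m.toDS r1 r2
  exact ⟨D, h3, h4, h1, h2 ▸ r1, h5⟩

/-- `DS` for `G` and for a subgroup `M ⊇ C(t)` with one class of involutions, with the same parameters -/
theorem Min.toDS2 (hM : 𝐂[m.t] ≤ M) (one : ∀ x ∈ M, Inv2 x → ∃ g ∈ M, g * m.t * g⁻¹ = x) :
    ∃ (D : DS G) (E : DS M), D.t = m.t ∧ E.m = D.m ∧ E.k1 = D.k1 ∧ E.k2 = D.k2 ∧ D.N = E.N * M.index := by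
  obtain ⟨s, -, e⟩ := isCyclic_iff_exists_zpowers.1 m.dih.cyc
  obtain ⟨r, r1, r2⟩ := m.dih.exists
  obtain ⟨D, h1, h2, h3, h4, h5⟩ := exists_DS m.syl (e ▸ m.dih) (e ▸ m.tR) m.inv (fun _ => m.conj) r1 (e ▸ r2)
  obtain ⟨E, -, -, -, -, k5, k6, k7, k8⟩ := exists_DS_sub m.syl (e ▸ m.dih) (e ▸ m.tR) m.inv hM one r1 (e ▸ r2)
  refine ⟨D, E, h3, by omega, by rw [k7, DS.k1, h2, h4], by rw [k8, DS.k2, h1, h2, h4], ?_⟩
  rw [k6, relIndex_mul_index hM, show D.N = (𝐂[D.t]).index from rfl, h3]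

theorem Min.bsw (hR : m.R ≤ 𝐂(𝐎(𝐂[m.t])))
    (hb : ∀ s ∈ m.S, s ∉ m.R → ∀ y ∈ 𝐎(𝐂[m.t]), s * y * s⁻¹ = y⁻¹)
    (hc : ∀ y ∈ 𝐎(𝐂[m.t]), y ≠ 1 → 𝐂[y] ≤ 𝐂[m.t]) : False := by
  haveI := m.simple
  obtain ⟨e⟩ := m.dih.equiv
  obtain ⟨s, h⟩ := Zas.bsw_of m.perf m.syl (one_lt_card_iff_ne_bot'.2 (ne_bot_of_mem m.tR m.inv.ne)) e m.inv.sq m.inv.ne m.S_le
    (m.npc m.inv le_rfl).hall (piCoreOf_norm _ _) m.dih.le m.dih.cyc m.dih.idx m.tR hR hb hc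
  obtain ⟨F, i1, i2, ho, ⟨f⟩⟩ := h.psl m.perf
  refine m.unknown (.inl ⟨_, ho, ?_, F, i1, i2, rfl, ⟨f⟩⟩)
  have h1 := Fintype.one_lt_card (α := F)
  by_contra h2
  obtain ⟨k⟩ := Cfsg.Agent.S0251.result (F := F) (by obtain ⟨k, hk⟩ := ho; omega)
  have h3 := map_commutator_eq G (f.trans k).toMonoidHom
  rw [m.perf, ← MonoidHom.range_eq_map, MonoidHom.range_eq_top.2 (f.trans k).surjective, ← commutator_def,
    ← alternatingGroup.kleinFour_eq_commutator (by simp)] at h3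
  have h4 := alternatingGroup.kleinFour_card_of_card_eq_four (α := Fin 4) (by simp)
  rw [← h3, card_top, alternatingGroup.card_of_card_eq_four (by simp)] at h4
  omega

theorem Min.U_ne : 𝐎(𝐂[m.t]) ≠ ⊥ := fun e => m.bsw (by simp [e]) (by simp [e]) (by simp [e])

end

/-- S0483 follows from `Min G → False`. -/
theorem known_of (h : ∀ (G : Type u) [Group G] [Finite G], Min G → False) (K : Type u) [Group K] [Finite K]
    [IsSimpleGroup K] (hp : commutator K = ⊤) (hd : DSyl (⊤ : Subgroup K)) : Known K := by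
  induction hn : Nat.card K using Nat.strong_induction_on generalizing K with
  | _ n ih =>
  obtain ⟨S, R, hS, hd, h1⟩ := hd
  obtain ⟨t, ht, t2⟩ := hd.exists_inv (hS.piGrp.of_le hd.le) h1
  exact by_contra fun e => h K ⟨S, R, t, inferInstance, hp, hS, hd, ht, t2, fun L _ _ _ h1 h2 h3 => ih _ (hn ▸ h1) L h2 h3 rfl, e⟩

theorem known_quo (h : ∀ (G : Type u) [Group G] [Finite G], Min G → False) (X : Type u) [Group X] [Finite X]
    (hp : commutator X = ⊤) (hd : DSyl (⊤ : Subgroup X)) : Known (X ⧸ oddCore X) := by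
  let f : (⊤ : Subgroup X) →* X ⧸ oddCore X := (QuotientGroup.mk' _).comp (⊤ : Subgroup X).subtype
  have hO : oddCore X = 𝐎((⊤ : Subgroup X)) := (piCoreOf_compl_singleton_top Nat.prime_two).symm
  have hk : pker f = 𝐎((⊤ : Subgroup X)) := by
    ext x; rw [mem_pker, pel_of_mem f (mem_top x), ← hO]; simp [f]
  have ht : pmap f ⊤ = ⊤ := by
    rw [pmap_dom, MonoidHom.range_eq_top]
    exact (QuotientGroup.mk'_surjective _).comp fun x => ⟨⟨x, mem_top x⟩, rfl⟩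
  have h1 := hd.pmap (f := f) le_rfl (hk ▸ odd_core _)
  have h2 := pmap_piCoreOf (π := {2}ᶜ) (f := f) le_rfl (by rw [hk]; exact (piCoreOf_piGrp _ _).inf_left _)
  have h3 := pmap_commutator f le_rfl le_rfl
  rw [← hk, pmap_pker, ht] at h2
  rw [der_top, hp, ht, der_top] at h3
  rw [ht] at h1
  haveI := h1.simple h3.symm h2.symm
  exact known_of h _ h3.symm h1

/-- the statement of the Gorenstein–Walter theorem -/
theorem gw_of (h : ∀ (G : Type u) [Group G] [Finite G], Min G → False) {X : Type u} [Group X] [Finite X] [Group.IsPerfect X]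
    (S : Sylow 2 X) (n : ℕ) (hn : 2 ≤ n) (hS : Nonempty ((S : Subgroup X) ≃* DihedralGroup n)) :
    (∃ (F : Type) (_ : Field F) (_ : Fintype F), Odd (Fintype.card F) ∧ 3 < Fintype.card F ∧
        Nonempty (X ⧸ Cfsg.oddCore X ≃* Matrix.ProjectiveSpecialLinearGroup (Fin 2) F)) ∨
      Nonempty (X ⧸ Cfsg.oddCore X ≃* alternatingGroup (Fin 7)) := by
  obtain ⟨e⟩ := hS
  rcases known_quo h X Group.IsPerfect.commutator_eq_top (dsyl_of_equiv S hn e) with ⟨q, h1, h2, F, i1, i2, rfl, h3⟩ | h1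
  exacts [.inl ⟨F, i1, i2, h1, h2, h3⟩, .inr h1]

end CA.GW
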