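import Cfsg.Agent.Lib.GW.Tool1
import Cfsg.Agent.Lib.GW.W

/-! A proper overgroup of `C(t)` has more than one class of involutions. -/

set_option autoImplicit false

namespace CA.GW

open Cfsg CA CA.FStar Subgroup

universe u
variable {G : Type u} [Group G] [Finite G]

theorem DS.not_dvd (D : DS G) (perf : commutator G = ⊤) (hU : D.U ≠ ⊥) : ¬ Nat.card G ∣ 120 := by
  intro h
  obtain ⟨a0, a1, a2, a3, hs, ⟨-, c1, c2, c3⟩, ⟨-, d1, d2, d3⟩, -, -, h0, hp⟩ :=
    DS.tool D.stable_one
  obtain rfl := h0 rfl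
  obtain ⟨n1, n2, n3, -⟩ := hp perf
  rw [← D.H.index_mul_card, D.cardH] at h
  have h1 : D.N * Nat.card D.U ∣ 30 := by
    refine Nat.dvd_of_mul_dvd_mul_left (show 0 < 4 by norm_num) (Dvd.dvd.trans ⟨D.m, ?_⟩ h)
    ring
  have hu : Nat.card D.U ≠ 1 := fun e => hU (card_eq_one.mp e)
  have h2 : D.N ∣ 10 ∨ D.N ∣ 6 := by
    have ho := D.odd
    have h3 := Nat.le_of_dvd (by norm_num) (Dvd.dvd.trans (Dvd.intro_left _ rfl) h1)
    have h4 := Nat.le_of_dvd (by norm_num) (Dvd.dvd.trans (Dvd.intro _ rfl) h1)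
    rw [Nat.odd_iff] at ho
    generalize D.N = n at *
    generalize Nat.card D.U = u at *
    interval_cases u <;> simp at ho hu <;> interval_cases n <;> simp at h1 ⊢
  have key : ∀ a : ℤ, a ∣ D.N → a % 4 = 1 → a ≠ 1 → (D.N ∣ 10 → a = 5) ∧ (D.N ∣ 6 → a = -3) := by
    intro a ha h4 h5
    constructor <;> intro h6
    · have h7 := ha.trans (Int.natCast_dvd_natCast.mpr h6)
      have := Int.le_of_dvd (by norm_num) h7
      have := Int.le_of_dvd (by norm_num) (neg_dvd.mpr h7)
      have : -10 ≤ a := by omega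
      interval_cases a <;> simp at h4 h5 h7 ⊢
    · have h7 := ha.trans (Int.natCast_dvd_natCast.mpr h6)
      have := Int.le_of_dvd (by norm_num) h7
      have := Int.le_of_dvd (by norm_num) (neg_dvd.mpr h7)
      have : -6 ≤ a := by omega
      interval_cases a <;> simp at h4 h5 h7 ⊢
  rcases D.m_cases with hm | ⟨-, h8⟩
  · rw [hm] at c1 c2 c3
    simp only [Int.ModEq] at c1 c2 c3
    norm_num at c1 c2 c3
    have k1 := key a1 d1 c1 n1
    have k2 := key a2 d2 c2 n2
    have k3 := key a3 d3 c3 n3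
    rcases h2 with h2 | h2
    · have := k1.1 h2; have := k2.1 h2; have := k3.1 h2; omega
    · have := k1.2 h2; have := k2.2 h2; have := k3.2 h2; omega
  · have d := c1.of_dvd h8
    simp only [Int.ModEq] at d
    have k1 := key a1 d1 (by omega) n1
    rcases h2 with h2 | h2
    · have := k1.1 h2; omega
    · have := k1.2 h2; omega

theorem Min.A1 (m : Min G) {M : Subgroup G} (hM : M ≠ ⊤) (hH : 𝐂[m.t] ≤ M)
    (one : ∀ s ∈ M, Inv2 s → ∃ g ∈ M, g * m.t * g⁻¹ = s) : False := by
  obtain ⟨D, E, ht, e1, e2, e3, e4⟩ := m.toDS2 hH one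
  have h1 := D.c_ge m.perf
  have h2 := E.c_le
  rw [e1, e2, e3] at h2
  rw [e4] at h1
  have h3 : M.index ≤ 5 := by
    have := E.N_pos
    by_contra h
    nlinarith
  have hs := m.simple
  have h4 : M.normalCore = ⊥ := (normalCore_normal M).eq_bot_or_eq_top.resolve_right fun h =>
    hM (top_le_iff.mp (h ▸ normalCore_le M))
  have h5 : M.normalCore.index ∣ M.index.factorial := by
    rw [normalCore_eq_ker, index_ker, index_eq_card, ← Nat.card_perm]
    exact card_subgroup_dvd_card _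
  rw [h4, index_bot] at h5
  refine D.not_dvd m.perf (fun h => m.U_ne (eq_bot_iff.mpr fun y hy => ?_))
    (h5.trans (Nat.factorial_dvd_factorial h3))
  rw [← h]
  exact D.mem_U (by rw [DS.H, show D.s ^ D.m = m.t from ht]; exact piCoreOf_le _ _ hy)
    (odd_of_mem (odd_core _) hy)

end CA.GW
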