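/-
Lemma F: a Dedekind-type independence argument.
-/
import Cfsg.Agent.Lib.GW.Basic
import Cfsg.Agent.Lib.G.AbelemRepr
import Mathlib.GroupTheory.FixedPointFree

set_option autoImplicit false
set_option linter.unusedSectionVars false

namespace CA.GW

open Cfsg CA CA.FStar Subgroup

theorem dede {R E V ι : Type*} [Group R] [Finite R] [Ring E] [AddCommGroup V] [Module E V] [DecidableEq ι]
    (comm : ∀ a b : R, a * b = b * a) (δ : R →* E) (α : ι → R →* R) (fp : ∀ i ρ, α i ρ = ρ → ρ = 1)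
    (hn : ∀ v : V, Nat.card R • v = 0 → v = 0) (s : Finset ι) :
    ∀ (u : V) (w : ι → V), (∀ ρ, δ ρ • u + ∑ i ∈ s, δ (α i ρ) • w i = 0) → ∀ a, δ a • u = u := by
  have sw : ∀ (a b : R) (v : V), δ a • δ b • v = δ b • δ a • v := fun a b v => by
    rw [← mul_smul, ← mul_smul, ← map_mul, ← map_mul, comm]
  induction s using Finset.induction_on with
  | empty =>
    intro u w h a
    have := h 1
    simp only [map_one, one_smul, Finset.sum_empty, add_zero] at this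
    rw [this, smul_zero]
  | insert j s hj ih =>
    intro u w h b
    obtain ⟨ρ, hρ⟩ := MonoidHom.FixedPointFree.commutatorMap_surjective (φ := α j) (fp j) b
    have e : ρ = α j ρ * b := by rw [← hρ, comm]; simp
    have h1 := ih (δ ρ • u - δ (α j ρ) • u) (fun i => δ (α i ρ) • w i - δ (α j ρ) • w i) fun σ => by
      have a1 := h (σ * ρ)
      have a2 := congrArg (δ (α j ρ) • ·) (h σ)
      simp only [Finset.sum_insert hj, map_mul, mul_smul, smul_add, smul_zero, Finset.smul_sum] at a1 a2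
      simp only [smul_sub, Finset.sum_sub_distrib, sw (α _ σ) (α j ρ), sw σ (α j ρ)] at a1 ⊢
      rw [← sub_zero 0]
      nth_rewrite 1 [← a1]
      rw [← a2]
      abel
    have h2 : δ ρ • u - δ (α j ρ) • u = δ b • u - u := by
      rw [← h1 (α j ρ)⁻¹, smul_sub, ← mul_smul, ← mul_smul, ← map_mul, ← map_mul, inv_mul_cancel, map_one, one_smul]
      nth_rewrite 2 [e]
      rw [inv_mul_cancel_left]
    rw [h2] at h1
    have h3 : ∀ n : ℕ, δ (b ^ n) • u = u + n • (δ b • u - u) := fun n => by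
      induction n with
      | zero => simp
      | succ n ih => rw [pow_succ', map_mul, mul_smul, ih, smul_add, smul_comm (δ b) n, h1 b, succ_nsmul]; abel
    have h4 := h3 (Nat.card R)
    rw [pow_card_eq_one', map_one, one_smul, left_eq_add] at h4
    exact sub_eq_zero.1 (hn _ h4)

variable {G : Type*} [Group G] [Finite G] {E Q R : Subgroup G} {τ z : G} {p : ℕ}

theorem lemF_ea (hE : IsElementaryAbelian p E) (hR : IsMulCommutative R) (RE : R ≤ 𝐍(E))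
    (cop : (Nat.card E).Coprime (Nat.card R)) (τE : τ ∈ 𝐍(E)) (zE : z ∈ 𝐍(E)) (τR : τ ∈ 𝐍(R)) (zR : z ∈ 𝐍(R))
    (t2 : τ * τ = 1) (c : z * τ = τ * z) (oz : Odd (orderOf z)) (hτ : R ⊓ 𝐂[τ] = ⊥) (hz : R ⊓ 𝐂[z] = ⊥)
    (h : ∀ x ∈ E ⊓ 𝐂[τ], z * x * z⁻¹ * x⁻¹ ∈ 𝐂[z]) : R ≤ 𝐂(E) := by
  haveI := Fact.mk hE
  have sq : ∀ {y : G}, Odd (orderOf y) → 𝐂[y * y] ≤ 𝐂[y] := fun {y} ho => by
    obtain ⟨k, hk⟩ := exists_pow_eq_self_of_coprime (x := y) (n := 2) (Nat.coprime_two_left.2 ho)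
    rw [← cent_zpowers]
    refine cent_le_cent1 ?_
    nth_rewrite 3 [← hk]
    exact pow_mem (pow_two y ▸ mem_zpowers (y * y)) k
  have sq' : ∀ y : G, 𝐂[y] ≤ 𝐂[y * y] := fun y x hx => by
    rw [mem_cent1_iff] at hx ⊢
    rw [← mul_assoc, hx, mul_assoc, hx, mul_assoc]
  have ozz : Odd (orderOf (z * z)) := oz.of_dvd_nat (pow_two z ▸ orderOf_pow_dvd 2)
  have hzz : R ⊓ 𝐂[z * z] = ⊥ := eq_bot_iff.2 (hz ▸ inf_le_inf_left _ (sq oz))
  have tt : ∀ y : G, y * τ = τ * y → R ⊓ 𝐂[y * y] = ⊥ → R ⊓ 𝐂[y * τ] = ⊥ := fun y cy hy => by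
    refine eq_bot_iff.2 (hy ▸ inf_le_inf_left _ ((sq' _).trans (le_of_eq ?_)))
    rw [show y * τ * (y * τ) = y * y * (τ * τ) by rw [mul_assoc, ← mul_assoc τ, ← cy]; group, t2, mul_one]
  have czz : z * z * τ = τ * (z * z) := by rw [mul_assoc, c, ← mul_assoc, c, mul_assoc]
  let g : Fin 5 → G := ![τ, z, z * τ, z * z, z * z * τ]
  have gE : ∀ i, g i ∈ 𝐍(E) := fun i => by
    fin_cases i
    exacts [τE, zE, mul_mem zE τE, mul_mem zE zE, mul_mem (mul_mem zE zE) τE]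
  have gR : ∀ i, g i ∈ 𝐍(R) := fun i => by
    fin_cases i
    exacts [τR, zR, mul_mem zR τR, mul_mem zR zR, mul_mem (mul_mem zR zR) τR]
  have gC : ∀ i, R ⊓ 𝐂[g i] = ⊥ := fun i => by
    fin_cases i
    exacts [hτ, hz, tt z c hzz, hzz, tt _ czz (eq_bot_iff.2 (hzz ▸ inf_le_inf_left _ (sq ozz)))]
  let k : Fin 5 → ℤ := ![1, -2, -2, 1, 1]
  let φ := AbV.rep p E
  intro a ha
  refine (AbV.rep_eq_one_iff (p := p) ⟨a, RE ha⟩).1 (LinearMap.ext fun v => ?_)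
  refine dede (fun a b : R => Subtype.ext (abelian_iff'.1 hR _ a.2 _ b.2)) (φ.comp (inclusion RE))
    (fun i => (R.normalizerMonoidHom ⟨g i, gR i⟩).toMonoidHom) (fun i ρ e => ?_) (fun v e => ?_) Finset.univ v
    (fun i => k i • φ ⟨g i, gE i⟩ v) (fun ρ => ?_) ⟨a, ha⟩
  · have e' : g i * ρ * (g i)⁻¹ = ρ := congrArg Subtype.val e
    exact Subtype.ext (mem_bot.1 (gC i ▸ ⟨ρ.2, mem_cent1_iff.2 (mul_inv_eq_iff_eq_mul.1 e').symm⟩))
  · have e' : v.val ^ Nat.card R = 1 := by rw [← AbV.val_nsmul, e, AbV.val_zero]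
    exact AbV.val_eq_one_iff.1 (orderOf_eq_one_iff.1 (Nat.eq_one_of_dvd_coprimes cop
      (orderOf_dvd_card_of_mem v.val_mem) (orderOf_dvd_of_pow_eq_one e')))
  · have e : ∀ i, (φ.comp (inclusion RE)) ((R.normalizerMonoidHom ⟨g i, gR i⟩).toMonoidHom ρ) • k i • φ ⟨g i, gE i⟩ v =
        k i • φ ⟨g i, gE i⟩ (φ (inclusion RE ρ) v) := fun i => by
      rw [smul_comm, Module.End.smul_def, ← Module.End.mul_apply, ← Module.End.mul_apply, MonoidHom.comp_apply,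
        ← map_mul, ← map_mul]
      congr 3
      exact Subtype.ext (inv_mul_cancel_right _ _)
    simp only [e]
    set u := φ (inclusion RE ρ) v
    let T : 𝐍(E) := ⟨τ, τE⟩
    let Z : 𝐍(E) := ⟨z, zE⟩
    have TT : T * T = 1 := Subtype.ext t2
    have h1 : φ T (u + φ T u) = u + φ T u := by
      rw [map_add, ← Module.End.mul_apply (φ T) (φ T), ← map_mul, TT, map_one, add_comm]; rfl
    have h2 : φ Z (φ Z (u + φ T u) - (u + φ T u)) = φ Z (u + φ T u) - (u + φ T u) := by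
      rw [AbV.rep_apply_eq_self_iff, AbV.val_rep_sub]
      exact h _ ⟨AbV.val_mem _, (AbV.rep_apply_eq_self_iff T _).1 h1⟩
    change u + _ = 0
    rw [Fin.sum_univ_five]
    change u + ((1 : ℤ) • φ T u + (-2 : ℤ) • φ Z u + (-2 : ℤ) • φ (Z * T) u + (1 : ℤ) • φ (Z * Z) u +
      (1 : ℤ) • φ (Z * Z * T) u) = 0
    simp only [map_mul, Module.End.mul_apply, map_add, map_sub] at h2 ⊢
    rw [← sub_eq_zero.2 h2]
    module

/-- Lemma F. -/
theorem lemF (hQ : PiGrp {p} Q) (oQ : Odd (Nat.card Q)) (hR : IsMulCommutative R) (oR : Odd (Nat.card R))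
    (RQ : R ≤ 𝐍(Q)) (cop : (Nat.card Q).Coprime (Nat.card R)) (τQ : τ ∈ 𝐍(Q)) (zQ : z ∈ 𝐍(Q)) (τR : τ ∈ 𝐍(R))
    (zR : z ∈ 𝐍(R)) (t2 : τ * τ = 1) (c : z * τ = τ * z) (oz : Odd (orderOf z))
    (cz : (Nat.card R).Coprime (orderOf z)) (hτ : R ⊓ 𝐂[τ] = ⊥)
    (h : ∀ x ∈ Q ⊓ 𝐂[τ], z * x * z⁻¹ * x⁻¹ ∈ 𝐂[z]) : ⁅R, zpowers z⁆ ≤ 𝐂(Q) := by
  by_cases h1 : Q = ⊥
  · rw [h1, cent_bot']; exact le_top
  haveI := Fact.mk (hQ.prime_of_ne_bot h1)
  have hc := copAct_zpowers zR cz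
  have le := hc.comm_le
  set R' := ⁅R, zpowers z⁆
  have τR' : τ ∈ 𝐍(R') := zpowers_le.1 (norms_commutator (zpowers_le.2 τR)
    (norms_zpowers_of_cent1 (zpowers_le.2 (mem_cent1_iff.2 c.symm))))
  have zR' : z ∈ 𝐍(R') := comm_norm_right _ _ (mem_zpowers z)
  have hz : R' ⊓ 𝐂[z] = ⊥ := cent_zpowers z ▸ hc.comm_inf_cent_of_abelian hR
  have hτ' : R' ⊓ 𝐂[τ] = ⊥ := eq_bot_iff.2 (hτ ▸ inf_le_inf_right _ le)
  have cop' : (Nat.card Q).Coprime (Nat.card R') := cop.coprime_dvd_right (card_dvd_of_le' le)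
  have n : ∀ {x : G}, x ∈ 𝐍(Q) → x ∈ 𝐍(phi Q) := fun hx => norms_phi le_rfl hx
  have q : ∀ {x : G} {X : Subgroup G}, x ∈ 𝐍(Q) → x ∈ 𝐍(X) → qel (phi Q) x ∈ 𝐍(X /ₛ phi Q) := fun hx h' =>
    zpowers_le.1 (quo_zpowers (n hx) ▸ quo_norms _ (zpowers_le.2 h'))
  have c2 : ∀ {X : Subgroup G}, Odd (Nat.card X) → (Nat.card X).Coprime (orderOf τ) := fun hX =>
    (Nat.coprime_two_right.2 hX).coprime_dvd_right (orderOf_dvd_of_pow_eq_one (by rw [pow_two, t2]))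
  refine (copAct_left (le.trans RQ) cop' hQ.solvable).cents_of_quo_phi
    (lemF_ea (elemAb_quo_phi (hQ.isPGroup Fact.out)) (abelian_quo (abelian_of_le hR le) _) (quo_norms _ (le.trans RQ))
      ((cop'.coprime_dvd_left (card_quo_dvd _ _)).coprime_dvd_right (card_quo_dvd _ _)) (q τQ τQ) (q zQ zQ)
      (q τQ τR') (q zQ zR') ?_ ?_ (oz.of_dvd_nat (orderOf_pel_dvd _ (n zQ))) ?_ ?_ fun x hx => ?_)
  · rw [← pel_mul _ (n τQ) (n τQ), t2, pel_one]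
  · rw [← pel_mul _ (n zQ) (n τQ), ← pel_mul _ (n τQ) (n zQ), c]
  · rw [← quo_inf_cent1 τR' (n τQ) (c2 (odd_card_of_le oR le)), hτ', pmap_bot]
  · rw [← quo_inf_cent1 zR' (n zQ) (cz.coprime_dvd_left (card_dvd_of_le' le)), hz, pmap_bot]
  · rw [← quo_inf_cent1 τQ (n τQ) (c2 oQ)] at hx
    obtain ⟨y, hy, rfl⟩ := (mem_quo (inf_le_left.trans (phi_normalIn Q).norm)).1 hx
    have ny := (phi_normalIn Q).norm hy.1
    have nw : z * y * z⁻¹ * y⁻¹ ∈ 𝐍(phi Q) := mul_mem (mul_mem (mul_mem (n zQ) ny) (inv_mem (n zQ))) (inv_mem ny)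
    rw [← pel_inv _ (n zQ), ← pel_inv _ ny, ← pel_mul _ (n zQ) ny, ← pel_mul _ (mul_mem (n zQ) ny) (inv_mem (n zQ)),
      ← pel_mul _ (mul_mem (mul_mem (n zQ) ny) (inv_mem (n zQ))) (inv_mem ny), mem_cent1_iff, ← pel_mul _ nw (n zQ),
      ← pel_mul _ (n zQ) nw, mem_cent1_iff.1 (h y hy)]

end CA.GW
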