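/-
A4, part a: maximal overgroups `M` of `C(s)` with `[O_r(M), s] ≠ 1`.
-/
import Cfsg.Agent.Lib.GW.Bender
import Cfsg.Agent.Lib.GW.LemF
import Cfsg.Agent.Lib.GW.Over

set_option autoImplicit false
set_option linter.unusedSectionVars false

namespace CA.GW

open Cfsg CA CA.FStar Subgroup

universe u

/-- The local lemma, as a hypothesis. -/
def LL (G : Type*) [Group G] : Prop := ∀ (L : Subgroup G) (s : G) (p : ℕ) (Y : Subgroup G), L ≠ ⊤ → s ∈ L →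
  Inv2 s → p ≠ 2 → Y ≤ L → PiGrp {p} Y → L ⊓ 𝐂[s] ≤ 𝐍(Y) → ⁅Y, zpowers s⁆ ≤ piCoreOf {p} L

/-- `M` is a maximal subgroup containing `C(s)`, and `s` does not centralize `O_r(M)`. -/
structure Gd {G : Type*} [Group G] (r : ℕ) (M : Subgroup G) (s : G) : Prop where
  max : IsCoatom M
  inv : Inv2 s
  cen : 𝐂[s] ≤ M
  r2 : r ≠ 2
  nc : ¬ piCoreOf {r} M ≤ 𝐂[s]

section
variable {G : Type*} [Group G] [Finite G] {E L M R V : Subgroup G} {s g k : G} {p q r : ℕ}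

theorem cF_of_lay (h : lay M = ⊥) : M ⊓ 𝐂(fittingOf M) ≤ fittingOf M := by
  have := cent_fstar_le M
  rwa [fstar_eq, h, bot_sup_eq] at this

theorem odd_of_pi (h : PiGrp {p} R) (hp : p ≠ 2) : Odd (Nat.card R) := h.piNum.odd (by simpa using hp.symm)

theorem odd_of_fix (h : PiGrp {q} R) (s2 : Inv2 s) (hs : s ∈ 𝐍(R)) (hc : R ⊓ 𝐂[s] = ⊥) : Odd (Nat.card R) := by
  by_cases e : q = 2
  swap
  · exact odd_of_pi h e
  subst e
  have h1 : R = ⊥ := eq_bot_of_inf_center_nil (h.sup s2.piGrp (.inl (zpowers_le.2 hs))).nilpotent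
    ⟨le_sup_left, sup_le le_normalizer (zpowers_le.2 hs)⟩ (eq_bot_iff.2 (hc ▸ inf_le_inf_left _
      (inf_le_right.trans (cent_le_cent1 (mem_sup_right (mem_zpowers s))))))
  rw [h1, card_bot]; exact odd_one

theorem inv_of_fix (s2 : Inv2 s) (hs : s ∈ 𝐍(R)) (hc : R ⊓ 𝐂[s] = ⊥) : ∀ x ∈ R, s * x * s⁻¹ = x⁻¹ := fun _ hx =>
  Zas.inv_of_fpf hs s2.sq (fun _ hw e => mem_bot.1 (hc ▸ ⟨hw, mem_cent1_iff.2 e.symm⟩)) hx

theorem lay_cents_pc (p : ℕ) (L : Subgroup G) : lay L ≤ 𝐂(piCoreOf {p} L) :=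
  (lay_cents_fit L).trans (cent_mono (pc_fit p L))

theorem Gd.mem (h : Gd r M s) : s ∈ M := h.cen (self_mem_cent1 s)

theorem Gd.ne (h : Gd r M s) : piCoreOf {r} M ≠ ⊥ := fun e => h.nc (e ▸ bot_le)

theorem Gd.cj (h : Gd r M s) (g : G) : Gd r (cj g M) (g * s * g⁻¹) :=
  ⟨isCoatom_cj h.max g, h.inv.conj g, cj_centralizer_singleton g s ▸ cj_mono g h.cen, h.r2, by
    rw [← cj_piCoreOf, ← cj_centralizer_singleton, cj_le_cj]; exact h.nc⟩

theorem Gd.cj_eq (h : Gd r M s) (e : k * s * k⁻¹ = g * s * g⁻¹) : CA.cj k M = CA.cj g M := by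
  have : g⁻¹ * k ∈ M := h.cen (mem_cent1_iff.2 (by
    calc g⁻¹ * k * s = g⁻¹ * (k * s * k⁻¹) * k := by group
      _ = _ := by rw [e]; group))
  rw [← mul_inv_cancel_left g k, cj_mul, cj_eq_of_mem this]

theorem Gd.oddP (h : Gd r M s) : Odd (Nat.card (piCoreOf {r} M)) := odd_of_pi (piCoreOf_piGrp _ _) h.r2

theorem Gd.ll (ll : LL G) (h : Gd r M s) (hL : L ≠ ⊤) (hs : s ∈ L) (hp : p ≠ 2) :
    ⁅piCoreOf {p} M ⊓ L, zpowers s⁆ ≤ piCoreOf {p} L :=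
  ll L s p _ hL hs h.inv hp inf_le_right ((piCoreOf_piGrp _ _).inf_left _)
    (norms_inf (inf_le_right.trans (h.cen.trans (piCoreOf_norm _ _))) (inf_le_left.trans le_normalizer))

theorem Gd.fix (h : Gd r M s) (e : R ⊓ M = ⊥) : R ⊓ 𝐂[s] = ⊥ := eq_bot_iff.2 (e ▸ inf_le_inf_left _ h.cen)

end

variable {G : Type u} [Group G] [Finite G] (m : Min G) {E L M R V : Subgroup G} {s g k : G} {p q r : ℕ}
include m

theorem Min.cd : CD G := fun T hT x hx y hy x2 y2 => by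
  rcases m.two (hT.piGrp Nat.prime_two) with h | ⟨R, h, -⟩
  · exact abelian_iff'.1 (abelian_of_cyclic h) x hx y hy
  · exact h.comm (h.mem_of_sq hx x2) (h.mem_of_sq hy y2)

theorem Min.syl_of (s2 : Inv2 s) (h : 𝐂[s] ≤ M) : ∃ T R, SylowIn 2 T M ∧ Dih T R ∧ s ∈ R := by
  obtain ⟨T, hT⟩ := exists_sylowIn 2 𝐂[s]
  obtain ⟨h1, R, h2, h3⟩ := m.syl_cent s2 hT
  exact ⟨T, R, h1.of_le (hT.le.trans h) le_top, h2, h3⟩

theorem Min.mem_of_normal (s2 : Inv2 s) (h : 𝐂[s] ≤ M) (hE : E ⊴ M) (hs : ¬ Group.IsSolvable E) : s ∈ E := by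
  obtain ⟨T, R, hT, hR, sR⟩ := m.syl_of s2 h
  have h2 : SylowIn 2 (T ⊓ E) E := hT.inf_normal hE
  have h3 : ¬ IsCyclic ↥(T ⊓ E) := fun e => hs (solv_of_npc (m.npc_cyc h2 e))
  have h4 := hR.inf (L := T ⊓ E) inf_le_left fun e => h3 (cyclic_of_le hR.cyc e)
  obtain ⟨z, hz, z2⟩ := h4.exists_inv (h2.piGrp.inf_left R) fun e =>
    h3 (isCyclic_of_prime_card' (by rw [h4.card, e, card_bot]; exact Nat.prime_two))
  exact hR.uniq hz.2 sR z2 s2 ▸ hz.1.2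

theorem Min.four_lay (hE : lay L ≠ ⊥) (hV : Four V) (h : V ≤ L) : ∃ v ∈ V, v ≠ 1 ∧ v ∈ lay L :=
  have hs : ¬ Group.IsSolvable (lay L) := fun e => hE (lay_eq_bot_of_solvable e)
  (m.dsyl_of fun e => hs (solvable_of_le e (lay_le L))).four_inv (lay_normalIn L) hs hV h

theorem Min.four_le_lay (h4 : Nat.card m.S = 4) (hE : lay L ≠ ⊥) (hV : Four V) (h : V ≤ L) : V ≤ lay L := by
  obtain ⟨v, vV, v1, hv⟩ := m.four_lay hE hV h
  obtain ⟨W, h1, hW, -⟩ := (m.dsyl_of fun e => hE (lay_eq_bot_of_solvable e)).exists_four hv (hV.inv2 vV v1)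
  have hS : SylowIn 2 V L := (m.syl.of_card_eq le_top (hV.card.trans h4.symm)).of_le h le_top
  obtain ⟨x, hx, e⟩ := hS.exists_cj (hS.of_card_eq (h1.trans (lay_le L)) (hW.card.trans hV.card.symm))
  rw [e, cj_le_iff, cj_eq_of_mem_normalizer ((lay_normalIn L).norm (inv_mem hx))] at h1
  exact h1

theorem Min.gd_lay (h : Gd r M s) : lay M = ⊥ := by
  by_contra e
  exact h.nc (mem_cent_iff_le_cent1.1 (lay_cents_pc r M
    (m.mem_of_normal h.inv h.cen (lay_normalIn M) fun e' => e (lay_eq_bot_of_solvable e'))))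

theorem Min.gd_two (h : Gd r M s) : piCoreOf {2} M = ⊥ := by
  obtain ⟨T, R, hT, hR, sR⟩ := m.syl_of h.inv h.cen
  have hN := piCoreOf_normalIn {2} M
  have h1 : ∀ v ∈ piCoreOf {2} M, v ∈ R → v = 1 := fun v hv vR => by
    by_contra v1
    obtain ⟨z, hz, z2⟩ := exists_orderOf_eq_prime Nat.prime_two
      ((piGrp_zpowers.2 ((piCoreOf_piGrp _ _).piElt hv)).dvd_card_of_ne_bot (by simpa using v1))
    have := hR.uniq (zpowers_le.2 vR hz) sR (inv2_of_ord z2) h.inv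
    exact h.nc (mem_cent_iff_le_cent1.1 (hN.cents_of_coprime (piCoreOf_normalIn {r} M)
      ((piCoreOf_piGrp _ _).coprime_of_ne (piCoreOf_piGrp _ _) h.r2.symm) (this ▸ zpowers_le.2 hv hz)))
  by_contra e
  obtain ⟨v, hv, v1⟩ := exists_ne_one_mem' e
  have vR : v ∉ R := fun e => v1 (h1 v hv e)
  have v2 := hR.inv2 (hT.piCoreOf_le hv) vR
  have h2 : M ≤ 𝐂[v] := fun g hg => by
    have h3 := conj_mem_of_mem_normalizer (hN.norm hg) hv
    have h4 := h1 _ (mul_mem h3 hv) (hR.mul_mem (hT.piCoreOf_le h3) (hT.piCoreOf_le hv)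
      (fun e => (v2.conj g).ne (h1 _ h3 e)) vR)
    rw [mul_eq_one_iff_eq_inv, v2.inv] at h4
    exact mem_cent1_iff.2 (mul_inv_eq_iff_eq_mul.1 h4)
  obtain ⟨g, hg⟩ := m.conj' h.inv v2
  have h3 : 𝐂[s] = 𝐂[v] := eq_of_le_of_card_eq (h.cen.trans h2) (by rw [← hg, ← cj_centralizer_singleton, card_cj])
  exact h.nc ((piCoreOf_le _ _).trans (h3 ▸ h2))

theorem Min.gd_cF (h : Gd r M s) : M ⊓ 𝐂(fittingOf M) ≤ fittingOf M := cF_of_lay (m.gd_lay h)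

theorem Min.gd_odd (h : Gd r M s) : Odd (Nat.card (fittingOf M)) := odd_iff.2 (fit_compl (m.gd_two h))

theorem Min.gd_not_lay (ll : LL G) (h : Gd r M s) (hL : L ≠ ⊤) (hs : s ∈ L) (sc : SC M L) : s ∉ lay L := by
  intro e
  refine h.nc (mem_cent_iff_le_cent1.1 (cent_mono (pc_fit r M) (zpowers_le.1 (sc.cents
    (copAct_inv h.inv.sq (m.gd_odd h) ((fittingOf_normalIn M).norm h.mem)) (cents_symm ?_)))))
  refine nil_le_of (nilpotent_of_le (fittingOf_nilpotent M) inf_le_left) fun p _ => le_trans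
    (le_inf (le_pc_of_fit ((piCoreOf_le _ _).trans inf_le_left) (piCoreOf_piGrp _ _))
      ((piCoreOf_le _ _).trans inf_le_right)) ?_
  by_cases e2 : p = 2
  · rw [e2, m.gd_two h, bot_inf_eq]; exact bot_le
  exact cents_symm ((copAct_inv h.inv.sq (odd_of_pi ((piCoreOf_piGrp _ _).inf_left _) e2) (zpowers_le.1
    (norms_inf (zpowers_le.2 (piCoreOf_norm _ _ h.mem)) (zpowers_le.2 (le_normalizer hs))))).cents_of_comm_le
    (h.ll ll hL hs e2) (zpowers_le.2 (lay_cents_pc p L e)))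

theorem Min.gd_key (h : Gd r M s) (hL : IsCoatom L) (sc : SC M L) (hE : lay L = ⊥)
    (hπ : ∀ q, q.Prime → piCoreOf {q} M = ⊥ → piCoreOf {q} L = ⊥) :
    L = M ∨ ((∀ q, q.Prime → q ≠ r → piCoreOf {q} M = ⊥) ∧ ∃ g, L = cj g M) := by
  haveI := m.simple
  by_cases e : ∀ q, q.Prime → q ≠ r → piCoreOf {q} M = ⊥
  · have e1 := fit_eq_pc e
    have e2 : fittingOf L = piCoreOf {r} L := fit_eq_pc fun q hq h1 => hπ q hq (e q hq h1)
    have cL := cF_of_lay hE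
    refine .inr ⟨e, zj_conj h.r2 m.cd h.max hL (e1 ▸ m.gd_cF h) (e2 ▸ cL) h.ne fun e3 => ?_⟩
    rw [e2, e3, cent_bot', inf_top_eq] at cL
    exact zpc_ne h.ne (eq_bot_iff.2 ((sc.center r).trans cL))
  · push Not at e
    obtain ⟨q, -, h1, h2⟩ := e
    exact .inl (b1c h.max hL (m.gd_cF h) (cF_of_lay hE) sc hπ h2 h.ne h1)

theorem Min.gd_cj (h : Gd r M s) (hV : Four V) (hle : V ≤ cj g M) : ∃ k, cj g M = cj k M ∧ k * s * k⁻¹ ∈ V := by
  obtain ⟨T, R, hT, hR, sR⟩ := m.syl_of h.inv h.cen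
  obtain ⟨x, hx, h1⟩ := hT.exists_cj_le (hV.cj g⁻¹).piGrp (le_cj_iff.1 hle)
  have hW := (hV.cj g⁻¹).cj x
  have h2 : s ∈ cj x (cj g⁻¹ V) := by
    obtain ⟨a, ha, b, hb, a1, b1, ab⟩ := hW.exists_two
    by_cases e1 : a ∈ R
    · exact hR.uniq e1 sR (hW.inv2 ha a1) h.inv ▸ ha
    by_cases e2 : b ∈ R
    · exact hR.uniq e2 sR (hW.inv2 hb b1) h.inv ▸ hb
    exact hR.uniq (hR.mul_mem (h1 ha) (h1 hb) e1 e2) sR
      ((hW.inv2 ha a1).mul (hW.inv2 hb b1) ab (hW.comm ha hb)) h.inv ▸ mul_mem ha hb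
  refine ⟨g * x⁻¹, by rw [cj_mul, cj_eq_of_mem (inv_mem hx)], ?_⟩
  rw [cj_cj, mem_cj] at h2
  simpa [mul_assoc] using h2

end CA.GW
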