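/-
A4, part b: the three conjugates `A, B, C` of `M` over a four-group.
-/
import Cfsg.Agent.Lib.GW.A4a
import Cfsg.Agent.Lib.GW.A1

set_option autoImplicit false
set_option linter.unusedSectionVars false

namespace CA.GW

open Cfsg CA CA.FStar Subgroup

universe u

/-- `V = {1, a, b, c}`, and `g` permutes `a, b, c` and `A, B, C` cyclically. -/
structure Tri {G : Type*} [Group G] (r : ℕ) (V A B C : Subgroup G) (a b c g : G) : Prop where
  gd : Gd r A a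
  four : Four V
  mem : ∀ x, x ∈ V ↔ x = 1 ∨ x = a ∨ x = b ∨ x = c
  ab : a * b = c
  ga : g * a * g⁻¹ = b
  gb : g * b * g⁻¹ = c
  gc : g * c * g⁻¹ = a
  gA : cj g A = B
  gB : cj g B = C
  gC : cj g C = A
  ne : A ≠ B

section
variable {G : Type*} [Group G] [Finite G] {V A B C L R W : Subgroup G} {a b c g : G} {p q r : ℕ}
  (h : Tri r V A B C a b c g)
include h

theorem Tri.aV : a ∈ V := (h.mem a).2 (.inr (.inl rfl))
theorem Tri.bV : b ∈ V := (h.mem b).2 (.inr (.inr (.inl rfl)))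
theorem Tri.cV : c ∈ V := (h.mem c).2 (.inr (.inr (.inr rfl)))
theorem Tri.gdB : Gd r B b := h.gA ▸ h.ga ▸ h.gd.cj g
theorem Tri.ba : b * a = c := (h.four.comm h.bV h.aV).trans h.ab
theorem Tri.bc : b * c = a := by rw [← h.ba, ← mul_assoc, h.gdB.inv.sq, one_mul]
theorem Tri.ac : a * c = b := by rw [← h.ab, ← mul_assoc, h.gd.inv.sq, one_mul]

theorem Tri.rot : Tri r V B C A b c a g :=
  ⟨h.gdB, h.four, fun x => by rw [h.mem]; tauto, h.bc, h.gb, h.gc, h.ga, h.gB, h.gC, h.gA,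
    fun e => h.ne (cj_injective g (by rw [h.gA, h.gB, e]))⟩

theorem Tri.swap : Tri r V A C B a c b g⁻¹ :=
  ⟨h.gd, h.four, fun x => by rw [h.mem]; tauto, h.ac, by rw [← h.gc]; group, by rw [← h.gb]; group,
    by rw [← h.ga]; group, by rw [← h.gC, cj_inv_cj], by rw [← h.gB, cj_inv_cj], by rw [← h.gA, cj_inv_cj],
    fun e => h.ne (by rw [← h.gA, e, h.gC, e])⟩

theorem Tri.le : V ≤ A := (h.four.le_cent1 h.aV).trans h.gd.cen

theorem Tri.pc (p : ℕ) : cj g (piCoreOf {p} A) = piCoreOf {p} B := by rw [cj_piCoreOf, h.gA]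

theorem Tri.pc_bot (e : piCoreOf {p} A = ⊥) : piCoreOf {p} B = ⊥ := by rw [← h.pc, e, cj_bot]

theorem Tri.ll (ll : LL G) : ⁅piCoreOf {r} A ⊓ B, zpowers a⁆ ≤ piCoreOf {r} B :=
  h.gd.ll ll h.gdB.max.1 (h.rot.le h.aV) h.gd.r2

/-- a subgroup `W = [W, a]` of `O_r(A) ∩ B` lies in `O_r(B)` -/
theorem Tri.ll' (ll : LL G) (h1 : W ≤ piCoreOf {r} A) (h2 : W ≤ B) (e : ⁅W, zpowers a⁆ = W) :
    W ≤ piCoreOf {r} B := e ▸ (commutator_mono (le_inf h1 h2) le_rfl).trans (h.ll ll)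

theorem Tri.nP : V ≤ 𝐍(piCoreOf {r} A) := h.le.trans (piCoreOf_norm _ _)

theorem Tri.n1 {x : G} (hx : x ∈ V) : V ≤ 𝐍(zpowers x) := norms_zpowers_of_cent1 (h.four.le_cent1 hx)

theorem Tri.X_le : ⁅piCoreOf {r} A ⊓ 𝐂[b], zpowers a⁆ ≤ piCoreOf {r} A ⊓ 𝐂[b] :=
  comm_le_left ((zpowers_le.2 h.aV).trans (norms_inf h.nP (norms_cent1 (h.four.le_cent1 h.bV))))

theorem Tri.X_norm : V ≤ 𝐍(⁅piCoreOf {r} A ⊓ 𝐂[b], zpowers a⁆) :=
  norms_commutator (norms_inf h.nP (norms_cent1 (h.four.le_cent1 h.bV))) (h.n1 h.aV)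

theorem Tri.X_eq : ⁅⁅piCoreOf {r} A ⊓ 𝐂[b], zpowers a⁆, zpowers a⁆ = ⁅piCoreOf {r} A ⊓ 𝐂[b], zpowers a⁆ :=
  (copAct_inv h.gd.inv.sq (odd_card_of_le h.gd.oddP inf_le_left)
    (norms_inf h.nP (norms_cent1 (h.four.le_cent1 h.bV)) h.aV)).comm_comm

theorem Tri.X_leB (ll : LL G) : ⁅piCoreOf {r} A ⊓ 𝐂[b], zpowers a⁆ ≤ piCoreOf {r} B :=
  h.ll' ll (h.X_le.trans inf_le_left) (h.X_le.trans (inf_le_right.trans h.gdB.cen)) h.X_eq

theorem Tri.Y_eq : ⁅⁅piCoreOf {r} A, zpowers a⁆, zpowers a⁆ = ⁅piCoreOf {r} A, zpowers a⁆ :=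
  (copAct_inv h.gd.inv.sq h.gd.oddP (h.nP h.aV)).comm_comm

theorem Tri.Y_le : ⁅piCoreOf {r} A, zpowers a⁆ ≤ piCoreOf {r} A := comm_le_left (zpowers_le.2 (h.nP h.aV))

theorem Tri.Y_norm : V ≤ 𝐍(⁅piCoreOf {r} A, zpowers a⁆) := norms_commutator h.nP (h.n1 h.aV)

theorem Tri.Y_ne : ⁅piCoreOf {r} A, zpowers a⁆ ≠ ⊥ := fun e =>
  h.gd.nc (cent_zpowers a ▸ comm_eq_bot_iff.1 e)

end

variable {G : Type u} [Group G] [Finite G] (m : Min G) (ll : LL G) {V A B C L R W : Subgroup G} {a b c g : G}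
  {p q r : ℕ} (h : Tri r V A B C a b c g)
include m h

theorem Min.tri_key (hL : IsCoatom L) (hV : V ≤ L) (sc : SC A L) (hE : lay L = ⊥)
    (hπ : ∀ q, q.Prime → piCoreOf {q} A = ⊥ → piCoreOf {q} L = ⊥) :
    L = A ∨ ((∀ q, q.Prime → q ≠ r → piCoreOf {q} A = ⊥) ∧ (L = B ∨ L = C)) := by
  rcases m.gd_key h.gd hL sc hE hπ with e | ⟨e, k, rfl⟩
  · exact .inl e
  obtain ⟨k', e1, e2⟩ := m.gd_cj h.gd h.four hV
  rw [e1]
  rcases (h.mem _).1 e2 with e3 | e3 | e3 | e3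
  · exact absurd e3 (h.gd.inv.conj k').ne
  · exact .inl ((h.gd.cj_eq (g := 1) (by simpa using e3)).trans (cj_one A))
  · exact .inr ⟨e, .inl ((h.gd.cj_eq (e3.trans h.ga.symm)).trans h.gA)⟩
  · exact .inr ⟨e, .inr ((h.gd.cj_eq (e3.trans h.swap.ga.symm)).trans h.swap.gA)⟩

theorem Min.tri_coatom (h1 : W ≠ ⊥) (h2 : W ≤ A) : ∃ L, IsCoatom L ∧ 𝐍(W) ≤ L :=
  exists_isCoatom_ge (m.norm_ne h1 fun e => h.gd.max.1 (top_le_iff.1 (e ▸ h2)))

theorem Min.tri_fix (sc : SC A L) (hq : piCoreOf {q} A = ⊥) : piCoreOf {q} L ⊓ 𝐂[a] = ⊥ :=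
  h.gd.fix (b1a (m.gd_cF h.gd) sc hq)

include ll

theorem Min.tri_zero : piCoreOf {r} A ⊓ piCoreOf {r} B ⊓ piCoreOf {r} C = ⊥ := by
  by_contra e
  set T := piCoreOf {r} A ⊓ piCoreOf {r} B ⊓ piCoreOf {r} C with hT
  obtain ⟨L, hL, hN⟩ := m.tri_coatom h e (inf_le_left.trans (inf_le_left.trans (piCoreOf_le _ _)))
  have hg : g ∈ L := hN (mem_normalizer_iff_cj.2 (by
    rw [hT, cj_inf, cj_inf, h.pc, h.rot.pc, h.rot.rot.pc, inf_comm, inf_assoc]))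
  have hV : V ≤ L := (norms_inf (norms_inf h.nP h.rot.nP) h.rot.rot.nP).trans hN
  have sA : SC A L := sc_of (inf_le_left.trans (inf_le_left.trans (pc_fit r A))) hN
  have sB : SC B L := sc_of (inf_le_left.trans (inf_le_right.trans (pc_fit r B))) hN
  have sC : SC C L := sc_of (inf_le_right.trans (pc_fit r C)) hN
  have hE : lay L = ⊥ := by
    by_contra e1
    obtain ⟨v, hv, v1, e2⟩ := m.four_lay e1 h.four hV
    rcases (h.mem v).1 hv with rfl | rfl | rfl | rfl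
    exacts [v1 rfl, m.gd_not_lay ll h.gd hL.1 (hV hv) sA e2, m.gd_not_lay ll h.gdB hL.1 (hV hv) sB e2,
      m.gd_not_lay ll h.rot.gdB hL.1 (hV hv) sC e2]
  have hg' := cj_eq_of_mem hg
  refine (m.tri_key h hL hV sA hE fun q _ hq => ?_).elim (fun e => h.ne ((e ▸ hg').symm.trans h.gA))
    fun e => e.2.elim (fun e => h.rot.ne ((e ▸ hg').symm.trans h.gB))
      fun e => h.rot.rot.ne ((e ▸ hg').symm.trans h.gC)
  have nR : V ≤ 𝐍(piCoreOf {q} L) := hV.trans (piCoreOf_norm _ _)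
  refine eq_bot_iff.2 (h.four.gen nR (odd_of_fix (piCoreOf_piGrp _ _) h.gd.inv (nR h.aV) (m.tri_fix h sA hq))
    fun v hv v1 => le_of_eq ?_)
  rcases (h.mem v).1 hv with rfl | rfl | rfl | rfl
  exacts [absurd rfl v1, m.tri_fix h sA hq, m.tri_fix h.rot sB (h.pc_bot hq),
    m.tri_fix h.rot.rot sC (h.rot.pc_bot (h.pc_bot hq))]

theorem Min.tri_notC (h1 : ⁅piCoreOf {r} A ⊓ 𝐂[b], zpowers a⁆ ≠ ⊥) : ¬ ⁅piCoreOf {r} A ⊓ 𝐂[b], zpowers a⁆ ≤ C :=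
  fun e => h1 (eq_bot_iff.2 (m.tri_zero ll h ▸ le_inf (le_inf (h.X_le.trans inf_le_left) (h.X_leB ll))
    (h.swap.ll' ll (h.X_le.trans inf_le_left) e h.X_eq)))

omit ll in
theorem Min.tri_pi (hV : V ≤ L) (sA : SC A L) (sB : SC B L) (hq : piCoreOf {q} A = ⊥) : piCoreOf {q} L = ⊥ := by
  haveI := m.simple
  set R := piCoreOf {q} L
  have Rq : PiGrp {q} R := piCoreOf_piGrp _ _
  have nL : L ≤ 𝐍(R) := piCoreOf_norm _ _
  have nR : V ≤ 𝐍(R) := hV.trans nL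
  have fa := m.tri_fix h sA hq
  have fb := m.tri_fix h.rot sB (h.pc_bot hq)
  have oR := odd_of_fix Rq h.gd.inv (nR h.aV) fa
  have ia := inv_of_fix h.gd.inv (nR h.aV) fa
  have ib := inv_of_fix h.gdB.inv (nR h.bV) fb
  have gC := h.rot.gdB
  have Rc : R ≤ 𝐂[c] := h.four.gen nR oR fun v hv v1 => by
    rcases (h.mem v).1 hv with rfl | rfl | rfl | rfl
    exacts [absurd rfl v1, fa.le.trans bot_le, fb.le.trans bot_le, inf_le_right]
  have RC : R ≤ C := Rc.trans gC.cen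
  have qC := h.rot.pc_bot (h.pc_bot hq)
  have qr : q ≠ r := fun e => h.gd.ne (e ▸ hq)
  set Z := 𝐙(piCoreOf {r} A)
  have ZL : Z ≤ L := sA.center r
  have Zr : PiGrp {r} Z := (piCoreOf_piGrp _ _).inf_left _
  have nZ : A ≤ 𝐍(Z) := (zpc_normal r A).norm
  have h1 : Z ⊓ 𝐂(V) ≤ 𝐂(R) := fun z hz => by
    have zC : z ∈ C := gC.cen (cent_le_cent1 h.cV hz.2)
    have zR := nL (ZL hz.1)
    have h2 : ⁅R, zpowers z⁆ ≤ 𝐂(fittingOf C) := cents_symm (fit_le_of fun p _ => by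
      by_cases e : piCoreOf {p} C = ⊥
      · rw [e]; exact bot_le
      have nC : C ≤ 𝐍(piCoreOf {p} C) := piCoreOf_norm _ _
      refine cents_symm (lemF (piCoreOf_piGrp _ _) (odd_card_of_le (m.gd_odd gC) (pc_fit p C))
        (abelian_iff'.2 fun x hx y hy => Zas.comm_of_inv ia hx hy) oR (RC.trans nC)
        ((piCoreOf_piGrp _ _).coprime_of_ne Rq fun e' => e (e' ▸ qC)) (nC (h.rot.rot.le h.aV)) (nC zC) (nR h.aV) zR
        h.gd.inv.sq (mem_cent1_iff.1 (cent_le_cent1 h.aV hz.2)) (odd_of_mem (odd_of_pi Zr h.gd.r2) hz.1)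
        (Nat.card_zpowers z ▸ Rq.coprime_of_ne (Zr.of_le (zpowers_le.2 hz.1)) qr) fa fun x hx => ?_)
      refine cent_le_cent1 hz.1 (abelian_iff.1 (abelian_center _) ?_)
      rw [mul_assoc, mul_assoc, ← mul_assoc x]
      exact mul_mem hz.1 (conj_mem_of_mem_normalizer (nZ (h.gd.cen hx.2)) (inv_mem hz.1)))
    have h3 : ⁅R, zpowers z⁆ ≤ R := comm_le_left (zpowers_le.2 zR)
    exact zpowers_le.1 (comm_eq_bot_iff'.1 ((Rq.of_le h3).eq_bot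
      ((fit_compl qC).of_le (le_trans (le_inf (h3.trans RC) h2) (m.gd_cF gC)))))
  have h2 : ⁅Z, V⁆ ≤ 𝐂(R) := comm_le_iff.2 fun z hz v hv => by
    rcases (h.mem v).1 hv with rfl | rfl | rfl | rfl
    · simp
    · exact comm_cents_of_inv h.gd.inv.sq (ZL.trans nL) ia (comm_mem hz (mem_zpowers _))
    · exact comm_cents_of_inv h.gdB.inv.sq (ZL.trans nL) ib (comm_mem hz (mem_zpowers _))
    · have := mem_cent_iff_le_cent1.2 Rc
      exact mul_mem (conj_mem_of_mem_normalizer (norms_cent nL (ZL hz)) this) (inv_mem this)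
  have h3 : Z ≤ 𝐂(R) :=
    ((copAct_of_ne (h.le.trans nZ) Zr h.four.piGrp h.gd.r2).le_sup_cent h2).trans (sup_le le_rfl h1)
  exact eq_bot_iff.2 (b1a (m.gd_cF h.gd) sA hq ▸ le_inf le_rfl
    ((cents_symm h3).trans (cent_le_coatom h.gd.max (zpc_normal r A) (zpc_ne h.gd.ne))))

theorem Min.tri_three (h1 : ⁅piCoreOf {r} A ⊓ 𝐂[b], zpowers a⁆ ≠ ⊥) (h2 : ⁅piCoreOf {r} A ⊓ 𝐂[b], zpowers a⁆ ≤ W)
    (hA : W ≤ piCoreOf {r} A) (hB : W ≤ piCoreOf {r} B) (hn : V ≤ 𝐍(W)) :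
    (∀ q, q.Prime → q ≠ r → piCoreOf {q} A = ⊥) ∧ (𝐍(W) ≤ A ∨ 𝐍(W) ≤ B) := by
  obtain ⟨L, hL, hN⟩ := m.tri_coatom h (fun e => h1 (eq_bot_iff.2 (e ▸ h2))) (hA.trans (piCoreOf_le _ _))
  have hV : V ≤ L := hn.trans hN
  have sA : SC A L := sc_of (hA.trans (pc_fit r A)) hN
  have sB : SC B L := sc_of (hB.trans (pc_fit r B)) hN
  have XL := h2.trans (le_normalizer.trans hN)
  have hE : lay L = ⊥ := by
    by_contra e1
    obtain ⟨v, hv, v1, e2⟩ := m.four_lay e1 h.four hV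
    rcases (h.mem v).1 hv with rfl | rfl | rfl | rfl
    · exact v1 rfl
    · exact m.gd_not_lay ll h.gd hL.1 (hV hv) sA e2
    · exact m.gd_not_lay ll h.gdB hL.1 (hV hv) sB e2
    have e3 := cent_mono (h.X_eq.ge.trans ((commutator_mono (le_inf (h2.trans hA) XL) le_rfl).trans
      (h.gd.ll ll hL.1 (hV h.aV) h.gd.r2))) (lay_cents_pc r L e2)
    have e4 := mul_mem (mem_cent_iff_le_cent1.2 (h.X_le.trans inf_le_right)) e3
    rw [h.bc] at e4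
    exact h1 (h.X_eq ▸ comm_eq_bot_iff'.2 (zpowers_le.2 e4))
  have hπ := fun q (_ : q.Prime) => m.tri_pi h hV sA sB (q := q)
  have nC : L ≠ C := fun e => m.tri_notC ll h h1 (e ▸ XL)
  rcases m.tri_key h hL hV sA hE hπ with e | ⟨e, e' | e'⟩
  · rcases m.tri_key h.rot hL hV sB hE (fun q hq e => hπ q hq (h.rot.rot.pc_bot (h.rot.pc_bot e))) with e' | ⟨e', -⟩
    · exact absurd (e.symm.trans e') h.ne
    · exact ⟨fun q hq hr => h.rot.rot.pc_bot (h.rot.pc_bot (e' q hq hr)), .inl (e ▸ hN)⟩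
  · exact ⟨e, .inr (e' ▸ hN)⟩
  · exact absurd e' nC

omit m in
theorem Tri.y1 (e : piCoreOf {r} A ≤ B) : ⁅piCoreOf {r} A, zpowers a⁆ ≤ piCoreOf {r} B :=
  h.ll' ll h.Y_le (h.Y_le.trans e) h.Y_eq

omit m ll in
theorem Tri.y0 (e : piCoreOf {r} A ≤ B) : piCoreOf {r} B ≤ C := by
  rw [← h.pc, ← h.gB]; exact cj_mono g e

theorem Min.tri_y2 (e : piCoreOf {r} A ≤ B) : ⁅piCoreOf {r} A, zpowers a⁆ ≤ 𝐂[b] := by
  rw [← cent_zpowers, ← comm_eq_bot_iff, eq_bot_iff, ← m.tri_zero ll h]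
  exact le_inf ((comm_le_left (zpowers_le.2 (h.Y_norm h.bV))).trans (le_inf h.Y_le (h.y1 ll e)))
    ((commutator_mono (h.y1 ll e) le_rfl).trans (h.rot.y1 ll (h.y0 e)))

theorem Min.tri_y3 (e : piCoreOf {r} A ≤ B) : ⁅piCoreOf {r} C, zpowers c⁆ ≤ 𝐂(⁅piCoreOf {r} A, zpowers a⁆) := by
  have eC := h.rot.y0 (h.y0 e)
  have n : ⁅piCoreOf {r} C, zpowers c⁆ ≤ 𝐍(𝐂(⁅piCoreOf {r} A, zpowers a⁆)) :=
    norms_cent ((h.rot.rot.y1 ll eC).trans (comm_norm_left _ _))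
  have hb := mem_cent_iff_le_cent1.2 (m.tri_y2 ll h e)
  rw [← h.rot.rot.Y_eq]
  refine comm_le_iff.2 fun y hy v hv => ?_
  rcases (mem_zpowers_sq h.rot.gdB.inv.sq).1 hv with rfl | rfl
  · simp
  have ya := mem_cent1_iff.1 (m.tri_y2 ll h.rot.rot eC hy)
  have : y * v * y⁻¹ * v⁻¹ = a * (y * b * y⁻¹ * b⁻¹) * a⁻¹ := by
    rw [← h.ab, ← mul_assoc y, ya]; group
  rw [this]
  exact conj_mem_of_mem_normalizer (norms_cent h.Y_norm h.aV)
    (mul_mem (conj_mem_of_mem_normalizer (n hy) hb) (inv_mem hb))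

theorem Min.tri_one : ¬ piCoreOf {r} A ≤ B := by
  intro e
  have eB := h.y0 e
  have eC := h.rot.y0 eB
  have h1 : ⁅piCoreOf {r} A ⊓ 𝐂[b], zpowers a⁆ ≠ ⊥ := fun e1 => h.Y_ne (eq_bot_iff.2 (h.Y_eq.ge.trans
    ((commutator_mono (le_inf h.Y_le (m.tri_y2 ll h e)) le_rfl).trans e1.le)))
  rcases (m.tri_three ll h h1 (commutator_mono inf_le_left le_rfl) h.Y_le (h.y1 ll e) h.Y_norm).2 with e1 | e1
  · exact h.rot.Y_ne (eq_bot_iff.2 (m.tri_zero ll h ▸ le_inf (le_inf (h.rot.swap.ll' ll h.rot.Y_le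
      ((norms_of_cents (cents_symm (m.tri_y3 ll h.rot eB))).trans e1) h.rot.Y_eq) h.rot.Y_le) (h.rot.y1 ll eB)))
  · exact h.rot.rot.Y_ne (eq_bot_iff.2 (m.tri_zero ll h ▸ le_inf (le_inf (h.rot.rot.y1 ll eC)
      (h.rot.rot.swap.ll' ll h.rot.rot.Y_le ((norms_of_cents (m.tri_y3 ll h e)).trans e1) h.rot.rot.Y_eq))
      h.rot.rot.Y_le))

theorem Min.tri_nB : ¬ 𝐍(piCoreOf {r} (A ⊓ B)) ≤ B := by
  intro e
  have n : piCoreOf {r} (A ⊓ B) ≤ 𝐍(piCoreOf {r} A) := (piCoreOf_le _ _).trans (inf_le_left.trans (piCoreOf_norm _ _))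
  have QB : piCoreOf {r} (A ⊓ B) ≤ B := (piCoreOf_le _ _).trans inf_le_right
  have := eq_of_inf_normalizer_le_nil ((piCoreOf_piGrp {r} A).sup (piCoreOf_piGrp _ _) (.inl n)).nilpotent
    le_sup_right ((inf_le_inf_left _ e).trans (by
      rw [dedekind_right (.inl n) QB]
      exact sup_le ((le_inf inf_le_left (inf_le_inf_right _ (piCoreOf_le _ _))).trans
        (piCoreOf_inf_le _ inf_le_left)) le_rfl))
  exact m.tri_one ll h (le_sup_left.trans (this.ge.trans QB))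

theorem Min.tri_four (h4 : Nat.card m.S = 4) (hπ : ∀ q, q.Prime → q ≠ r → piCoreOf {q} A = ⊥)
    (hA : W ≤ piCoreOf {r} A) (hn : 𝐍(W) ≤ B) (hW : ⁅W, zpowers a⁆ = W ∨ ⁅W, zpowers b⁆ = W)
    (hL : IsCoatom L) (hN : 𝐍(piCoreOf {r} (A ⊓ B)) ≤ L) : L = C := by
  have ABL : A ⊓ B ≤ L := (piCoreOf_norm _ _).trans hN
  have hV : V ≤ L := (le_inf h.le h.rot.le).trans ABL
  have eA := fit_eq_pc hπ
  have eB : fittingOf B = piCoreOf {r} B := fit_eq_pc fun q hq hr => h.pc_bot (hπ q hq hr)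
  have WB : W ≤ B := le_normalizer.trans hn
  have PL : piCoreOf {r} A ⊓ B ≤ L := (inf_le_inf_right _ (piCoreOf_le _ _)).trans ABL
  have sA : SC A L := sc_of' (hA.trans eA.ge) ((le_inf hA WB).trans PL)
    (eA ▸ (inf_le_inf_left _ ((norms_of_cents le_rfl).trans hn)).trans PL)
  have hE : lay L = ⊥ := by
    by_contra e1
    exact m.gd_not_lay ll h.gd hL.1 (hV h.aV) sA (m.four_le_lay h4 e1 h.four hV h.aV)
  refine (m.tri_key h hL hV sA hE fun q _ hq => ?_).elim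
    (fun e => absurd (inf_comm A B ▸ hN.trans e.le) (m.tri_nB ll h.rot.swap))
    fun e => e.2.resolve_left fun e => m.tri_nB ll h (hN.trans e.le)
  set R := piCoreOf {q} L
  have Rq : PiGrp {q} R := piCoreOf_piGrp _ _
  have nL : L ≤ 𝐍(R) := piCoreOf_norm _ _
  have fa := m.tri_fix h sA hq
  have oR := odd_of_fix Rq h.gd.inv (nL (hV h.aV)) fa
  have qB := h.pc_bot hq
  have qr : r ≠ q := fun e => h.gd.ne (e ▸ hq)
  have cop : (Nat.card (piCoreOf {r} B)).Coprime (Nat.card ↥(R ⊓ B)) :=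
    (piCoreOf_piGrp _ _).coprime_of_ne (Rq.inf_left _) qr
  have nB : R ⊓ B ≤ 𝐍(piCoreOf {r} B) := inf_le_right.trans (piCoreOf_norm _ _)
  have na : a ∈ 𝐍(R ⊓ B) := norms_inf (hV.trans nL) (h.rot.le.trans le_normalizer) h.aV
  have o' := odd_card_of_le oR (inf_le_left : R ⊓ B ≤ R)
  have h1 : R ⊓ B ≤ 𝐂(piCoreOf {r} B) := trick h.gd.inv.sq h.gdB.oddP o' cop (h.rot.nP h.aV) nB na
    ((copAct_inv h.gd.inv.sq o' na).comm_eq_self_of_cent_eq_bot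
      (eq_bot_iff.2 (fa ▸ cent_zpowers a ▸ inf_le_inf_right _ inf_le_left)))
    ((cents_of_norms_of_coprime (A := R ⊓ B) (B := piCoreOf {r} B ⊓ L)
      (norms_inf (inf_le_right.trans nL) (inf_le_left.trans ((piCoreOf_le _ _).trans le_normalizer)))
      (norms_inf nB (inf_le_left.trans ((piCoreOf_le _ _).trans le_normalizer)))
      (cop.symm.coprime_dvd_right (card_dvd_of_le' inf_le_left))).trans
      (cent_mono (le_inf inf_le_left ((le_inf (inf_le_right.trans h.gd.cen)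
        (inf_le_left.trans (piCoreOf_le _ _))).trans ABL))))
  have h2 : R ⊓ B = ⊥ := (Rq.inf_left _).eq_bot
    ((fit_compl qB).of_le (le_trans (le_inf inf_le_right (eB ▸ h1)) (m.gd_cF h.gdB)))
  have nW : W ≤ 𝐍(R) := ((le_inf hA WB).trans PL).trans nL
  have h3 : W ≤ 𝐂(R) := by
    rcases hW with e | e <;> rw [← e]
    · exact comm_cents_of_inv h.gd.inv.sq nW (inv_of_fix h.gd.inv (nL (hV h.aV)) fa)
    · exact comm_cents_of_inv h.gdB.inv.sq nW (inv_of_fix h.gdB.inv (nL (hV h.bV)) (h.gdB.fix h2))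
  exact eq_bot_iff.2 (h2 ▸ le_inf le_rfl ((norms_of_cents (cents_symm h3)).trans hn))

theorem Min.tri_X : ⁅piCoreOf {r} A ⊓ 𝐂[b], zpowers a⁆ = ⊥ := by
  by_contra h1
  have XA := h.X_le.trans inf_le_left
  have XB := h.X_leB ll
  by_cases h4 : Nat.card m.S = 4
  · obtain ⟨hπ, h2⟩ := m.tri_three ll h h1 le_rfl XA XB h.X_norm
    have XQ := (le_inf XA (le_inf (XA.trans (piCoreOf_le _ _)) (XB.trans (piCoreOf_le _ _)))).trans
      (piCoreOf_inf_le {r} (inf_le_left : A ⊓ B ≤ A))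
    obtain ⟨L, hL, hN⟩ := m.tri_coatom h (fun e => h1 (eq_bot_iff.2 (e ▸ XQ))) ((piCoreOf_le _ _).trans inf_le_left)
    have e : L = C := by
      rcases h2 with e | e
      · exact m.tri_four ll h.rot.swap h4 (fun q hq hr => h.pc_bot (hπ q hq hr)) XB e (.inr h.X_eq) hL
          (inf_comm A B ▸ hN)
      · exact m.tri_four ll h h4 hπ XA e (.inl h.X_eq) hL hN
    exact m.tri_notC ll h h1 (e ▸ XQ.trans (le_normalizer.trans hN))
  obtain ⟨σ, σ2, -, e⟩ := m.swap h4 h.four h.cV h.aV h.rot.gdB.inv.ne h.gd.inv.ne fun e =>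
    h.gdB.inv.ne (by rw [← h.ac, e, h.gd.inv.sq])
  have eA : cj σ A = B := (h.gd.cj_eq (e.trans (h.rot.rot.ab.trans h.ga.symm))).trans h.gA
  have eB : cj σ B = A := by rw [← eA, cj_cj, σ2.sq, cj_one]
  have hσ : σ ∈ 𝐍(piCoreOf {r} A ⊓ piCoreOf {r} B) := mem_normalizer_iff_cj.2 (by
    rw [cj_inf, cj_piCoreOf, cj_piCoreOf, eA, eB, inf_comm])
  rcases (m.tri_three ll h h1 (le_inf XA XB) inf_le_left inf_le_right (norms_inf h.nP h.rot.nP)).2 with e1 | e1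
  · exact h.ne ((cj_eq_of_mem (e1 hσ)).symm.trans eA)
  · exact h.ne (eB.symm.trans (cj_eq_of_mem (e1 hσ)))

theorem Min.tri_false : False :=
  h.gd.nc (h.four.gen h.nP h.gd.oddP fun v hv v1 => by
    rcases (h.mem v).1 hv with rfl | rfl | rfl | rfl
    exacts [absurd rfl v1, inf_le_right, cent_zpowers a ▸ comm_eq_bot_iff.1 (m.tri_X ll h),
      cent_zpowers a ▸ comm_eq_bot_iff.1 (m.tri_X ll h.swap)])

omit h

theorem Min.gd_false {M : Subgroup G} (h : Gd r M m.t) : False := by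
  haveI := m.simple
  refine m.A1 h.max.1 h.cen fun s hs s2 => ?_
  by_contra! e
  have hS : SylowIn 2 m.S M := m.syl.of_le (m.S_le.trans h.cen) le_top
  obtain ⟨x, hx, h1⟩ := hS.exists_conj_mem hs s2.piElt
  have e' : ∀ g ∈ M, g * m.t * g⁻¹ ≠ x * s * x⁻¹ := fun g hg e1 =>
    e (x⁻¹ * g) (mul_mem (inv_mem hx) hg) (by
      calc x⁻¹ * g * m.t * (x⁻¹ * g)⁻¹ = x⁻¹ * (g * m.t * g⁻¹) * x := by group
        _ = s := by rw [e1]; group)
  have b2 := s2.conj x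
  generalize x * s * x⁻¹ = b at h1 e' b2
  have tb : m.t ≠ b := by simpa using e' 1 (one_mem _)
  obtain ⟨V, hV, hm⟩ := four_of m.inv b2 tb (mem_cent1_iff.1 (m.S_le h1)).symm
  obtain ⟨g, -, g1, g2, g3⟩ := m.rot3 hV ((hm _).2 (.inr (.inl rfl))) ((hm _).2 (.inr (.inr (.inl rfl))))
    m.inv.ne b2.ne tb
  refine m.tri_false ll (⟨h, hV, hm, rfl, g1, g2, g3, rfl, rfl, ?_, fun e1 => e' g ?_ g1⟩ :
    Tri r V M (cj g M) (cj g (cj g M)) m.t b (m.t * b) g)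
  · rw [cj_cj, cj_cj, h.cj_eq (g := 1), cj_one]
    calc g * g * g * m.t * (g * g * g)⁻¹ = g * (g * (g * m.t * g⁻¹) * g⁻¹) * g⁻¹ := by group
      _ = _ := by rw [g1, g2, g3]; group
  · exact norm_le_coatom h.max (.refl M) (ne_bot_of_mem h.mem m.inv.ne) (mem_normalizer_iff_cj.2 e1.symm)

theorem Min.A4_of {Y : Subgroup G} (hr : r ≠ 2) (hY : PiGrp {r} Y) (hn : 𝐂[m.t] ≤ 𝐍(Y)) : Y ≤ 𝐂[m.t] := by
  by_contra e
  obtain ⟨M, hM, hN⟩ := exists_isCoatom_ge (m.norm_ne (fun e1 => e (e1.le.trans bot_le)) (m.ne_top hY.solvable))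
  have tN := hn (self_mem_cent1 _)
  refine m.gd_false ll ⟨hM, m.inv, hn.trans hN, hr, fun e1 => e ?_⟩
  exact cent_zpowers m.t ▸ cents_symm ((copAct_inv m.inv.sq (odd_of_pi hY hr) tN).cents_of_comm_cents
    ((ll M m.t r Y hM.1 (hN tN) m.inv hr (le_normalizer.trans hN) hY (inf_le_right.trans hn)).trans
      (cent_zpowers m.t ▸ e1)))

end CA.GW
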