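/-
A4: `t` centralizes every `C(t)`-invariant subgroup of odd prime power order.
-/
import Cfsg.Agent.Lib.GW.A4b
import Cfsg.Agent.Lib.GW.Kit

set_option autoImplicit false

namespace CA.GW
open Cfsg CA CA.FStar Subgroup
universe u
variable [KT.{u}] {G : Type u} [Group G] [Finite G]

theorem Min.A4 (m : Min G) {r : ℕ} {Y : Subgroup G} (hr : r ≠ 2) (hY : PiGrp {r} Y) (hn : 𝐂[m.t] ≤ 𝐍(Y)) :
    Y ≤ 𝐂[m.t] := m.A4_of (fun _ _ _ _ => m.ll) hr hY hn

end CA.GW
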