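/-
Gorenstein–Walter theorem, case II (`t` in a component): the set-up.
-/
import Cfsg.Agent.Lib.GW.CL2
import Cfsg.Agent.Lib.GW.W

set_option autoImplicit false

namespace CA.GW
open Cfsg CA CA.FStar Subgroup
universe u
variable {G : Type u} [Group G] [Finite G]

/-- Case II after the pump-up: `L` maximal, `t ∈ E(L)`, `W = F(U) ∩ O(L) ≠ 1`, `D = C_E(t)` dihedral with torus `T`. -/
structure Al (m : Min G) where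
  L : Subgroup G
  P : Subgroup G
  D : Subgroup G
  T : Subgroup G
  q : ℕ
  hH : IsCoatom 𝐂[m.t]
  hL : IsCoatom L
  tE : m.t ∈ lay L
  cl : CL2 L P q
  dih : Dih D T
  DO : D ⊓ 𝐎(L) = ⊥
  cE : lay L ⊓ 𝐂[m.t] = D ⊔ (lay L ⊓ 𝐎(L) ⊓ 𝐂[m.t])
  nT : L ⊓ 𝐂[m.t] ≤ 𝐍(T)
  cT : 2 * Nat.card T + 1 = q ∨ 2 * Nat.card T = q + 1
  ev : Even (Nat.card T)
  tT : m.t ∈ T
  cy : ∀ y ∈ T, y * y ≠ 1 → lay L ⊓ 𝐂[y] = T ⊔ (lay L ⊓ 𝐎(L))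
  iv : ∀ w ∈ L ⊓ 𝐂[m.t], Inv2 w → w ≠ m.t → ∀ x ∈ T, w * x * w⁻¹ = x⁻¹
  al : fittingOf 𝐎(𝐂[m.t]) ⊓ L ≤ 𝐎(L) ⊔ T
  W0 : fittingOf 𝐎(𝐂[m.t]) ⊓ 𝐎(L) ≠ ⊥
  NW : ∀ Y ≤ fittingOf 𝐎(𝐂[m.t]) ⊓ 𝐎(L), Y ≠ ⊥ → 𝐍(Y) ≤ L

namespace Al
variable {m : Min G} (a : Al m)
abbrev H (_ : Al m) : Subgroup G := 𝐂[m.t]
abbrev U (_ : Al m) : Subgroup G := 𝐎(𝐂[m.t])
abbrev F (_ : Al m) : Subgroup G := fittingOf 𝐎(𝐂[m.t])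
abbrev E : Subgroup G := lay a.L
abbrev O : Subgroup G := 𝐎(a.L)
abbrev W : Subgroup G := a.F ⊓ a.O
/-- `ω = |H : H ∩ L|` -/
noncomputable abbrev ω : ℕ := a.L.relIndex a.H
/-- `τ = (q - ε)/2` -/
noncomputable abbrev τ : ℕ := Nat.card a.T
/-- `τ' = (q + ε)/2` -/
noncomputable abbrev τ' : ℕ := a.q - a.τ
/-- all involutions of `L` are inner -/
def In : Prop := ∀ s ∈ a.L, Inv2 s → s ∈ a.E
end Al

/-- `Al` with a prime `r ∣ |W|`, `⟨y⟩ = Ω₁(W_r)`, `⟨z⟩ = Ω₁(T_r)`. -/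
structure Alr (m : Min G) extends Al m where
  r : ℕ
  y : G
  z : G
  hr : r.Prime
  oy : orderOf y = r
  oz : orderOf z = r
  yW : y ∈ toAl.W
  zK : z ∈ toAl.F ⊓ T
  omW : ∀ w ∈ toAl.W, w ^ r = 1 → w ∈ zpowers y

namespace Alr
variable {m : Min G} (a : Alr m)
abbrev A : Subgroup G := zpowers a.y ⊔ zpowers a.z
abbrev R : Subgroup G := piCoreOf {a.r} a.U
/-- `O_{r'}(F)` -/
abbrev K' : Subgroup G := piCoreOf {a.r}ᶜ a.F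
end Alr

/-- elements of order `r` of `R` central modulo `⟨z⟩` -/
def Alr.InB {m : Min G} (a : Alr m) (x : G) : Prop := x ∈ a.R ∧ x ^ a.r = 1 ∧ ∀ g ∈ a.R, g * x * g⁻¹ * x⁻¹ ∈ zpowers a.z

end CA.GW
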