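/-
Gorenstein–Walter theorem: the case division.
-/
import Cfsg.Agent.Lib.GW.Defs

set_option autoImplicit false

namespace CA.GW

open Cfsg CA CA.FStar Subgroup

universe u

variable {G : Type u} [Group G]

/-- Case II: `t` lies in the layer of a maximal subgroup containing the normalizer of a nontrivial subgroup of
`F(O(C(t)))`. -/
def Min.II (m : Min G) : Prop :=
  ∃ X L : Subgroup G, X ≠ ⊥ ∧ X ≤ fittingOf 𝐎(𝐂[m.t]) ∧ IsCoatom L ∧ 𝐍(X) ≤ L ∧ m.t ∈ lay L

/-- Lemma A (what "not case II" is used for): `[N(X), t]` has order prime to `|F(C(t))|`. -/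
def Min.LA (m : Min G) : Prop :=
  ∀ (p : ℕ) (X : Subgroup G), X ≠ ⊥ → X ≤ piCoreOf {p} 𝐎(𝐂[m.t]) →
    (Nat.card ↥⁅𝐍(X), zpowers m.t⁆).Coprime (Nat.card (fittingOf 𝐂[m.t]))

end CA.GW
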