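/-
Gorenstein–Walter theorem: maximal subgroups without components that contain `N(X)`, `X ≤ F(O(C(t)))`.
-/
import Cfsg.Agent.Lib.GW.Basic
import Cfsg.Agent.Lib.GW.Case

set_option autoImplicit false

namespace CA.GW

open Cfsg CA CA.FStar Subgroup

universe u

section
variable {G : Type*} [Group G] {A B R T X M : Subgroup G} {s x : G}

theorem norm_le_norm_cyc (hA : IsCyclic A) (hX : X ≤ A) [Finite G] : 𝐍(A) ≤ 𝐍(X) := fun g hg => by
  obtain ⟨a, -, rfl⟩ := isCyclic_iff_exists_zpowers.1 hA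
  refine mem_normalizer_of_cj_le (cj_le_iff'.2 fun x hx => ?_)
  obtain ⟨i, rfl⟩ := mem_zpowers_iff.1 (hX hx)
  obtain ⟨j, e⟩ := mem_zpowers_iff.1 (conj_mem_of_mem_normalizer hg (mem_zpowers a))
  rw [← conj_zpow, ← e, ← zpow_mul, mul_comm, zpow_mul]
  exact zpow_mem hx j

theorem comm_sup_le (hA : T ≤ 𝐂(A)) (hB : A ≤ 𝐍(B)) (hT : T ≤ 𝐍(B)) : ⁅A ⊔ B, T⁆ ≤ B :=
  comm_le_iff.2 fun x hx τ hτ => by
    obtain ⟨a, ha, b, hb, rfl⟩ := (mem_sup_of_norm_left hB).1 hx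
    have e : a * b * τ * (a * b)⁻¹ * τ⁻¹ = a * (b * (τ * b⁻¹ * τ⁻¹)) * a⁻¹ := by
      calc a * b * τ * (a * b)⁻¹ * τ⁻¹ = a * b * τ * b⁻¹ * τ⁻¹ * (τ * a⁻¹) * τ⁻¹ := by group
        _ = _ := by rw [← mem_cent_iff.1 (hA hτ) a⁻¹ (inv_mem ha)]; group
    rw [e]
    exact conj_mem_of_mem_normalizer (hB ha) (mul_mem hb (conj_mem_of_mem_normalizer (hT hτ) (inv_mem hb)))

theorem inv_of_fpf (s2 : s * s = 1) (hs : s ∈ 𝐍(R)) (ho : Odd (Nat.card R)) (h : R ⊓ 𝐂[s] = ⊥) (hx : x ∈ R) :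
    s * x * s⁻¹ = x⁻¹ := by
  have m : x⁻¹ * (s * x * s⁻¹) ∈ R := mul_mem (inv_mem hx) (conj_mem_of_mem_normalizer hs hx)
  obtain ⟨w, hw, e⟩ := exists_cent_of_odd s2 (odd_of_mem ho m)
  have : x * w ∈ R ⊓ 𝐂[s] := ⟨mul_mem hx (zpowers_le.2 m hw), mem_cent1_iff.2 e.symm⟩
  rw [h, mem_bot] at this
  have e2 : x = w⁻¹ := eq_inv_of_mul_eq_one_left this
  refine inv_of_mem_zpowers (x := x⁻¹ * (s * x * s⁻¹)) ?_ (e2 ▸ inv_mem (e2 ▸ hw))
  calc s * (x⁻¹ * (s * x * s⁻¹)) * s⁻¹ = s * x⁻¹ * s⁻¹ * (s * s) * x * (s * s)⁻¹ := by group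
    _ = _ := by rw [s2]; group

theorem coatom_norm (hM : IsCoatom M) (h : M ≤ 𝐍(X)) (h1 : 𝐍(X) ≠ ⊤) : 𝐍(X) = M :=
  ((hM.le_iff.1 h).resolve_left h1)

end

variable {G : Type u} [Group G] [Finite G] (m : Min G) {X M V : Subgroup G} {p q : ℕ} {x : G}

/-- an element of odd order normalizing a four-group and centralizing one of its involutions centralizes it -/
theorem cent_four_of_odd {t : G} (hV : Four V) (tV : t ∈ V) (t1 : t ≠ 1) (hx : x ∈ 𝐍(V)) (xt : x ∈ 𝐂[t])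
    (ho : Odd (orderOf x)) : x ∈ 𝐂(V) := by
  obtain ⟨b, bV, b1, bt⟩ := hV.exists tV
  have l := hV.mem tV bV t1 b1 bt.symm
  have xt' := mem_cent1_iff.1 xt
  have xb : x ∈ 𝐂[b] := by
    rcases (l _).1 (conj_mem_of_mem_normalizer hx bV) with e | e | e | e
    · exact absurd (by simpa using e) b1
    · refine absurd ?_ bt
      calc b = x⁻¹ * (x * b * x⁻¹) * x := by group
        _ = x⁻¹ * (t * x) := by rw [e]; group
        _ = t := by rw [← xt']; group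
    · exact mem_cent1_iff.2 (mul_inv_eq_iff_eq_mul.1 e)
    · have h2 : x * x ∈ 𝐂[b] := mem_cent1_iff.2 (by
        calc x * x * b = x * (x * b * x⁻¹) * x := by group
          _ = x * (t * b) * x := by rw [e]
          _ = x * t * x⁻¹ * (x * b * x⁻¹) * (x * x) := by group
          _ = t * t * b * (x * x) := by rw [e, xt']; group
          _ = _ := by rw [hV.sq t tV, one_mul])
      obtain ⟨k, hk⟩ := ho
      have : x = (x * x) ^ (k + 1) := by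
        rw [← sq, ← pow_mul, show 2 * (k + 1) = 2 * k + 1 + 1 by ring, ← hk, pow_succ, pow_orderOf_eq_one, one_mul]
      rw [this]
      exact pow_mem h2 _
  exact mem_cent_iff_le_cent1.2 (hV.le_of tV bV t1 b1 bt.symm (mem_cent1_comm.1 xt) (mem_cent1_comm.1 xb))

theorem Min.t_fit : m.t ∈ fittingOf 𝐂[m.t] :=
  center_le_fittingOf _ ⟨self_mem_cent1 _, mem_cent_iff_le_cent1.2 le_rfl⟩

theorem Min.norm_eq (hH : IsCoatom 𝐂[m.t]) (h1 : X ≠ ⊥) (h : X ⊴ 𝐂[m.t]) : 𝐍(X) = 𝐂[m.t] :=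
  coatom_norm hH h.2 (m.norm_ne h1 fun e => hH.1 (top_le_iff.1 (e ▸ h.1)))

/-- `O_q(Z(F(H)))` -/
theorem Min.exists_Z (hH : IsCoatom 𝐂[m.t]) (hq : q.Prime) (hd : q ∣ Nat.card (fittingOf 𝐂[m.t])) :
    ∃ Z : Subgroup G, Z ≠ ⊥ ∧ PiGrp {q} Z ∧ Z ⊴ 𝐂[m.t] ∧ Z ≤ 𝐂(fittingOf 𝐂[m.t]) ∧ 𝐂(Z) ≤ 𝐂[m.t] := by
  have h1 := meet_center_nil (fittingOf_nilpotent 𝐂[m.t])
    ((piCoreOf_normalIn {q} _).of_le (piCoreOf_singleton_le_fittingOf q _) (fittingOf_le _))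
    ((piCoreOf_singleton_ne_bot_iff hq).2 hd)
  have h2 : piCoreOf {q} 𝐂[m.t] ⊓ 𝐙(fittingOf 𝐂[m.t]) ⊴ 𝐂[m.t] :=
    ⟨inf_le_left.trans (piCoreOf_le _ _), norms_inf (piCoreOf_norm _ _) (norms_center (fittingOf_normalIn _).2)⟩
  exact ⟨_, h1, (piCoreOf_piGrp _ _).inf_left _, h2, inf_le_right.trans inf_le_right,
    (centralizer_le_normalizer _).trans (m.norm_eq hH h1 h2).le⟩

theorem Min.lemB (hH : IsCoatom 𝐂[m.t]) (X1 : X ≠ ⊥) (hX : X ≤ fittingOf 𝐎(𝐂[m.t])) (hM : IsCoatom M)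
    (hN : 𝐍(X) ≤ M) (hE : lay M = ⊥) : PiGrp (primesOf (Nat.card (fittingOf 𝐂[m.t])))ᶜ ⁅M, zpowers m.t⁆ := by
  set H := 𝐂[m.t] with hHdef
  set π := primesOf (Nat.card (fittingOf H))
  have t2 := m.inv
  have UH : 𝐎(H) ⊴ H := piCoreOf_normalIn _ _
  have XF : X ≤ fittingOf H := hX.trans (fittingOf_mono_normal UH)
  obtain ⟨p, hp, pd⟩ := exists_prime_dvd_card X1
  have p2 : p ≠ 2 := fun e => ((piCoreOf_piGrp {2}ᶜ H).of_le (hX.trans (fittingOf_le _))).mem hp pd e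
  replace pd : p ∣ Nat.card (fittingOf H) := pd.trans (card_dvd_of_le XF)
  have d2 : 2 ∣ Nat.card (fittingOf H) := t2.ord ▸ orderOf_dvd_card_of_mem m.t_fit
  have CM : 𝐂(X) ≤ M := (centralizer_le_normalizer _).trans hN
  have tM : m.t ∈ M := CM (mem_cent_iff_le_cent1.2 (XF.trans (fittingOf_le _)))
  have MF : M ⊓ 𝐂(fittingOf M) ≤ fittingOf M := by
    have := cent_fstar_le M
    rwa [fstar_eq, hE, bot_sup_eq] at this
  by_cases MH : M ≤ H
  · rw [commutator_eq_bot_iff_le_centralizer.2 (by rw [cent_zpowers]; exact MH)]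
    exact piGrp_bot _
  have nM : ∀ {Y : Subgroup G}, Y ≠ ⊥ → Y ⊴ M → 𝐍(Y) = M := fun h1 h =>
    coatom_norm hM h.2 (m.norm_ne h1 fun e => hM.1 (top_le_iff.1 (e ▸ h.1)))
  -- `t` centralizes `O_π(F(M))`
  have h1 : ∀ q, q.Prime → q ∣ Nat.card (fittingOf H) → piCoreOf {q} M ≤ H := fun q hq hd => by
    by_cases q2 : q = 2
    · subst q2
      obtain ⟨Z, -, Zp, ZH, ZF, CZ⟩ := m.exists_Z hH hp pd
      have ZM : Z ≤ M := (ZF.trans (cent_mono XF)).trans CM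
      have Z2 : PiGrp {2}ᶜ Z := Zp.compl_singleton (Ne.symm p2)
      refine (cents_symm ((copAct_p_left (ZM.trans (piCoreOf_norm _ _)) (piCoreOf_piGrp _ _) Z2).cents_of_axb
        (piCoreOf_piGrp _ _) t2.piGrp (zpowers_le.2 (piCoreOf_norm _ _ tM)) (by rw [cent_zpowers]; exact ZH.1) ?_ Z2)).trans CZ
      rw [cent_zpowers]
      refine commutator_eq_bot_iff_le_centralizer.1 (le_bot_iff.1 (le_trans (le_inf ?_ ?_) (Z2.inf_eq_bot' (piCoreOf_piGrp {2} M)).le))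
      · exact comm_le_left (inf_le_right.trans ZH.2)
      · exact (comm_le_right (norms_inf (ZM.trans (piCoreOf_norm _ _)) (ZH.1.trans le_normalizer))).trans inf_le_left
    · obtain ⟨Z, -, Zp, ZH, ZF, CZ⟩ := m.exists_Z hH hq hd
      have ZM : Z ≤ M := (ZF.trans (cent_mono XF)).trans CM
      have t' : PiGrp {q}ᶜ (zpowers m.t) := t2.piGrp.compl_singleton q2
      have := (copAct_p_left (zpowers_le.2 (piCoreOf_norm {q} M tM)) (piCoreOf_piGrp _ _) t').cents_of_axb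
        (piCoreOf_piGrp _ _) Zp (ZM.trans (piCoreOf_norm _ _)) (zpowers_le.2 (mem_cent_iff_le_cent1.2 ZH.1))
        (zpowers_le.2 (mem_cent_iff_le_cent1.2 (inf_le_right.trans CZ))) t'
      exact mem_cent_iff_le_cent1.1 (zpowers_le.1 this)
  have h2 : piCoreOf π (fittingOf M) ≤ H := le_of_forall_sylowIn_le' fun q P hq hd hP =>
    ((le_piCoreOf_of_nilpotent (fittingOf_nilpotent M) (hP.1.trans (piCoreOf_le _ _)) hP.piGrp).trans
      (piCoreOf_singleton_fittingOf q M).le).trans (h1 q hq ((piCoreOf_piGrp π _).mem hq hd).2)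
  -- `t` inverts `R`
  set R := piCoreOf πᶜ (fittingOf M)
  have RM : R ⊴ M := (fittingOf_normalIn M).piCoreOf _
  have Rπ : PiGrp πᶜ R := piCoreOf_piGrp _ _
  have Fπ : PiGrp π (fittingOf H) := piGrp_primesOf _
  have h3 : R ⊓ H = ⊥ := by
    have n1 : R ⊓ H ≤ 𝐍(fittingOf H) := inf_le_right.trans (fittingOf_normalIn H).2
    have F1 : X ⊔ (fittingOf H ⊓ 𝐂(X)) ≤ fittingOf H := sup_le XF inf_le_left
    have F2 : X ⊔ (fittingOf H ⊓ 𝐂(X)) ≤ M := sup_le (le_normalizer.trans hN) (inf_le_right.trans CM)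
    have c := (copAct_of_pi n1 Fπ (Rπ.inf_left _) (.inl (haveI := fittingOf_nilpotent H; inferInstance))).cents_of_nil_self_cent
      (fittingOf_nilpotent H) F1 (commutator_eq_bot_iff_le_centralizer.1 (le_bot_iff.1 (le_trans (le_inf
        ((comm_le_left (norms_inf (F2.trans RM.2) ((F1.trans (fittingOf_le _)).trans le_normalizer))).trans inf_le_left)
        ((commutator_mono le_rfl F1).trans (comm_le_right n1))) (Rπ.inf_eq_bot' Fπ).le)))
      (le_sup_of_le_right (inf_le_inf_left _ (cent_mono le_sup_left)))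
    exact (Fπ.of_le (le_fittingOf_of_cents (m.solv_cent t2) inf_le_right c)).eq_bot (Rπ.inf_left _)
  have Ro : Odd (Nat.card R) := odd_iff.2 (Rπ.compl_singleton' ⟨Nat.prime_two, d2⟩)
  have h4 : ∀ x ∈ R, m.t * x * m.t⁻¹ = x⁻¹ := fun x hx => inv_of_fpf t2.sq (RM.2 tM) Ro h3 hx
  have eF := (dprod_fittingOf π M).1
  have tO : zpowers m.t ≤ 𝐂(piCoreOf π (fittingOf M)) := zpowers_le.2 (mem_cent_iff_le_cent1.2 h2)
  have h5 : ⁅M, zpowers m.t⁆ ≤ fittingOf M := by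
    refine le_trans (le_inf (comm_le_left (zpowers_le.2 (le_normalizer tM))) ?_) MF
    rw [← eF]
    exact cents_sup (comm_cents_of_cents ((fittingOf_normalIn M).piCoreOf _).2 tO) (comm_cents_of_inv t2.sq RM.2 h4)
  by_cases O2 : piCoreOf {2} M = ⊥
  · have Fo : Odd (Nat.card (fittingOf M)) := Nat.not_even_iff_odd.1 fun e =>
      (piCoreOf_singleton_ne_bot_iff Nat.prime_two).2 (even_iff_two_dvd.1 e) O2
    have c := (copAct_inv t2.sq (Fo.of_dvd_nat (card_dvd_of_le h5)) (comm_normalIn_sup M (zpowers m.t) |>.2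
      (mem_sup_right (mem_zpowers _)))).comm_comm' (zpowers_le.2 (le_normalizer tM))
    refine Rπ.of_le (c.ge.trans ((commutator_mono (h5.trans eF.ge) le_rfl).trans ?_))
    exact comm_sup_le tO (((piCoreOf_le _ _).trans (fittingOf_le _)).trans RM.2) (zpowers_le.2 (RM.2 tM))
  exfalso
  set T := piCoreOf {2} M
  have TM : T ⊴ M := piCoreOf_normalIn _ _
  have TH : T ≤ H := h1 2 Nat.prime_two d2
  rcases m.two (piCoreOf_piGrp {2} M) with hc | ⟨T0, hD, T1⟩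
  · obtain ⟨z, zT, zo⟩ := exists_orderOf_eq_prime Nat.prime_two ((piCoreOf_piGrp {2} M).dvd_card_of_ne_bot O2)
    have z2 := inv2_of_ord zo
    have uq : ∀ y ∈ T, Inv2 y → y = z := fun y hy y2 => by
      by_contra hne
      obtain ⟨W, hW, eW⟩ := four_of y2 z2 hne (abelian_iff'.1 (abelian_of_cyclic hc) y hy z zT)
      refine hW.not_le hc fun w hw => ?_
      rcases (eW w).1 hw with rfl | rfl | rfl | rfl
      exacts [one_mem _, hy, zT, mul_mem hy zT]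
    have Mz : M ≤ 𝐂[z] := fun g hg =>
      mem_cent1_iff.2 (mul_inv_eq_iff_eq_mul.1 (uq _ (conj_mem_of_mem_normalizer (TM.2 hg) zT) (z2.conj g)))
    have eM : 𝐂[z] = M := (hM.le_iff.1 Mz).resolve_left (m.cent1_ne z2.ne)
    obtain ⟨g, hg⟩ := m.conj' t2 z2
    have : PiGrp π (fittingOf M) := by rw [← eM, ← hg, ← cj_centralizer_singleton, ← cj_fittingOf]; exact Fπ.cj g
    have tF : m.t ∈ fittingOf M := MF ⟨tM, mem_cent_iff_le_cent1.2 ((piCoreOf_eq_self this).ge.trans h2)⟩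
    have tT : m.t ∈ T := by
      have := (mem_piCoreOf_of_nilpotent (π := {2}) (fittingOf_nilpotent M) tF).2 t2.piElt
      rwa [piCoreOf_singleton_fittingOf] at this
    exact MH (Mz.trans (uq _ tT t2 ▸ le_rfl))
  obtain ⟨z, z0, z2⟩ := hD.exists_inv ((piCoreOf_piGrp {2} M).of_le hD.le) T1
  obtain ⟨y, yT, y0⟩ := hD.exists
  obtain ⟨W, hW, eW⟩ := four_of (hD.inv2 yT y0) z2 (fun e => y0 (e ▸ z0)) (mem_cent1_iff.1 (hD.cent z0 z2.sq yT))
  have WT : W ≤ T := fun w hw => by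
    rcases (eW w).1 hw with rfl | rfl | rfl | rfl
    exacts [one_mem _, yT, hD.le z0, mul_mem yT (hD.le z0)]
  have tW : m.t ∈ W := m.mem_four hW (mem_cent_iff_le_cent1.2 (WT.trans TH)) t2.piElt
  by_cases c2 : Nat.card T0 ≤ 2
  swap
  · have k : ∀ g ∈ M, g * m.t * g⁻¹ ∈ T0 := fun g hg => by
      by_contra hn
      refine c2 (hD.card_le_of_cent (conj_mem_of_mem_normalizer (TM.2 hg) (WT tW)) hn (hD.le.trans ?_))
      rw [← cj_centralizer_singleton]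
      exact (cj_eq_of_mem_normalizer (TM.2 hg)).ge.trans (cj_mono g TH)
    refine MH fun g hg => mem_cent1_iff.2 (mul_inv_eq_iff_eq_mul.1 (hD.uniq (k g hg) ?_ (t2.conj g) t2))
    simpa using k 1 (one_mem _)
  have eT : W = T := eq_of_le_of_card_le WT (by rw [hD.card, hW.card]; omega)
  rw [← eT] at TM
  have cW : ∀ x ∈ M, x ∈ H → Odd (orderOf x) → x ∈ 𝐂(W) := fun x hx xH ho => cent_four_of_odd hW tW t2.ne (TM.2 hx) xH ho
  have eC := m.core_four hW tW t2.ne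
  have EM : 𝐎(𝐂(W)) ⊴ M := ⟨((piCoreOf_le _ _).trans (centralizer_le_normalizer _)).trans (nM (ne_bot_of_mem tW t2.ne) TM).le,
    norms_piCoreOf _ (norms_cent TM.2)⟩
  have WU : W ≤ 𝐂(𝐎(H)) := by
    have nW : W ≤ H := WT.trans TH
    refine (copAct_of_pi' (nW.trans UH.2) (piCoreOf_piGrp _ _) hW.piGrp (.inl (solv_core _))).cents_of_cents_fitting
      (solv_core _) (cents_symm (fittingOf_le_of_forall_piCoreOf_le fun q hq hd => cents_symm ?_))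
    have q2 : q ≠ 2 := fun e => (piCoreOf_piGrp {2}ᶜ H).mem hq (hd.trans (card_dvd_of_le (fittingOf_le _))) e
    have qd : q ∣ Nat.card (fittingOf H) := hd.trans (card_dvd_of_le (fittingOf_mono_normal UH))
    obtain ⟨Z, Z1, Zp, ZH, ZF, -⟩ := m.exists_Z hH hq qd
    have ZM : Z ≤ M := (ZF.trans (cent_mono XF)).trans CM
    have Zo : PiGrp {2}ᶜ Z := Zp.compl_singleton (Ne.symm q2)
    have ZE : Z ≤ 𝐎(𝐂(W)) := eC ▸ le_inf (le_piCoreOf ZH Zo) fun x hx =>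
      cW x (ZM hx) (ZH.1 hx) (odd_elt_iff.2 (Zo.piElt hx))
    have ZQ : Z ≤ piCoreOf {q} M := (le_piCoreOf ⟨ZE, (eC.le.trans (inf_le_left.trans UH.1)).trans ZH.2⟩ Zp).trans
      (piCoreOf_le_of_normalIn _ EM)
    have nQ := nM (fun e => Z1 (le_bot_iff.1 (e ▸ ZQ))) (piCoreOf_normalIn {q} M)
    have QH : piCoreOf {q} 𝐎(H) ⊴ H := UH.piCoreOf _
    have W' : PiGrp {q}ᶜ W := hW.piGrp.compl_singleton q2
    refine (copAct_p_left (nW.trans QH.2) (piCoreOf_piGrp _ _) W').cents_of_axb (piCoreOf_piGrp _ _) (piCoreOf_piGrp {q} M)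
      ((h1 q hq qd).trans QH.2) (TM.cents_piCoreOf W') (cents_symm fun x hx => ?_) W'
    exact cW x (nQ.le (centralizer_le_normalizer _ hx.2)) (QH.1 hx.1) (odd_of_mem (odd_core _) (piCoreOf_le _ _ hx.1))
  rw [inf_eq_left.2 (cents_symm WU)] at eC
  exact MH ((eC ▸ EM.2).trans (m.norm_eq hH (fun e => X1 (le_bot_iff.1 (e ▸ hX.trans (fittingOf_le _)))) UH).le)

/-- a maximal subgroup containing `N(X)` and a perfect subgroup has a component -/
theorem Min.lay_ne_of (hH : IsCoatom 𝐂[m.t]) (X1 : X ≠ ⊥) (hX : X ≤ fittingOf 𝐎(𝐂[m.t])) (hM : IsCoatom M)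
    (hN : 𝐍(X) ≤ M) {Y : Subgroup G} (Y1 : Y ≠ ⊥) (Yp : ⁅Y, Y⁆ = Y) (YM : Y ≤ M) : lay M ≠ ⊥ := fun hE => by
  have t2 := m.inv
  have tM : m.t ∈ M := hN (centralizer_le_normalizer _
    (mem_cent_iff_le_cent1.2 (hX.trans ((fittingOf_le _).trans (piCoreOf_le _ _)))))
  have o : Odd (Nat.card ↥⁅M, zpowers m.t⁆) := odd_iff.2 ((m.lemB hH X1 hX hM hN hE).compl_singleton'
    ⟨Nat.prime_two, t2.ord ▸ orderOf_dvd_card_of_mem m.t_fit⟩)
  have n := comm_normalIn_left (zpowers_le.2 (le_normalizer tM))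
  have e := (copAct_inv t2.sq o (n.2 tM)).comm_sup_cent' (zpowers_le.2 (le_normalizer tM))
  refine (der_lt_of_solvable (solvable_of_le ?_ YM) Y1).ne Yp
  rw [← e, cent_zpowers]
  exact solvable_sup (inf_le_left.trans n.2) (solv_odd o) (solvable_of_le (m.solv_cent t2) inf_le_right)

/-- if `F(U) ∩ M` embeds in a cyclic group then `X ⊴ C(t)` -/
theorem Min.norm_cyc (hH : IsCoatom 𝐂[m.t]) (X1 : X ≠ ⊥) (XF : X ≤ fittingOf 𝐎(𝐂[m.t])) (hN : 𝐍(X) ≤ M) {O T : Subgroup G}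
    (hT : IsCyclic T) (OM : M ≤ 𝐍(O)) (TM : T ≤ M) (al : fittingOf 𝐎(𝐂[m.t]) ⊓ M ≤ O ⊔ T)
    (B1 : fittingOf 𝐎(𝐂[m.t]) ⊓ O = ⊥) : 𝐍(X) = 𝐂[m.t] := by
  set F := fittingOf 𝐎(𝐂[m.t])
  have FH : F ⊴ 𝐂[m.t] := (piCoreOf_normalIn _ _).fittingOf
  have hc : IsCyclic ↥(F ⊓ M) := by
    obtain ⟨a, ha, e⟩ := isCyclic_iff_exists_zpowers.1 hT
    have c1 : IsCyclic ↥((O ⊔ T) /ₛ O) :=
      (isCyclic_quo_iff (sup_le le_normalizer (TM.trans OM))).2 ⟨a, mem_sup_right ha, e ▸ le_rfl⟩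
    obtain ⟨b, hb, eb⟩ := (isCyclic_quo_iff (inf_le_right.trans OM)).1 (haveI := c1; isCyclic_of_le (quo_mono _ al))
    refine isCyclic_iff_exists_zpowers.2 ⟨b, hb, le_antisymm (fun x hx => ?_) (zpowers_le.2 hb)⟩
    obtain ⟨o, ho, y, hy, rfl⟩ := (mem_sup_of_norm_right (zpowers_le.2 (OM hb.2))).1 (eb hx)
    have : o ∈ F ⊓ O := ⟨(F.mul_mem_cancel_right (zpowers_le.2 (show b ∈ F from hb.1) hy)).1 hx.1, ho⟩
    rw [B1, mem_bot] at this
    rwa [this, one_mul]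
  have nX := norm_le_norm_cyc hc (le_inf XF (le_normalizer.trans hN))
  have e : F ⊓ M = F := eq_of_inf_normalizer_le_nil (fittingOf_nilpotent _) inf_le_left
    (inf_le_inf_left _ (nX.trans hN))
  rw [e] at nX
  exact m.norm_eq hH X1 ⟨XF.trans FH.1, FH.2.trans nX⟩

/-- no four-group through `t` centralizes `F(U) ∩ M` -/
theorem Min.not_cent (hH : IsCoatom 𝐂[m.t]) (X1 : X ≠ ⊥) (XF : X ≤ fittingOf 𝐎(𝐂[m.t])) (hN : 𝐍(X) ≤ M) {v : G}
    (v2 : Inv2 v) (vt : v ≠ m.t) (vH : v ∈ 𝐂[m.t]) : ¬ fittingOf 𝐎(𝐂[m.t]) ⊓ M ≤ 𝐂[v] := fun h => by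
  have UH : 𝐎(𝐂[m.t]) ⊴ 𝐂[m.t] := piCoreOf_normalIn _ _
  have c1 := (copAct_inv v2.sq ((odd_core _).of_dvd_nat (card_dvd_of_le (fittingOf_le _)))
    (UH.fittingOf.2 vH)).cents_of_nil_self_cent (fittingOf_nilpotent _) inf_le_left
    (zpowers_le.2 (mem_cent_iff_le_cent1.2 h)) (le_inf inf_le_left (inf_le_right.trans
      (((cent_mono (le_inf XF (le_normalizer.trans hN))).trans (centralizer_le_normalizer _)).trans hN)))
  have c2 := (copAct_inv v2.sq (odd_core _) (UH.2 vH)).cents_of_cents_fitting (solv_core _) c1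
  obtain ⟨V, hV, eV⟩ := four_of m.inv v2 vt.symm (mem_cent1_iff.1 vH).symm
  have tV : m.t ∈ V := (eV _).2 (.inr (.inl rfl))
  have vV : v ∈ V := (eV _).2 (.inr (.inr (.inl rfl)))
  have e := m.core_four hV tV m.inv.ne
  rw [inf_eq_left.2 (cents_symm (hV.le_of tV vV m.inv.ne v2.ne vt.symm (mem_cent_iff_le_cent1.2 UH.1) (zpowers_le.1 c2)))] at e
  obtain ⟨g, hg, eg⟩ := m.rot hV tV vV m.inv.ne v2.ne
  have : g ∈ 𝐂[m.t] := by
    rw [← m.norm_eq hH (fun e => X1 (le_bot_iff.1 (e ▸ XF.trans (fittingOf_le _)))) UH, ← e]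
    exact norms_piCoreOf _ (norms_cent le_rfl) hg
  exact vt (by rw [← eg, mem_cent1_iff.1 this, mul_inv_cancel_right])

end CA.GW
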