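/-
Gorenstein–Walter theorem, case II: the pump-up.
-/
import Cfsg.Agent.Lib.GW.LemB
import Cfsg.Agent.Lib.GW.Al
import Cfsg.Agent.Lib.GW.Over
import Cfsg.Agent.Lib.GW.Kit

set_option autoImplicit false

namespace CA.GW

open Cfsg CA CA.FStar Subgroup

universe u

variable [KT.{u}] {G : Type u} [Group G] [Finite G] (m : Min G) {X L : Subgroup G}

/-- no component of type `A₇` -/
theorem Min.not_a7 (hH : IsCoatom 𝐂[m.t]) (h0 : X ≠ ⊥) (hX : X ≤ fittingOf 𝐎(𝐂[m.t])) (hn : 𝐍(X) ≤ L) (ht : m.t ∈ lay L)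
    (e : L = lay L ⊔ 𝐎(L)) (OE : 𝐎(L) ≤ 𝐂(lay L)) : ¬ A7T (L /ₛ 𝐎(L)) := fun h => by
  have t2 := m.inv
  have OL : 𝐎(L) ⊴ L := piCoreOf_normalIn _ _
  have EL := lay_normalIn L
  have tL := EL.1 ht
  have oO := odd_core L
  have eC := quo_cent_inv t2 (OL.2 tL) oO (le_normalizer tL)
  obtain ⟨-, u, V, W, -, eu, hV, -, tV, -, VC, -, Vu, -⟩ := h.cen _ (qel_mem_quo _ tL) (inv2_qel t2 (OL.2 tL) oO)
  obtain ⟨b, bV, b1, bt⟩ := hV.exists tV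
  obtain ⟨x, hx, rfl⟩ := (mem_quo (inf_le_left.trans OL.2)).1 (eC ▸ VC bV)
  have xN := OL.2 hx.1
  obtain ⟨k, hk⟩ := oO
  have xx : x * x ∈ 𝐎(L) := (qel_eq_one_iff (mul_mem xN xN)).1 (by rw [pel_mul _ xN xN]; exact hV.sq _ bV)
  have ev : qel 𝐎(L) (x ^ (2 * k + 1)) = qel 𝐎(L) x := by
    rw [pow_succ, pow_mul, sq, pel_mul _ (pow_mem (mul_mem xN xN) k) xN, qel_eq_one (pow_mem xx k), one_mul]
  have v2 : Inv2 (x ^ (2 * k + 1)) := ⟨by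
    rw [← (Commute.refl x).mul_pow, ← hk]; exact orderOf_dvd_iff_pow_eq_one.1 (orderOf_dvd_card_of_mem xx),
    fun e => b1 (by rw [← ev, e, pel_one])⟩
  have vL := pow_mem hx (2 * k + 1)
  generalize x ^ (2 * k + 1) = v at ev v2 vL
  have vE : v ∈ lay L := mem_of_mem_sup (odd_core L) (OL.1.trans EL.2) (by rw [sup_comm, ← e]; exact vL.1) v2.piElt
  have FH : fittingOf 𝐎(𝐂[m.t]) ⊴ 𝐂[m.t] := (piCoreOf_normalIn _ _).fittingOf
  set F := fittingOf 𝐎(𝐂[m.t])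
  have oF : Odd (Nat.card ↥(F ⊓ L)) := (odd_core _).of_dvd_nat (card_dvd_of_le (inf_le_left.trans (fittingOf_le _)))
  have nF : F ⊓ L ⊴ L ⊓ 𝐂[m.t] := ⟨le_inf inf_le_right (inf_le_left.trans FH.1),
    norms_inf (inf_le_right.trans FH.2) (inf_le_left.trans le_normalizer)⟩
  refine m.not_cent hH h0 hX hn v2 (fun e => bt (by rw [← ev, e])) vL.2 (mem_cent_iff_le_cent1.1 (zpowers_le.1
    ((copAct_inv v2.sq oF (nF.2 vL)).cents_of_comm_le ?_ (zpowers_le.2 (cents_symm OE vE)))))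
  refine (quo_cents_iff (inf_le_right.trans OL.2) (zpowers_le.2 (OL.2 vL.1))).1 ?_
  rw [quo_zpowers (OL.2 vL.1), ev, cent_zpowers]
  refine le_trans (le_piCoreOf (eC ▸ nF.quo _) (odd_iff.1 (odd_card_quo oF _))) (eu ▸ zpowers_le.2 ?_)
  exact mem_cent1_comm.1 (Vu bV)

theorem Min.al (hH : IsCoatom 𝐂[m.t]) (h0 : X ≠ ⊥) (hX : X ≤ fittingOf 𝐎(𝐂[m.t]))
    (hL : IsCoatom L) (hn : 𝐍(X) ≤ L) (ht : m.t ∈ lay L) : Nonempty (Al m) := by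
  obtain ⟨E, -, ⟨X, L, h0, hX, hL, hn, ht, rfl⟩, hmax⟩ := exists_maximal_ge
    (fun E => ∃ X L : Subgroup G, X ≠ ⊥ ∧ X ≤ fittingOf 𝐎(𝐂[m.t]) ∧ IsCoatom L ∧ 𝐍(X) ≤ L ∧ m.t ∈ lay L ∧ E = lay L)
    ⟨X, L, h0, hX, hL, hn, ht, rfl⟩
  have t2 := m.inv
  have hE : lay L ≠ ⊥ := ne_bot_of_mem ht t2.ne
  have OL : 𝐎(L) ⊴ L := piCoreOf_normalIn _ _
  have EL := lay_normalIn L
  have OE : 𝐎(L) ≤ 𝐂(lay L) := (m.cent_lay hL.1 hE).ge.trans inf_le_right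
  have FH : fittingOf 𝐎(𝐂[m.t]) ⊴ 𝐂[m.t] := (piCoreOf_normalIn _ _).fittingOf
  have nE : ∀ M : Subgroup G, IsCoatom M → lay M ≠ ⊥ → 𝐍(lay M) = M := fun M hM h1 =>
    coatom_norm hM (lay_normalIn M).2 (m.norm_ne h1 fun e => hM.1 (top_le_iff.1 (e ▸ lay_le M)))
  rcases m.cmp hL.1 hE with ⟨P, q, c⟩ | ⟨e, h⟩
  swap
  · exact (m.not_a7 hH h0 hX hn ht e OE h).elim
  obtain ⟨D, T, hD, DO, eC, nT, cT, ev, tT, cy, iv, al⟩ := c.tor m.t (EL.1 ht) t2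
  have TE : T ≤ lay L ⊓ 𝐂[m.t] := hD.le.trans (eC ▸ le_sup_left)
  have TL : T ≤ L := (TE.trans inf_le_left).trans EL.1
  have al' := al _ (le_inf inf_le_right (inf_le_left.trans FH.1)) (nilpotent_of_le (fittingOf_nilpotent _) inf_le_left)
    ((odd_core _).of_dvd_nat (card_dvd_of_le (inf_le_left.trans (fittingOf_le _))))
    (norms_inf ((TE.trans inf_le_right).trans FH.2) (TL.trans le_normalizer))
  refine ⟨⟨L, P, D, T, q, hH, hL, ht, c, hD, DO, eC, nT, cT, ev.1 ht, tT ht, fun y hy h => (cy y hy h).1, iv, al',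
    fun B1 => ?_, fun Y hY Y1 => ?_⟩⟩
  · have e : L = 𝐂[m.t] := (hH.le_iff.1 (m.norm_cyc hH h0 hX hn hD.cyc OL.2 TL al' B1 ▸ hn)).resolve_left hL.1
    exact hE (lay_eq_bot_of_solvable (solvable_of_le (m.solv_cent t2) (e ▸ lay_le L)))
  · have YF := hY.trans inf_le_left
    obtain ⟨M, hM, hN⟩ := exists_isCoatom_ge (m.norm_ne Y1 fun e => hH.1 (top_le_iff.1 (e ▸ YF.trans FH.1)))
    have EM : lay L ≤ M := ((cents_symm ((hY.trans inf_le_right).trans OE)).trans (centralizer_le_normalizer _)).trans hN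
    have hE' := m.lay_ne_of hH Y1 YF hM hN hE (lay_der L) EM
    have EE := m.le_lay hM.1 hE' EM (lay_der L)
    have e := hmax _ ⟨Y, M, Y1, YF, hM, hN, EE ht, rfl⟩ EE
    rwa [← nE L hL hE, ← e, nE M hM hE']

end CA.GW
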