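/-
Gorenstein–Walter theorem, case II: basic facts.
-/
import Cfsg.Agent.Lib.GW.Al
import Cfsg.Agent.Lib.GW.Kit
import Cfsg.Agent.Lib.G.Critical

set_option autoImplicit false
set_option linter.unusedSectionVars false

namespace CA.GW
open Cfsg CA CA.FStar Subgroup
universe u
variable {G : Type u} [Group G] [Finite G]

/-- subgroups of index `r` over `B` inside `C`, `|C : B| = r²` -/
theorem lines {B C : Subgroup G} {r : ℕ} (hr : r.Prime) (hBC : B ≤ C) (h : B.relIndex C = r ^ 2) {𝒮 : Set (Subgroup G)}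
    (hS : ∀ X ∈ 𝒮, B ≤ X ∧ X ≤ C ∧ B.relIndex X = r) : 𝒮.ncard ≤ r + 1 := by
  classical
  have := Fintype.ofFinite G
  have key : ∀ X : Subgroup G, B ≤ X → (Finset.univ.filter fun g => g ∈ X ∧ g ∉ B).card + Nat.card B =
      Nat.card B * B.relIndex X := fun X hX => by
    rw [card_mul_relIndex hX, Nat.card_eq_fintype_card, Nat.card_eq_fintype_card, Fintype.card_subtype,
      Fintype.card_subtype, ← Finset.card_filter_add_card_filter_not (s := Finset.univ.filter (· ∈ X)) (· ∈ B),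
      Finset.filter_filter, Finset.filter_filter, add_comm]
    congr 2
    exact Finset.filter_congr fun g _ => ⟨fun h => ⟨hX h, h⟩, fun h => h.2⟩
  have fin := Set.toFinite 𝒮
  have h1 : (fin.toFinset.biUnion fun X => Finset.univ.filter fun g => g ∈ X ∧ g ∉ B).card ≤
      (Finset.univ.filter fun g => g ∈ C ∧ g ∉ B).card :=
    Finset.card_le_card fun g hg => by
      obtain ⟨X, h1, h2⟩ := Finset.mem_biUnion.1 hg
      rw [Finset.mem_filter] at h2 ⊢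
      exact ⟨h2.1, (hS X (fin.mem_toFinset.1 h1)).2.1 h2.2.1, h2.2.2⟩
  obtain ⟨s, rfl⟩ : ∃ s, r = s + 1 := ⟨r - 1, by have := hr.pos; omega⟩
  rw [Finset.card_biUnion fun X hX Y hY hne => Finset.disjoint_filter.2 fun g _ a b => ?_,
    Finset.sum_const_nat (m := Nat.card B * s) fun X hX => ?_, ← Set.ncard_eq_toFinset_card _ fin] at h1
  · have h2 := key C hBC
    have h3 := card_pos' B
    have h4 := hr.two_le
    rw [h] at h2
    exact Nat.le_of_mul_le_mul_right (c := Nat.card B * s) (by nlinarith) (Nat.mul_pos h3 (by omega))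
  · have h2 := hS X (fin.mem_toFinset.1 hX)
    have h3 := key X h2.1
    rw [h2.2.2, mul_add, mul_one] at h3
    omega
  · obtain ⟨a1, -, a2⟩ := hS X (fin.mem_toFinset.1 hX)
    obtain ⟨b1, -, b2⟩ := hS Y (fin.mem_toFinset.1 hY)
    have c : ∀ X Y : Subgroup G, B ≤ X → B ≤ Y → B.relIndex X = s + 1 → g ∈ X → g ∈ Y → X ≤ Y := fun X Y a1 b1 a2 c1 c2 => by
      have d := relIndex_mul_relIndex B (Y ⊓ X) X (le_inf b1 a1) inf_le_right
      rw [a2] at d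
      rcases (Nat.dvd_prime hr).1 (Dvd.intro _ d) with e | e
      · exact absurd (relIndex_eq_one.1 e ⟨c2, c1⟩) a.2
      · rw [e, Nat.mul_eq_left hr.ne_zero, relIndex_eq_one] at d
        exact d.trans inf_le_left
    exact hne (le_antisymm (c X Y a1 b1 a2 a.1 b.1) (c Y X b1 a1 b2 b.1 a.1))

namespace Al
variable {m : Min G} (a : Al m) {x v w : G}

theorem E0 : a.E ≠ ⊥ := ne_bot_of_mem a.tE m.inv.ne
theorem nE : 𝐍(a.E) = a.L :=
  ((a.hL.le_iff.1 (lay_normalIn _).2).resolve_left (m.norm_ne a.E0 (ne_top_of_le_ne_top a.hL.1 (lay_le _))))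
theorem OE : a.O ≤ 𝐂(a.E) := (m.cent_lay a.hL.1 a.E0).ge.trans inf_le_right
theorem DE : a.D ≤ a.E ⊓ a.H := a.cE ▸ le_sup_left
theorem TE : a.T ≤ a.E ⊓ a.H := a.dih.le.trans a.DE
theorem OH : a.O ≤ a.H := a.OE.trans (cent_le_cent1 a.tE)
theorem OU : a.O ≤ a.U := fun _ hx => m.mem_core m.inv (a.OH hx) (odd_of_mem (odd_core _) hx)
theorem UH : a.U ≤ a.H := piCoreOf_le _ _
theorem FU : a.F ≤ a.U := (fittingOf_normalIn _).1
theorem nU : a.H ≤ 𝐍(a.U) := piCoreOf_norm _ _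
theorem nF : a.H ≤ 𝐍(a.F) := norms_fittingOf a.nU
theorem oddF (hx : x ∈ a.F) : Odd (orderOf x) := odd_of_mem (odd_core _) (a.FU hx)
theorem qs : QS a.E := m.lay_qs a.hL.1 a.E0
theorem not_le : ¬ a.H ≤ a.L := fun h =>
  a.qs.not_le_of_solvable (m.solv_cent m.inv) ((lay_le _).trans ((a.hH.le_iff.1 h).resolve_left a.hL.1).le)
theorem ω_gt : 1 < a.ω := one_lt_relIndex a.not_le
theorem ti (hx : x ∉ a.L) : a.W ⊓ cj x a.W = ⊥ := by
  by_contra h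
  have h1 : cj x a.E ≤ a.L := ((cj_mono x (cents_symm (inf_le_right.trans a.OE))).trans (cj_centralizer x a.W).le).trans
    ((cent_mono inf_le_right).trans ((centralizer_le_normalizer _).trans (a.NW _ inf_le_left h)))
  exact hx (a.nE ▸ mem_normalizer_of_cj_le (m.le_lay a.hL.1 a.E0 h1 (a.qs.cj x).der))
theorem nW : a.H ⊓ a.L ≤ 𝐍(a.W) :=
  norms_inf (inf_le_left.trans a.nF) (inf_le_right.trans (piCoreOf_norm _ _))
theorem ex_v : ∃ v ∈ a.D, v ∉ a.T ∧ Inv2 v ∧ v ≠ m.t := by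
  obtain ⟨v, h1, h2⟩ := a.dih.exists
  exact ⟨v, h1, h2, a.dih.inv2 h1 h2, fun e => h2 (e ▸ a.tT)⟩
theorem comm (hw : w ∈ a.O) (hx : x ∈ a.E) : w * x = x * w := (mem_cent_iff.1 (a.OE hw) x hx).symm
theorem dec (hx : x ∈ a.F ⊓ a.L) : ∃ w ∈ a.W, ∃ k ∈ a.F ⊓ a.T, x = w * k := by
  obtain ⟨o, ho, c, hc, rfl⟩ := (mem_sup_of_norm_right
    ((a.TE.trans (inf_le_left.trans (lay_le _))).trans (piCoreOf_norm _ _))).1 (a.al hx)
  obtain ⟨v, h1, h2, -⟩ := a.ex_v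
  have h3 := a.comm ho (a.TE hc).1
  have h4 : c * c ∈ a.F := by
    have := mul_mem (inv_mem (conj_mem_of_mem_normalizer (a.nF (a.DE h1).2) hx.1)) hx.1
    rwa [← conj_mul, a.dih.inv h1 h2 hc, ← a.comm ho (a.DE h1).1, mul_inv_cancel_right, mul_inv_rev, inv_inv,
      mul_assoc, inv_mul_cancel_left] at this
  have h5 : Odd (orderOf c) := odd_elt_iff.2 (by
    have := (odd_elt_iff.1 (odd_of_mem (odd_core _) ho)).inv.mul (odd_elt_iff.1 (a.oddF hx.1))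
      (by rw [inv_mul_cancel_left, h3, mul_inv_cancel_right])
    rwa [inv_mul_cancel_left] at this)
  have h6 : c ∈ a.F := by
    obtain ⟨k, hk⟩ := h5
    have := pow_mem h4 (k + 1)
    rwa [← pow_two, ← pow_mul, show 2 * (k + 1) = orderOf c + 1 by omega, pow_succ, pow_orderOf_eq_one, one_mul] at this
  exact ⟨o, ⟨by simpa using a.F.mul_mem hx.1 (a.F.inv_mem h6), ho⟩, c, ⟨h6, hc⟩, rfl⟩
theorem cW (hv : v ∈ a.E ⊓ a.H) (v2 : Inv2 v) (vt : v ≠ m.t) : a.F ⊓ 𝐂[v] = a.W := by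
  have h1 : a.W ≤ a.F ⊓ 𝐂[v] := inf_le_inf_left _ (a.OE.trans (cent_le_cent1 hv.1))
  refine (eq_of_inf_normalizer_le_nil (nilpotent_of_le (fittingOf_nilpotent _) inf_le_left) h1 fun x hx => ?_).symm
  obtain ⟨w, hw, k, hk, rfl⟩ := a.dec ⟨hx.1.1, a.NW _ le_rfl a.W0 hx.2⟩
  have h2 : k ∈ 𝐂[v] := by simpa using (𝐂[v]).mul_mem ((𝐂[v]).inv_mem (h1 hw).2) hx.1.2
  rwa [eq_one_of_cent_inv (a.oddF hk.1) (mem_cent1_iff.1 h2).symm (a.iv v ⟨lay_le _ hv.1, hv.2⟩ v2 vt k hk.2), mul_one]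
/-- the only involution of `E` centralizing an element of order `> 2` of `T` is `t` -/
theorem inv_eq (hx : x ∈ a.T) (h2 : x * x ≠ 1) (hv : v ∈ a.E ⊓ 𝐂[x]) (v2 : Inv2 v) : v = m.t := by
  by_contra h
  have h1 : v ∈ a.H := (sup_le (a.TE.trans inf_le_right) (inf_le_right.trans a.OH) : _ ≤ a.H) (a.cy x hx h2 ▸ hv)
  have h3 := a.iv v ⟨lay_le _ hv.1, h1⟩ v2 h x hx
  rw [mem_cent1_iff.1 hv.2, mul_inv_cancel_right] at h3
  exact h2 (mul_eq_one_iff_eq_inv.2 h3)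
theorem τ_cases : a.τ' + 1 = a.τ ∨ a.τ' = a.τ + 1 := by
  have := a.cT; have := a.cl.five; simp only [τ', τ]; omega
theorem q_eq : a.q = a.τ + a.τ' := by
  have := a.cT; have := a.cl.five; simp only [τ', τ]; omega
theorem idxE : a.H.relIndex a.E = a.q * a.τ' := by
  have h1 := card_inf_mul_relIndex a.O a.E
  have h2 := card_inf_mul_relIndex a.H a.E
  have h3 := a.cl.card
  have h4 : a.E ⊓ a.O ⊓ a.H = a.O ⊓ a.E := by rw [inf_eq_left.2 (inf_le_right.trans a.OH), inf_comm]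
  rw [inf_comm, a.cE, h4, card_sup_of_disjoint (Or.inr (norms_of_cents (cents_symm (inf_le_left.trans
    (a.OE.trans (cent_mono (a.DE.trans inf_le_left))))))) (le_bot_iff.1 (a.DO ▸ inf_le_inf_left _ inf_le_left)),
    a.dih.card, ← h1, mul_right_comm, mul_comm (Nat.card ↥(a.O ⊓ a.E))] at h2
  have h5 := Nat.eq_of_mul_eq_mul_right (card_pos' _) h2
  have h6 : a.q ^ 2 - 1 = 4 * a.τ * a.τ' := by
    rw [a.q_eq]; rcases a.τ_cases with h | h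
    · rw [← h]; exact Nat.sub_eq_of_eq_add (by ring)
    · rw [h]; exact Nat.sub_eq_of_eq_add (by ring)
  refine Nat.eq_of_mul_eq_mul_left (Nat.mul_pos four_pos (card_pos' a.T)) ?_
  rw [h6, ← h5] at h3; linarith
theorem cls (hx : x ∈ a.L) : ∃ e ∈ a.E, ∃ h ∈ a.H ⊓ a.L, x = e * h := by
  have h1 := conj_mem_of_mem_normalizer ((lay_normalIn _).2 hx) a.tE
  obtain ⟨g, hg, e⟩ := m.lay_conj a.hL.1 a.E0 (lay_le _ a.tE) (lay_le _ h1) m.inv (m.inv.conj x) (iff_of_true a.tE h1)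
  obtain ⟨y, hy, o, ho, rfl⟩ := (mem_sup_of_norm_right (norms_of_cents a.OE)).1 hg
  refine ⟨y, hy, y⁻¹ * x, ⟨mem_cent1_iff.2 ?_, a.L.mul_mem (a.L.inv_mem (lay_le _ hy)) hx⟩, by group⟩
  rw [mul_assoc y, a.comm ho a.tE] at e
  calc _ = y⁻¹ * (x * m.t * x⁻¹) * x := by group
    _ = _ := by rw [← e]; group
/-- `|L : H ∩ L| = q τ'` -/
theorem idxL : a.H.relIndex a.L = a.q * a.τ' := by
  rw [← a.idxE, ds_relIndex, ds_relIndex]
  congr 1
  refine Set.ext fun y => ⟨fun ⟨x, hx, e⟩ => ?_, fun ⟨x, hx, e⟩ => ⟨x, lay_le _ hx, e⟩⟩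
  obtain ⟨c, hc, h, hh, rfl⟩ := a.cls hx
  exact ⟨c, hc, by rw [e, mul_assoc c, mem_cent1_iff.1 hh.1]; group⟩
theorem N_mul : a.H.index * a.ω = a.L.index * (a.q * a.τ') := by
  rw [← a.idxL, mul_comm, mul_comm a.L.index, ω, ← inf_relIndex_right, relIndex_mul_index inf_le_right,
    ← inf_relIndex_right, relIndex_mul_index inf_le_right, inf_comm]
theorem mem_R {r : ℕ} (hx : x ∈ a.F) (h : PiElt {r} x) : x ∈ piCoreOf {r} a.U :=
  piCoreOf_singleton_fittingOf r a.U ▸ (mem_piCoreOf_of_nilpotent (fittingOf_nilpotent _) hx).2 h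
theorem pow_eq {k : G} {r : ℕ} (hw : w ∈ a.O) (hk : k ∈ a.T) (h : (w * k) ^ r = 1) : w ^ r = 1 ∧ k ^ r = 1 := by
  rw [Commute.mul_pow (a.comm hw (a.TE hk).1)] at h
  have h1 : k ^ r = 1 := mem_bot.1 (a.DO ▸ mem_inf.2 ⟨a.dih.le (pow_mem hk r),
    eq_inv_of_mul_eq_one_right h ▸ inv_mem (pow_mem hw r)⟩)
  exact ⟨by rwa [h1, mul_one] at h, h1⟩
theorem mem_zp {k z : G} {r : ℕ} (hr : r.Prime) (hz : z ∈ a.T) (oz : orderOf z = r) (hk : k ∈ a.T) (h : k ^ r = 1) :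
    k ∈ zpowers z :=
  haveI := Fact.mk hr
  omega1_le_of_isCyclic a.dih.cyc (zpowers_le.2 hz) (by rw [Nat.card_zpowers, oz]) (mem_omega1_of hk h)
theorem ex_r {r : ℕ} (hr : r.Prime) (h : r ∣ Nat.card a.W) : ∃ b : Alr m, b.toAl = a ∧ b.r = r := by
  have := Fact.mk hr
  obtain ⟨y, hy, oy⟩ := exists_orderOf_eq_prime hr h
  have nR : a.H ≤ 𝐍(piCoreOf {r} a.U) := norms_piCoreOf _ a.nU
  have RF := piCoreOf_singleton_le_fittingOf r a.U
  obtain ⟨g, g1, g2⟩ : ∃ g, g ∉ a.L ∧ g ∈ a.H ⊓ 𝐍(piCoreOf {r} a.U ⊓ a.L) := by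
    by_cases c : piCoreOf {r} a.U ≤ a.L
    · obtain ⟨g, g1, g2⟩ := SetLike.not_le_iff_exists.1 a.not_le
      exact ⟨g, g2, g1, by rw [inf_eq_left.2 c]; exact nR g1⟩
    · obtain ⟨g, g1, g2⟩ := SetLike.exists_of_lt (lt_inf_normalizer_nil (piCoreOf_piGrp {r} a.U).nilpotent
        (inf_lt_left.2 c))
      exact ⟨g, fun e => g2 ⟨g1.1, e⟩, a.UH (piCoreOf_le _ _ g1.1), g1.2⟩
  have key : ∀ w ∈ a.W, w ^ r = 1 → ∃ o ∈ a.W, ∃ k ∈ a.F ⊓ a.T, k ^ r = 1 ∧ g * w * g⁻¹ = o * k := fun w hw e => by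
    have h1 := conj_mem_of_mem_normalizer g2.2 (mem_inf.2 ⟨a.mem_R hw.1 (piElt_of_pow_eq_one
      ((piNum_prime hr).2 rfl) e), piCoreOf_le _ _ hw.2⟩)
    obtain ⟨o, ho, k, hk, e'⟩ := a.dec ⟨RF h1.1, h1.2⟩
    exact ⟨o, ho, k, hk, (a.pow_eq ho.2 hk.2 (by rw [← e', conj_pow, e, mul_one, mul_inv_cancel])).2, e'⟩
  have triv : ∀ w ∈ a.W, g * w * g⁻¹ ∈ a.W → w = 1 := fun w hw e =>
    conj_eq_one_iff.1 (mem_bot.1 (a.ti g1 ▸ mem_inf.2 ⟨e, conj_mem_cj.2 hw⟩))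
  obtain ⟨o, ho, z, hz, z1, e⟩ := key y hy (oy ▸ pow_orderOf_eq_one y)
  have oz : orderOf z = r := orderOf_eq_prime z1 fun c => hr.one_lt.ne' (by
    rw [← oy, triv y hy (by rwa [e, c, mul_one]), orderOf_one])
  refine ⟨⟨a, r, y, z, hr, oy, oz, hy, hz, fun w hw w1 => ?_⟩, rfl, rfl⟩
  obtain ⟨o', ho', k, hk, k1, e'⟩ := key w hw w1
  obtain ⟨n, rfl⟩ := a.mem_zp hr hz.2 oz hk.2 k1
  refine ⟨n, mul_inv_eq_one.1 (triv _ (mul_mem (zpow_mem hy n) (inv_mem hw)) ?_)⟩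
  rw [← conj_mul, ← conj_inv, ← conj_zpow, e, e', Commute.mul_zpow (a.comm ho.2 (a.TE hz.2).1), mul_inv_rev, mul_assoc,
    mul_inv_cancel_left]
  exact mul_mem (zpow_mem ho n) (inv_mem ho')
end Al

namespace Alr
variable {m : Min G} (a : Alr m) {x : G} {N : Subgroup G}
theorem r2 : a.r ≠ 2 := fun h => by
  have := a.oddF a.yW.1
  rw [a.oy, h] at this
  exact absurd this (by decide)
theorem two_r : 2 * a.r ∣ a.τ :=
  ((Nat.coprime_primes Nat.prime_two a.hr).2 a.r2.symm).mul_dvd_of_dvd_of_dvd a.ev.two_dvd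
    (a.oz ▸ orderOf_dvd_card_of_mem a.zK.2)
theorem y1 : a.y ≠ 1 := fun h => a.hr.one_lt.ne' (by rw [← a.oy, h, orderOf_one])
theorem z1 : a.z ≠ 1 := fun h => a.hr.one_lt.ne' (by rw [← a.oz, h, orderOf_one])
theorem yr : a.y ^ a.r = 1 := a.oy ▸ pow_orderOf_eq_one _
theorem zr : a.z ^ a.r = 1 := a.oz ▸ pow_orderOf_eq_one _
theorem yz : a.y * a.z = a.z * a.y := a.comm a.yW.2 (a.TE a.zK.2).1
theorem omA (hx : x ∈ a.F ⊓ a.L) (h : x ^ a.r = 1) : x ∈ a.A := by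
  obtain ⟨w, hw, k, hk, rfl⟩ := a.dec hx
  obtain ⟨h1, h2⟩ := a.pow_eq hw.2 hk.2 h
  exact mul_mem_sup (a.omW w hw h1) (a.mem_zp a.hr a.zK.2 a.oz hk.2 h2)
theorem YZ : zpowers a.y ⊓ zpowers a.z = ⊥ :=
  le_bot_iff.1 (a.DO ▸ le_inf (inf_le_right.trans (zpowers_le.2 (a.dih.le a.zK.2))) (inf_le_left.trans (zpowers_le.2 a.yW.2)))
theorem cardA : Nat.card a.A = a.r ^ 2 := by
  rw [card_sup_of_disjoint (Or.inr (norms_zpowers_of_cent1 (zpowers_le.2 (mem_cent1_iff.2 a.yz)))) a.YZ,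
    Nat.card_zpowers, Nat.card_zpowers, a.oy, a.oz, pow_two]
theorem nY0 : 𝐍(zpowers a.y) ≤ a.L := a.NW _ (zpowers_le.2 a.yW) (ne_bot_of_mem (mem_zpowers _) a.y1)
theorem cY : 𝐂[a.y] ≤ a.L := (norms_zpowers_of_cent1 le_rfl).trans a.nY0
theorem nY : a.H ⊓ 𝐍(zpowers a.y) = a.H ⊓ a.L :=
  le_antisymm (inf_le_inf_left _ a.nY0) fun g hg => ⟨hg.1, mem_normalizer_of_cj_le (by
    rw [cj_zpowers, zpowers_le]
    exact a.omW _ (conj_mem_of_mem_normalizer (a.nW hg) a.yW) (by rw [conj_pow, a.yr, mul_one, mul_inv_cancel]))⟩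
theorem nY' : 𝐍(zpowers a.y) = a.L :=
  le_antisymm a.nY0 fun g hg => by
    obtain ⟨e, he, h, hh, rfl⟩ := a.cls hg
    exact mul_mem (norms_zpowers_of_cent1 le_rfl (mem_cent1_iff.2 (a.comm a.yW.2 he).symm)) (a.nY.ge hh).2
theorem yp : PiElt {a.r} a.y := (piElt_of_orderOf_prime a.hr a.oy).2 rfl
theorem zp : PiElt {a.r} a.z := (piElt_of_orderOf_prime a.hr a.oz).2 rfl
theorem yR : a.y ∈ a.R := a.mem_R a.yW.1 a.yp
theorem zR : a.z ∈ a.R := a.mem_R a.zK.1 a.zp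
theorem RF : a.R ≤ a.F := piCoreOf_singleton_le_fittingOf _ _
theorem nR : a.H ≤ 𝐍(a.R) := norms_piCoreOf _ a.nU
theorem nK' : a.H ≤ 𝐍(a.K') := norms_piCoreOf _ a.nF
theorem dp : DProd a.R a.K' a.F := dprod_fittingOf_singleton _ _
theorem K'R : a.K' ≤ 𝐂(a.R) := cents_symm (cents_of_pi_nil (fittingOf_nilpotent _) a.RF (piCoreOf_le _ _)
  (piCoreOf_piGrp _ _) (piCoreOf_piGrp _ _))
theorem K'_le : a.K' ≤ a.L := a.K'R.trans ((cent_le_cent1 a.yR).trans a.cY)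
/-- an `r'`-element of `H` centralizing `y` and `z` centralizes `O_r(U)` -/
theorem cent_R (hx : x ∈ a.H) (hp : PiElt {a.r}ᶜ x) (hy : x ∈ 𝐂[a.y]) (hz : x ∈ 𝐂[a.z]) : x ∈ 𝐂(a.R) := by
  have := Fact.mk a.hr
  have h1 : CopAct a.R (zpowers x) := copAct_p_left (zpowers_le.2 (a.nR hx)) (piCoreOf_piGrp _ _) (piGrp_zpowers.2 hp)
  refine zpowers_le.1 (h1.cents_of_nil_self_cent (piCoreOf_piGrp _ _).nilpotent (E := a.R ⊓ a.L) inf_le_left ?_
    (inf_le_inf_left _ ((cent_le_cent1 (mem_inf.2 ⟨a.yR, piCoreOf_le _ _ a.yW.2⟩)).trans a.cY)))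
  refine (h1.inf (norms_self_of_le (zpowers_le.2 (a.cY hy)))).cents_of_omega1 a.r2
    (((piCoreOf_piGrp _ _).inf_left _).isPGroup a.hr) (zpowers_le.2 (cent_mono (B := a.A)
      (omega1_le_iff.2 fun g (hg : g ∈ a.R ⊓ a.L) e => a.omA ⟨a.RF hg.1, hg.2⟩ e) ?_))
  rw [cent_sup, cent_zpowers, cent_zpowers]
  exact ⟨hy, hz⟩
/-- STAB -/
theorem stab (hN : N ⊴ a.U) (h1 : N ≤ 𝐂(a.K')) (h2 : ∀ x ∈ N, PiElt {a.r}ᶜ x → x ∈ 𝐂(a.R)) : N ≤ a.F := by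
  have h3 : ∀ p, p ≠ a.r → ∀ P, SylowIn p P N → P ≤ a.K' := fun p hp P hP x hx => by
    have e : PiElt {a.r}ᶜ x := (hP.piGrp.compl_singleton (fun e => hp (Set.mem_singleton_iff.1 e).symm)).piElt hx
    exact (mem_piCoreOf_of_nilpotent (fittingOf_nilpotent _) (cent_le_fittingOf (solv_core _) ⟨hN.1 (hP.le hx), by
      show x ∈ 𝐂(a.F)
      rw [← a.dp.sup_eq, cent_sup]; exact ⟨h2 x (hP.le hx) e, h1 (hP.le hx)⟩⟩)).2 e
  obtain ⟨S, hS⟩ := exists_sylowIn a.r N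
  have h4 : N ≤ 𝐍(S) := le_of_forall_sylowIn_le fun p _ _ => by
    by_cases e : p = a.r
    · exact ⟨S, e ▸ hS, le_normalizer⟩
    · obtain ⟨P, hP⟩ := exists_sylowIn p N
      exact ⟨P, hP, norms_of_cents ((h3 p e P hP).trans (cents_symm (hS.le.trans h1)))⟩
  refine le_of_forall_sylowIn_le fun p _ _ => ?_
  by_cases e : p = a.r
  · exact ⟨S, e ▸ hS, (le_piCoreOf ⟨hS.le, h4⟩ hS.piGrp).trans ((piCoreOf_le_of_normalIn _ hN).trans a.RF)⟩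
  · obtain ⟨P, hP⟩ := exists_sylowIn p N
    exact ⟨P, hP, (h3 p e P hP).trans (piCoreOf_le _ _)⟩
end Alr

end CA.GW
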