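/-
Gorenstein–Walter theorem, case II: outer and inner involutions of `L`.
-/
import Cfsg.Agent.Lib.GW.Al1
import Cfsg.Agent.Lib.GW.Over

set_option autoImplicit false
set_option linter.unusedSectionVars false

namespace CA.GW
open Cfsg CA CA.FStar Subgroup
universe u
variable {G : Type u} [Group G] [Finite G]

theorem relIndex_of_sup {A B C : Subgroup G} (h : A ≤ 𝐍(B)) (e : B ⊔ A = C) : A.relIndex C = A.relIndex B := by
  rw [← e, sup_comm, relIndex_sup_of_norm' h]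

namespace Al
variable {m : Min G} (a : Al m) {s v x : G}

theorem cop_τ : a.τ'.Coprime a.τ := by
  rcases a.τ_cases with h | h
  · rw [← h]; simp
  · rw [h]; simp

/-- every prime divisor of `|[O, L]|` divides `|W|` -/
theorem dvd_W {l : ℕ} (hl : l.Prime) (h : l ∣ Nat.card ↥⁅a.O, a.L⁆) : l ∣ Nat.card a.W := by
  by_contra hW
  obtain ⟨x, hx, ox⟩ := exists_orderOf_eq_prime hl h
  have xO : x ∈ a.O := comm_le_left (piCoreOf_norm _ _) hx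
  refine hW (ox ▸ orderOf_dvd_card_of_mem ⟨cent_le_fittingOf (solv_core _) ⟨a.OU xO, ?_⟩, xO⟩)
  refine mem_cent_iff_le_cent1.2 (le_of_forall_sylowIn_le fun r hr _ =>
    ⟨_, hall_piCoreOf_of_nilpotent (fittingOf_nilpotent _) _, ?_⟩)
  by_cases e : r ∣ Nat.card a.W
  · obtain ⟨b, rfl, rfl⟩ := a.ex_r hr e
    rw [piCoreOf_singleton_fittingOf]
    refine mem_cent_iff_le_cent1.1 (b.cent_R (b.OH xO) ((piElt_of_orderOf_prime hl ox).2 fun e' => hW (e' ▸ e)) ?_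
      (mem_cent1_iff.2 (b.comm xO (b.TE b.zK.2).1)))
    exact cent_zpowers b.y ▸ der_cents_of_norms_cyclic (isCyclic_zpowers _) b.nY'.ge
      (commutator_mono (piCoreOf_le _ _) le_rfl hx)
  obtain ⟨r0, h0, h1⟩ := exists_prime_dvd_card a.W0
  obtain ⟨b, rfl, rfl⟩ := a.ex_r h0 h1
  intro y hy
  have yp := (piCoreOf_piGrp _ _).piElt hy
  obtain ⟨w, hw, k, hk, rfl⟩ := b.dec ⟨piCoreOf_le _ _ hy, b.K'_le (piCoreOf_mono_pi
    (ρ := {b.r}ᶜ) (Set.singleton_subset_iff.2 fun e' : r = b.r => e (e' ▸ h1)) _ hy)⟩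
  obtain ⟨n, hn⟩ := (piElt_singleton_iff' hr).1 yp
  have w1 : w = 1 := ((piElt_singleton_iff' hr).2 ⟨n, (b.pow_eq hw.2 hk.2 hn).1⟩).eq_one
    (((piGrp_compl_singleton hr).2 e).piElt hw)
  rw [w1, one_mul]
  exact mem_cent1_iff.2 (b.comm xO (b.TE hk.2).1).symm

theorem out (h : ¬ a.In) : a.τ' ∣ a.ω := by
  obtain ⟨s, sL, s2, sE⟩ : ∃ s ∈ a.L, Inv2 s ∧ s ∉ a.E := by
    by_contra! e
    exact h e
  obtain ⟨D, T, hD, DO, cE, -, cT, ev, -⟩ := a.cl.tor s sL s2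
  have DE : D ≤ a.E ⊓ 𝐂[s] := cE ▸ le_sup_left
  have hT : Nat.card T = a.τ' := by
    have h1 := a.cT
    have h2 := Nat.even_iff.1 a.ev
    have h3 := Nat.odd_iff.1 (Nat.not_even_iff_odd.1 fun e => sE (ev.2 e))
    have h4 := a.q_eq
    simp only [τ] at h4
    omega
  have nO : a.L ≤ 𝐍(a.O) := piCoreOf_norm _ _
  have EL : a.O ⊔ a.E ≤ a.L := sup_le (piCoreOf_le _ _) (lay_le _)
  have e1 : (𝐂[s]).relIndex a.L = (𝐂[s]).relIndex (a.O ⊔ a.E) := by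
    rw [ds_relIndex, ds_relIndex]
    congr 1
    refine Set.ext fun y => ⟨fun ⟨x, hx, e⟩ => ?_, fun ⟨x, hx, e⟩ => ⟨x, EL hx, e⟩⟩
    obtain ⟨g, hg, e'⟩ := m.lay_conj a.hL.1 a.E0 sL (a.L.mul_mem (a.L.mul_mem hx sL) (a.L.inv_mem hx)) s2 (s2.conj x)
      (iff_of_false sE fun e => sE (by
        simpa [mul_assoc] using conj_inv_mem_of_mem_normalizer ((lay_normalIn _).2 hx) e))
    exact ⟨g, sup_comm a.E a.O ▸ hg, e.trans e'.symm⟩
  have hB : D ⊔ (𝐂[s] ⊓ a.O) ≤ a.O ⊔ a.E :=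
    sup_le (DE.trans (inf_le_left.trans le_sup_right)) (inf_le_right.trans le_sup_left)
  have e2 : (D ⊔ (𝐂[s] ⊓ a.O)).relIndex (a.O ⊔ a.E) = (𝐂[s]).relIndex a.O * (a.q * a.τ) := by
    have h1 := card_mul_relIndex hB
    have h2 := card_mul_relIndex (le_sup_left : a.O ≤ a.O ⊔ a.E)
    have h3 := card_inf_mul_relIndex 𝐂[s] a.O
    have h4 := a.cl.card
    rw [card_sup_of_disjoint (.inl (norms_of_cents (inf_le_right.trans (a.OE.trans (cent_mono (DE.trans inf_le_left))))))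
      (le_bot_iff.1 (DO ▸ inf_le_inf_left _ inf_le_right)), hD.card, hT] at h1
    rw [relIndex_sup_of_norm ((lay_le _).trans nO), ← h1, ← h3] at h2
    have h6 : a.q ^ 2 - 1 = 4 * a.τ * a.τ' := by
      rw [a.q_eq]; rcases a.τ_cases with h | h
      · rw [← h]; exact Nat.sub_eq_of_eq_add (by ring)
      · rw [h]; exact Nat.sub_eq_of_eq_add (by ring)
    rw [h6] at h4
    have h7 : a.O.relIndex a.E = 2 * a.τ' * (a.q * a.τ) := by linarith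
    refine Nat.eq_of_mul_eq_mul_left (Nat.mul_pos (Nat.mul_pos two_pos (hT ▸ card_pos' T)) (card_pos' (𝐂[s] ⊓ a.O))) ?_
    rw [← h2, h7]; ring
  have e3 : (𝐂[s]).relIndex a.O ∣ Nat.card ↥⁅a.O, a.L⁆ := by
    have hc := copAct_inv s2.sq (odd_core a.L) (nO sL)
    rw [← inf_relIndex_left, ← cent_zpowers, relIndex_of_sup (inf_le_left.trans (comm_norm_left _ _)) hc.comm_sup_cent]
    exact (relIndex_dvd_card _ _).trans (card_dvd_of_le' (commutator_mono le_rfl (zpowers_le.2 sL)))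
  have e4 : a.τ'.Coprime ((𝐂[s]).relIndex a.L) := by
    rw [e1]
    refine Nat.Coprime.coprime_dvd_right (relIndex_dvd_of_le_left _ (sup_le (DE.trans inf_le_right)
      (inf_le_left : 𝐂[s] ⊓ a.O ≤ _))) ?_
    rw [e2]
    refine Nat.Coprime.mul_right (Nat.Coprime.coprime_dvd_right e3 (coprime_iff_forall_prime.2 fun l hl h1 h2 => ?_))
      (Nat.Coprime.mul_right (by rw [a.q_eq]; simpa using a.cop_τ) a.cop_τ)
    obtain ⟨b, rfl, rfl⟩ := a.ex_r hl (a.dvd_W hl h2)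
    exact coprime_iff_forall_prime.1 b.cop_τ _ hl h1 ((Dvd.intro_left 2 rfl).trans b.two_r)
  obtain ⟨g, hg⟩ := m.conj' m.inv s2
  obtain ⟨b, hb⟩ : Nat.card ↥(𝐂[s] ⊓ a.L) ∣ Nat.card a.H :=
    (card_dvd_of_le' inf_le_left).trans (by rw [← hg, ← cj_centralizer_singleton, card_cj])
  have h1 := card_inf_mul_relIndex a.L a.H
  have h2 := card_inf_mul_relIndex a.H a.L
  have h3 := card_inf_mul_relIndex 𝐂[s] a.L
  rw [a.idxL, inf_comm, ← h3] at h2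
  refine e4.dvd_of_dvd_mul_right ⟨b * a.q, Nat.eq_of_mul_eq_mul_left (card_pos' (𝐂[s] ⊓ a.L)) ?_⟩
  rw [mul_left_comm, ← h2, ← mul_assoc, mul_comm a.ω, h1, hb]; ring

theorem odd_mem (hx : x ∈ a.E ⊓ a.U) : x ∈ (a.T ⊓ a.U) ⊔ a.O := by
  have h1 : x ∈ a.D ⊔ (a.E ⊓ a.O ⊓ a.H) := a.cE ▸ ⟨hx.1, a.UH hx.2⟩
  obtain ⟨d, hd, z, hz, rfl⟩ := (mem_sup_of_norm_right (norms_of_cents ((inf_le_left.trans inf_le_right).trans
    (a.OE.trans (cent_mono (a.DE.trans inf_le_left)))))).1 h1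
  have h2 : d ∈ a.U := by simpa using a.U.mul_mem hx.2 (a.U.inv_mem (a.OU hz.1.2))
  exact mul_mem (mem_sup_left ⟨a.dih.odd_le (zpowers_le.2 hd) (Nat.card_zpowers d ▸ odd_of_mem (odd_core _) h2)
    (mem_zpowers d), h2⟩) (mem_sup_right hz.1.2)

theorem cU_le (hv : v ∈ a.E ⊓ a.H) (v2 : Inv2 v) (vt : v ≠ m.t) : a.U ⊓ 𝐂[v] ≤ a.L :=
  (a.cW hv v2 vt ▸ norms_inf (inf_le_left.trans (a.UH.trans a.nF)) (inf_le_right.trans le_normalizer) :
    a.U ⊓ 𝐂[v] ≤ 𝐍(a.W)).trans (a.NW _ le_rfl a.W0)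

theorem UL (hv : v ∈ a.E ⊓ a.H) (v2 : Inv2 v) (vt : v ≠ m.t) : a.U ⊓ a.L = (a.T ⊓ a.U) ⊔ (a.U ⊓ 𝐂[v]) := by
  have n : v ∈ 𝐍(a.U ⊓ a.L) := norms_inf (inf_le_left.trans a.nU) (inf_le_right.trans le_normalizer)
    (⟨hv.2, lay_le _ hv.1⟩ : v ∈ a.H ⊓ a.L)
  have hc := copAct_inv v2.sq (odd_card_of_le (odd_core _) inf_le_left) n
  refine le_antisymm (hc.comm_sup_cent.ge.trans (sup_le (fun x hx => ?_) ?_))
    (sup_le (le_inf inf_le_right (inf_le_left.trans (a.TE.trans (inf_le_left.trans (lay_le _)))))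
      (le_inf inf_le_left (a.cU_le hv v2 vt)))
  · exact sup_le_sup_left (le_inf a.OU (a.OE.trans (cent_le_cent1 hv.1))) _ (a.odd_mem ⟨comm_le_right (lay_normalIn _).2
      (commutator_mono inf_le_right (zpowers_le.2 hv.1) hx), (hc.comm_le hx).1⟩)
  · exact cent_zpowers v ▸ (inf_le_inf_right _ inf_le_left).trans le_sup_right

theorem idxU (hv : v ∈ a.E ⊓ a.H) (v2 : Inv2 v) (vt : v ≠ m.t) :
    (𝐂[v]).relIndex a.U = a.L.relIndex a.U * Nat.card ↥(a.T ⊓ a.U) := by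
  have h1 := relIndex_mul_relIndex (a.U ⊓ 𝐂[v]) (a.U ⊓ a.L) a.U (le_inf inf_le_left (a.cU_le hv v2 vt)) inf_le_left
  rw [inf_relIndex_left, inf_relIndex_left, relIndex_of_sup (norms_inf ((le_inf (a.cU_le hv v2 vt)
    (inf_le_left.trans a.UH)).trans a.nT) (inf_le_left.trans le_normalizer)) (a.UL hv v2 vt).symm] at h1
  rw [← h1, mul_comm, ← inf_relIndex_right (a.U ⊓ 𝐂[v]), (eq_bot_iff.2 fun x hx => ?_ : a.U ⊓ 𝐂[v] ⊓ (a.T ⊓ a.U) = ⊥),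
    relIndex_bot_left]
  exact eq_one_of_cent_inv (odd_of_mem (odd_core _) hx.1.1) (mem_cent1_iff.1 hx.1.2).symm
    (a.iv v ⟨lay_le _ hv.1, hv.2⟩ v2 vt x hx.2.1)

theorem inn (h : a.In) : Odd a.ω ∧ ∃ d : DS G, d.t = m.t ∧ d.U = a.U ∧ d.s ∈ a.T ∧ d.r ∈ a.E ∧
    d.s ∈ 𝐂(a.U) ∧ d.k1 = a.ω * Nat.card ↥(a.T ⊓ a.U) ∧ d.k2 = a.ω * Nat.card ↥(a.T ⊓ a.U) ∧
    a.τ = 2 * d.m * Nat.card ↥(a.T ⊓ a.U) ∧ a.U ⊓ a.L = (a.T ⊓ a.U) ⊔ (a.U ⊓ 𝐂[d.r]) ∧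
    ∀ v ∈ a.H, Inv2 v → v ≠ m.t → ∃ h ∈ a.U, h * v * h⁻¹ ∈ a.E := by
  obtain ⟨v, vD, vT, v2, vt⟩ := a.ex_v
  have vE := a.DE vD
  obtain ⟨V, hV, mV⟩ := four_of v2 m.inv vt (mem_cent1_iff.1 vE.2)
  have vV := (mV v).2 (.inr (.inl rfl))
  have tV := (mV m.t).2 (.inr (.inr (.inl rfl)))
  obtain ⟨S, hS, VS⟩ := exists_sylowIn_ge hV.piGrp (hV.le_of (L := a.H ⊓ a.L) vV tV v2.ne m.inv.ne vt
    ⟨vE.2, lay_le _ vE.1⟩ ⟨self_mem_cent1 _, lay_le _ a.tE⟩)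
  have SE : S ≤ a.E := by
    rcases m.two hS.piGrp with e | ⟨R, hR, -⟩
    · exact absurd VS (hV.not_le e)
    · exact hR.le_of_inv fun s h1 h2 => h s (hS.le h1).2 (hR.inv2 h1 h2)
  have SD : S ≤ a.D := fun x hx => mem_of_mem_sup (O := a.E ⊓ a.O ⊓ a.H)
    (odd_card_of_le (odd_core _) (inf_le_left.trans inf_le_right)) (norms_of_cents ((inf_le_left.trans inf_le_right).trans
      (a.OE.trans (cent_mono (a.DE.trans inf_le_left))))) (sup_comm a.D _ ▸ a.cE ▸ ⟨SE hx, (hS.le hx).1⟩) (hS.piGrp.piElt hx)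
  have hH : SylowIn 2 S a.H := by
    refine sylowIn_of_max hS.piGrp (hS.le.trans inf_le_left) fun Q hQ h1 h2 =>
      (eq_of_inf_normalizer_le_nil hQ.nilpotent h1 fun σ hσ => ?_).symm
    have h3 := conj_mem_of_mem_normalizer hσ.2 (VS vV)
    have h4 : σ ∈ a.L := a.NW _ le_rfl a.W0 (mem_normalizer_iff_cj.2 (by
      change cj σ a.W = a.W
      nth_rewrite 1 [← a.cW vE v2 vt]
      rw [cj_inf, cj_eq_of_mem_normalizer (a.nF (h2 hσ.1)), cj_centralizer_singleton]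
      refine a.cW ⟨SE h3, (hS.le h3).1⟩ (v2.conj σ) fun e => vt ?_
      rw [mul_inv_eq_iff_eq_mul, ← mem_cent1_iff.1 (h2 hσ.1)] at e
      exact mul_left_cancel e))
    exact (hS.eq_of_le (le_inf h1 (hS.le.trans inf_le_right)) (inf_le_inf_right _ h2) (hQ.inf_left _)).le ⟨hσ.1, h4⟩
  have hD := a.dih.inf SD fun e => vT (e (VS vV))
  obtain ⟨s, hs, es⟩ := isCyclic_iff_exists_zpowers.1 hD.cyc
  obtain ⟨d, d1, d2, d3, d4, d5⟩ := exists_DS (m.syl_cent m.inv hH).1 (es ▸ hD) (es ▸ ⟨VS tV, a.tT⟩) m.inv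
    (fun _ => m.conj) (VS vV) fun e => vT (es.ge e).2
  have npc := m.npc m.inv (le_refl a.H)
  have sd := npc.sdprod hH
  have eω : a.L.relIndex a.U = a.ω := by
    rw [ω, ← inf_relIndex_right a.L a.H, relIndex_of_sup (inf_le_right.trans a.nU) (le_antisymm
      (sup_le a.UH inf_le_right) (sd.1.ge.trans (sup_le_sup_left (hS.le.trans (inf_comm _ _).le) _))),
      ← inf_relIndex_right _ a.U, ← inf_relIndex_right (a.L ⊓ a.H), inf_assoc, inf_eq_right.2 a.UH]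
  have sv : s * v ∈ a.D := mul_mem (SD hs.1) vD
  have svT : s * v ∉ a.T := fun e => vT (by simpa using a.T.mul_mem (a.T.inv_mem hs.2) e)
  refine ⟨?_, d, d3, d4, d1 ▸ hs.2, d2 ▸ vE.1, ?_, ?_, ?_, ?_, d2 ▸ a.UL vE v2 vt, fun w wH w2 _ => ?_⟩
  · exact (hH.piNum_relIndex_of_le (hS.le.trans inf_le_right)).odd (by simp)
  · have s2 : PiGrp {2} (zpowers s) := es ▸ hS.piGrp.inf_left _
    have nU : zpowers s ≤ a.H := es ▸ inf_le_left.trans hH.le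
    have cU := copAct_p_right (nU.trans a.nU) (piCoreOf_piGrp _ _) s2
    rw [d1]
    refine zpowers_le.1 (cU.cents_of_cents_fitting (solv_core _) ((cU.left a.FU (nU.trans a.nF)).cents_of_nil_self_cent
      (fittingOf_nilpotent _) (E := a.F ⊓ a.L) inf_le_left (cents_symm fun x hx => ?_) (le_inf inf_le_left
        (inf_le_right.trans ((cent_mono (inf_le_inf_left _ (piCoreOf_le _ _))).trans
          ((norms_of_cents le_rfl).trans (a.NW _ le_rfl a.W0)))))))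
    obtain ⟨w, hw, k, hk, rfl⟩ := a.dec hx
    rw [cent_zpowers]
    exact mul_mem (mem_cent1_iff.2 (a.comm hw.2 (a.TE hs.2).1)) (mem_cent1_iff.2 (a.dih.comm hk.2 hs.2))
  · rw [DS.k1, d2, d4, a.idxU vE v2 vt, eω]
  · rw [DS.k2, d1, d2, d4, a.idxU (a.DE sv) (a.dih.inv2 sv svT) (fun e => svT (e ▸ a.tT)), eω]
  · have h1 : SylowIn 2 (S ⊓ a.T) a.T := (hH.of_le SD (a.DE.trans inf_le_right)).inf_normal ⟨a.dih.le, a.dih.norm le_rfl⟩
    rw [τ, ← h1.compl_card (npc.hall.normal_inf' a.nU (a.TE.trans inf_le_right)), es, Nat.card_zpowers, ← d1, d.os]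
  · obtain ⟨g, hg, e⟩ := hH.exists_conj_mem wH w2.piElt
    obtain ⟨σ, hσ, u, hu, rfl⟩ := (mem_sup_of_norm_left sd.2.1).1 (sup_comm S a.U ▸ sd.1.ge hg)
    refine ⟨u, hu, SE ?_⟩
    simpa [mul_assoc] using conj_inv_mem_of_mem_normalizer (le_normalizer hσ) e

theorem fix (h : a.In) {k : G} {l : ℕ} (hl : l.Prime) (h2 : l ≠ 2) (hk : k ∈ a.T)
    (ok : orderOf k = l) (hn : a.H ≤ 𝐍(zpowers k)) :
    (∀ s ∈ 𝐂[k], Inv2 s → s = m.t) ∧ 𝐂[k] ≤ a.H ∧ a.H.index ≡ 1 [MOD l] := by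
  have k1 : k ≠ 1 := fun e => hl.ne_one (by rw [← ok, e, orderOf_one])
  have kH : k ∈ a.H := (a.TE hk).2
  have h1 : 𝐂[k] ≤ a.H := (cent_zpowers k ▸ norms_of_cents le_rfl : 𝐂[k] ≤ 𝐍(zpowers k)).trans
    ((a.hH.le_iff.1 hn).resolve_left (m.norm_ne (by simpa using k1)
      (ne_top_of_le_ne_top a.hH.1 (zpowers_le.2 kH)))).le
  have h3 : ∀ s ∈ 𝐂[k], Inv2 s → s = m.t := fun s hs s2 => by
    by_contra e
    obtain ⟨-, -, -, -, -, -, -, -, -, -, -, h4⟩ := a.inn h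
    obtain ⟨u, hu, h5⟩ := h4 s (h1 hs) s2 e
    have h6 := a.inv_eq hk (fun e' => k1 (eq_one_of_odd (ok ▸ hl.odd_of_ne_two h2) e')) ⟨h5, cent_zpowers k ▸
      conj_mem_of_mem_normalizer (norms_cent hn (a.UH hu)) ((cent_zpowers k).ge hs)⟩ (s2.conj u)
    rw [mul_inv_eq_iff_eq_mul, ← mem_cent1_iff.1 (a.UH hu)] at h6
    exact e (mul_left_cancel h6)
  refine ⟨h3, h1, ?_⟩
  have h4 := Zas.fix_mul_card (H := a.H) (M := a.H) (x := k) fun g => ⟨fun e => ?_, fun e =>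
    conj_inv_mem_of_mem_normalizer (le_normalizer e) kH⟩
  · rw [← (Nat.mul_eq_right (card_ne_zero' _)).1 h4]
    exact (Zas.fix_modEq hl a.H (ok ▸ pow_orderOf_eq_one k)).symm
  · have h5 := h3 _ (mem_cent1_comm.1 (by rwa [← cj_centralizer_singleton, mem_cj])) (m.inv.conj g)
    exact mem_cent1_iff.2 (mul_inv_eq_iff_eq_mul.1 h5)

end Al
end CA.GW
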