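import Cfsg.Agent.Lib.GW.Tool

/-! Numerical consequences of the degree equations. -/

set_option autoImplicit false
set_option linter.unusedSectionVars false

namespace CA.GW

open CA.Ch Cfsg Subgroup

theorem ar_pos {a : ℤ} {k : ℚ} (hk : 0 < k) (h : k ≤ a) : 0 < (1 : ℚ) / a ∧ (1 : ℚ) / a ≤ 1 / k :=
  ⟨one_div_pos.mpr (hk.trans_le h), one_div_le_one_div_of_le hk h⟩

theorem ar_neg {a : ℤ} {k : ℚ} (hk : 0 < k) (h : (a : ℚ) ≤ -k) :
    (1 : ℚ) / a < 0 ∧ -(1 / k) ≤ (1 : ℚ) / a := by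
  have := ar_pos (a := -a) hk (by push_cast; linarith)
  push_cast at this
  rw [div_neg] at this
  constructor <;> linarith [this.1, this.2]

theorem ar_up {a b c : ℤ} (hs : 1 + a + b + c = 0) (ha : a % 4 = 1) (hb : b % 4 = 1)
    (hc : c % 4 = 1) : (1 : ℚ) / a + 1 / b + 1 / c ≤ 5 / 3 := by
  wlog h : a ≤ b ∧ b ≤ c generalizing a b c
  · rcases le_total a b with h1 | h1 <;> rcases le_total b c with h2 | h2 <;>
      rcases le_total a c with h3 | h3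
    all_goals first
      | exact absurd ⟨‹_›, ‹_›⟩ h
      | linarith [this (a := a) (b := c) (c := b) (by omega) ha hc hb ⟨by omega, by omega⟩]
      | linarith [this (a := b) (b := a) (c := c) (by omega) hb ha hc ⟨by omega, by omega⟩]
      | linarith [this (a := b) (b := c) (c := a) (by omega) hb hc ha ⟨by omega, by omega⟩]
      | linarith [this (a := c) (b := a) (c := b) (by omega) hc ha hb ⟨by omega, by omega⟩]
      | linarith [this (a := c) (b := b) (c := a) (by omega) hc hb ha ⟨by omega, by omega⟩]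
  have a3 := ar_neg (a := a) (k := 3) (by norm_num) (by exact_mod_cast (by omega : a ≤ -3))
  have c1 := ar_pos (a := c) (k := 1) (by norm_num) (by exact_mod_cast (by omega : 1 ≤ c))
  rcases (by omega : b ≤ -3 ∨ (1 ≤ b ∧ 5 ≤ c) ∨ (a = -3 ∧ b = 1 ∧ c = 1)) with h1 | h1 | h1
  · have := ar_neg (a := b) (k := 3) (by norm_num) (by exact_mod_cast h1)
    linarith [this.1, a3.1, c1.2]
  · have b1 := ar_pos (a := b) (k := 1) (by norm_num) (by exact_mod_cast h1.1)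
    have c5 := ar_pos (a := c) (k := 5) (by norm_num) (by exact_mod_cast h1.2)
    linarith [b1.2, c5.2, a3.1]
  · rw [h1.1, h1.2.1, h1.2.2]; norm_num

theorem ar_low {a b c : ℤ} (hs : 1 + a + b + c = 0) (ha : a % 4 = 1) (hb : b % 4 = 1)
    (hc : c % 4 = 1) (a1 : a ≠ 1) (b1 : b ≠ 1) (c1 : c ≠ 1) :
    -7 / 15 ≤ (1 : ℚ) / a + 1 / b + 1 / c := by
  wlog h : a ≤ b ∧ b ≤ c generalizing a b c
  · rcases le_total a b with h1 | h1 <;> rcases le_total b c with h2 | h2 <;>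
      rcases le_total a c with h3 | h3
    all_goals first
      | exact absurd ⟨‹_›, ‹_›⟩ h
      | linarith [this (a := a) (b := c) (c := b) (by omega) ha hc hb a1 c1 b1 ⟨by omega, by omega⟩]
      | linarith [this (a := b) (b := a) (c := c) (by omega) hb ha hc b1 a1 c1 ⟨by omega, by omega⟩]
      | linarith [this (a := b) (b := c) (c := a) (by omega) hb hc ha b1 c1 a1 ⟨by omega, by omega⟩]
      | linarith [this (a := c) (b := a) (c := b) (by omega) hc ha hb c1 a1 b1 ⟨by omega, by omega⟩]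
      | linarith [this (a := c) (b := b) (c := a) (by omega) hc hb ha c1 b1 a1 ⟨by omega, by omega⟩]
  have a3 := ar_neg (a := a) (k := 3) (by norm_num) (by exact_mod_cast (by omega : a ≤ -3))
  have c5 := ar_pos (a := c) (k := 5) (by norm_num) (by exact_mod_cast (by omega : 5 ≤ c))
  rcases (by omega : 5 ≤ b ∨ b ≤ -7 ∨ (b = -3 ∧ a ≤ -11) ∨ (b = -3 ∧ a = -7 ∧ c = 9) ∨
    (b = -3 ∧ a = -3 ∧ c = 5)) with h1 | h1 | h1 | h1 | h1
  · have := ar_pos (a := b) (k := 5) (by norm_num) (by exact_mod_cast h1)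
    linarith [this.1, a3.2, c5.1]
  · have b7 := ar_neg (a := b) (k := 7) (by norm_num) (by exact_mod_cast h1)
    have a7 := ar_neg (a := a) (k := 7) (by norm_num) (by exact_mod_cast (by omega : a ≤ -7))
    linarith [b7.2, a7.2, c5.1]
  · have a7 := ar_neg (a := a) (k := 11) (by norm_num) (by exact_mod_cast h1.2)
    rw [h1.1]; push_cast
    linarith [a7.2, c5.1]
  · rw [h1.1, h1.2.1, h1.2.2]; norm_num
  · rw [h1.1, h1.2.1, h1.2.2]; norm_num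

theorem ar_four {a b c d : ℤ} (hs : a + b + c + d = 0) (ha : a % 4 = 1) (hb : b % 4 = 1)
    (hc : c % 4 = 1) (hd : d % 4 = 1) (a1 : a ≠ 1) (b1 : b ≠ 1) (c1 : c ≠ 1) (d1 : d ≠ 1) :
    (1 : ℚ) / a + 1 / b + 1 / c + 1 / d ≤ 8 / 15 := by
  have key : ∀ x : ℤ, x % 4 = 1 → x ≠ 1 → (x ≤ -3 ∧ (1 : ℚ) / x < 0) ∨ x = 5 ∨
      (9 ≤ x ∧ (1 : ℚ) / x ≤ 1 / 9) := fun x h1 h2 => by
    rcases (by omega : x ≤ -3 ∨ x = 5 ∨ 9 ≤ x) with h | h | h
    · exact Or.inl ⟨h, (ar_neg (k := 3) (by norm_num) (by exact_mod_cast h)).1⟩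
    · exact Or.inr (Or.inl h)
    · exact Or.inr (Or.inr ⟨h, (ar_pos (k := 9) (by norm_num) (by exact_mod_cast h)).2⟩)
  rcases key a ha a1 with ⟨h1, h1'⟩ | rfl | ⟨h1, h1'⟩ <;>
    rcases key b hb b1 with ⟨h2, h2'⟩ | rfl | ⟨h2, h2'⟩ <;>
    rcases key c hc c1 with ⟨h3, h3'⟩ | rfl | ⟨h3, h3'⟩ <;>
    rcases key d hd d1 with ⟨h4, h4'⟩ | rfl | ⟨h4, h4'⟩
  all_goals first
    | omega
    | (push_cast; linarith)
    | (obtain rfl : a = -15 := by omega); norm_num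
    | (obtain rfl : b = -15 := by omega); norm_num
    | (obtain rfl : c = -15 := by omega); norm_num
    | (obtain rfl : d = -15 := by omega); norm_num

theorem ar_two {a b : ℤ} (ha : a % 8 = 1) (hb : b % 8 = 1) (a1 : a ≠ 1) (b1 : b ≠ 1) :
    (1 : ℚ) / a + 1 / b - 4 / (a + b) ≤ 32 / 45 := by
  wlog h : a ≤ b generalizing a b
  · have := this hb ha b1 a1 (by omega)
    rw [add_comm (b : ℚ) a] at this; linarith
  have e : (4 : ℚ) / (a + b) = 4 * (1 / ((a + b : ℤ) : ℚ)) := by push_cast; ring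
  rw [e]
  rcases (by omega : 9 ≤ a ∨ b ≤ -7 ∨ (a ≤ -7 ∧ 9 ≤ b)) with h1 | h1 | h1
  · have a9 := ar_pos (a := a) (k := 9) (by norm_num) (by exact_mod_cast h1)
    have b9 := ar_pos (a := b) (k := 9) (by norm_num) (by exact_mod_cast (by omega : 9 ≤ b))
    have s := ar_pos (a := a + b) (k := 1) (by norm_num) (by exact_mod_cast (by omega : 1 ≤ a + b))
    linarith [a9.2, b9.2, s.1]
  · have a9 := ar_neg (a := a) (k := 7) (by norm_num) (by exact_mod_cast (by omega : a ≤ -7))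
    have b9 := ar_neg (a := b) (k := 7) (by norm_num) (by exact_mod_cast h1)
    have s := ar_neg (a := a + b) (k := 14) (by norm_num)
      (by exact_mod_cast (by omega : a + b ≤ -14))
    linarith [a9.1, b9.1, s.2]
  · have a9 := ar_neg (a := a) (k := 7) (by norm_num) (by exact_mod_cast h1.1)
    have b9 := ar_pos (a := b) (k := 9) (by norm_num) (by exact_mod_cast h1.2)
    rcases (by omega : 1 ≤ a + b ∨ a + b ≤ -14 ∨ (a + b = -6 ∧ 25 ≤ b) ∨ (a = -15 ∧ b = 9) ∨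
      (a = -23 ∧ b = 17)) with h2 | h2 | h2 | h2 | h2
    · have s := ar_pos (a := a + b) (k := 1) (by norm_num) (by exact_mod_cast h2)
      linarith [a9.1, b9.2, s.1]
    · have s := ar_neg (a := a + b) (k := 14) (by norm_num) (by exact_mod_cast h2)
      linarith [a9.1, b9.2, s.2]
    · have b9 := ar_pos (a := b) (k := 25) (by norm_num) (by exact_mod_cast h2.2)
      rw [h2.1]; push_cast
      linarith [a9.1, b9.2]
    · rw [h2.1, h2.2]; norm_num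
    · rw [h2.1, h2.2]; norm_num

namespace DS
variable {G : Type*} [Group G] [Finite G] (D : DS G)

theorem tool1 (perf : commutator G = ⊤) : ∃ a a2 a3 : ℤ, 1 + a + a2 + a3 = 0 ∧ a ≠ 1 ∧
    a ≡ 1 [ZMOD 4 * D.m] ∧ a2 ≡ 2 * D.m - 1 [ZMOD 4 * D.m] ∧ a3 ≡ 2 * D.m - 1 [ZMOD 4 * D.m] ∧
    D.N * ((1 + a) * (1 + a2) * (1 + a3)) = 8 * D.m ^ 2 * D.k1 * D.k2 * (a * a2 * a3) ∧
    (2 ≤ D.m → D.N * (a - 1) ^ 2 = 2 * D.m ^ 2 * (D.k1 + D.k2) ^ 2 * (a * (1 + a))) := by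
  obtain ⟨a0, a1, a2, a3, hs, hc, -, h2, h1, h0, hp⟩ := tool D.stable_one
  obtain rfl := h0 rfl
  exact ⟨a1, a2, a3, hs, (hp perf).1, hc.2.1, hc.2.2.1, hc.2.2.2, by linear_combination h2,
    fun h => by linear_combination h1 h⟩

theorem m_cases : D.m = 1 ∨ (2 ≤ D.m ∧ (8 : ℤ) ∣ 4 * D.m) := by
  obtain ⟨e, he⟩ := D.two
  rcases e with _ | e
  · exact Or.inl he
  · refine Or.inr ⟨by have := Nat.one_le_two_pow (n := e); omega, 2 ^ e, ?_⟩
    rw [he]; push_cast; ring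

theorem k_eq (h : D.s ∈ 𝐂(D.U)) : D.k2 = D.k1 := by
  unfold k1 k2 relIndex
  congr 1
  ext u
  simp only [mem_subgroupOf, mem_cent1_iff]
  have := mem_centralizer_iff.mp h u u.2
  rw [← mul_assoc, this, mul_assoc, mul_assoc, mul_right_inj]

theorem s_cent (h : D.m = 1) : D.s ∈ 𝐂(D.U) := mem_centralizer_iff.mpr fun u hu => by
  have := D.memH.mp (D.UH hu)
  rwa [t, h, pow_one] at this

variable {D} in
/-- rational form: `c = 2 K² / N`, `K = m (k₁ + k₂)` -/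
theorem toolq {l : D.U →* ℂˣ} (hl : D.Stable l) : ∃ a0 a1 a2 a3 : ℤ, a0 + a1 + a2 + a3 = 0 ∧
    (l = 1 → a0 = 1) ∧ (commutator G = ⊤ → a1 ≠ 1 ∧ a2 ≠ 1 ∧ a3 ≠ 1 ∧ (l ≠ 1 → a0 ≠ 1)) ∧
    ((D.m = 1 ∧ a0 % 4 = 1 ∧ a1 % 4 = 1 ∧ a2 % 4 = 1 ∧ a3 % 4 = 1 ∧
      (2 * (D.m * (D.k1 + D.k2)) ^ 2 / D.N : ℚ) = 1 / a0 + 1 / a1 + 1 / a2 + 1 / a3) ∨
    (2 ≤ D.m ∧ a0 % 8 = 1 ∧ a1 % 8 = 1 ∧
      (2 * (D.m * (D.k1 + D.k2)) ^ 2 / D.N : ℚ) = 1 / a0 + 1 / a1 - 4 / (a0 + a1))) := by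
  obtain ⟨a0, a1, a2, a3, hs, ⟨c0, c1, c2, c3⟩, -, h2, h1, h0, hp⟩ := tool hl
  have hN : (D.N : ℚ) ≠ 0 := by exact_mod_cast D.N_pos.ne'
  refine ⟨a0, a1, a2, a3, hs, h0, hp, ?_⟩
  rcases D.m_cases with hm | ⟨hm, h8⟩
  · rw [D.k_eq (D.s_cent hm)] at h2 ⊢
    rw [hm] at c0 c1 c2 c3 h2 ⊢
    simp only [Int.ModEq] at c0 c1 c2 c3
    norm_num at c0 c1 c2 c3
    refine Or.inl ⟨rfl, c0, c1, c2, c3, ?_⟩
    have q0 : (a0 : ℚ) ≠ 0 := by exact_mod_cast (by omega : a0 ≠ 0)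
    have q1 : (a1 : ℚ) ≠ 0 := by exact_mod_cast (by omega : a1 ≠ 0)
    have q2 : (a2 : ℚ) ≠ 0 := by exact_mod_cast (by omega : a2 ≠ 0)
    have q3 : (a3 : ℚ) ≠ 0 := by exact_mod_cast (by omega : a3 ≠ 0)
    have hs' : (a0 : ℚ) + a1 + a2 + a3 = 0 := by exact_mod_cast hs
    have h3 := congrArg (Int.cast : ℤ → ℚ) h2
    push_cast at h3 ⊢
    field_simp
    linear_combination (D.N * (a0 : ℚ) ^ 2) * hs' - h3
  · have d0 := c0.of_dvd h8
    have d1 := c1.of_dvd h8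
    simp only [Int.ModEq] at d0 d1
    refine Or.inr ⟨hm, by omega, by omega, ?_⟩
    have q0 : (a0 : ℚ) ≠ 0 := by exact_mod_cast (by omega : a0 ≠ 0)
    have q1 : (a1 : ℚ) ≠ 0 := by exact_mod_cast (by omega : a1 ≠ 0)
    have q2 : (a0 : ℚ) + a1 ≠ 0 := by exact_mod_cast (by omega : a0 + a1 ≠ 0)
    have h3 := congrArg (Int.cast : ℤ → ℚ) (h1 hm)
    push_cast at h3
    field_simp
    linear_combination -h3

theorem c_le : 3 * (2 * (D.m * (D.k1 + D.k2)) ^ 2) ≤ 8 * D.N := by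
  obtain ⟨a0, a1, a2, a3, hs, h0, -, h⟩ := toolq D.stable_one
  obtain rfl := h0 rfl
  have hN : (0 : ℚ) < D.N := by exact_mod_cast D.N_pos
  have : (2 * (D.m * (D.k1 + D.k2)) ^ 2 / D.N : ℚ) ≤ 8 / 3 := by
    rcases h with ⟨-, -, c1, c2, c3, e⟩ | ⟨-, -, c1, e⟩
    · rw [e]; have := ar_up hs c1 c2 c3; push_cast; linarith
    · rw [e, show (4 : ℚ) / (((1 : ℤ) : ℚ) + a1) = 4 * (1 / ((1 + a1 : ℤ) : ℚ)) by push_cast; ring]
      rcases (by omega : 1 ≤ a1 ∨ a1 ≤ -7) with h | h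
      · have b1 := ar_pos (a := a1) (k := 1) (by norm_num) (by exact_mod_cast h)
        have b2 := ar_pos (a := 1 + a1) (k := 1) (by norm_num)
          (by exact_mod_cast (by omega : 1 ≤ 1 + a1))
        push_cast at *
        linarith [b1.2, b2.1]
      · have b1 := ar_neg (a := a1) (k := 7) (by norm_num) (by exact_mod_cast h)
        have b2 := ar_neg (a := 1 + a1) (k := 6) (by norm_num)
          (by exact_mod_cast (by omega : 1 + a1 ≤ -6))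
        push_cast at *
        linarith [b1.1, b2.2]
  rw [div_le_div_iff₀ hN (by norm_num)] at this
  exact_mod_cast (by linarith : (3 * (2 * (D.m * (D.k1 + D.k2)) ^ 2) : ℚ) ≤ 8 * D.N)

theorem c_geq (perf : commutator G = ⊤) :
    (8 / 15 : ℚ) ≤ 2 * (D.m * (D.k1 + D.k2)) ^ 2 / D.N ∧
      (2 ≤ D.m → (32 / 45 : ℚ) ≤ 2 * (D.m * (D.k1 + D.k2)) ^ 2 / D.N) := by
  obtain ⟨a0, a1, a2, a3, hs, h0, hp, h⟩ := toolq D.stable_one
  obtain rfl := h0 rfl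
  obtain ⟨n1, n2, n3, -⟩ := hp perf
  rcases h with ⟨hm, -, c1, c2, c3, e⟩ | ⟨-, -, c1, e⟩
  · refine ⟨?_, fun h => by omega⟩
    rw [e]; have := ar_low hs c1 c2 c3 n1 n2 n3; push_cast; linarith
  · suffices h : (32 / 45 : ℚ) ≤ 2 * (D.m * (D.k1 + D.k2)) ^ 2 / D.N from
      ⟨by linarith, fun _ => h⟩
    have q1 : (a1 : ℚ) ≠ 0 := by exact_mod_cast (by omega : a1 ≠ 0)
    have q2 : 1 + (a1 : ℚ) ≠ 0 := by exact_mod_cast (by omega : 1 + a1 ≠ 0)
    have q3 : (0 : ℚ) < a1 * (1 + a1) ∧ (0 : ℚ) ≤ (13 * a1 - 5) * (a1 - 9) := by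
      rcases (by omega : 9 ≤ a1 ∨ a1 ≤ -7) with h | h
      · have : (9 : ℚ) ≤ a1 := by exact_mod_cast h
        constructor <;> nlinarith
      · have : (a1 : ℚ) ≤ -7 := by exact_mod_cast h
        constructor <;> nlinarith
    rw [e, show (1 : ℚ) / (1 : ℤ) + 1 / a1 - 4 / ((1 : ℤ) + a1) = (a1 - 1) ^ 2 / (a1 * (1 + a1)) by
      push_cast; field_simp; ring, div_le_div_iff₀ (by norm_num) q3.1]
    linarith [q3.2]

theorem c_ge (perf : commutator G = ⊤) : 8 * D.N ≤ 15 * (2 * (D.m * (D.k1 + D.k2)) ^ 2) := by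
  have := (D.c_geq perf).1
  rw [div_le_div_iff₀ (by norm_num) (by exact_mod_cast D.N_pos)] at this
  exact_mod_cast (by linarith : (8 * D.N : ℚ) ≤ 15 * (2 * (D.m * (D.k1 + D.k2)) ^ 2))

theorem c_ge2 (perf : commutator G = ⊤) (hm : 2 ≤ D.m) :
    32 * D.N ≤ 45 * (2 * (D.m * (D.k1 + D.k2)) ^ 2) := by
  have := (D.c_geq perf).2 hm
  rw [div_le_div_iff₀ (by norm_num) (by exact_mod_cast D.N_pos)] at this
  exact_mod_cast (by linarith : (32 * D.N : ℚ) ≤ 45 * (2 * (D.m * (D.k1 + D.k2)) ^ 2))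

variable {D} in
/-- TOOL2': a nontrivial stable character -/
theorem tool2' (perf : commutator G = ⊤) {l : D.U →* ℂˣ} (hl : D.Stable l) (h1 : l ≠ 1) :
    (D.m = 1 ∧ D.N = 15 * D.k1 ^ 2) ∨ (2 ≤ D.m ∧ 16 * D.N = 45 * (D.m * (D.k1 + D.k2)) ^ 2) := by
  obtain ⟨a0, a1, a2, a3, hs, -, hp, h⟩ := toolq hl
  obtain ⟨n1, n2, n3, n0⟩ := hp perf
  have hN : (D.N : ℚ) ≠ 0 := by exact_mod_cast D.N_pos.ne'
  rcases h with ⟨hm, c0, c1, c2, c3, e⟩ | ⟨hm, c0, c1, e⟩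
  · have h2 := le_antisymm (D.c_geq perf).1 (e ▸ ar_four hs c0 c1 c2 c3 (n0 h1) n1 n2 n3)
    rw [D.k_eq (D.s_cent hm), hm] at h2
    field_simp at h2
    exact Or.inl ⟨hm, by exact_mod_cast (by push_cast at h2; linarith :
      (D.N : ℚ) = 15 * D.k1 ^ 2)⟩
  · have h2 := le_antisymm ((D.c_geq perf).2 hm) (e ▸ ar_two c0 c1 (n0 h1) n1)
    field_simp at h2
    exact Or.inr ⟨hm, by exact_mod_cast (by linarith :
      (16 * D.N : ℚ) = 45 * (D.m * (D.k1 + D.k2)) ^ 2)⟩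

theorem odd_k1 : Odd D.k1 := Odd.of_dvd_nat D.odd (relIndex_dvd_card _ _)
theorem odd_k2 : Odd D.k2 := Odd.of_dvd_nat D.odd (relIndex_dvd_card _ _)

variable {D} in
theorem stable_triv (perf : commutator G = ⊤) {l : D.U →* ℂˣ} (hl : D.Stable l) (h1 : l ≠ 1)
    {κ : ℕ} (d1 : κ ∣ D.k1) (d2 : κ ∣ D.k2) (hc : D.N.Coprime κ) : κ = 1 := by
  have ho : Odd κ := Odd.of_dvd_nat D.odd_k1 d1
  refine Nat.Coprime.eq_one_of_dvd hc.symm ?_
  rcases tool2' perf hl h1 with ⟨-, h⟩ | ⟨-, h⟩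
  · rw [h]; exact (d1.trans (dvd_pow_self _ two_ne_zero)).mul_left _
  · refine (Nat.Coprime.pow_right 4 (Nat.coprime_two_right.mpr ho)).dvd_of_dvd_mul_left ?_
    rw [show 2 ^ 4 = 16 by norm_num, h]
    exact (((dvd_add d1 d2).mul_left _).trans (dvd_pow_self _ two_ne_zero)).mul_left _

end DS

end CA.GW
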