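/-
Gorenstein–Walter theorem, case II: the case `A ⊴ H` and its consequences.
-/
import Cfsg.Agent.Lib.GW.Al1
import Cfsg.Agent.Lib.GW.Al2
import Cfsg.Agent.Lib.GW.Tool1
import Cfsg.Agent.Lib.BG.S03c

set_option autoImplicit false
set_option linter.unusedSectionVars false

namespace CA.GW
open Cfsg CA CA.FStar Subgroup
universe u
variable {G : Type u} [Group G] [Finite G]

namespace Alr
variable {m : Min G} (a : Alr m) {x : G}

theorem ω_eq : {B | ∃ h ∈ a.H, B = cj h (zpowers a.y)}.ncard = a.ω := by rw [ncard_cj_orbit, a.nY']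

theorem cardY : Nat.card (zpowers a.y) = a.r := by rw [Nat.card_zpowers, a.oy]

/-- the only involution of `E` centralizing a subgroup of order `r` of `A` other than `⟨y⟩` is `t` -/
theorem inv_line {B : Subgroup G} (hB : B ≤ a.A) (h : ¬ B ≤ zpowers a.y) (hx : x ∈ a.E ⊓ 𝐂(B)) (x2 : Inv2 x) :
    x = m.t := by
  obtain ⟨b, b1, b2⟩ := SetLike.not_le_iff_exists.1 h
  obtain ⟨w, hw, k, hk, rfl⟩ := (mem_sup_of_norm_left
    (norms_zpowers_of_cent1 (zpowers_le.2 (mem_cent1_iff.2 a.yz)))).1 (hB b1)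
  have kF := zpowers_le_of_mem a.zK hk
  refine a.inv_eq kF.2 (fun e => b2 ?_) ⟨hx.1, mem_cent1_comm.1 ?_⟩ x2
  · rwa [eq_one_of_odd (a.oddF kF.1) e, mul_one]
  · refine (mul_mem_cancel_left (mem_cent1_iff.2 (a.comm (zpowers_le_of_mem a.yW hw).2 hx.1))).1 ?_
    exact mem_cent_iff_le_cent1.1 hx.2 b1

theorem count (hA : a.H ≤ 𝐍(a.A)) : (a.ω - 1) * (a.q * a.τ') ≤ a.L.index := by
  classical
  have hE : ∀ s : G, ∃ e, (∃ e ∈ a.E, s = e * m.t * e⁻¹) → e ∈ a.E ∧ s = e * m.t * e⁻¹ := fun s => by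
    by_cases h : ∃ e ∈ a.E, s = e * m.t * e⁻¹
    · obtain ⟨e, h⟩ := h; exact ⟨e, fun _ => h⟩
    · exact ⟨1, fun h' => absurd h' h⟩
  choose f hf using hE
  have key : ∀ B s, (B, s) ∈ ({B | ∃ h ∈ a.H, B = cj h (zpowers a.y)} \ {zpowers a.y}) ×ˢ
      {s | ∃ e ∈ a.E, s = e * m.t * e⁻¹} → ∀ x, (x ∈ a.E ⊓ 𝐂(cj (f s) B) ∧ Inv2 x) ↔ x = s := by
    rintro B s ⟨⟨⟨h, hh, rfl⟩, h1⟩, hs⟩ x
    obtain ⟨e1, e2⟩ := hf s hs
    have hB : cj h (zpowers a.y) ≤ a.A := cj_le_of_mem_normalizer le_sup_left (hA hh)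
    rw [← cj_centralizer, ← cj_eq_of_mem e1, ← cj_inf]
    constructor
    · rintro ⟨h2, x2⟩
      obtain ⟨w, hw, rfl⟩ := mem_cj'.1 h2
      rw [a.inv_line hB (fun e => h1 (eq_of_le_of_card_eq e (card_cj _ _))) hw
        (by simpa [mul_assoc] using x2.conj (f s)⁻¹), ← e2]
    · rintro rfl
      refine ⟨?_, e2 ▸ m.inv.conj _⟩
      nth_rewrite 2 [e2]
      exact conj_mem_cj.2 ⟨a.tE, mem_cent_iff_le_cent1.2 (cj_le_of_le (zpowers_le.2 (a.OH a.yW.2)) hh)⟩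
  have := Set.ncard_le_ncard_of_injOn (fun p : Subgroup G × G => cj (f p.2) p.1)
    (s := ({B | ∃ h ∈ a.H, B = cj h (zpowers a.y)} \ {zpowers a.y}) ×ˢ {s | ∃ e ∈ a.E, s = e * m.t * e⁻¹})
    (t := {B | ∃ g ∈ (⊤ : Subgroup G), B = cj g (zpowers a.y)}) (by
      rintro ⟨B, s⟩ ⟨⟨⟨h, -, rfl⟩, -⟩, -⟩
      exact ⟨_, mem_top _, cj_cj _ _ _⟩) (by
      rintro ⟨B, s⟩ h1 ⟨B', s'⟩ h2 e
      simp only at e
      obtain rfl : s = s' := (key _ _ h2 s).1 (e ▸ (key _ _ h1 s).2 rfl)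
      rw [cj_inj.1 e])
  rwa [Set.ncard_prod, Set.ncard_sdiff_singleton_of_mem (by exact ⟨1, one_mem _, (cj_one _).symm⟩), a.ω_eq, ← ds_relIndex,
    a.idxE, ncard_cj_orbit, a.nY', relIndex_top_right] at this

theorem caseA : ¬ a.H ≤ 𝐍(a.A) := fun hA => by
  have h1 : a.ω ≤ a.r + 1 := a.ω_eq ▸ lines a.hr bot_le (by rw [relIndex_bot_left, a.cardA]) (by
    rintro _ ⟨h, hh, rfl⟩
    exact ⟨bot_le, cj_le_of_mem_normalizer le_sup_left (hA hh), by rw [relIndex_bot_left, card_cj, a.cardY]⟩)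
  have h2 := a.ω_gt
  have h3 := Nat.le_of_dvd (card_pos' a.T) a.two_r
  have h4 := a.τ_cases
  have h5 := a.hr.eq_two_or_odd'.resolve_left a.r2
  have h6 := a.hr.two_le
  by_cases hi : a.In
  · obtain ⟨ho, d, dt, -, -, -, -, k1, k2, e, -⟩ := a.inn hi
    have c := d.c_ge m.perf
    have n : d.N = a.H.index := by rw [DS.N, DS.H, ← DS.t, dt]
    rw [k1, k2, n, show d.m * (a.ω * Nat.card ↥(a.T ⊓ a.U) + a.ω * Nat.card ↥(a.T ⊓ a.U)) = a.ω * a.τ by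
      rw [e]; ring] at c
    have c2 := a.count hA
    have c3 := a.N_mul
    have c4 := a.q_eq
    obtain ⟨w, hw⟩ := ho
    obtain ⟨s, hs⟩ := h5
    have c5 : 2 * a.ω ≤ a.τ := by simp only [Al.τ]; omega
    generalize a.H.index = N at *
    generalize a.L.index = M at *
    generalize a.τ = τ at *
    obtain ⟨σ, rfl⟩ : ∃ σ, τ = σ + 2 := ⟨τ - 2, by omega⟩
    have c6 : (σ + 2) * (2 * σ + 1) ≤ a.q * a.τ' := by rw [c4]; rcases h4 with h | h <;> nlinarith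
    generalize a.q * a.τ' = Q at *
    rw [hw] at c c2 c3 c5 h2
    have c7 : 2 * w * (Q * Q) ≤ N * (2 * w + 1) := by
      rw [c3, ← mul_assoc]; exact Nat.mul_le_mul_right _ (by simpa using c2)
    have c8 : 8 * (2 * w) * (2 * σ + 1) ^ 2 * (σ + 2) ^ 2 ≤ 30 * (2 * w + 1) ^ 3 * (σ + 2) ^ 2 := by
      have := Nat.mul_le_mul c6 c6
      have := Nat.mul_le_mul_left (2 * w) this
      have := Nat.mul_le_mul_right (2 * w + 1) c
      nlinarith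
    have c9 := Nat.le_of_mul_le_mul_right c8 (by positivity)
    have c10 : (8 * w + 1) ^ 2 ≤ (2 * σ + 1) ^ 2 := Nat.pow_le_pow_left (by omega) _
    have c11 := Nat.mul_le_mul_left (8 * (2 * w)) c10
    have : 1 ≤ w := by omega
    nlinarith [Nat.mul_le_mul this this]
  · have := Nat.le_of_dvd (by omega) (a.out hi)
    obtain ⟨s, hs⟩ := h5
    simp only [Al.τ] at h4; omega

theorem R_not_le : ¬ a.R ≤ a.L := fun h => a.caseA fun g hg => mem_normalizer_of_cj_le (by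
  have key : ∀ x ∈ a.R, x ^ a.r = 1 → cj g (zpowers x) ≤ a.A := fun x hx e => by
    have := conj_mem_of_mem_normalizer (a.nR hg) hx
    rw [cj_zpowers, zpowers_le]
    exact a.omA ⟨a.RF this, h this⟩ (by rw [conj_pow, e, mul_one, mul_inv_cancel])
  rw [cj_sup]; exact sup_le (key _ a.yR a.yr) (key _ a.zR a.zr))

theorem W_pi : PiGrp {a.r} a.W := fun l hl hd => by
  by_contra e
  obtain ⟨b, h1, h2⟩ := a.ex_r hl hd
  refine b.R_not_le ?_
  rw [h1, R, h2]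
  exact (le_piCoreOf_of_nilpotent (fittingOf_nilpotent _) (piCoreOf_singleton_le_fittingOf _ _)
    ((piCoreOf_piGrp _ _).compl_singleton fun h => e (Set.mem_singleton_iff.1 h).symm)).trans a.K'_le

theorem K'_T : a.K' ≤ a.T := fun x hx => by
  obtain ⟨w, hw, k, hk, rfl⟩ := a.dec ⟨piCoreOf_le _ _ hx, a.K'_le hx⟩
  rw [← constt_eq_self ((piCoreOf_piGrp _ _).piElt hx), constt_mul _ (a.comm hw.2 (a.TE hk.2).1),
    constt_eq_one (by rw [compl_compl]; exact a.W_pi.piElt hw), one_mul]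
  exact constt_mem _ hk.2

theorem omZ (hx : x ∈ 𝐙(a.R)) (h : x ^ a.r = 1) : x ∈ zpowers a.z := by
  obtain ⟨w, hw, k, hk, rfl⟩ := (mem_sup_of_norm_left
    (norms_zpowers_of_cent1 (zpowers_le.2 (mem_cent1_iff.2 a.yz)))).1
    (a.omA ⟨a.RF hx.1, a.cY (cent_le_cent1 a.yR hx.2)⟩ h)
  have hW := zpowers_le_of_mem a.yW hw
  have hT := (zpowers_le_of_mem a.zK hk).2
  obtain ⟨v, v1, v2, -⟩ := a.ex_v
  have h1 := mul_mem hx (conj_mem_of_mem_normalizer (norms_center a.nR (a.DE v1).2) hx)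
  rw [← conj_mul, a.dih.inv v1 v2 hT, ← a.comm hW.2 (a.DE v1).1, mul_inv_cancel_right, mul_assoc, ← mul_assoc k,
    ← a.comm hW.2 (a.TE hT).1, mul_inv_cancel_right] at h1
  have : w * w = 1 := by_contra fun e => a.R_not_le ((mem_cent_iff_le_cent1.1 h1.2).trans
    ((norms_zpowers_of_cent1 le_rfl).trans (a.NW _ (zpowers_le.2 (mul_mem hW hW)) (zpowers_ne_bot.2 e))))
  rwa [eq_one_of_odd (a.oddF hW.1) this, one_mul]

theorem z_Z : a.z ∈ 𝐙(a.R) := by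
  have h1 := center_ne_bot_nil (piCoreOf_piGrp {a.r} a.U).nilpotent (ne_bot_of_mem a.yR a.y1)
  obtain ⟨c, hc, oc⟩ := exists_orderOf_eq_prime a.hr (((piCoreOf_piGrp _ _).inf_left _).dvd_card_of_ne_bot h1)
  refine zpowers_le.1 (le_of_prime_card_of_inf_ne_bot (by rw [Nat.card_zpowers, a.oz]; exact a.hr)
    (ne_bot_of_mem ⟨a.omZ hc (oc ▸ pow_orderOf_eq_one c), hc⟩ fun e => ?_))
  rw [e, orderOf_one] at oc; exact a.hr.ne_one oc.symm

theorem nZ : a.H ≤ 𝐍(zpowers a.z) := fun g hg => mem_normalizer_of_cj_le (by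
  rw [cj_zpowers, zpowers_le]
  exact a.omZ (conj_mem_of_mem_normalizer (norms_center a.nR hg) a.z_Z)
    (by rw [conj_pow, a.zr, mul_one, mul_inv_cancel]))

theorem R_L : a.R ⊓ a.L = a.R ⊓ 𝐂[a.y] := by
  refine le_antisymm (le_inf inf_le_left (mem_cent_iff_le_cent1.1 ?_)) (inf_le_inf_left _ a.cY)
  have h := meet_center_nil ((piCoreOf_piGrp {a.r} a.U).inf_left a.L).nilpotent
    ⟨zpowers_le.2 ⟨a.yR, piCoreOf_le _ _ a.yW.2⟩, inf_le_right.trans a.nY'.ge⟩ (zpowers_ne_bot.2 a.y1)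
  exact (le_of_prime_card_of_inf_ne_bot (a.cardY ▸ a.hr) h (mem_zpowers _)).2

theorem T_K' (hx : x ∈ a.T) (h : PiElt {2, a.r}ᶜ x) : x ∈ a.K' := by
  have h1 : PiElt {a.r}ᶜ x := h.mono (Set.compl_subset_compl.2 (by simp))
  have h2 := a.cent_R (a.TE hx).2 h1 (mem_cent1_iff.2 (a.comm a.yW.2 (a.TE hx).1).symm)
    (mem_cent1_iff.2 (a.dih.comm hx a.zK.2))
  refine (mem_piCoreOf_of_nilpotent (fittingOf_nilpotent _) (cent_le_fittingOf (solv_core _) ⟨m.mem_core m.inv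
    (a.TE hx).2 (odd_elt_iff.2 (h.mono (Set.compl_subset_compl.2 (by simp)))), ?_⟩)).2 h1
  show x ∈ 𝐂(a.F)
  rw [← a.dp.sup_eq, cent_sup]
  exact ⟨h2, mem_cent_iff.2 fun k hk => a.dih.comm (a.K'_T hk) hx⟩

theorem cop_F (h : a.In) : a.H.index.Coprime (Nat.card a.F) := by
  refine (coprime_iff_forall_prime.2 fun l hl hd hN => ?_).symm
  have key : ¬ a.H.index ≡ 1 [MOD l] := fun e =>
    hl.one_lt.ne' (Nat.dvd_one.1 ((e.dvd_iff dvd_rfl).1 hN))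
  by_cases e : l = a.r
  · exact key (e ▸ (a.fix h a.hr a.r2 a.zK.2 a.oz a.nZ).2.2)
  obtain ⟨k, hk, ok⟩ := exists_orderOf_eq_prime hl hd
  have hK : k ∈ a.K' := (mem_piCoreOf_of_nilpotent (fittingOf_nilpotent _) hk).2 ((piElt_of_orderOf_prime hl ok).2 e)
  refine key (a.fix h hl (fun e => ?_) (a.K'_T hK) ok
    (norms_of_cyclic (cyclic_of_le a.dih.cyc a.K'_T) (zpowers_le.2 hK) a.nK')).2.2
  have := a.oddF hk
  rw [ok, e] at this; exact absurd this (by decide)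

theorem shape : ¬ a.R ≤ a.L ∧ PiGrp {a.r} a.W ∧ a.K' ≤ a.T ∧ a.z ∈ 𝐙(a.R) ∧
    a.H ≤ 𝐍(zpowers a.z) ∧ a.R ⊓ a.L = a.R ⊓ 𝐂[a.y] ∧ (∀ x ∈ a.T, PiElt {2, a.r}ᶜ x → x ∈ a.K') ∧
    (a.In → a.H.index.Coprime (Nat.card a.F) ∧ a.H.index.Coprime (Nat.card ↥(a.T ⊓ a.U)) ∧
      a.H.index ≡ 1 [MOD a.r]) := by
  refine ⟨a.R_not_le, a.W_pi, a.K'_T, a.z_Z, a.nZ, a.R_L, fun _ => a.T_K', fun h => ⟨a.cop_F h, ?_,
    (a.fix h a.hr a.r2 a.zK.2 a.oz a.nZ).2.2⟩⟩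
  refine (coprime_iff_forall_prime.2 fun l hl hd => coprime_iff_forall_prime.1 (a.cop_F h).symm l hl ?_).symm
  by_cases e : l = a.r
  · rw [e, ← a.oy]; exact orderOf_dvd_card_of_mem a.yW.1
  obtain ⟨k, hk, ok⟩ := exists_orderOf_eq_prime hl hd
  rw [← ok]
  refine orderOf_dvd_card_of_mem (piCoreOf_le _ _ (a.T_K' hk.1 ((piElt_of_orderOf_prime hl ok).2 ?_)))
  rintro (e2 | e2)
  · have := odd_of_mem (odd_core _) hk.2
    rw [ok, e2] at this; exact absurd this (by decide)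
  · exact e e2

end Alr

end CA.GW
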