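/-
Gorenstein–Walter theorem, first case: the action of the involutions of `C(a)` on `F(O(C(a)))`.
-/
import Cfsg.Agent.Lib.GW.Case
import Cfsg.Agent.Lib.GW.Bender
import Cfsg.Agent.Lib.G.Frob

set_option autoImplicit false

namespace CA.GW

open Cfsg CA CA.FStar Subgroup

universe u

section gen
variable {G : Type*} [Group G] [Finite G] {L M X : Subgroup G} {s x y : G} {p : ℕ}

omit [Finite G] in
theorem inv_of_cent_bot (s2 : s * s = 1) (hn : s ∈ 𝐍(L)) (ho : Odd (Nat.card L)) (h : L ⊓ 𝐂[s] = ⊥) (hy : y ∈ L) :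
    s * y * s⁻¹ = y⁻¹ := by
  have hz : y⁻¹ * (s * y * s⁻¹) ∈ L := mul_mem (inv_mem hy) (conj_mem_of_mem_normalizer hn hy)
  obtain ⟨w, hw, e⟩ := exists_cent_of_odd s2 (odd_of_mem ho hz)
  have h1 : y * w ∈ L ⊓ 𝐂[s] := ⟨mul_mem hy (zpowers_le_of_mem hz hw), mem_cent1_iff.2 e.symm⟩
  rw [h, mem_bot] at h1
  have si : s⁻¹ = s := inv_eq_of_mul_eq_one_right s2
  have h2 : s * w * s⁻¹ = w⁻¹ := inv_of_mem_zpowers (by
    rw [si]; simp only [mul_inv_rev, inv_inv, si, ← mul_assoc]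
    rw [mul_assoc _ s s, s2, mul_one]) hw
  rw [eq_inv_of_mul_eq_one_left h1, inv_inv, ← conj_inv, h2, inv_inv]

theorem mem_core_of_fit (hy : y ∈ fittingOf M) (h : PiElt {p} y) : y ∈ piCoreOf {p} M :=
  piCoreOf_le_of_normalIn _ (fittingOf_normalIn M) ((mem_piCoreOf_of_nilpotent (fittingOf_nilpotent M) hy).2 h)

omit [Finite G] in
theorem piElt_ord (h : (orderOf y).Prime) : PiElt {orderOf y} y := (piElt_of_orderOf_prime h rfl).2 rfl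

omit [Finite G] in
theorem cj_U (g a : G) : cj g 𝐎(𝐂[a]) = 𝐎(𝐂[g * a * g⁻¹]) := by rw [cj_piCoreOf, cj_centralizer_singleton]

omit [Finite G] in
theorem U_le (a : G) : 𝐎(𝐂[a]) ≤ 𝐂[a] := piCoreOf_le _ _

omit [Finite G] in
theorem U_norm (a : G) : 𝐂[a] ≤ 𝐍(𝐎(𝐂[a])) := piCoreOf_norm _ _

theorem fitU_le (a : G) : fittingOf 𝐎(𝐂[a]) ≤ fittingOf 𝐂[a] := fittingOf_mono_normal (piCoreOf_normalIn _ _)

theorem odd_le (h : X ≤ 𝐎(L)) : Odd (Nat.card X) := Odd.of_dvd_nat (odd_core L) (card_dvd_of_le' h)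

end gen

variable {G : Type u} [Group G] [Finite G] (m : Min G) {X V : Subgroup G} {a s x y : G} {p q : ℕ}

theorem Min.fit_card (ha : Inv2 a) : Nat.card (fittingOf 𝐂[a]) = Nat.card (fittingOf 𝐂[m.t]) := by
  obtain ⟨g, rfl⟩ := m.conj' m.inv ha
  rw [← cj_centralizer_singleton, ← cj_fittingOf, card_cj]

theorem Min.la (h : m.LA) (ha : Inv2 a) (h1 : X ≠ ⊥) (hX : X ≤ piCoreOf {p} 𝐎(𝐂[a])) :
    (Nat.card ↥⁅𝐍(X), zpowers a⁆).Coprime (Nat.card (fittingOf 𝐂[m.t])) := by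
  obtain ⟨g, hg⟩ := m.conj' ha m.inv
  have := h p (cj g X) (by simpa using h1) (by rw [← hg, ← cj_U, ← cj_piCoreOf]; exact cj_mono g hX)
  rwa [← cj_normalizer, ← hg, ← cj_zpowers, ← cj_commutator, card_cj, hg] at this

theorem Min.la_inf (h : m.LA) (ha : Inv2 a) (hs : Inv2 s) (h1 : X ≠ ⊥) (hX : X ≤ piCoreOf {p} 𝐎(𝐂[a])) :
    ⁅𝐍(X), zpowers a⁆ ⊓ fittingOf 𝐎(𝐂[s]) = ⊥ :=
  inf_eq_bot_of_card_coprime (coprime_of_le_right (by rw [m.fit_card hs]; exact m.la h ha h1 hX) (fitU_le s))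

/-- (c): an involution of `C(a)` centralizes or inverts `O_q(O(C(a)))`. -/
theorem Min.lemC (h : m.LA) (ha : Inv2 a) (hs : Inv2 s) (c : s ∈ 𝐂[a]) (q : ℕ) :
    s ∈ 𝐂(piCoreOf {q} 𝐎(𝐂[a])) ∨ ∀ y ∈ piCoreOf {q} 𝐎(𝐂[a]), s * y * s⁻¹ = y⁻¹ := by
  have aQ : a ∈ 𝐂(piCoreOf {q} 𝐎(𝐂[a])) := mem_cent_iff_le_cent1.2 ((piCoreOf_le _ _).trans (U_le a))
  by_cases e : a = s
  · left; rw [← e]; exact aQ
  by_cases hb : piCoreOf {q} 𝐎(𝐂[a]) ⊓ 𝐂[s] = ⊥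
  · exact Or.inr fun y hy => inv_of_cent_bot hs.sq (norms_piCoreOf _ (U_norm a) c) (odd_le (piCoreOf_le _ _)) hb hy
  left
  obtain ⟨y, ⟨hy, ys⟩, y1⟩ := exists_ne_one_mem' hb
  have c' : a ∈ 𝐂[s] := mem_cent1_comm.1 c
  have nQ : 𝐂[s] ≤ 𝐍(piCoreOf {q} 𝐎(𝐂[s])) := norms_piCoreOf _ (U_norm s)
  have q2 : q ≠ 2 := by
    rintro rfl
    exact y1 (((piCoreOf_piGrp _ _).piElt hy).eq_one (odd_elt_iff.1 (odd_of_mem (odd_le (piCoreOf_le _ _)) hy)))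
  have key : zpowers a ≤ 𝐂(piCoreOf {q} 𝐎(𝐂[s])) := by
    refine (copAct_inv ha.sq (odd_le (piCoreOf_le _ _)) (nQ c')).cents_of_axb (piCoreOf_piGrp _ _)
      (piGrp_zpowers.2 ((piCoreOf_piGrp _ _).piElt hy)) (zpowers_le_of_mem (nQ ys)) ?_ ?_
      (ha.piGrp.compl_singleton (by simpa using q2))
    · rw [zpowers_le, cent_zpowers]; exact mem_cent1_comm.1 (U_le a (piCoreOf_le _ _ hy))
    · refine cents_symm (comm_eq_bot_iff.1 (le_bot_iff.1 ?_))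
      rw [← m.la_inf h ha hs (zpowers_ne_bot.2 y1) (zpowers_le_of_mem hy)]
      refine le_inf (commutator_mono (inf_le_right.trans (norms_of_cents le_rfl)) le_rfl) ?_
      exact (commutator_mono inf_le_left le_rfl).trans
        ((comm_le_left (zpowers_le_of_mem (nQ c'))).trans (pc_fit _ _))
  obtain ⟨V, hV, mV⟩ := four_of ha hs e (mem_cent1_iff.1 c')
  obtain ⟨g, -, g1, -, g3⟩ := m.rot3 hV ((mV a).2 (by simp)) ((mV s).2 (by simp)) ha.ne hs.ne e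
  have k2 : g * (a * s) * g⁻¹ ∈ cj g 𝐂(piCoreOf {q} 𝐎(𝐂[a])) := by
    rw [g3, cj_centralizer, cj_piCoreOf, cj_U, g1]; exact key (mem_zpowers a)
  exact (mul_mem_cancel_left aQ).1 (conj_mem_cj.1 k2)

theorem Min.K_le (h : m.LA) (ha : Inv2 a) (hs : Inv2 s) (c : s ∈ 𝐂[a]) :
    ⁅𝐎(𝐂[a]), zpowers s⁆ ≤ fittingOf 𝐎(𝐂[a]) := by
  refine le_fittingOf_of_cents (solv_core _) (comm_le_left (zpowers_le_of_mem (U_norm a c)))
    (cents_symm (fit_le_of fun q _ => cents_symm ?_))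
  rcases m.lemC h ha hs c q with e | e
  · exact comm_cents_of_cents (piCoreOf_norm _ _) (zpowers_le_of_mem e)
  · exact comm_cents_of_inv hs.sq (piCoreOf_norm _ _) e

theorem Min.two_dvd_fit : 2 ∣ Nat.card (fittingOf 𝐂[m.t]) := by
  rw [← m.inv.ord]
  exact orderOf_dvd_card_of_mem (center_le_fittingOf _ ⟨self_mem_cent1 _, mem_cent_iff_le_cent1.2 le_rfl⟩)

/-- (d) -/
theorem Min.lemD (h : m.LA) (ha : Inv2 a) (h1 : X ≠ ⊥) (hX : X ≤ piCoreOf {p} 𝐎(𝐂[a])) : 𝐍(X) ≤ 𝐂[a] := by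
  obtain ⟨V, -, hV, aV⟩ := m.dsyl.exists_four (mem_top a) ha
  have VX : V ≤ 𝐍(X) := fun v hv => by
    by_cases v1 : v = 1
    · rw [v1]; exact one_mem _
    rcases m.lemC h ha (hV.inv2 hv v1) (hV.le_cent1 aV hv) p with e | e
    · exact norms_of_cents le_rfl (cent_mono hX e)
    · exact mem_normalizer_of_cj_le (cj_le_iff'.2 fun x hx => by rw [e x (hX hx)]; exact inv_mem hx)
  have ho : Odd (Nat.card ↥⁅𝐍(X), zpowers a⁆) :=
    Nat.coprime_two_right.1 ((m.la h ha h1 hX).coprime_dvd_right m.two_dvd_fit)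
  have VI : V ≤ 𝐍(⁅𝐍(X), zpowers a⁆) :=
    norms_commutator (norms_norm VX) (norms_zpowers_of_cent1 (hV.le_cent1 aV))
  have hI : ⁅𝐍(X), zpowers a⁆ ≤ 𝐂[a] := hV.gen VI ho fun v hv v1 => by
    have v2 := hV.inv2 hv v1
    rw [← cent_zpowers a, ← comm_eq_bot_iff, ← le_bot_iff, ← m.la_inf h ha v2 h1 hX]
    refine le_inf ((commutator_mono inf_le_left le_rfl).trans (comm_le_left (zpowers_le_of_mem (VI aV)))) ?_
    refine (commutator_mono (fun x hx => ?_) le_rfl).trans (m.K_le h v2 ha (hV.le_cent1 hv aV))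
    exact m.mem_core v2 hx.2 (odd_of_mem ho hx.1)
  intro g hg
  have hz := comm_mem hg (mem_zpowers a)
  have := eq_one_of_cent_inv (odd_of_mem ho hz) (mem_cent1_iff.1 (hI hz)).symm (by
    simp only [mul_inv_rev, inv_inv, ha.inv, ← mul_assoc]; rw [mul_assoc _ a a, ha.sq, mul_one])
  rw [mem_cent1_iff, ← mul_inv_eq_iff_eq_mul, ← mul_inv_eq_one]; exact this

theorem Min.lemD1 (h : m.LA) (ha : Inv2 a) (hy : y ∈ fittingOf 𝐎(𝐂[a])) (y1 : y ≠ 1) : 𝐂[y] ≤ 𝐂[a] := by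
  obtain ⟨x, hx, hp⟩ := exists_prime_order_mem (zpowers_ne_bot.2 y1)
  have x1 : x ≠ 1 := by rintro rfl; exact hp.ne_one orderOf_one
  refine le_trans ?_ (m.lemD h ha (zpowers_ne_bot.2 x1)
    (zpowers_le_of_mem (mem_core_of_fit (zpowers_le_of_mem hy hx) (piElt_ord hp))))
  rw [← cent_zpowers]
  exact (cent_le_cent1 hx).trans (norms_zpowers_of_cent1 le_rfl)

/-- coprimality -/
theorem Min.cop (h : m.LA) (hq : q.Prime) (hy : y ∈ fittingOf 𝐎(𝐂[m.t])) (ho : orderOf y = q)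
    (hi : ∀ s, Inv2 s → s ∈ 𝐂[m.t] → y ∈ 𝐂[s] → s = m.t) : ¬ q ∣ (𝐂[m.t] : Subgroup G).index := by
  have y1 : y ≠ 1 := by rintro rfl; rw [orderOf_one] at ho; exact hq.ne_one ho.symm
  obtain ⟨P, hP, yP⟩ := exists_sylowIn_ge (piGrp_zpowers.2 ((piElt_of_orderOf_prime hq ho).2 (rfl : q ∈ ({q} : Set ℕ))))
    (zpowers_le_of_mem (U_le _ (fittingOf_le _ hy)))
  have hN : 𝐍(P) ≤ 𝐂[m.t] := fun g hg => by
    have h1 : y ∈ 𝐂[g * m.t * g⁻¹] := by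
      rw [← cj_centralizer_singleton, mem_cj]
      exact hP.le (conj_inv_mem_of_mem_normalizer hg (yP (mem_zpowers y)))
    have := hi _ (m.inv.conj g) (m.lemD1 h m.inv hy y1 (mem_cent1_comm.1 h1)) h1
    exact mem_cent1_iff.2 (mul_inv_eq_iff_eq_mul.1 this)
  intro hd
  exact (SylowIn.of_norm_le_top hP hN).not_dvd hq (by rw [relIndex_top_right]; exact hd.trans (index_dvd_of_le hP.le))

end CA.GW
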