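import Cfsg.Agent.Lib.GW.Tool2

/-! An orbit of three characters; the end game `U = K ⋊ B`. -/

set_option autoImplicit false
set_option linter.unusedSectionVars false
set_option linter.style.haveILetI false

open scoped ComplexConjugate

namespace CA.GW

open CA.Ch Cfsg Subgroup

/-- multiplicities in the restriction to `E × ⟨t⟩` -/
theorem half_mult {G : Type*} [Group G] [Finite G] {χ : G → ℂ} (h : IsChar χ) (E : Subgroup G)
    [Fintype E] {t : G} (tt : t * t = 1) (hc : E ≤ 𝐂[t]) (μ : E →* ℂˣ) : ∃ n : ℕ,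
      ∑ b : E, conj (μ b : ℂ) * (χ b + χ (b * t)) = Nat.card E * (2 * n) := by
  let f : Multiplicative (ZMod 2) →* G := MonoidHom.mk' (fun i => t ^ (Multiplicative.toAdd i).val)
    fun i j => by rw [← pow_add, toAdd_mul, ZMod.val_add, ← pow_eq_pow_mod _ (by rw [pow_two, tt])]
  let ψ := E.subtype.noncommCoprod f fun b i =>
    (show Commute (b : G) t from mem_cent1_iff.mp (hc b.2)).pow_right _
  obtain ⟨n, hn⟩ := (h.comp ψ).ip_nat (isChar_lin (μ.comp (MonoidHom.fst _ _)))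
  refine ⟨n, ?_⟩
  rw [ip_def, Fintype.sum_prod_type, Nat.card_prod] at hn
  have e : ∀ F : Multiplicative (ZMod 2) → ℂ, ∑ i, F i =
      F (Multiplicative.ofAdd 0) + F (Multiplicative.ofAdd 1) := fun F => by
    rw [← (Multiplicative.ofAdd (α := ZMod 2)).sum_comp]
    exact Fin.sum_univ_two _
  have p0 : ∀ b : E, ψ (b, Multiplicative.ofAdd 0) = b := fun b =>
    (congrArg (fun x => (b : G) * x) (pow_zero t)).trans (mul_one _)
  have p1 : ∀ b : E, ψ (b, Multiplicative.ofAdd 1) = b * t := fun b =>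
    congrArg (fun x => (b : G) * x) (pow_one t)
  simp only [e, p0, p1, Function.comp, lin_apply, MonoidHom.comp_apply, MonoidHom.coe_fst,
    Nat.card_eq_fintype_card, Fintype.card_multiplicative, ZMod.card] at hn
  rw [Nat.card_eq_fintype_card]
  push_cast at hn
  rw [inv_mul_eq_iff_eq_mul₀ (by simp)] at hn
  rw [mul_assoc] at hn
  rw [← hn]
  exact Finset.sum_congr rfl fun b _ => by ring

namespace DS
variable {G : Type*} [Group G] [Finite G] {D : DS G}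

theorem conj_L {l : D.U →* ℂˣ} {g : G} : conj (D.L l g) = D.L l g⁻¹ := by
  by_cases hg : g ∈ D.U
  · rw [L_of hg, L_of (inv_mem hg), conj_lin]
    congr 3
  · rw [L_not hg, L_not fun h => hg (inv_mem_iff.mp h), map_zero]

theorem gram_av [Fintype G] [DecidableEq G] (hm : D.m = 1) {l l' : D.U →* ℂˣ} [Decidable (l' = l)]
    (hl : D.Inv l) : ∑ χ ∈ irr G, D.av l χ D.t * conj (D.av l' χ D.t) =
      4 * if l' = l then 1 else 0 := by
  rw [Finset.sum_congr rfl (g := fun χ => (Nat.card D.U : ℂ)⁻¹ * ∑ g, D.L l' g⁻¹ *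
    (D.av l χ D.t * χ (g * D.t)⁻¹)), ← Finset.mul_sum, Finset.sum_comm,
    Finset.sum_congr rfl (g := fun g => 4 * (D.L l g * D.L l' g⁻¹)), ← Finset.mul_sum, orthL]
  · have := D.cU
    field_simp
  · intro g _
    by_cases hg : g ∈ D.U
    · rw [← Finset.mul_sum, gram hl (npow_mem_zpowers _ _) (npow_mem_zpowers _ _) D.t1 hg,
        if_pos rfl, if_pos D.ti, hm]
      push_cast; ring
    · simp [L_not hg, L_not (fun h => hg (inv_mem_iff.mp h) : g⁻¹ ∉ D.U)]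
  · intro χ hχ
    rw [av, av, map_mul, map_sum, mul_left_comm, Finset.mul_sum]
    congr 1
    · simp
    · refine Finset.sum_congr rfl fun g _ => ?_
      rw [map_mul, conj_L, (mem_irr.mp hχ).isChar.apply_inv]; ring

theorem tool3 (hm : D.m = 1) {l0 l1 l2 : D.U →* ℂˣ} (i0 : D.Inv l0) (i1 : D.Inv l1)
    (i2 : D.Inv l2) {ρ : G} (e1 : ρ * D.t * ρ⁻¹ = D.r) (e2 : ρ * D.r * ρ⁻¹ = D.t * D.r)
    (h01 : ∀ b ∈ D.U ⊓ 𝐂[D.r], D.L l1 b = D.L l0 (ρ * b * ρ⁻¹))
    (h12 : ∀ b ∈ D.U ⊓ 𝐂[D.r], D.L l2 b = D.L l1 (ρ * b * ρ⁻¹))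
    (h20 : ∀ b ∈ D.U ⊓ 𝐂[D.r], D.L l0 b = D.L l2 (ρ * b * ρ⁻¹))
    (hne : ∃ b ∈ D.U ⊓ 𝐂[D.r], D.L l0 b ≠ D.L l1 b) : D.k1 ∣ D.N := by
  classical
  haveI := Fintype.ofFinite G
  set E := D.U ⊓ 𝐂[D.r] with hE
  let μ : (D.U →* ℂˣ) → E →* ℂˣ := fun l => l.comp (inclusion inf_le_left)
  have hμ : ∀ l (b : E), conj (μ l b : ℂ) = D.L l b := fun l b => (L_of b.2.1).symm
  have heq : ∀ l l', μ l = μ l' → ∀ b ∈ E, D.L l b = D.L l' b := fun l l' h b hb => by
    rw [← hμ l ⟨b, hb⟩, ← hμ l' ⟨b, hb⟩, h]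
  obtain ⟨b0, hb0, hne⟩ := hne
  have hb1 := D.rho_mem' e1 e2 hb0
  have eb : ρ * (ρ⁻¹ * b0 * ρ) * ρ⁻¹ = b0 := by group
  have m01 : μ l0 ≠ μ l1 := fun h => hne (heq _ _ h _ hb0)
  have m12 : μ l1 ≠ μ l2 := fun h => hne (by
    have := heq _ _ h _ hb1
    rwa [h01 _ hb1, h12 _ hb1, eb] at this)
  have m02 : μ l0 ≠ μ l2 := fun h => hne (by
    rw [h01 _ hb0, h20 _ hb0, heq _ _ h _ (D.rho_mem e1 e2 hb0)])
  have n01 : l0 ≠ l1 := fun h => m01 (h ▸ rfl)
  have n12 : l1 ≠ l2 := fun h => m12 (h ▸ rfl)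
  have n02 : l0 ≠ l2 := fun h => m02 (h ▸ rfl)
  have s3 : ∀ f : (D.U →* ℂˣ) → ℂ, ∑ l ∈ {l0, l1, l2}, f l = f l0 + f l1 + f l2 := fun f => by
    rw [Finset.sum_insert (by simp [n01, n02]), Finset.sum_pair n12, add_assoc]
  obtain ⟨B, hB, hs⟩ := D.sec' {l0, l1, l2} (D.fuse1 e1 e2 hm _ (fun h hh u _ => by
    simp only [s3, L_cj i0 hh, L_cj i1 hh, L_cj i2 hh]) fun b hb => by
      simp only [s3]; rw [← h01 b hb, ← h12 b hb, ← h20 b hb]; ring)
  replace hs := fun χ h => hs χ h _ (npow_mem_zpowers _ _) D.t1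
  simp only [s3] at hs
  have cE : (Nat.card E : ℂ) ≠ 0 := Ch.card_ne_zero' _
  have orth : ∀ l l', ∑ b : E, D.L l b * D.L l' (b : G)⁻¹ = Nat.card E *
      if μ l' = μ l then 1 else 0 := fun l l' => by
    have h := ip_lin (μ l') (μ l)
    rw [ip_def, inv_mul_eq_iff_eq_mul₀ cE] at h
    rw [← h]
    refine Finset.sum_congr rfl fun b _ => ?_
    rw [← conj_L, ← hμ, ← hμ, Complex.conj_conj, mul_comm]; rfl
  have hsec : ∀ χ ∈ B, ∀ b ∈ D.U, χ (b * D.t) = D.L l0 b⁻¹ * D.av l0 χ D.t +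
      D.L l1 b⁻¹ * D.av l1 χ D.t + D.L l2 b⁻¹ * D.av l2 χ D.t := fun χ h b hb => by
    rw [(hs χ (hB h)).1 h b hb, av_mul χ hb, av_mul χ hb, av_mul χ hb]
  have hM : ∀ χ ∈ B, ∃ M : ℤ, ∀ l ∈ ({l0, l1, l2} : Finset _), ∃ n : ℤ,
      D.av l χ D.t = 2 * n - M := by
    intro χ hχ
    have hc := (mem_irr.mp (hB hχ)).isChar
    obtain ⟨M, hM⟩ := (hc.comp E.subtype).ip_nat (isChar_lin (μ l0))
    rw [ip_def, inv_mul_eq_iff_eq_mul₀ cE] at hM
    have r : ∀ l l', (∀ b ∈ E, D.L l' b = D.L l (ρ * b * ρ⁻¹)) →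
        ∑ b : E, D.L l' b * χ b = ∑ b : E, D.L l b * χ b := fun l l' h =>
      Fintype.sum_bijective (fun b : E => (⟨_, D.rho_mem e1 e2 b.2⟩ : E))
        (Finite.injective_iff_bijective.mp fun a b h => Subtype.ext (by simpa using h)) _ _
        fun b => by rw [h b b.2, hc.isCF.conj]
    have q0 : ∑ b : E, D.L l0 b * χ b = Nat.card E * M := by
      rw [← hM]; exact Finset.sum_congr rfl fun b _ => by rw [← hμ, mul_comm]; rfl
    have q1 := (r _ _ h01).trans q0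
    have q2 := (r _ _ h12).trans q1
    refine ⟨M, fun l hl => ?_⟩
    obtain ⟨n, hn⟩ := half_mult hc E D.tt (inf_le_left.trans D.UH) (μ l)
    refine ⟨n, mul_left_cancel₀ cE ?_⟩
    simp only [hμ, mul_add, Finset.sum_add_distrib, fun b : E => hsec χ hχ b b.2.1, ← mul_assoc,
      ← Finset.sum_mul, orth] at hn
    simp only [Finset.mem_insert, Finset.mem_singleton] at hl
    push_cast
    rcases hl with rfl | rfl | rfl
    · rw [q0, if_pos rfl, if_neg m01.symm, if_neg m02.symm] at hn; linear_combination hn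
    · rw [q1, if_pos rfl, if_neg m01, if_neg m12.symm] at hn; linear_combination hn
    · rw [q2, if_pos rfl, if_neg m02, if_neg m12] at hn; linear_combination hn
  choose! M hM using hM
  choose! n hn using hM
  have hd := fun χ (h : χ ∈ B) => (mem_irr.mp (hB h)).nat
  choose! d d0 hd using hd
  let A : (D.U →* ℂˣ) → (G → ℂ) → ℤ := fun l χ => 2 * n χ l - M χ
  have hA : ∀ l ∈ ({l0, l1, l2} : Finset _), ∀ χ ∈ B, D.av l χ D.t = A l χ := fun l hl χ hχ => by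
    rw [hn χ hχ l hl]; simp [A]
  have hsum : ∀ l ∈ ({l0, l1, l2} : Finset _), ∀ F : (G → ℂ) → ℂ,
      ∑ χ ∈ B, A l χ * F χ = ∑ χ ∈ irr G, D.av l χ D.t * F χ := fun l hl F => by
    rw [← Finset.sum_subset hB fun χ h2 h3 => by rw [(hs χ h2).2 h3 l hl, zero_mul]]
    exact Finset.sum_congr rfl fun χ h => by rw [hA l hl χ h]
  have hg : ∀ l ∈ ({l0, l1, l2} : Finset _), ∀ l' ∈ ({l0, l1, l2} : Finset _), D.Inv l →
      ∑ χ ∈ B, A l χ * A l' χ = 4 * if l' = l then 1 else 0 := fun l hl l' hl' i => by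
    apply Int.cast_injective (α := ℂ)
    push_cast
    rw [← gram_av hm i, ← hsum l hl]
    exact Finset.sum_congr rfl fun χ h => by rw [hA l' hl' χ h, map_intCast]
  have ho : ∀ l ∈ ({l0, l1, l2} : Finset _), ∑ χ ∈ B, A l χ * (d χ : ℤ) = 0 := fun l hl => by
    apply Int.cast_injective (α := ℂ)
    push_cast
    rw [Finset.sum_congr rfl fun χ h => by rw [← hd χ h], hsum l hl, gram0]
    simp [L_s, D.t1]
  obtain ⟨κ, k0, hκ⟩ := cb3 (B := B) (d := fun χ => d χ) (A0 := A l0) (A1 := A l1) (A2 := A l2)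
    (fun χ h => by exact_mod_cast d0 χ h) (by rw [hg _ (by simp) _ (by simp) i0]; simp)
    (by rw [hg _ (by simp) _ (by simp) i1]; simp) (by rw [hg _ (by simp) _ (by simp) i2]; simp)
    (by rw [hg _ (by simp) _ (by simp) i0]; simp [n01.symm])
    (by rw [hg _ (by simp) _ (by simp) i0]; simp [n02.symm])
    (by rw [hg _ (by simp) _ (by simp) i1]; simp [n12.symm]) (ho _ (by simp)) (ho _ (by simp))
    (ho _ (by simp)) (fun χ _ => ⟨n χ l0 + n χ l1 - M χ, by simp only [A]; ring⟩)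
    (fun χ _ => ⟨n χ l0 + n χ l2 - M χ, by simp only [A]; ring⟩)
  have h1 := phi i0 D.t1
  rw [← hsum l0 (by simp), Finset.sum_congr rfl fun χ h => by
    rw [hd χ h, ← one_mul D.t, (hs χ (hB h)).1 h 1 (one_mem _), one_mul, hA _ (by simp) χ h,
      hA _ (by simp) χ h, hA _ (by simp) χ h]] at h1
  have h2 := congrArg (Rat.cast : ℚ → ℂ) hκ
  push_cast at h2
  rw [h2, hm] at h1
  have k0' : (κ : ℂ) ≠ 0 := by exact_mod_cast k0
  simp [Finset.sum_range_succ, kap] at h1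
  field_simp at h1
  have h3 : (D.N : ℤ) = D.k1 * (D.k2 * κ) := by
    apply Int.cast_injective (α := ℂ)
    push_cast
    linear_combination h1 / 8
  exact Int.natCast_dvd_natCast.mp ⟨_, h3⟩

variable (D) in
/-- END GAME 1 -/
theorem tool2 (perf : commutator G = ⊤) {K : Subgroup G} (hK : K ⊴ D.U) (K1 : K ≠ ⊥)
    (h1 : ∀ y ∈ K, D.r * y * D.r⁻¹ = y⁻¹) (h2 : D.s ∈ 𝐂(D.U)) (hU : D.U = K ⊔ (D.U ⊓ 𝐂[D.r]))
    (hc : D.N.Coprime (Nat.card K)) : D.U ⊓ 𝐂[D.r] = ⊥ := by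
  by_contra hB
  set B := D.U ⊓ 𝐂[D.r] with hBd
  have BK : B ≤ 𝐍(K) := inf_le_left.trans hK.2
  have KB : K ⊓ B = ⊥ := eq_bot_iff.mpr fun y hy =>
    eq_one_of_cent_inv (D.odd_of hy.2.1) (mem_cent1_iff.mp hy.2.2).symm (h1 y hy.1)
  have hk : D.k1 = Nat.card K := by
    have e1 := card_sup_of_disjoint (Or.inl BK) KB
    have e2 := card_inf_mul_relIndex (𝐂[D.r] : Subgroup G) D.U
    rw [← hU, ← e2, inf_comm, mul_comm] at e1
    exact Nat.eq_of_mul_eq_mul_right Nat.card_pos e1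
  have fin : ¬ D.k1 = 1 := fun h => K1 (card_eq_one.mp (hk ▸ h))
  rw [← hk] at hc
  have dec : ∀ x ∈ D.U, ∃ k ∈ K, ∃ b ∈ B, k * b = x := fun x hx =>
    (mem_sup_of_norm_right BK).mp (hU ▸ hx)
  haveI : (K.subgroupOf D.U).Normal := (normal_subgroupOf_iff_le_normalizer hK.1).mpr hK.2
  let f : B →* D.U ⧸ K.subgroupOf D.U := (QuotientGroup.mk' _).comp (inclusion inf_le_left)
  have hf : Function.Bijective f := by
    refine ⟨(injective_iff_map_eq_one f).mpr fun b hb => Subtype.ext ?_, fun x => ?_⟩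
    · have := (QuotientGroup.eq_one_iff (N := K.subgroupOf D.U) (inclusion inf_le_left b)).mp hb
      exact (KB ▸ ⟨this, b.2⟩ : (b : G) ∈ (⊥ : Subgroup G))
    · obtain ⟨x, rfl⟩ := QuotientGroup.mk_surjective x
      obtain ⟨k, hk, b, hb, e⟩ := dec x x.2
      refine ⟨⟨b, hb⟩, (QuotientGroup.eq.mpr ?_)⟩
      change b⁻¹ * (x : G) ∈ K
      rw [← e, ← mul_assoc]
      simpa using (mem_normalizer_iff.mp (BK (inv_mem hb)) k).mp hk
  let p : D.U →* B := (MulEquiv.ofBijective f hf).symm.toMonoidHom.comp (QuotientGroup.mk' _)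
  have pB : ∀ β : B →* ℂˣ, ∀ b : B, D.L (β.comp p) b = conj (β b : ℂ) := fun β b => by
    rw [L_of b.2.1]
    exact congrArg (fun x => conj (β x : ℂ)) ((MulEquiv.ofBijective f hf).symm_apply_apply b)
  have pK : ∀ β : B →* ℂˣ, ∀ k ∈ K, D.L (β.comp p) k = 1 := fun β k hk => by
    have : p ⟨k, hK.1 hk⟩ = 1 := by
      simp only [p, MonoidHom.comp_apply]
      rw [show QuotientGroup.mk' (K.subgroupOf D.U) ⟨k, hK.1 hk⟩ = 1 from
        (QuotientGroup.eq_one_iff _).mpr hk, map_one]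
    rw [L_of (hK.1 hk), MonoidHom.comp_apply, this]; simp
  have inv : ∀ β : B →* ℂˣ, D.Inv (β.comp p) := by
    intro β h hh u v e
    suffices h3 : D.L (β.comp p) v = D.L (β.comp p) u by
      rw [L_of u.2, L_of v.2] at h3
      exact Units.ext (star_injective h3)
    have cw : ∀ w ∈ D.U, ∀ x ∈ D.U, D.L (β.comp p) (w * x * w⁻¹) = D.L (β.comp p) x :=
      fun w hw x hx => by
        rw [L_mul' (inv_mem hw), L_mul hw]
        linear_combination D.L (β.comp p) x * L_inv (l := β.comp p) hw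
    have cs : ∀ i : ℕ, ∀ x ∈ D.U, D.s ^ i * x * (D.s ^ i)⁻¹ = x := fun i x hx => by
      rw [← ((show Commute x D.s from mem_centralizer_iff.mp h2 x hx).pow_right i).eq]; group
    obtain ⟨w, hw, i, rfl | rfl⟩ := D.cov h hh
    · rw [e, show w * D.s ^ i * u * (w * D.s ^ i)⁻¹ = w * (D.s ^ i * u * (D.s ^ i)⁻¹) * w⁻¹ by
        group, cs i u u.2, cw w hw u u.2]
    · rw [e, show w * (D.s ^ i * D.r) * u * (w * (D.s ^ i * D.r))⁻¹ =
        w * (D.s ^ i * (D.r * u * D.r⁻¹) * (D.s ^ i)⁻¹) * w⁻¹ by group, cs i _ (D.cj D.rH u.2),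
        cw w hw _ (D.cj D.rH u.2)]
      obtain ⟨k, hk, b, hb, e'⟩ := dec u u.2
      rw [← e', ← conj_mul, h1 k hk, ← mem_cent1_iff.mp hb.2, mul_inv_cancel_right,
        L_mul (hK.1 hk), L_mul (hK.1 (inv_mem hk)), pK β k hk, pK β _ (inv_mem hk)]
  haveI := solv_odd (Odd.of_dvd_nat D.odd (card_dvd_of_le (inf_le_left : B ≤ D.U)))
  haveI := (nontrivial_iff_ne_bot B).mpr hB
  obtain ⟨β, -, β1⟩ := exists_lin_ne_one_of_solvable (⊥ : Subgroup B) bot_ne_top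
  have l1 : β.comp p ≠ 1 := fun h => β1 (MonoidHom.ext fun b => by
    have := pB β b
    rw [h, L_of b.2.1] at this
    exact Units.ext (star_injective this.symm))
  have st : ¬ D.Stable (β.comp p) := fun h =>
    fin (stable_triv perf h l1 dvd_rfl (D.k_eq h2 ▸ dvd_rfl) hc)
  rcases D.m_cases with hm | ⟨hm, -⟩
  · obtain ⟨ρ, e1, e2⟩ := D.exists_rho hm
    let φ : B →* B := ((MulAut.conj ρ).toMonoidHom.comp B.subtype).codRestrict B
      fun b => D.rho_mem e1 e2 b.2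
    have hφ : ∀ β : B →* ℂˣ, ∀ b ∈ B, D.L ((β.comp φ).comp p) b = D.L (β.comp p) (ρ * b * ρ⁻¹) :=
      fun β b hb => (pB _ ⟨b, hb⟩).trans (pB β (φ ⟨b, hb⟩)).symm
    refine fin (hc.symm.eq_one_of_dvd (tool3 hm (inv β) (inv (β.comp φ))
      (inv ((β.comp φ).comp φ)) e1 e2 (hφ _) (hφ _) (fun b hb => ?_) ?_))
    · have b1 := D.rho_mem e1 e2 hb
      have : ρ * ρ * ρ ∈ D.H := by
        rw [D.memH, ← mul_inv_eq_iff_eq_mul]
        calc _ = ρ * (ρ * (ρ * D.t * ρ⁻¹) * ρ⁻¹) * ρ⁻¹ := by group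
          _ = D.t := by rw [e1, e2, D.rho3 e1 e2]
      rw [hφ _ _ b1, hφ _ _ (D.rho_mem e1 e2 b1), ← L_cj (inv β) this b]
      congr 1; group
    · by_contra h
      push Not at h
      exact st (stable1 e1 e2 hm (inv β) fun b hb => by rw [← hφ _ _ hb, h b hb])
  · exact st (stable2 hm h2 (inv β))

end DS

end CA.GW
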