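/-
Gorenstein–Walter theorem, case II: the subgroup `B = Ω₁(Z₂(R))`, case (b) and the shape of case (c).
-/
import Cfsg.Agent.Lib.GW.Al3
import Cfsg.Agent.Lib.GW.Tool3
import Cfsg.Agent.Lib.GW.FC1
import Cfsg.Agent.Lib.G.OddP
import Cfsg.Agent.Lib.BG.S03c

set_option autoImplicit false

namespace CA.GW

open Cfsg CA CA.FStar Subgroup

universe u

/-- commutation with `x` as a homomorphism onto a central subgroup of prime order -/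
theorem cm_pack {G : Type*} [Group G] [Finite G] {X : Subgroup G} {x z n : G} (hz : (orderOf z).Prime) (hc : X ≤ 𝐂[z])
    (h : ∀ g ∈ X, g * x * g⁻¹ * x⁻¹ ∈ zpowers z) (hn : n ∈ X) (h0 : n ∉ 𝐂[x]) :
    (∀ c ∈ zpowers z, ∃ g ∈ X, g * x * g⁻¹ * x⁻¹ = c) ∧ X ≤ (X ⊓ 𝐂[x]) ⊔ zpowers n ∧ (𝐂[x]).relIndex X = orderOf z := by
  have cz : ∀ g ∈ X, ∀ c ∈ zpowers z, c * g = g * c := fun g hg c hc' => mem_cent_iff.1 (cent_zpowers z ▸ hc hg) c hc'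
  let f : X →* G := MonoidHom.mk' (fun g => g * x * (g : G)⁻¹ * x⁻¹) fun a b => by
    rw [abelian_iff'.1 (abelian_zpowers z) _ (h a a.2) _ (h b b.2), mul_assoc (a : G), mul_assoc (a : G), ← mul_assoc _ (a : G),
      cz a a.2 _ (h b b.2)]
    simp [mul_assoc]
  have hk : ∀ g : X, f g = 1 ↔ (g : G) ∈ 𝐂[x] := fun g => by
    rw [mem_cent1_iff, ← mul_inv_eq_iff_eq_mul]; exact mul_inv_eq_one
  have e : zpowers z = zpowers (f ⟨n, hn⟩) :=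
    eq_zpowers_of_prime_card (by rwa [Nat.card_zpowers]) (h n hn) fun e => h0 ((hk _).1 e)
  have key : ∀ c ∈ zpowers z, ∃ i : ℤ, f (⟨n, hn⟩ ^ i) = c := fun c hc => by
    obtain ⟨i, rfl⟩ := e ▸ hc
    exact ⟨i, map_zpow _ _ _⟩
  refine ⟨fun c hc => ?_, fun g hg => ?_, ?_⟩
  · obtain ⟨i, rfl⟩ := key c hc
    exact ⟨_, (⟨n, hn⟩ ^ i : X).2, rfl⟩
  · obtain ⟨i, hi⟩ := key _ (h g hg)
    have := (hk (⟨g, hg⟩ * (⟨n, hn⟩ ^ i)⁻¹)).1 (by rw [map_mul, map_inv, hi]; exact mul_inv_cancel _)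
    rw [show g = g * (n ^ i)⁻¹ * n ^ i by group]
    exact mul_mem (mem_sup_left ⟨X.mul_mem hg (X.inv_mem (X.zpow_mem hn i)), this⟩) (mem_sup_right (zpow_mem_zpowers n i))
  · have h1 : f.range = zpowers z := le_antisymm (by rintro _ ⟨g, rfl⟩; exact h g g.2) fun c hc => let ⟨_, hi⟩ := key c hc; ⟨_, hi⟩
    rw [← Nat.card_zpowers, ← h1, ← index_ker, relIndex]
    congr 1; ext g; exact (hk g).symm

variable {G : Type u} [Group G] [Finite G]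

namespace Alr
variable {m : Min G} (a : Alr m) {x v : G} {B : Subgroup G}

theorem RH : a.R ≤ a.H := (a.RF.trans a.FU).trans (U_le _)
theorem Rp : PiGrp {a.r} a.R := piCoreOf_piGrp _ _
theorem Rz : a.R ≤ 𝐂[a.z] := mem_cent_iff_le_cent1.1 a.shape.2.2.2.1.2
theorem pz : (orderOf a.z).Prime := a.oz ▸ a.hr
theorem cz : Nat.card (zpowers a.z) = a.r := by rw [Nat.card_zpowers, a.oz]
theorem cy' : Nat.card (zpowers a.y) = a.r := by rw [Nat.card_zpowers, a.oy]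
theorem RL : a.R ⊓ a.L = a.R ⊓ 𝐂[a.y] := a.shape.2.2.2.2.2.1
theorem F_eq : a.R ⊔ a.K' = a.F := a.dp.sup_eq

theorem zp_y (hx : x ∈ zpowers a.y) (h1 : x ≠ 1) : zpowers x = zpowers a.y :=
  (eq_zpowers_of_prime_card (a.cy' ▸ a.hr) hx h1).symm

theorem not_cy : ¬ a.R ≤ 𝐂[a.y] := fun e => a.shape.1 (inf_eq_left.1 (a.RL.trans (inf_eq_left.2 e)))

theorem mem_A : x ∈ a.A ↔ ∃ u ∈ zpowers a.y, ∃ c ∈ zpowers a.z, u * c = x :=
  mem_sup_of_norm_left (norms_zpowers_of_cent1 (zpowers_le.2 (a.Rz a.yR)))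

theorem omA' (hx : x ∈ a.R) (hy : x ∈ 𝐂[a.y]) (h : x ^ a.r = 1) : x ∈ a.A :=
  a.omA ⟨a.RF hx, (a.RL ▸ (⟨hx, hy⟩ : x ∈ a.R ⊓ 𝐂[a.y]) : x ∈ a.R ⊓ a.L).2⟩ h

/-- an element of `A` in a subgroup `X ∋ z` not containing `y` lies in `⟨z⟩` -/
theorem mem_z {X : Subgroup G} (hz : a.z ∈ X) (hy : a.y ∉ X) (hx : x ∈ a.A) (h : x ∈ X) : x ∈ zpowers a.z := by
  obtain ⟨u, hu, c, hc, rfl⟩ := a.mem_A.1 hx
  obtain rfl : u = 1 := by_contra fun e => hy (zpowers_le.1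
    (a.zp_y hu e ▸ zpowers_le.2 ((X.mul_mem_cancel_right (zpowers_le.2 hz hc)).1 h)))
  simpa using hc

theorem ex_B : ∃ B : Subgroup G, (∀ x, x ∈ B ↔ a.InB x) ∧ a.H ≤ 𝐍(B) ∧ zpowers a.z < B := by
  haveI := Fact.mk a.hr
  have cz : ∀ g ∈ a.R, ∀ c ∈ zpowers a.z, c * g = g * c := fun g hg c hc => mem_cent_iff.1 (cent_zpowers a.z ▸ a.Rz hg) c hc
  let B : Subgroup G :=
    { carrier := {x | a.InB x}
      one_mem' := ⟨one_mem _, one_pow _, fun g _ => by simp⟩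
      mul_mem' := fun {x y} hx hy => ⟨mul_mem hx.1 hy.1, mul_pow_eq_one_of_class_two a.r2 (cz _ hx.1 _ (hx.2.2 y hy.1)).symm
        (cz _ hy.1 _ (hx.2.2 y hy.1)).symm hx.2.1 hy.2.1, fun g hg => by
        have := mul_mem (hx.2.2 g hg) (hy.2.2 g hg)
        rw [mul_assoc _ x⁻¹, ← cz _ (inv_mem hx.1) _ (hy.2.2 g hg)] at this
        convert this using 1; group⟩
      inv_mem' := fun {x} hx => ⟨inv_mem hx.1, by rw [inv_pow, hx.2.1, inv_one], fun g hg => by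
        have := inv_mem (hx.2.2 g hg)
        have e := cz _ (inv_mem hx.1) _ this
        rw [← mul_inv_cancel_right (g * x * g⁻¹ * x⁻¹)⁻¹ x⁻¹, e] at this
        convert this using 1; group⟩ }
  have zB : zpowers a.z ≤ B := zpowers_le.2 ⟨a.zR, a.oz ▸ pow_orderOf_eq_one _, fun g hg => by
    simp [mem_cent1_iff.1 (a.Rz hg)]⟩
  refine ⟨B, fun _ => Iff.rfl, fun h hh => mem_normalizer_of_cj_le (cj_le_iff'.2 fun x hx =>
    ⟨conj_mem_of_mem_normalizer (a.nR hh) hx.1, by rw [conj_pow, hx.2.1]; simp, fun g hg => ?_⟩), zB.lt_of_not_ge fun e => ?_⟩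
  · have := conj_mem_of_mem_normalizer (a.shape.2.2.2.2.1 hh) (hx.2.2 _ (conj_inv_mem_of_mem_normalizer (a.nR hh) hg))
    convert this using 1; group
  obtain ⟨X, hX, hn⟩ := exists_normal_elem_two a.r2 (a.Rp.isPGroup a.hr) fun hc =>
    a.not_cy fun g hg => mem_cent1_iff.2 (abelian_iff'.1 (abelian_of_cyclic hc) g hg _ a.yR)
  have X1 : X ≠ ⊥ := fun e => by
    have := hX.2.2; rw [e, card_bot] at this; exact (Nat.one_lt_pow two_ne_zero a.hr.one_lt).ne this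
  have h1 := nil_comm_lt_right a.Rp.nilpotent hX.1 X1 le_rfl hn
  have h2 : ⁅a.R, X⁆ ≤ zpowers a.z := by
    by_cases e : ⁅a.R, X⁆ = ⊥
    · simp [e]
    obtain ⟨c, c1, c2⟩ := exists_ne_one_mem' (meet_center_nil a.Rp.nilpotent ⟨h1.le.trans hX.1, comm_norm_left _ _⟩ e)
    have c3 : c ∈ zpowers a.z := a.mem_z (X := 𝐂(a.R)) (mem_cent_iff_le_cent1.2 a.Rz)
      (fun e => a.not_cy (mem_cent_iff_le_cent1.1 e))
      (a.omA' c1.2.1 (cent_le_cent1 a.yR c1.2.2) (hX.2.1.2 c (h1.le c1.1))) c1.2.2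
    have c4 := card_dvd_of_le' h1.le
    rw [hX.2.2] at c4
    obtain ⟨k, k1, k2⟩ := (Nat.dvd_prime_pow a.hr).1 c4
    have c5 := card_lt_of_lt' h1
    rw [k2, hX.2.2, Nat.pow_lt_pow_iff_right a.hr.one_lt] at c5
    refine (eq_of_le_of_card_le ((eq_zpowers_of_prime_card (a.cz ▸ a.hr) c3 c2) ▸ zpowers_le.2 c1.1) ?_).ge
    rw [k2, a.cz]; exact (Nat.pow_le_pow_right a.hr.pos (by omega)).trans_eq (pow_one _)
  have h3 := card_le_of_le' ((show X ≤ B from fun x hx => ⟨hX.1 hx, hX.2.1.2 x hx, fun g hg => h2 (comm_mem hg hx)⟩).trans e)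
  rw [hX.2.2, a.cz] at h3
  have := a.hr.one_lt
  nlinarith

/-- case (b): the structure of `U` -/
theorem notB (h : ¬ a.InB a.y) (hv : v ∈ a.E ⊓ a.H) (v2 : Inv2 v) (vt : v ≠ m.t) : ∃ K, K ⊴ a.U ∧ K ≠ ⊥ ∧ K ≤ a.F ∧
    (∀ x ∈ K, v * x * v⁻¹ = x⁻¹) ∧ a.U = K ⊔ (a.U ⊓ 𝐂[v]) := by
  obtain ⟨B, hB, nB, zB⟩ := a.ex_B
  have BR : B ≤ a.R := fun x hx => ((hB x).1 hx).1
  obtain ⟨b, b1, b2⟩ := SetLike.exists_of_lt zB
  have h1 : B ⊓ 𝐂[a.y] ≤ zpowers a.z := fun x hx => a.mem_z (zB.le (mem_zpowers _)) (fun e => h ((hB _).1 e))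
    (a.omA' (BR hx.1) hx.2 ((hB x).1 hx.1).2.1) hx.1
  have b3 : b ∉ 𝐂[a.y] := fun e => b2 (h1 ⟨b1, e⟩)
  have h2 := (cm_pack a.pz (BR.trans a.Rz) (fun g hg => by
    simpa [mul_assoc] using inv_mem (((hB g).1 hg).2.2 _ a.yR)) b1 b3).2.1
  have h3 := (cm_pack a.pz a.Rz ((hB b).1 b1).2.2 a.yR (mt mem_cent1_comm.1 b3)).2.1
  have h4 : a.R ⊓ 𝐂[b] ≤ a.R ⊓ 𝐂(B) := le_inf inf_le_left (cents_symm (h2.trans (sup_le
    (h1.trans (cents_symm (cent_zpowers a.z ▸ inf_le_left.trans a.Rz))) (cents_symm (cent_zpowers b ▸ inf_le_right)))))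
  replace h3 := h3.trans (sup_le_sup_right h4 _)
  have n1 : a.H ≤ 𝐍(a.R ⊓ 𝐂(B)) := norms_inf a.nR (norms_cent nB)
  have n2 : a.H ≤ 𝐍(a.K') := norms_piCoreOf _ a.nF
  have oF : Odd (Nat.card a.F) := odd_le a.FU
  set Q := a.R ⊓ 𝐂(B) with hQ
  have QR : Q ≤ a.R := inf_le_left
  have i1 : ∀ x ∈ Q, v * x * v⁻¹ = x⁻¹ := fun x hx => inv_of_cent_bot v2.sq (n1 hv.2) (odd_card_of_le oF (QR.trans a.RF))
    (by_contra fun e => by
      obtain ⟨w, w1, w2⟩ := exists_orderOf_eq_prime a.hr (((a.Rp.of_le QR).inf_left _).dvd_card_of_ne_bot e)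
      have w3 := a.omW w (a.cW hv v2 vt ▸ ⟨a.RF (QR w1.1), w1.2⟩) (w2 ▸ pow_orderOf_eq_one w)
      have w4 : a.y ∈ Q := zpowers_le.1 (a.zp_y w3 (fun e => by simp [e, a.hr.one_lt.ne] at w2) ▸ zpowers_le.2 w1.1)
      exact b3 (mem_cent1_comm.1 (cent_le_cent1 b1 w4.2))) hx
  have i2 : ∀ x ∈ a.K', v * x * v⁻¹ = x⁻¹ := fun x hx => a.iv v ⟨lay_le _ hv.1, hv.2⟩ v2 vt x (a.shape.2.2.1 hx)
  have c1 : a.K' ≤ 𝐂(Q) := cents_of_pi_nil (fittingOf_nilpotent _) (piCoreOf_le _ _) (QR.trans a.RF) (piCoreOf_piGrp _ _)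
    (by rw [compl_compl]; exact a.Rp.of_le QR)
  have vU : zpowers v ≤ 𝐍(a.U) := zpowers_le.2 (U_norm _ hv.2)
  have h5 : ⁅a.U, zpowers v⁆ ≤ a.F := by
    refine a.stab ⟨comm_le_left vU, comm_norm_left _ _⟩ (comm_cents_of_inv v2.sq ((U_le _).trans n2) i2) fun x hx hp => ?_
    have x1 := comm_le_der (U_le _) (zpowers_le.2 hv.2) hx
    have xH := der_le _ x1
    have e1 : IsCyclic ↥(a.R /ₛ Q) := (isCyclic_quo_iff (a.RH.trans n1)).2 ⟨_, a.yR, h3⟩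
    have e2 := der_cents_of_norms_cyclic e1 (quo_norms Q a.nR)
    rw [← quo_der n1, cents_comm, quo_cents_iff (a.RH.trans n1) ((der_le _).trans n1)] at e2
    exact zpowers_le.1 ((copAct_p_left (zpowers_le.2 (a.nR xH)) a.Rp (piGrp_zpowers.2 hp)).cents_of_comm_le
      ((commutator_mono le_rfl (zpowers_le.2 x1)).trans e2) (zpowers_le.2 (comm_cents_of_inv v2.sq ((U_le _).trans n1) i1 hx)))
  have KF : Q ⊔ a.K' ≤ a.F := sup_le (QR.trans a.RF) (piCoreOf_le _ _)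
  refine ⟨Q ⊔ a.K', ⟨KF.trans a.FU, (U_le _).trans (norms_sup n1 n2)⟩, ne_bot_of_mem (mem_sup_left ⟨a.zR,
    cents_symm (cent_zpowers a.z ▸ BR.trans a.Rz) (mem_zpowers _)⟩) (fun e => a.hr.one_lt.ne (by simpa [e] using a.oz)), KF, fun x hx => ?_,
    le_antisymm ?_ (sup_le (KF.trans a.FU) inf_le_left)⟩
  · obtain ⟨p, hp, k, hk, rfl⟩ := (mem_sup_of_norm_right (norms_of_cents c1)).1 hx
    rw [← conj_mul, i1 p hp, i2 k hk, mem_cent_iff.1 (c1 hk) p hp, mul_inv_rev]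
  · have e1 := (copAct_inv v2.sq (odd_core _) (zpowers_le.1 vU)).le_sup_cent h5
    rw [cent_zpowers, ← a.F_eq] at e1
    refine e1.trans (sup_le (sup_le (h3.trans (sup_le (le_sup_left.trans le_sup_left) (le_sup_of_le_right (zpowers_le.2
      ⟨a.FU a.yW.1, (a.cW hv v2 vt ▸ a.yW : a.y ∈ a.F ⊓ 𝐂[v]).2⟩)))) (le_sup_right.trans le_sup_left)) le_sup_right)

theorem caseB : a.InB a.y := by_contra fun h => by
  by_cases hi : a.In
  · obtain ⟨-, d, d1, d2, -, d3, d4, -⟩ := a.inn hi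
    have r1 : d.r ∉ zpowers d.s := d.rn
    have hv : d.r ∈ a.E ⊓ a.H := ⟨d3, by have := d.rH; rwa [show d.H = 𝐂[d.t] from rfl, d1] at this⟩
    have v2 : Inv2 d.r := ⟨d.rr, fun e => r1 (e ▸ one_mem _)⟩
    have vt : d.r ≠ m.t := fun e => r1 (e ▸ d1 ▸ npow_mem_zpowers _ _)
    obtain ⟨K, k1, k2, k3, k4, k5⟩ := a.notB h hv v2 vt
    have := d.tool2 m.perf (d2 ▸ k1) k2 k4 (d2 ▸ d4) (d2 ▸ k5) (by
      rw [show d.N = (𝐂[d.t]).index from rfl, d1]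
      exact (a.shape.2.2.2.2.2.2.2 hi).1.coprime_dvd_right (card_dvd_of_le' k3))
    have h1 : a.y ∈ d.U ⊓ 𝐂[d.r] := ⟨d2 ▸ a.FU a.yW.1, (a.cW hv v2 vt ▸ a.yW : a.y ∈ a.F ⊓ 𝐂[d.r]).2⟩
    rw [this, mem_bot] at h1
    exact a.hr.one_lt.ne (by simpa [h1] using a.oy)
  obtain ⟨v, v1, -, v2, vt⟩ := a.ex_v
  obtain ⟨K, -, -, k3, -, k5⟩ := a.notB h (a.DE v1) v2 vt
  have h1 : a.U ⊓ 𝐂[v] ≤ a.L := by
    refine le_trans ?_ (a.NW _ le_rfl a.W0)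
    rw [show fittingOf 𝐎(𝐂[m.t]) ⊓ 𝐎(a.L) = _ from (a.cW (a.DE v1) v2 vt).symm]
    exact norms_inf ((inf_le_left.trans (U_le _)).trans a.nF) (norms_cent1 inf_le_right)
  have h2 : a.U ⊓ a.L ⊔ a.R = a.U := le_antisymm (sup_le inf_le_left (a.RF.trans a.FU)) (k5.le.trans (sup_le
    (k3.trans (a.F_eq.ge.trans (sup_le le_sup_right (le_sup_of_le_left (le_inf ((piCoreOf_le _ _).trans a.FU) a.K'_le)))))
    (le_sup_of_le_left (le_inf inf_le_left h1))))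
  have h3 : PiNum {a.r} ((a.U ⊓ a.L).relIndex a.U) := by
    nth_rewrite 2 [← h2]
    rw [relIndex_sup_of_norm' ((inf_le_left.trans (U_le _)).trans a.nR)]; exact a.Rp.relIndex _
  have h4 := (a.out hi).trans (relIndex_dvd_of_le_left a.H (inf_le_right : a.U ⊓ a.L ≤ a.L))
  rw [← relIndex_mul_relIndex _ _ _ inf_le_left (U_le _)] at h4
  have h5 := a.τ_cases
  have h6 := a.q_eq
  have h7 := a.cl.five
  obtain ⟨l, l1, l2⟩ := Nat.exists_prime_and_dvd (show a.τ' ≠ 1 by omega)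
  have l3 : l ∣ a.τ := by
    refine Dvd.dvd.trans ?_ a.two_r
    rcases (Nat.Prime.dvd_mul l1).1 (l2.trans h4) with e | e
    · exact Dvd.intro_left _ (by rw [h3.mem l1 e])
    · exact Dvd.intro _ (by rw [(m.npc m.inv le_rfl).piNum.mem l1 e])
  refine l1.one_lt.ne' (Nat.dvd_one.1 ?_)
  rcases h5 with e | e
  · rw [← e] at l3; exact (Nat.dvd_add_right l2).1 l3
  · rw [e] at l2; exact (Nat.dvd_add_right l3).1 l2

theorem y_z : a.y ∉ zpowers a.z := fun e => a.not_cy (a.Rz.trans (by rw [← cent_zpowers]; exact cent_le_cent1 e))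

theorem RA : a.R ≤ 𝐍(a.A) := fun g hg => mem_normalizer_of_cj_le (by
  rw [cj_sup, cj_zpowers, cj_zpowers, mem_cent1_iff.1 (a.Rz hg), mul_inv_cancel_right]
  refine sup_le (zpowers_le.2 ?_) le_sup_right
  simpa using mul_mem (mem_sup_right (a.caseB.2.2 g hg) : _ ∈ a.A) (mem_sup_left (mem_zpowers a.y)))

theorem zA : (zpowers a.z).relIndex a.A = a.r := by
  have := card_mul_relIndex (le_sup_right : zpowers a.z ≤ a.A)
  rw [a.cz, a.cardA, pow_two] at this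
  exact Nat.eq_of_mul_eq_mul_left a.hr.pos this

theorem ex_B' : ∃ B : Subgroup G, (∀ x, x ∈ B ↔ a.InB x) ∧ a.H ≤ 𝐍(B) ∧ a.A < B ∧ B ⊓ 𝐂[a.y] = a.A ∧
    (zpowers a.z).relIndex B = a.r ^ 2 := by
  obtain ⟨B, hB, nB, zB⟩ := a.ex_B
  have BR : B ≤ a.R := fun x hx => ((hB x).1 hx).1
  have AB : a.A ≤ B := sup_le (zpowers_le.2 ((hB _).2 a.caseB)) zB.le
  have AB' := lt_of_le_of_ne AB fun e => a.caseA (e ▸ nB)
  obtain ⟨b, b1, b2⟩ := SetLike.exists_of_lt AB'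
  have h4 : B ⊓ 𝐂[a.y] = a.A := le_antisymm (fun x hx => a.omA' (BR hx.1) hx.2 ((hB x).1 hx.1).2.1)
    (le_inf AB (sup_le (zpowers_le.2 (self_mem_cent1 _)) (zpowers_le.2 (mem_cent1_comm.1 (a.Rz a.yR)))))
  have h5 := (cm_pack a.pz (BR.trans a.Rz) (fun g hg => by
    simpa [mul_assoc] using inv_mem (((hB g).1 hg).2.2 _ a.yR)) b1 fun e => b2 (h4 ▸ ⟨b1, e⟩)).2.2
  rw [← inf_relIndex_left, h4, a.oz] at h5
  exact ⟨B, hB, nB, AB', h4, by rw [← relIndex_mul_relIndex _ _ _ le_sup_right AB, h5, a.zA, pow_two]⟩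

theorem HLA : a.H ⊓ a.L ≤ a.H ⊓ 𝐍(a.A) :=
  le_inf inf_le_left (norms_sup (a.nY.ge.trans inf_le_right) (inf_le_left.trans a.shape.2.2.2.2.1))

theorem shapeC : ∃ ω', a.ω = a.r * ω' ∧ ω' = 𝐍(a.A).relIndex a.H ∧ 1 < ω' ∧ ω' ≤ a.r + 1 ∧
    a.H ⊓ 𝐍(a.A) ≤ a.R ⊔ (a.H ⊓ a.L) := by
  obtain ⟨B, hB, nB, AB, -, h5⟩ := a.ex_B'
  have nz := a.shape.2.2.2.2.1
  have yB := (hB _).2 a.caseB
  obtain ⟨n, n1, n2⟩ := SetLike.not_le_iff_exists.1 a.not_cy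
  have h1 := a.HLA
  have h2 : a.H ⊓ 𝐍(a.A) ≤ a.R ⊔ (a.H ⊓ a.L) := fun g hg => by
    obtain ⟨u, hu, c, hc, e⟩ := a.mem_A.1 (conj_mem_of_mem_normalizer hg.2 (mem_sup_left (mem_zpowers a.y)))
    have u1 : u ≠ 1 := fun e' => a.y_z (by
      simpa [mul_assoc] using conj_inv_mem_of_mem_normalizer (nz hg.1) (show g * a.y * g⁻¹ ∈ _ by rwa [← e, e', one_mul]))
    obtain ⟨k, k1, k2⟩ := (cm_pack a.pz a.Rz ((hB u).1 (zpowers_le.2 yB hu)).2.2 n1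
      (by rwa [← cent_zpowers, a.zp_y hu u1, cent_zpowers])).1 c hc
    have k3 : k⁻¹ * g ∈ a.H ⊓ 𝐍(zpowers a.y) := ⟨a.H.mul_mem (a.H.inv_mem (a.RH k1)) hg.1, mem_normalizer_of_cj_le (by
      rw [cj_zpowers, zpowers_le, show k⁻¹ * g * a.y * (k⁻¹ * g)⁻¹ = k⁻¹ * (g * a.y * g⁻¹) * k by group, ← e,
        ← mem_cent_iff.1 (cent_zpowers a.z ▸ a.Rz (zpowers_le.2 a.yR hu)) c hc, ← k2]
      simpa [mul_assoc] using hu)⟩
    rw [show g = k * (k⁻¹ * g) by group]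
    exact mul_mem (mem_sup_left k1) (mem_sup_right (a.nY ▸ k3))
  have h3 : (a.H ⊓ a.L).relIndex (a.H ⊓ 𝐍(a.A)) = a.r := by
    rw [le_antisymm h2 (sup_le (le_inf a.RH a.RA) h1), sup_comm, relIndex_sup_of_norm' (inf_le_left.trans a.nR),
      ← inf_relIndex_left, ← inf_assoc, inf_eq_left.2 a.RH, a.RL, inf_relIndex_left, (cm_pack a.pz a.Rz a.caseB.2.2 n1 n2).2.2, a.oz]
  refine ⟨_, ?_, rfl, one_lt_relIndex a.caseA, ?_, h2⟩
  · rw [← h3, ← inf_relIndex_left a.H 𝐍(a.A), relIndex_mul_relIndex _ _ _ h1 inf_le_left, inf_relIndex_left]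
  rw [← ncard_cj_orbit]
  refine lines a.hr (le_sup_right.trans AB.le) h5 ?_
  rintro _ ⟨g, hg, rfl⟩
  have e := cj_eq_of_mem_normalizer (nz hg)
  exact ⟨e.ge.trans (cj_mono g le_sup_right), cj_le_of_mem_normalizer AB.le (nB hg), by rw [← e, relIndex_cj, a.zA]⟩

end Alr

end CA.GW
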