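import Mathlib

/-!
The arithmetic at the end of case (c) of the dihedral Sylow theorem.
-/

set_option autoImplicit false

namespace CA.GW

theorem arithC0 {r ω q a δ ε t u : ℤ} (r3 : 3 ≤ r) (hδ : δ = 1 ∨ δ = -1) (hε : ε = 1 ∨ ε = -1) (ha : a = 1 ∨ a = 2)
    (ho : Odd (r * ω)) (hq : q = 4 * (r * t) + ε) (t1 : 1 ≤ t) (h0 : 0 < ω) (h1 : ω ≤ r) (h2 : ω ≤ r - 2 ∨ 2 ≤ t)
    (h : a - δ * (r * ω) = q * u) : False := by
  obtain ⟨w, hw⟩ := ho
  obtain ⟨v, hv⟩ : ∃ v, ε * u - a = r * v := ⟨-(δ * ω) - 4 * t * u, by rw [hq] at h; linear_combination -h⟩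
  have v0 : v ≠ 0 := fun e => by
    rw [hw, hq] at h
    rw [e, mul_zero] at hv
    generalize r * t = z at h
    rcases hδ with rfl | rfl <;> rcases hε with rfl | rfl <;> rcases ha with rfl | rfl <;>
      (obtain rfl : u = _ := by first | exact (by omega : u = 1) | exact (by omega : u = -1) | exact (by omega : u = 2) |
        exact (by omega : u = -2)) <;> omega
  have hu : r - 2 ≤ u ∨ u ≤ 2 - r := by
    have : r ≤ r * v ∨ r * v ≤ -r := (lt_or_gt_of_ne v0).symm.imp (fun _ => by nlinarith) fun _ => by nlinarith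
    rcases hε with rfl | rfl <;> omega
  have k : ∃ z, r - 2 ≤ z ∧ q * z ≤ r * ω + 2 := by
    have : 0 < r * ω := by positivity
    rcases hu with hu | hu
    · exact ⟨u, hu, by rcases hδ with rfl | rfl <;> omega⟩
    · exact ⟨-u, by omega, by rw [mul_neg]; rcases hδ with rfl | rfl <;> omega⟩
  obtain ⟨z, z1, z2⟩ := k
  rcases h2 with h2 | h2
  · have : 4 * r - 1 ≤ q := by rcases hε with rfl | rfl <;> nlinarith
    nlinarith [mul_le_mul this z1 (by omega) (by omega)]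
  · have : 8 * r - 1 ≤ q := by rcases hε with rfl | rfl <;> nlinarith
    nlinarith [mul_le_mul this z1 (by omega) (by omega)]

theorem arithC1 {r c : ℤ} (pr : Prime r) (r3 : 3 ≤ r) (or : Odd r) (oc : Odd c) (a1 : c ≤ r) (a2 : -c ≤ r)
    (h : r ∣ (c - 1) * (c + 1)) : c = 1 ∨ c = -1 := by
  obtain ⟨o, a3⟩ := oc
  obtain ⟨o', a4⟩ := or
  rcases pr.dvd_or_dvd h with ⟨v, h⟩ | ⟨v, h⟩
  · have : -2 < v ∧ v < 1 := ⟨by nlinarith, by nlinarith⟩
    obtain rfl | rfl : v = -1 ∨ v = 0 := by omega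
    all_goals omega
  · have : -1 < v ∧ v < 2 := ⟨by nlinarith, by nlinarith⟩
    obtain rfl | rfl : v = 1 ∨ v = 0 := by omega
    all_goals omega

theorem arithC {N r ω' κ e q τ' g p f : ℕ} {x : ℤ} (hr : r.Prime) (r2 : r ≠ 2) (hp : p.Prime) (hq : q = p ^ f)
    (he : 0 < e) (hκ : r ∣ κ) (ho : Odd ω') (h1 : ω' ≤ r + 1) (h2 : ω' ≠ r ∨ 2 ≤ e) (hqτ : q = 2 * e * κ + τ')
    (hτ : τ' + 1 = 2 * e * κ ∨ τ' = 2 * e * κ + 1) (hc : N.Coprime κ) (hN : N ≡ 1 [MOD r])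
    (hg : N * (r * ω') = g * (q * τ')) (hx : x ≡ 1 [ZMOD 4 * e]) (x1 : x ≠ 1)
    (hT : N * (x - 1) ^ 2 = 2 * (e : ℤ) ^ 2 * (2 * (r * ω' * κ)) ^ 2 * x * (x + 1)) : False := by
  obtain ⟨k, hk⟩ := hx.symm.dvd
  obtain rfl : x = 1 + 4 * e * k := by linear_combination hk
  obtain ⟨n, rfl⟩ := hκ
  have r3 : 3 ≤ r := by have := hr.two_le; omega
  have or := hr.odd_of_ne_two r2
  have pr := Nat.prime_iff_prime_int.1 hr
  have pp := Nat.prime_iff_prime_int.1 hp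
  have k0 : k ≠ 0 := fun h => x1 (by simp [h])
  have e0 : (e : ℤ) ≠ 0 := by omega
  have hN' : (r : ℤ) ∣ 1 - N := by exact_mod_cast (Nat.modEq_iff_dvd.1 hN)
  have T : N * k ^ 2 = ((1 + 4 * e * k) * (1 + 2 * e * k)) * (r * ω' * (r * n : ℕ)) ^ 2 :=
    mul_left_cancel₀ (show 16 * (e : ℤ) ^ 2 ≠ 0 by positivity) (by linear_combination hT)
  obtain ⟨c, hM⟩ : k ∣ r * ω' * (r * n : ℕ) := (Int.pow_dvd_pow_iff two_ne_zero).1
    ((show IsCoprime k ((1 + 4 * e * k) * (1 + 2 * e * k)) from ⟨-(6 * e + 8 * e ^ 2 * k), 1, by ring⟩).pow_left.dvd_of_dvd_mul_left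
      ⟨N, by rw [← T]; ring⟩)
  have eN : (N : ℤ) = (1 + 4 * e * k) * (1 + 2 * e * k) * c ^ 2 :=
    mul_right_cancel₀ (pow_ne_zero 2 k0) (by rw [T, hM]; ring)
  have cc : IsCoprime c (r * n : ℕ) := (Nat.isCoprime_iff_coprime.2 hc).of_isCoprime_of_dvd_left
    (eN ▸ (dvd_pow_self c two_ne_zero).mul_left _)
  push_cast at cc hM
  have c0 : c ≠ 0 := fun h => by
    rw [eN, h] at hN'
    exact pr.not_dvd_one (by simpa using hN')
  obtain ⟨d, hd⟩ : c ∣ ω' := (cc.of_mul_right_left.mul_right cc).dvd_of_dvd_mul_left ⟨k, by linear_combination hM⟩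
  have ek : k = r * (d * r * n) := mul_right_cancel₀ c0 (by rw [← hM, hd]; ring)
  have w0 := ho.pos
  have w1 : ω' ≤ r := by obtain ⟨_, _⟩ := ho; obtain ⟨_, _⟩ := or; omega
  have c1 : c = 1 ∨ c = -1 := arithC1 pr (by omega) ((Int.odd_coe_nat _).2 or)
    (Int.Odd.of_mul_left (hd ▸ (Int.odd_coe_nat _).2 ho)) ((Int.le_of_dvd (by omega) ⟨d, hd⟩).trans (by omega))
    ((Int.le_of_dvd (by omega) (neg_dvd.2 ⟨d, hd⟩)).trans (by omega)) (by
      rw [show (c - 1) * (c + 1) = -(1 - N) - r * ((6 * e + 8 * e ^ 2 * k) * (d * r * n) * c ^ 2) by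
        rw [eN]; linear_combination -(6 * e + 8 * e ^ 2 * k) * c ^ 2 * ek]
      exact hN'.neg_right.sub (dvd_mul_right _ _))
  have c2 : c * c = 1 := by rcases c1 with rfl | rfl <;> rfl
  obtain ⟨ε, hε, eq⟩ : ∃ ε : ℤ, (ε = 1 ∨ ε = -1) ∧ (q : ℤ) = 4 * (r * (e * n)) + ε := by
    rcases hτ with h | h
    · exact ⟨-1, Or.inr rfl, by zify at h hqτ; linear_combination hqτ + h⟩
    · exact ⟨1, Or.inl rfl, by zify at h hqτ; linear_combination hqτ + h⟩
  have n0 : 0 < n := Nat.pos_of_ne_zero fun h => k0 (by simp [ek, h])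
  have t1 : (1 : ℤ) ≤ e * n := by exact_mod_cast Nat.mul_pos he n0
  have q4 : 4 * (r : ℤ) - 1 ≤ q := by
    have := mul_le_mul_of_nonneg_left t1 (Int.natCast_nonneg r)
    omega
  have pq : (p : ℤ) ∣ q := by
    rw [hq]; push_cast
    exact dvd_pow_self _ fun h => by rw [h, pow_zero] at hq; omega
  have ky : 4 * e * k = c * (r * ω') * (q - ε) := by rw [eq]; linear_combination -4 * e * c * hM - 4 * e * k * c2
  have cq : ∀ {a : ℤ}, ¬ (p : ℤ) ∣ a → IsCoprime (q : ℤ) a := fun h => by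
    rw [hq]; push_cast; exact (pp.coprime_iff_not_dvd.2 h).pow_left
  have p1 : ∀ {a : ℤ}, a ∣ 4 * r → ¬ (p : ℤ) ∣ a := fun h h' => pp.not_dvd_one (by
    have := pq.sub ((h'.trans h).mul_right (e * n))
    rw [eq, show 4 * (r * (e * n)) + ε - 4 * r * (e * n) = ε by ring] at this
    rcases hε with rfl | rfl
    exacts [this, dvd_neg.1 this])
  have D : (q : ℤ) ∣ (1 + 4 * e * k) * (2 + 4 * e * k) * ω' := (cq (p1 (dvd_mul_left _ 4))).dvd_of_dvd_mul_left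
    ⟨2 * g * τ', by zify at hg; linear_combination 2 * hg - 2 * r * ω' * eN -
      2 * r * ω' * (1 + 4 * e * k) * (1 + 2 * e * k) * c2⟩
  by_cases h : (p : ℤ) ∣ ω'
  · have y : (p : ℤ) ∣ 4 * e * k := ky ▸ ((h.mul_left _).mul_left _).mul_right _
    have := Int.le_of_dvd (by omega) (((cq fun h => pp.not_dvd_one ((dvd_add_left y).1 h)).mul_right
      (cq fun h => p1 (a := 2) ⟨2 * r, by ring⟩ ((dvd_add_left y).1 h))).dvd_of_dvd_mul_left D)
    omega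
  replace D := (cq h).dvd_of_dvd_mul_right D
  obtain ⟨a, ha, u, hu⟩ : ∃ a : ℤ, (a = 1 ∨ a = 2) ∧ (q : ℤ) ∣ a + 4 * e * k := by
    by_cases h : (p : ℤ) ∣ 1 + 4 * e * k
    · exact ⟨1, Or.inl rfl, (cq fun h' => pp.not_dvd_one (by simpa using h'.sub h)).dvd_of_dvd_mul_right D⟩
    · exact ⟨2, Or.inr rfl, (cq h).dvd_of_dvd_mul_left D⟩
  refine arithC0 (r := r) (ω := ω') (δ := c * ε) (u := u - c * (r * ω')) (by omega) ?_ hε ha
    (by exact_mod_cast or.mul ho) eq t1 (by omega) (by omega) ?_ (by linear_combination hu - ky)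
  · rcases c1 with rfl | rfl <;> rcases hε with rfl | rfl <;> simp
  · refine h2.imp (fun _ => by obtain ⟨_, _⟩ := ho; obtain ⟨_, _⟩ := or; omega) fun h => ?_
    exact_mod_cast (Nat.mul_le_mul h n0)

end CA.GW
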