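import Cfsg.Agent.Lib.GW.Tool3

/-! A character of `U` inverted by `r`: exceptional characters when `|S| = 4`. -/

set_option autoImplicit false
set_option linter.unusedSectionVars false
set_option linter.style.haveILetI false

open scoped ComplexConjugate

namespace CA.GW

open CA.Ch Cfsg Subgroup

theorem ds_gramF {G : Type*} [Group G] [Finite G] [Fintype G] [DecidableEq G] (F : G → ℂ) (b : G) :
    ∑ χ ∈ irr G, (∑ g, F g * χ g) * χ b = ∑ y, F (y * b⁻¹ * y⁻¹) := by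
  simp only [Finset.sum_mul]
  rw [Finset.sum_comm, Finset.sum_congr rfl (g := fun g => ∑ y,
    if g = y * b⁻¹ * y⁻¹ then F g else 0), Finset.sum_comm]
  · simp
  · intro g _
    simp only [mul_assoc (F g), ← Finset.mul_sum]
    rw [Finset.sum_congr rfl (fun χ _ => mul_comm _ _), ds_col, Finset.mul_sum]
    refine Finset.sum_congr rfl fun y _ => ?_
    have : y * b * y⁻¹ * g = 1 ↔ g = y * b⁻¹ * y⁻¹ := by
      rw [mul_eq_one_iff_inv_eq, eq_comm]
      simp [mul_assoc]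
    simp [this]

namespace DS
variable {G : Type*} [Group G] [Finite G] (D : DS G)

theorem triF [Fintype G] [DecidableEq G] (F : G → ℂ) :
    (D.N : ℂ) * ∑ χ ∈ irr G, (∑ g, F g * χ g) * (χ D.t ^ 2 / χ 1) =
      Nat.card D.H * ∑ a, J a * ∑ b, J b * F (a * b) := by
  have h1 : (Nat.card G : ℂ) * ∑ χ ∈ irr G, (∑ g, F g * χ g) * (χ D.t ^ 2 / χ 1) =
      ∑ y', ∑ y, F (y' * D.t * y'⁻¹ * (y * D.t * y⁻¹)) := by
    simp only [Finset.sum_mul]
    rw [Finset.sum_comm, Finset.mul_sum, Finset.sum_congr rfl (g := fun g => ∑ y', ∑ y,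
      if g = y' * D.t * y'⁻¹ * (y * D.t * y⁻¹) then F g else 0), Finset.sum_comm]
    · refine Finset.sum_congr rfl fun y' _ => ?_
      rw [Finset.sum_comm]; simp
    · intro g _
      simp only [mul_assoc (F g), ← Finset.mul_sum]
      rw [mul_left_comm, ds_tri, Finset.sum_comm, Finset.mul_sum]
      refine Finset.sum_congr rfl fun y' _ => ?_
      rw [Finset.mul_sum]
      refine Finset.sum_congr rfl fun y _ => ?_
      have : y * D.t * y⁻¹ * (y' * D.t * y'⁻¹ * g) = 1 ↔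
          g = y' * D.t * y'⁻¹ * (y * D.t * y⁻¹) := by
        rw [← mul_assoc, mul_eq_one_iff_inv_eq, eq_comm]
        simp [mul_assoc, D.ti]
      simp [this]
  rw [D.cjsum (fun a => ∑ y, F (a * (y * D.t * y⁻¹)))] at h1
  simp only [fun a => D.cjsum (fun b => F (a * b)),
    mul_left_comm _ (Nat.card D.H : ℂ), ← Finset.mul_sum] at h1
  rw [← D.H.index_mul_card] at h1
  push_cast at h1
  apply mul_left_cancel₀ (Ch.card_ne_zero' D.H)
  rw [← h1]; ring

theorem L_cjU (l : D.U →* ℂˣ) {w : G} (hw : w ∈ D.U) (x : G) :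
    D.L l (w * x * w⁻¹) = D.L l x := by
  rw [L_mul' (inv_mem hw), L_mul hw]
  linear_combination D.L l x * L_inv (l := l) hw

theorem cs_one (hm : D.m = 1) (i : ℕ) {x : G} (hx : x ∈ D.U) :
    D.s ^ i * x * (D.s ^ i)⁻¹ = x := by
  rw [← ((show Commute x D.s from mem_centralizer_iff.mp (D.s_cent hm) x hx).pow_right i).eq]
  group

theorem stable_of_rot (hm : D.m = 1) {l : D.U →* ℂˣ}
    (hr : ∀ u v : D.U, (v : G) = D.r * u * D.r⁻¹ → l v = l u) {ρ : G}
    (h1 : ρ * D.t * ρ⁻¹ = D.r) (h2 : ρ * D.r * ρ⁻¹ = D.t * D.r)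
    (h3 : ∀ u v : D.U, (u : G) ∈ (𝐂[D.r] : Subgroup G) → (v : G) = ρ * u * ρ⁻¹ → l v = l u) :
    D.Stable l := by
  refine stable1 h1 h2 hm (fun h hh u v e => ?_) fun b hb => ?_
  · suffices h3 : D.L l v = D.L l u by
      rw [L_of u.2, L_of v.2] at h3
      exact Units.ext (star_injective h3)
    obtain ⟨w, hw, i, rfl | rfl⟩ := D.cov h hh
    · rw [e, show w * D.s ^ i * u * (w * D.s ^ i)⁻¹ = w * (D.s ^ i * u * (D.s ^ i)⁻¹) * w⁻¹ by
        group, D.cs_one hm i u.2, D.L_cjU l hw]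
    · rw [e, show w * (D.s ^ i * D.r) * u * (w * (D.s ^ i * D.r))⁻¹ =
        w * (D.s ^ i * (D.r * u * D.r⁻¹) * (D.s ^ i)⁻¹) * w⁻¹ by group,
        D.cs_one hm i (D.cj D.rH u.2), D.L_cjU l hw, L_of (D.cj D.rH u.2), L_of u.2,
        hr u ⟨_, D.cj D.rH u.2⟩ rfl]
  · rw [L_of hb.1, L_of (D.rho_mem h1 h2 hb).1, h3 ⟨b, hb.1⟩ ⟨_, (D.rho_mem h1 h2 hb).1⟩ hb.2 rfl]

theorem J_cj (y g : G) : J (y * g * y⁻¹) = J g := by
  classical
  simp only [J_def, conj_mul, conj_eq_one_iff, ne_eq]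

theorem L_triv {u : G} (hu : u ∈ D.U) : D.L 1 u = 1 := by rw [L_of hu]; simp

theorem sumL [Fintype D.U] {l : D.U →* ℂˣ} (h : l ≠ 1) : ∑ u : D.U, D.L l u = 0 := by
  have := sum_hom_units_eq_zero ((Units.coeHom ℂ).comp l) fun e => h (MonoidHom.ext fun u =>
    Units.ext (DFunLike.congr_fun e u))
  rw [Finset.sum_congr rfl (g := fun u => conj (l u : ℂ)) fun u _ => L_of u.2, ← map_sum]
  exact (congrArg conj this).trans (map_zero _)

theorem L_sq {l : D.U →* ℂˣ} {u : G} (hu : u ∈ D.U) (h : D.L l u * D.L l u = 1) : D.L l u = 1 := by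
  obtain ⟨k, hk⟩ := D.odd_of hu
  have : ∀ n : ℕ, D.L l (u ^ n) = D.L l u ^ n := fun n => by
    induction n with
    | zero => simp [L_one]
    | succ n ih => rw [pow_succ, L_mul' hu, ih, pow_succ]
  have h2 := this (orderOf u)
  rwa [pow_orderOf_eq_one, L_one, hk, pow_succ, pow_mul, pow_two, h, one_pow, one_mul,
    eq_comm] at h2

/-- `1 - l` on `U ⟨t⟩` -/
noncomputable def ff (l : D.U →* ℂˣ) (g : G) : ℂ :=
  D.L 1 g - D.L l g + (D.L 1 (g * D.t) - D.L l (g * D.t))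

section
variable {D} {l : D.U →* ℂˣ} (hm : D.m = 1)

theorem ff_ne {g : G} (h : D.ff l g ≠ 0) : ∃ u ∈ D.U, ∃ i : ℕ, g = u * D.s ^ i := by
  by_cases h1 : g ∈ D.U
  · exact ⟨g, h1, 0, by simp⟩
  by_cases h2 : g * D.t ∈ D.U
  · exact ⟨_, h2, D.m, by rw [mul_assoc, D.tt, mul_one]⟩
  · exact absurd (by simp [ff, L_not h1, L_not h2]) h

theorem ff_r {u : G} (hu : u ∈ D.U) (i : ℕ) : D.ff l (u * (D.s ^ i * D.r)) = 0 := by
  by_contra h
  obtain ⟨v, hv, j, e⟩ := ff_ne h
  refine D.srU (mul_mem (npow_mem_zpowers D.s i) (npow_mem_zpowers D.s j)) ?_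
  convert mul_mem (inv_mem hu) hv using 1
  rw [eq_inv_mul_iff_mul_eq, mul_assoc (D.s ^ i), ← inv_inv (D.s ^ j), ← D.r_mul', ← mul_assoc,
    ← mul_assoc, mul_assoc u, e]
  group

include hm

theorem ff_of {u : G} (hu : u ∈ D.U) (i : ℕ) : D.ff l (u * D.s ^ i) = 1 - D.L l u := by
  have h0 : u * D.t ∉ D.U := fun h =>
    D.t1 (D.sU (npow_mem_zpowers _ _) ((mul_mem_cancel_left hu).mp h))
  rcases D.s_one hm i with h | h <;> rw [h, ff]
  · rw [mul_one, L_not h0, L_not h0, D.L_triv hu]; ring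
  · rw [mul_assoc, D.tt, mul_one, L_not h0, L_not h0, D.L_triv hu]; ring

theorem s_inv (i : ℕ) : (D.s ^ i)⁻¹ = D.s ^ i := by
  rcases D.s_one hm i with h | h <;> rw [h]
  · exact inv_one
  · exact D.ti

theorem us_inv {u : G} (hu : u ∈ D.U) (i : ℕ) : (u * D.s ^ i)⁻¹ = u⁻¹ * D.s ^ i := by
  rw [mul_inv_rev, s_inv hm]
  exact mul_inv_eq_iff_eq_mul.mp (D.cs_one hm i (inv_mem hu))

variable (hr : ∀ u v : D.U, (v : G) = D.r * u * D.r⁻¹ → l v = (l u)⁻¹)
include hr

theorem L_r (i : ℕ) {u : G} (hu : u ∈ D.U) :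
    D.L l (D.s ^ i * D.r * u * (D.s ^ i * D.r)⁻¹) = D.L l u⁻¹ := by
  rw [show D.s ^ i * D.r * u * (D.s ^ i * D.r)⁻¹ = D.s ^ i * (D.r * u * D.r⁻¹) * (D.s ^ i)⁻¹ by
    group, D.cs_one hm i (D.cj D.rH hu), L_of (D.cj D.rH hu), L_of (inv_mem hu),
    hr ⟨u, hu⟩ ⟨_, D.cj D.rH hu⟩ rfl, ← map_inv]
  rfl

theorem sumJL [Fintype D.U] (l1 : l ≠ 1) (k : ℕ) :
    ∑ u : D.U, J (u * (D.s ^ k * D.r)) * D.L l (u : G)⁻¹ = 0 := by
  classical
  obtain ⟨w, hw⟩ := not_forall.mp fun h => l1 (MonoidHom.ext h)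
  have h1 : D.L l w * D.L l w ≠ 1 := fun h => hw (by
    have := D.L_sq w.2 h
    rw [L_of w.2, ← map_one conj] at this
    exact Units.ext (star_injective this))
  have h2 := D.cj (D.srH k) w.2
  have h3 := Fintype.sum_bijective (fun u : D.U => w⁻¹ * u * ⟨_, h2⟩)
    (Finite.injective_iff_bijective.mp fun a b h => by simpa using h)
    (fun u => D.L l w * D.L l w * (J (u * (D.s ^ k * D.r)) * D.L l (u : G)⁻¹))
    (fun u => J (u * (D.s ^ k * D.r)) * D.L l (u : G)⁻¹) fun u => by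
      simp only [coe_mul, coe_inv]
      rw [show (w : G)⁻¹ * u * (D.s ^ k * D.r * w * (D.s ^ k * D.r)⁻¹) * (D.s ^ k * D.r) =
        (w : G)⁻¹ * (u * (D.s ^ k * D.r)) * (w : G)⁻¹⁻¹ by group,
        show ((w : G)⁻¹ * u * (D.s ^ k * D.r * w * (D.s ^ k * D.r)⁻¹))⁻¹ =
          D.s ^ k * D.r * (w : G)⁻¹ * (D.s ^ k * D.r)⁻¹ * ((u : G)⁻¹ * w) by group,
        J_cj, L_mul' (mul_mem (inv_mem u.2) w.2), L_r hm hr k (inv_mem w.2), L_mul' w.2, inv_inv]
      ring
  rw [← Finset.mul_sum] at h3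
  exact (mul_left_eq_self₀.mp h3).resolve_left h1

variable (hc : ∀ u : D.U, l u ≠ 1 → (𝐂[(u : G)] : Subgroup G) ≤ D.H)
include hc

theorem ff_ti {v y : G} (hv : v ∈ D.U) (i : ℕ) (h : D.ff l (y * (v * D.s ^ i) * y⁻¹) ≠ 0) :
    y ∈ D.H := by
  obtain ⟨u, hu, j, e⟩ := ff_ne h
  by_cases hi : D.s ^ i = 1
  swap
  · exact D.mem_of_cj hu (npow_mem_zpowers _ _) hv (npow_mem_zpowers _ _) hi e
  by_cases hj : D.s ^ j = 1
  swap
  · exact inv_mem_iff.mp (D.mem_of_cj hv (npow_mem_zpowers _ i) hu (npow_mem_zpowers _ _) hj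
      (by rw [← e]; group))
  rw [e, ff_of hm hu] at h
  rw [hi, hj, mul_one, mul_one] at e
  have c : Commute (y * D.t * y⁻¹) u := by
    rw [← e]; exact (show Commute v D.t from D.memH.mp (D.UH hv)).symm.map (MulAut.conj y)
  have h1 := hc ⟨u, hu⟩ (fun h1 => h (by rw [L_of hu, h1]; simp)) (mem_cent1_iff.mpr c)
  rw [D.memH, ← mul_inv_eq_iff_eq_mul]
  by_contra h2
  obtain ⟨w, hw, k, e2⟩ := D.nc_form h1 (by rw [conj_mul, D.tt]; simp) (by simpa using D.t1) h2
  have hu' : w⁻¹ * u * w⁻¹⁻¹ ∈ D.U := D.cj (D.UH (inv_mem hw)) hu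
  have h3 := L_r hm hr k hu'
  rw [show D.s ^ k * D.r * (w⁻¹ * u * w⁻¹⁻¹) * (D.s ^ k * D.r)⁻¹ = w⁻¹ * (w * (D.s ^ k * D.r) * w⁻¹ *
    u * (w * (D.s ^ k * D.r) * w⁻¹)⁻¹) * w⁻¹⁻¹ by group, ← e2, c.eq, mul_inv_cancel_right,
    conj_inv, D.L_cjU l (inv_mem hw), D.L_cjU l (inv_mem hw)] at h3
  exact h (by rw [D.L_sq hu (by rw [← L_inv (l := l) hu, ← h3]), sub_self])

theorem ff_sum [Fintype G] {v : G} (hv : v ∈ D.U) (i : ℕ) :
    ∑ y, D.ff l (y * (v * D.s ^ i)⁻¹ * y⁻¹) = 2 * Nat.card D.U * (2 - D.L l v - D.L l v⁻¹) := by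
  haveI := Fintype.ofFinite D.U
  have key : ∀ h ∈ D.H, h * (v⁻¹ * D.s ^ i) * h⁻¹ = h * v⁻¹ * h⁻¹ * D.s ^ i := fun h hh => by
    rcases D.s_one hm i with e | e <;> rw [e]
    · simp
    · rw [mul_assoc (h * v⁻¹), D.memH.mp (inv_mem hh)]; group
  rw [us_inv hm hv, D.sumH _ fun y hy => by
    by_contra h; exact hy (ff_ti hm hr hc (inv_mem hv) i h),
    Finset.sum_congr rfl (g := fun _ => 2 * (2 - D.L l v - D.L l v⁻¹))]
  · rw [Finset.sum_const, Finset.card_univ, nsmul_eq_mul, ← Nat.card_eq_fintype_card]; ring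
  · intro u _
    rw [Finset.sum_congr rfl (g := fun _ => 2 - D.L l v - D.L l v⁻¹)]
    · simp [hm]; ring
    · intro k _
      have a1 := mul_mem (D.UH u.2) (D.sH k)
      have a2 := mul_mem (D.UH u.2) (D.srH k)
      rw [key _ a1, key _ a2, ff_of hm (D.cj a1 (inv_mem hv)), ff_of hm (D.cj a2 (inv_mem hv)),
        show u * D.s ^ k * v⁻¹ * (u * D.s ^ k)⁻¹ = u * (D.s ^ k * v⁻¹ * (D.s ^ k)⁻¹) * (u : G)⁻¹ by
          group, show u * (D.s ^ k * D.r) * v⁻¹ * (u * (D.s ^ k * D.r))⁻¹ =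
          u * (D.s ^ k * D.r * v⁻¹ * (D.s ^ k * D.r)⁻¹) * (u : G)⁻¹ by group, D.L_cjU l u.2,
        D.L_cjU l u.2, D.cs_one hm k (inv_mem hv), L_r hm hr k (inv_mem hv), inv_inv]
      ring

theorem ff_cnt [Fintype G] (l1 : l ≠ 1) :
    ∑ a, J a * ∑ b, J b * D.ff l (a * b) = (D.k1 + D.k2) ^ 2 := by
  classical
  haveI := Fintype.ofFinite D.U
  have h0 : ∀ a b : G, J a ≠ 0 → J b ≠ 0 → D.ff l (a * b) ≠ 0 →
      a ∈ D.H ∧ b ∈ D.H ∧ a ≠ D.t ∧ b ≠ D.t := by
    intro a b ha hb h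
    obtain ⟨u, hu, i, e⟩ := ff_ne h
    obtain ⟨a2, a1⟩ := J_ne ha
    obtain ⟨b2, b1⟩ := J_ne hb
    have ai := inv_eq_of_mul_eq_one_right a2
    have bi := inv_eq_of_mul_eq_one_right b2
    have aH : a ∈ D.H := ff_ti hm hr hc (inv_mem hu) i (by
      rw [← us_inv hm hu, ← e, mul_inv_rev, bi]; simpa [ai, mul_assoc, a2] using h)
    have bH : b ∈ D.H := by
      have := mul_mem (inv_mem aH) (mul_mem (D.UH hu) (D.sH i))
      rwa [← e, inv_mul_cancel_left] at this
    have hn : a * b ≠ 1 := fun h1 => h (by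
      rw [h1, ← one_mul (1 : G), ← pow_zero D.s, pow_zero, ← pow_zero D.s]
      simpa [L_one] using ff_of (l := l) hm (one_mem D.U) 0)
    have hz := mul_mem (npow_mem_zpowers D.s i) (npow_mem_zpowers D.s D.m)
    refine ⟨aH, bH, ?_, ?_⟩
    · rintro rfl
      have e' : b = u * (D.s ^ i * D.t) := by
        rw [← mul_assoc, ← e, mul_assoc, D.memH.mp bH, ← mul_assoc, D.tt, one_mul]
      have := D.inv_eq hu hz (by rw [← e']; exact b2) (by rw [← e']; exact b1)
      rw [← e'] at this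
      exact hn (by rw [this, D.tt])
    · rintro rfl
      have e' : a = u * (D.s ^ i * D.t) := by rw [← mul_assoc, ← e, mul_assoc, D.tt, mul_one]
      have := D.inv_eq hu hz (by rw [← e']; exact a2) (by rw [← e']; exact a1)
      rw [← e'] at this
      exact hn (by rw [this, D.tt])
  have z : ∀ a b : G, (J a ≠ 0 → J b ≠ 0 → D.ff l (a * b) ≠ 0 → False) →
      J a * (J b * D.ff l (a * b)) = 0 := by
    intro a b h
    by_contra h1
    exact h (left_ne_zero_of_mul h1) (left_ne_zero_of_mul (right_ne_zero_of_mul h1))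
      (right_ne_zero_of_mul (right_ne_zero_of_mul h1))
  have hk : ∑ k ∈ Finset.range (2 * D.m), (D.kap k : ℂ) = D.k1 + D.k2 := by
    simp [hm, Finset.sum_range_succ, kap]
  simp only [Finset.mul_sum]
  rw [D.sumH _ fun a ha => Finset.sum_eq_zero fun b _ => z a b fun p q r => ha (h0 a b p q r).1,
    Finset.sum_congr rfl (g := fun u : D.U => ∑ k ∈ Finset.range (2 * D.m),
      J (u * (D.s ^ k * D.r)) * (D.k1 + D.k2)), Finset.sum_comm]
  · simp only [← Finset.sum_mul, D.sumJ', hk]; ring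
  · intro u _
    refine Finset.sum_congr rfl fun k _ => ?_
    rw [Finset.sum_eq_zero fun b _ => z _ b fun p q r => (h0 _ b p q r).2.2.1
      (D.inv_eq u.2 (npow_mem_zpowers _ _) (J_ne p).1 (J_ne p).2), zero_add,
      D.sumH _ fun b hb => z _ b fun p q r => hb (h0 _ b p q r).2.1, Finset.sum_comm, ← hk,
      Finset.mul_sum]
    refine Finset.sum_congr rfl fun k' _ => ?_
    rw [← D.sumJ', ← sub_zero (_ * ∑ _, _), ← mul_zero (J (u * (D.s ^ k * D.r)) * D.L l u),
      ← sumJL hm hr l1 k', Finset.mul_sum, Finset.mul_sum, ← Finset.sum_sub_distrib]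
    refine Finset.sum_congr rfl fun u' _ => ?_
    rw [z _ _ fun p q r => (h0 _ _ p q r).2.2.2
      (D.inv_eq u'.2 (npow_mem_zpowers _ _) (J_ne q).1 (J_ne q).2), zero_add,
      show u * (D.s ^ k * D.r) * (u' * (D.s ^ k' * D.r)) = u * (D.s ^ k * D.r * u' *
      (D.s ^ k * D.r)⁻¹) * (D.s ^ k * (D.r * D.s ^ k' * D.r⁻¹) * (D.r * D.r)) by group, D.rr,
      mul_one, D.rs_pow, s_inv hm, ← pow_add, ff_of hm (mul_mem u.2 (D.cj (D.srH k) u'.2)),
      L_mul u.2, L_r hm hr k u'.2]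
    ring

end

/-- TOOL4 -/
theorem tool4 (perf : commutator G = ⊤) (hm : D.m = 1) {l : D.U →* ℂˣ} (l1 : l ≠ 1)
    (hr : ∀ u v : D.U, (v : G) = D.r * u * D.r⁻¹ → l v = (l u)⁻¹)
    (hc : ∀ u : D.U, l u ≠ 1 → (𝐂[(u : G)] : Subgroup G) ≤ D.H) : ∃ a : ℤ, a ≡ 1 [ZMOD 4] ∧ a ≠ 1 ∧
      D.N * (a - 1) ^ 2 = 2 * (D.k1 + D.k2) ^ 2 * (a * (1 + a)) := by
  classical
  haveI := Fintype.ofFinite G
  haveI := Fintype.ofFinite D.U
  have cU := D.cU
  have st : D.s = D.t := by rw [t, hm, pow_one]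
  have hT : ∀ F : G → ℂ, ∑ g, D.ff l g * F g = ∑ u : D.U, (1 - D.L l u) * (F u + F (u * D.t)) :=
    fun F => by
      rw [D.sumH _ fun y hy => by
        by_contra h
        obtain ⟨u, hu, i, rfl⟩ := ff_ne (left_ne_zero_of_mul h)
        exact hy (mul_mem (D.UH hu) (D.sH i))]
      refine Finset.sum_congr rfl fun u _ => ?_
      simp only [ff_of hm u.2, ff_r u.2, hm]
      simp [Finset.sum_range_succ, st, mul_add]
  have hE : ∀ χ ∈ irr G, ∃ E : ℤ, ∑ g, D.ff l g * χ g = 2 * Nat.card D.U * E := fun χ h => by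
    obtain ⟨n, hn⟩ := half_mult (mem_irr.mp h).isChar D.U D.tt D.UH 1
    obtain ⟨n', hn'⟩ := half_mult (mem_irr.mp h).isChar D.U D.tt D.UH l
    refine ⟨n - n', ?_⟩
    simp only [hT, sub_mul, Finset.sum_sub_distrib, fun u : D.U => L_of (l := l) u.2]
    simp only [MonoidHom.one_apply, Units.val_one, map_one] at hn
    rw [hn, hn']; push_cast; ring
  choose! E hE using hE
  have hd := fun χ (h : χ ∈ irr G) => (mem_irr.mp h).nat
  choose! d d0 hd using hd
  have hp := fun χ (h : χ ∈ irr G) => D.parity (mem_irr.mp h).isChar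
  choose! p hp using hp
  have hq := fun χ (h : χ ∈ irr G) => half_mult (mem_irr.mp h).isChar ⊥ D.tt bot_le 1
  choose! q hq using hq
  let τ : (G → ℂ) → ℤ := fun χ => 2 * q χ - d χ
  have hτ : ∀ χ ∈ irr G, χ D.t = τ χ := fun χ h => by
    have := hq χ h
    rw [Fintype.sum_eq_single 1 fun x hx => absurd (Subsingleton.elim _ _) hx] at this
    simp only [τ]; push_cast; rw [← hd χ h]
    simp at this; linear_combination this
  have h2U : (2 * Nat.card D.U : ℂ) ≠ 0 := mul_ne_zero two_ne_zero cU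
  have hG : ∀ v ∈ D.U, ∀ i : ℕ, ∑ χ ∈ irr G, E χ * χ (v * D.s ^ i) = 2 - D.L l v - D.L l v⁻¹ :=
    fun v hv i => by
      apply mul_left_cancel₀ h2U
      rw [← ff_sum hm hr hc hv i, ← ds_gramF, Finset.mul_sum]
      exact Finset.sum_congr rfl fun χ h => by rw [hE χ h]; ring
  have hG0 : ∀ v ∈ D.U, ∑ χ ∈ irr G, E χ * χ v = 2 - D.L l v - D.L l v⁻¹ := fun v hv => by
    simpa using hG v hv 0
  have z1 := D.sumL l1
  have z2 : ∑ u : D.U, D.L l (u : G)⁻¹ = 0 := by
    simp only [← conj_L]; rw [← map_sum, z1, map_zero]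
  have z3 : ∑ u : D.U, D.L l u * D.L l u = 0 := by
    rw [← D.sumL (l := l * l) fun h => l1 (MonoidHom.ext fun u => by
      have h1 := D.L_sq (l := l) u.2 (by
        rw [L_of u.2, ← map_mul, ← Units.val_mul, ← MonoidHom.mul_apply, h]; simp)
      rw [L_of u.2, ← map_one conj] at h1
      exact Units.ext (star_injective h1))]
    exact Finset.sum_congr rfl fun u _ => by rw [L_of u.2, L_of u.2]; simp
  have cU' : ∑ _u : D.U, (1 : ℂ) = Nat.card D.U := by simp
  have g3 : ∑ χ ∈ irr G, E χ * E χ = (3 : ℕ) := by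
    apply Int.cast_injective (α := ℂ)
    apply mul_left_cancel₀ h2U
    push_cast
    rw [Finset.mul_sum, Finset.sum_congr rfl (g := fun χ => ∑ g, D.ff l g * (E χ * χ g))
      fun χ h => by
        rw [← mul_assoc, ← hE χ h, Finset.sum_mul]; exact Finset.sum_congr rfl fun _ _ => by ring,
      Finset.sum_comm]
    simp only [← Finset.mul_sum]
    rw [hT (fun g => ∑ χ ∈ irr G, E χ * χ g), Finset.sum_congr rfl (g := fun u : D.U =>
      6 * 1 - 6 * D.L l u - 2 * D.L l (u : G)⁻¹ + 2 * (D.L l u * D.L l u)) fun u _ => by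
        rw [hG0 u u.2, hG u u.2]; linear_combination 2 * L_inv (l := l) u.2]
    simp only [Finset.sum_add_distrib, Finset.sum_sub_distrib, ← Finset.mul_sum, z1, z2, z3, cU']
    ring
  have o1 : ∑ χ ∈ irr G, (E χ : ℂ) * d χ = 0 := by
    rw [Finset.sum_congr rfl fun χ h => by rw [← hd χ h], hG0 1 (one_mem _), inv_one, L_one]; ring
  have ot : ∑ χ ∈ irr G, (E χ : ℂ) * τ χ = 0 := by
    rw [Finset.sum_congr rfl fun χ h => by rw [← hτ χ h, ← one_mul D.t], hG 1 (one_mem _), inv_one,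
      L_one]; ring
  have i1 : (1 : G → ℂ) ∈ irr G := mem_irr.mpr isIrr_one
  have E1 : E 1 = 1 := by
    have := hE 1 i1
    rw [hT] at this
    simp only [Pi.one_apply, ← Finset.sum_mul, Finset.sum_sub_distrib, z1, cU'] at this
    apply Int.cast_injective (α := ℂ)
    apply mul_left_cancel₀ h2U
    rw [← this]; push_cast; ring
  obtain ⟨B, -, hs⟩ := D.sec {1} fun u hu v hv _ => by simp [D.L_triv hu, D.L_triv hv]
  replace hs := fun χ h => hs χ h _ (npow_mem_zpowers _ _) D.t1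
  simp only [Finset.sum_singleton, Finset.mem_singleton, forall_eq] at hs
  let A : (G → ℂ) → ℤ := fun χ => if χ ∈ B then τ χ else 0
  have hA : ∀ χ ∈ irr G, D.av 1 χ D.t = A χ := fun χ h => by
    simp only [A]; split_ifs with h1
    · rw [← (hs χ h).1 h1, hτ χ h]
    · rw [(hs χ h).2 h1, Int.cast_zero]
  have g4 : ∑ χ ∈ irr G, A χ * A χ = (4 : ℕ) := by
    apply Int.cast_injective (α := ℂ)
    have := gram_av hm (l' := 1) D.stable_one.inv
    push_cast
    rw [if_pos rfl, mul_one] at this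
    rw [← this]
    exact Finset.sum_congr rfl fun χ h => by rw [hA χ h, map_intCast]
  have o4 : ∑ χ ∈ irr G, A χ * (d χ : ℤ) = 0 := by
    apply Int.cast_injective (α := ℂ)
    push_cast
    rw [Finset.sum_congr rfl fun χ h => by rw [← hd χ h, ← hA χ h], gram0]
    simp [L_s, D.t1]
  have oA : ∑ χ ∈ irr G, (E χ : ℂ) * A χ = 2 := by
    rw [Finset.sum_congr rfl (g := fun χ => (Nat.card D.U : ℂ)⁻¹ * ∑ g, D.L 1 g *
      (E χ * χ (g * D.t))) fun χ h => by
        rw [← hA χ h, av, mul_left_comm, Finset.mul_sum]; simp only [mul_left_comm],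
      ← Finset.mul_sum, Finset.sum_comm]
    simp only [← Finset.mul_sum]
    rw [← Finset.sum_subset (Finset.filter_subset (· ∈ D.U) Finset.univ) (fun g _ hg => by
      rw [L_not (by simpa using hg), zero_mul]),
      Finset.sum_subtype (p := (· ∈ D.U)) (F := ‹Fintype D.U›) _ (by simp),
      Finset.sum_congr rfl (g := fun u : D.U =>
        2 * 1 - D.L l u - D.L l (u : G)⁻¹) fun u _ => by rw [hG u u.2, D.L_triv u.2]; ring]
    simp only [Finset.sum_sub_distrib, ← Finset.mul_sum, z1, z2, cU']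
    field_simp; ring
  have hF : (D.N : ℂ) * ∑ χ ∈ irr G, E χ * ((τ χ : ℂ) ^ 2 / d χ) = 2 * (D.k1 + D.k2) ^ 2 := by
    apply mul_left_cancel₀ h2U
    have := D.triF (D.ff l)
    rw [ff_cnt hm hr hc l1, D.cardH, hm, Finset.sum_congr rfl fun χ h => by
      rw [hE χ h, hτ χ h, hd χ h, mul_assoc], ← Finset.mul_sum] at this
    push_cast at this
    linear_combination this
  have d0' : ∀ χ ∈ irr G, (0 : ℤ) < d χ := fun χ h => by exact_mod_cast d0 χ h
  obtain ⟨O, hO, hc, h0, z0⟩ := cb_supp (n := 3) d0' (by norm_num) g3 (by exact_mod_cast o1)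
  obtain ⟨O', -, -, h0', z0'⟩ := cb_supp (n := 4) d0' le_rfl g4 o4
  have tA : ∀ x ∈ irr G, A x = 1 ∨ A x = -1 ∨ A x = 0 := fun x hx => by
    by_cases h : x ∈ O'
    · rcases h0' x h with e | e <;> simp [e]
    · simp [z0' x hx h]
  have O1 : 1 ∈ O := by by_contra h; rw [z0 1 i1 h] at E1; exact zero_ne_one E1
  have d1 : d 1 = 1 := by have := hd 1 i1; rw [Pi.one_apply] at this; exact_mod_cast this.symm
  have τ1 : τ 1 = 1 := by have := hτ 1 i1; rw [Pi.one_apply] at this; exact_mod_cast this.symm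
  have A1 : A 1 = 1 := by
    have := hA 1 i1; rw [av_one, if_pos rfl] at this; exact_mod_cast this.symm
  have key : ∀ x z, O.erase 1 = {x, z} → x ≠ z → E x * A x = 1 → ∃ a : ℤ, a ≡ 1 [ZMOD 4] ∧ a ≠ 1 ∧
      D.N * (a - 1) ^ 2 = 2 * (D.k1 + D.k2) ^ 2 * (a * (1 + a)) := by
    intro x z e n hx
    have mx : x ∈ O.erase 1 := by simp [e]
    have mz : z ∈ O := Finset.mem_of_mem_erase (show z ∈ O.erase 1 by simp [e])
    obtain ⟨x1, mx⟩ := Finset.mem_erase.mp mx
    simp only [cb_sum hO z0, ← Finset.add_sum_erase _ _ O1, e, Finset.sum_pair n, E1, d1,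
      τ1] at o1 ot hF
    have xB : x ∈ B := by by_contra h; simp [A, h] at hx
    simp only [A, if_pos xB] at hx
    have px := hp x (hO mx)
    simp only [hm, Finset.sum_range_succ, Finset.range_zero, Finset.sum_empty, pow_zero, pow_one,
      st, hd x (hO mx), hτ x (hO mx)] at px
    have px' : (d x : ℤ) + 3 * τ x = 4 * p x := by
      apply Int.cast_injective (α := ℂ); push_cast at px ⊢; linear_combination px
    have o1' : 1 + E x * d x + E z * d z = 0 := by
      apply Int.cast_injective (α := ℂ); push_cast at o1 ⊢; linear_combination o1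
    have ot' : 1 + E x * τ x + E z * τ z = 0 := by
      apply Int.cast_injective (α := ℂ); push_cast at ot ⊢; linear_combination ot
    have dx : (d x : ℂ) ≠ 0 := by exact_mod_cast (d0 x (hO mx)).ne'
    have dz : (d z : ℂ) ≠ 0 := by exact_mod_cast (d0 z (hO mz)).ne'
    refine ⟨E x * d x, ?_, fun h => x1 (irr_eq_one perf (mem_irr.mp (hO mx)) ?_), ?_⟩
    · unfold Int.ModEq
      rcases h0 x mx with a | a <;> rw [a] at hx ⊢ <;> omega
    · have := d0' x (hO mx)
      rw [hd x (hO mx)]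
      rcases h0 x mx with a | a <;> rw [a] at h <;> exact_mod_cast (by omega : (d x : ℤ) = 1)
    · apply Int.cast_injective (α := ℂ)
      have tx : τ x = E x := by rcases h0 x mx with a | a <;> rw [a] at hx ⊢ <;> omega
      have tz : τ z = -2 * E z := by rcases h0 z mz with a | a <;> rw [a] at ot' ⊢ <;> omega
      have ez : (d z : ℂ) = -E z * (1 + E x * d x) := by
        rcases h0 z mz with a | a <;> rw [a] at o1 ⊢ <;> push_cast at o1 ⊢
        · linear_combination o1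
        · linear_combination -o1
      rw [tx, tz] at hF
      push_cast at hF ⊢
      field_simp at hF
      rw [ez] at hF
      rcases h0 x mx with a | a <;> rcases h0 z mz with b | b <;> rw [a, b] at hF <;> rw [a] <;>
        push_cast at hF ⊢ <;> first | linear_combination hF | linear_combination -hF
  obtain ⟨x, z, n, e⟩ := Finset.card_eq_two.mp
    (show (O.erase 1).card = 2 by rw [Finset.card_erase_of_mem O1, hc])
  have mx : x ∈ O := Finset.mem_of_mem_erase (show x ∈ O.erase 1 by simp [e])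
  have mz : z ∈ O := Finset.mem_of_mem_erase (show z ∈ O.erase 1 by simp [e])
  simp only [cb_sum hO z0, ← Finset.add_sum_erase _ _ O1, e, Finset.sum_pair n, E1, A1] at oA
  have oA' : E x * A x + E z * A z = 1 := by
    apply Int.cast_injective (α := ℂ); push_cast at oA ⊢; linear_combination oA
  have : E x * A x = 1 ∨ E z * A z = 1 := by
    rcases h0 x mx with a | a <;> rcases h0 z mz with b | b <;> rcases tA x (hO mx) with c | c | c <;>
      rcases tA z (hO mz) with c' | c' | c' <;> rw [a, b, c, c'] at oA' ⊢ <;> omega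
  rcases this with h | h
  · exact key x z e n h
  · exact key z x (e.trans (Finset.pair_comm _ _)) n.symm h

end DS

end CA.GW
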