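/-
Gorenstein–Walter theorem, case II: the end of case (c).
-/
import Cfsg.Agent.Lib.GW.Al4
import Cfsg.Agent.Lib.G.GL2Odd
import Cfsg.Agent.Lib.GW.LemB
import Cfsg.Agent.Lib.GW.Tool4
import Cfsg.Agent.Lib.GW.ArithC
import Cfsg.Agent.Lib.BG.S03a

set_option autoImplicit false

namespace CA.GW

open Cfsg CA CA.FStar Subgroup

universe u

theorem rot3_of {G : Type*} [Group G] [Finite G] {V X : Subgroup G} {a b : G} (hV : Four V) (ha : a ∈ V) (hb : b ∈ V)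
    (a1 : a ≠ 1) (b1 : b ≠ 1) (hab : a ≠ b) (h : ∀ c ∈ V, c ≠ 1 → ∃ g ∈ X ⊓ 𝐍(V), g * a * g⁻¹ = c) :
    ∃ g ∈ X, g * a * g⁻¹ = b ∧ g * b * g⁻¹ = a * b := by
  have a2 := hV.inv2 ha a1
  have b2 := hV.inv2 hb b1
  have e := hV.mem ha hb a1 b1 hab
  have c := hV.comm ha hb
  obtain ⟨g, g0, g1⟩ := h b hb b1
  rcases (e _).1 (conj_mem_of_mem_normalizer g0.2 hb) with g2 | g2 | g2 | g2
  · exact absurd g2 (b2.conj g).ne
  · obtain ⟨k, k0, k1⟩ := h _ (mul_mem ha hb) (a2.mul b2 hab c).ne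
    rcases (e _).1 (conj_mem_of_mem_normalizer k0.2 hb) with k2 | k2 | k2 | k2
    · exact absurd k2 (b2.conj k).ne
    · have k3 : k * (a * b) * k⁻¹ = b := by rw [← conj_mul, k1, k2, c, mul_assoc, a2.sq, mul_one]
      refine ⟨k * k, X.mul_mem k0.1 k0.1, ?_, ?_⟩
      · rw [show k * k * a * (k * k)⁻¹ = k * (k * a * k⁻¹) * k⁻¹ by group, k1, k3]
      · rw [show k * k * b * (k * k)⁻¹ = k * (k * b * k⁻¹) * k⁻¹ by group, k2, k1]
    · refine ⟨k * g, X.mul_mem k0.1 g0.1, ?_, ?_⟩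
      · rw [show k * g * a * (k * g)⁻¹ = k * (g * a * g⁻¹) * k⁻¹ by group, g1, k2]
      · rw [show k * g * b * (k * g)⁻¹ = k * (g * b * g⁻¹) * k⁻¹ by group, g2, k1]
    · exact absurd (by simpa using k1.trans k2.symm) hab
  · exact absurd (by simpa using g1.trans g2.symm) hab
  · exact ⟨g, g0.1, g1, g2⟩

theorem DS.inv_of {G : Type*} [Group G] [Finite G] (D : DS G) (h2 : D.s ∈ 𝐂(D.U)) {l : D.U →* ℂˣ}
    (hr : ∀ u v : D.U, (v : G) = D.r * u * D.r⁻¹ → l v = l u) : D.Inv l := fun h hh u v e => by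
  have cs : ∀ i : ℕ, ∀ x ∈ D.U, D.s ^ i * x * (D.s ^ i)⁻¹ = x := fun i x hx => by
    rw [← mem_cent_iff.1 (pow_mem h2 i) x hx, mul_inv_cancel_right]
  have cw : ∀ w x : D.U, (v : G) = w * x * (w : G)⁻¹ → l v = l x := fun w x e => by
    rw [show v = w * x * w⁻¹ from Subtype.ext e, map_mul, map_mul, map_inv, mul_inv_cancel_comm]
  obtain ⟨w, hw, i, rfl | rfl⟩ := D.cov h hh
  · exact cw ⟨w, hw⟩ u (by rw [e]; nth_rewrite 2 [← cs i u u.2]; group)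
  · exact (cw ⟨w, hw⟩ ⟨_, D.cj D.rH u.2⟩ (by
      rw [e]; exact .trans (by group) (congrArg (w * · * w⁻¹) (cs i _ (D.cj D.rH u.2))))).trans (hr _ _ rfl)

theorem sq_mod {r e : ℕ} (hr : r.Prime) (r2 : r ≠ 2) (ho : Odd e) (h : e ≤ r + 1) (h1 : e ^ 2 ≡ 1 [MOD r]) : e = 1 := by
  obtain ⟨k, rfl⟩ := ho
  obtain ⟨j, hj⟩ := hr.odd_of_ne_two r2
  have := hr.two_le
  have h2 := (Nat.modEq_iff_dvd' (by nlinarith)).1 h1.symm
  rw [show (2 * k + 1) ^ 2 - 1 = 2 * (2 * (k * (k + 1))) from Nat.sub_eq_of_eq_add (by ring)] at h2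
  have c := (Nat.coprime_primes hr Nat.prime_two).2 r2
  rcases (Nat.Prime.dvd_mul hr).1 (c.dvd_of_dvd_mul_left (c.dvd_of_dvd_mul_left h2)) with e | e
  · by_contra h0
    have := Nat.le_of_dvd (by omega) e
    omega
  · have := Nat.le_of_dvd (by omega) e
    omega

variable {G : Type u} [Group G] [Finite G]

namespace Alr
variable {m : Min G} (a : Alr m) {x v : G} {B N : Subgroup G}

theorem nz : a.H ≤ 𝐍(zpowers a.z) := a.shape.2.2.2.2.1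
theorem K'T : a.K' ≤ a.T := a.shape.2.2.1

theorem stabB (yB : a.y ∈ B) (BR : B ≤ a.R) (nB : a.H ≤ 𝐍(B)) (hN : N ⊴ a.U) (h1 : N ≤ 𝐂(a.K')) (h2 : N ≤ 𝐂[a.z])
    (h3 : ∀ x ∈ N, PiElt {a.r}ᶜ x → qel (zpowers a.z) x ∈ 𝐂(B /ₛ zpowers a.z)) : N ≤ a.F :=
  a.stab hN h1 fun x hx hp => by
    have xH := a.UH (hN.1 hx)
    have e := zpowers_le.2 (h3 x hx hp)
    rw [← quo_zpowers (a.nz xH), cents_comm, quo_cents_iff ((BR.trans a.RH).trans a.nz) (zpowers_le.2 (a.nz xH))] at e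
    exact a.cent_R xH hp (cent_le_cent1 yB (zpowers_le.1 ((copAct_p_left (zpowers_le.2 (nB xH)) (a.Rp.of_le BR)
      (piGrp_zpowers.2 hp)).cents_of_comm_le e (by rw [cent_zpowers]; exact zpowers_le.2 (h2 hx))))) (h2 hx)

theorem lemZ (hv : v ∈ a.E ⊓ a.H) (v2 : Inv2 v) (vt : v ≠ m.t) (hx : x ∈ a.U) (h1 : x ∈ 𝐂[v]) (h2 : x ∈ 𝐂[a.y])
    (h3 : x ∈ 𝐂[a.z]) (h4 : x ∈ 𝐂(a.K')) : x ∈ a.F := by
  obtain ⟨B, hB, nB, AB, cB, -⟩ := a.ex_B'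
  have BR : B ≤ a.R := fun x hx => ((hB x).1 hx).1
  have yB : a.y ∈ B := AB.le (mem_sup_left (mem_zpowers _))
  have nU := a.UH.trans a.nz
  have n1 : B ≤ 𝐍(zpowers a.z) := (BR.trans a.RH).trans a.nz
  have n2 := zpowers_le.2 (nU hx)
  have n3 := zpowers_le.2 (a.nz hv.2)
  have cj : ∀ {g h : G}, g ∈ 𝐂[h] → ⁅zpowers g, zpowers h⁆ = ⊥ := fun e =>
    commutator_eq_bot_iff_le_centralizer.2 (by rw [cent_zpowers]; exact zpowers_le.2 e)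
  have xA : zpowers x ≤ 𝐂(a.A) := by rw [cent_sup, cent_zpowers, cent_zpowers]; exact zpowers_le.2 ⟨h2, h3⟩
  have c1 : ⁅B, zpowers x⁆ ≤ a.A := cB ▸ le_inf (comm_le_left (zpowers_le.2 (nB (a.UH hx)))) (by
    rw [← cent_zpowers]
    refine commutator_eq_bot_iff_le_centralizer.1 (three_subgroup (by simp [cj h2]) (le_bot_iff.1 ?_))
    rw [← cj (mem_cent1_comm.1 h3)]
    exact commutator_mono (commutator_le.2 fun g hg h hh => by
      simpa [commutatorElement_def, mul_assoc] using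
        inv_mem (((hB g).1 (zpowers_le.2 yB hg)).2.2 h (BR hh))) le_rfl)
  have yv : a.y ∈ 𝐂[v] := (a.cW hv v2 vt ▸ a.yW : a.y ∈ a.F ⊓ 𝐂[v]).2
  have c2 : ⁅a.A, zpowers v⁆ ≤ zpowers a.z := comm_sup_le (by rw [cent_zpowers]; exact zpowers_le.2 (mem_cent1_comm.1 yv))
    (norms_zpowers_of_cent1 (zpowers_le.2 (a.Rz a.yR))) n3
  have c3 := three_subgroup_mod n1 n2 n3 ((commutator_mono c1 le_rfl).trans c2) (by simp [cj h1])
  have cop := copAct_inv v2.sq (odd_le ((BR.trans a.RF).trans a.FU)) (nB hv.2)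
  have c4 : B /ₛ zpowers a.z ≤ 𝐂(zpowers x /ₛ zpowers a.z) := by
    have n4 := (comm_le_left (zpowers_le.2 (nB hv.2))).trans n1
    nth_rewrite 1 [← cop.comm_sup_cent]
    rw [quo_sup n4 (inf_le_left.trans n1)]
    refine sup_le (quo_cents_of_comm_le n4 n2 (by rwa [commutator_comm B])) (quo_cents _ (cents_symm (xA.trans (cent_mono fun w hw => ?_))))
    rw [cent_zpowers] at hw
    exact mem_sup_left (a.omW w (a.cW hv v2 vt ▸ ⟨a.RF (BR hw.1), hw.2⟩) ((hB w).1 hw.1).2.1)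
  rw [cents_comm, quo_zpowers (nU hx), zpowers_le] at c4
  exact a.stabB yB BR nB (N := a.U ⊓ 𝐂(a.K') ⊓ 𝐂(zpowers a.z) ⊓ coq (zpowers a.z) 𝐂(B /ₛ zpowers a.z))
    ⟨inf_le_left.trans (inf_le_left.trans inf_le_left), norms_inf (norms_inf (norms_inf le_normalizer
      (norms_cent (a.UH.trans a.nK'))) (norms_cent nU)) (norms_pcomap nU (norms_cent (quo_norms _ (a.UH.trans nB))))⟩
    (inf_le_left.trans (inf_le_left.trans inf_le_right)) (cent_zpowers a.z ▸ inf_le_left.trans inf_le_right)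
    (fun x hx _ => (mem_pcomap.1 hx.2).2) ⟨⟨⟨hx, h4⟩, (cent_zpowers a.z).ge h3⟩, mem_pcomap.2 ⟨nU hx, c4⟩⟩

theorem CvL (hv : v ∈ a.E ⊓ a.H) (v2 : Inv2 v) (vt : v ≠ m.t) : a.U ⊓ 𝐂[v] ≤ a.L := by
  refine le_trans ?_ (a.NW _ le_rfl a.W0)
  rw [show fittingOf 𝐎(𝐂[m.t]) ⊓ 𝐎(a.L) = _ from (a.cW hv v2 vt).symm]
  exact norms_inf ((inf_le_left.trans a.UH).trans a.nF) (norms_cent1 inf_le_right)

theorem memF (hv : v ∈ a.E ⊓ a.H) (v2 : Inv2 v) (vt : v ≠ m.t) (hx : x ∈ a.U ⊓ 𝐂[v]) (h : x ∈ a.E) : x ∈ a.F := by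
  obtain ⟨δ, h1, o, h2, rfl⟩ := (mem_sup_of_norm_left (norms_of_cents (cents_symm ((inf_le_left.trans inf_le_right).trans
    (a.OE.trans (cent_mono (a.DE.trans inf_le_left))))))).1 (a.cE.le ⟨h, a.UH hx.1⟩)
  have o1 := a.OE h2.1.2
  have d1 : δ ∈ a.U ⊓ 𝐂[v] := (mul_mem_cancel_right (⟨a.OU h2.1.2, cent_le_cent1 hv.1 o1⟩ : o ∈ a.U ⊓ 𝐂[v])).1 hx
  have d2 := odd_of_mem (odd_core _) d1.1
  obtain rfl : δ = 1 := by_contra fun e => e (eq_one_of_cent_inv d2 (mem_cent1_iff.1 d1.2).symm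
    (a.iv v ⟨lay_le _ hv.1, hv.2⟩ v2 vt δ (a.dih.mem_of_sq h1 fun e' => e (eq_one_of_odd d2 e'))))
  rw [one_mul] at hx ⊢
  exact a.lemZ hv v2 vt hx.1 hx.2 (mem_cent1_iff.2 (a.comm a.yW.2 h2.1.1).symm) (cent_le_cent1 (a.TE a.zK.2).1 o1)
    (cent_mono (a.K'T.trans (a.TE.trans inf_le_left)) o1)

theorem dr (d : DS G) (ht : d.t = m.t) (hr : d.r ∈ a.E) : d.r ∈ a.E ⊓ a.H ∧ Inv2 d.r ∧ d.r ≠ m.t :=
  ⟨⟨hr, by have := d.rH; rwa [show d.H = 𝐂[d.t] from rfl, ht] at this⟩, ⟨d.rr, d.r_ne⟩, ht ▸ d.r_ne_t⟩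

theorem step1 (d : DS G) (ht : d.t = m.t) (hU : d.U = a.U) (hr : d.r ∈ a.E) (h1 : d.m = 1) {κ : ℕ} (k1 : κ ∣ d.k1)
    (k2 : κ ∣ d.k2) (hc : d.N.Coprime κ) (κ1 : κ ≠ 1) : ⁅a.U, zpowers d.r⁆ ⊔ a.F = a.U := by
  obtain ⟨hv, v2, vt⟩ := a.dr d ht hr
  have n1 : ⁅a.U, zpowers d.r⁆ ⊔ a.F ⊴ d.U := by
    rw [hU]; exact ⟨sup_le (comm_le_left (zpowers_le.2 (a.nU hv.2))) a.FU, norms_sup (comm_norm_left _ _) (a.UH.trans a.nF)⟩
  by_contra h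
  haveI := solv_odd d.odd
  haveI := (normal_subgroupOf_iff_le_normalizer n1.1).2 n1.2
  obtain ⟨l, l0, l1⟩ := Ch.exists_lin_ne_one_of_solvable ((⁅a.U, zpowers d.r⁆ ⊔ a.F).subgroupOf d.U)
    fun e => h (le_antisymm (n1.1.trans hU.le) (hU.ge.trans (subgroupOf_eq_top.1 e)))
  have key : ∀ u w : d.U, (w : G) * (u : G)⁻¹ ∈ ⁅a.U, zpowers d.r⁆ ⊔ a.F → l w = l u := fun u w e => by
    have := l0 (x := w * u⁻¹) e
    rwa [MonoidHom.mem_ker, map_mul, map_inv, mul_inv_eq_one] at this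
  obtain ⟨V, hV, eV⟩ := four_of m.inv v2 vt.symm (mem_cent1_iff.1 hv.2).symm
  have tV := (eV m.t).2 (by simp)
  have rV := (eV d.r).2 (by simp)
  obtain ⟨ρ, ρ0, ρ1, ρ2⟩ := rot3_of hV tV rV m.inv.ne v2.ne vt.symm fun c hc c1 =>
    m.lay_rot a.hL.1 a.E0 hV (hV.le_of tV rV m.inv.ne v2.ne vt.symm a.tE hr) tV hc m.inv.ne c1
  rw [← ht] at ρ1 ρ2
  refine κ1 (DS.stable_triv m.perf (DS.stable1 ρ1 ρ2 h1 (d.inv_of (d.s_cent h1) fun u w e => key u w ?_)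
    fun b hb => ?_) l1 k1 k2 hc)
  · rw [e, commutator_comm]; exact mem_sup_left (comm_mem (mem_zpowers _) (hU ▸ u.2))
  · have h2 := d.rho_mem ρ1 ρ2 hb
    rw [DS.L_of h2.1, DS.L_of hb.1, key ⟨b, hb.1⟩ ⟨_, h2.1⟩ (mem_sup_right (a.memF hv v2 vt (hU ▸ mul_mem h2 (inv_mem hb)) ?_))]
    simpa [mul_assoc] using mul_mem ρ0 (conj_mem_of_mem_normalizer ((lay_normalIn _).2 (a.CvL hv v2 vt (hU ▸ hb))) (inv_mem ρ0))

section
variable (hv : v ∈ a.E ⊓ a.H) (v2 : Inv2 v) (vt : v ≠ m.t) (h : ⁅a.U, zpowers v⁆ ⊔ a.F = a.U)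
include hv v2 vt h

theorem U_cent (hN : N ≤ a.F ⊓ a.T) (hn : a.H ≤ 𝐍(N)) (hc : a.R ≤ 𝐂(N)) : a.U ≤ 𝐂(N) :=
  h.ge.trans (sup_le (comm_cents_of_inv v2.sq (a.UH.trans hn) fun x hx => a.iv v ⟨lay_le _ hv.1, hv.2⟩ v2 vt x (hN hx).2)
    (a.F_eq.ge.trans (sup_le hc fun x hx => mem_cent_iff.2 fun w hw => a.dih.comm (hN hw).2 (a.K'T hx))))

theorem UK : a.U ≤ 𝐂(a.K') := a.U_cent hv v2 vt h (le_inf (piCoreOf_le _ _) a.K'T) a.nK' (cents_symm a.K'R)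

theorem Uz : a.U ≤ 𝐂[a.z] :=
  cent_zpowers a.z ▸ a.U_cent hv v2 vt h (zpowers_le.2 a.zK) a.nz (cent_zpowers a.z ▸ a.Rz)

theorem derF : ⁅a.U, a.U⁆ ≤ a.F := by
  haveI := Fact.mk a.hr
  obtain ⟨B, hB, nB, AB, -, cB⟩ := a.ex_B'
  have BR : B ≤ a.R := fun x hx => ((hB x).1 hx).1
  have nU := a.UH.trans a.nz
  have n1 : B ≤ 𝐍(zpowers a.z) := (BR.trans a.RH).trans a.nz
  refine a.stabB (AB.le (mem_sup_left (mem_zpowers _))) BR nB (der_normalIn _) ((der_le _).trans (a.UK hv v2 vt h))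
    ((der_le _).trans (a.Uz hv v2 vt h)) fun x hx hp => mem_cent_of_mem_der_of_elemAb a.r2 ((elemAb_quo_iff n1).2
      ⟨commutator_le.2 fun g hg k hk => ((hB k).1 hk).2.2 g (BR hg), fun g hg => ((hB g).1 hg).2.1 ▸ one_mem _⟩)
      (pRank_le_of_card ((card_quo n1).trans cB)) (quo_norms _ (a.UH.trans nB)) (odd_card_quo (odd_core _) _)
      (quo_der nU ▸ qel_mem_quo _ hx) (hp.qel _)

theorem CvF : a.U ⊓ 𝐂[v] ≤ a.F := by
  have n := a.nU hv.2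
  have c := copAct_inv v2.sq (odd_core _) n
  have c1 : CopAct ⁅a.U, zpowers v⁆ (zpowers v) := c.of_le (comm_le_left (zpowers_le.2 n)) le_rfl (comm_norm_right _ _)
  rw [← cent_zpowers]
  nth_rewrite 1 [← h]
  rw [c1.sup_inf_cent_left (zpowers_le.2 (a.nF hv.2)) (Or.inl (a.FU.trans (comm_norm_left _ _)))]
  exact sup_le (c.comm_inf_cent_le_der.trans ((commutator_mono (comm_le_left (zpowers_le.2 n))
    (comm_le_left (zpowers_le.2 n))).trans (a.derF hv v2 vt h))) inf_le_left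

theorem invF (hx : x ∈ a.U) : x * (v * x * v⁻¹) ∈ a.F := by
  have h1 := conj_mem_of_mem_normalizer (a.nU hv.2) hx
  have h2 : (x * (v * x * v⁻¹))⁻¹ * (v * (x * (v * x * v⁻¹)) * v⁻¹) ∈ a.F := by
    have := a.derF hv v2 vt h (comm_mem (inv_mem h1) (inv_mem hx))
    convert this using 1
    calc _ = v * x⁻¹ * v⁻¹ * x⁻¹ * v * x * v⁻¹ * (v * v) * x * (v * v)⁻¹ := by group
      _ = _ := by rw [v2.sq]; group
  obtain ⟨w, w1, w2⟩ := exists_cent_of_odd v2.sq (a.oddF h2)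
  replace w1 := zpowers_le.2 h2 w1
  exact (mul_mem_cancel_right w1).1 (a.CvF hv v2 vt h ⟨mul_mem (mul_mem hx h1) (a.FU w1), mem_cent1_iff.2 w2.symm⟩)

theorem sylR : SylowIn a.r a.R a.U := by
  obtain ⟨P, hP⟩ := exists_sylowIn a.r a.U
  have h1 : a.R ≤ P := hP.normal_le (piCoreOf_normalIn _ _) a.Rp
  have h2 : P ⊔ a.F ⊴ a.U := normalIn_of_der_le (le_sup_of_le_right (a.derF hv v2 vt h)) (sup_le hP.le a.FU)
  have h3 : a.U ≤ 𝐍(P) := (frattini_arg h2 (hP.of_le le_sup_left h2.1)).ge.trans (sup_le (sup_le le_normalizer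
    (a.F_eq.ge.trans (sup_le (h1.trans le_normalizer) (norms_of_cents (cents_symm (hP.le.trans (a.UK hv v2 vt h))))))) inf_le_right)
  rwa [le_antisymm h1 (le_piCoreOf ⟨hP.le, h3⟩ hP.piGrp)]

theorem memR (hx : x ∈ a.U) (hp : PiElt {a.r} x) : x ∈ a.F :=
  a.RF ((a.sylR hv v2 vt h).mem_of_normal (a.UH.trans a.nR) hx hp)

variable (hL : a.U ⊓ a.L = (a.T ⊓ a.U) ⊔ (a.U ⊓ 𝐂[v]))
include hL

theorem idx_le : a.F.relIndex a.U ≤ a.r + 1 := by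
  obtain ⟨_, -, rfl, -, h4, h5⟩ := a.shapeC
  have h1 : a.T ⊓ a.U ≤ a.F := fun x hx => by
    rw [← constt_mul_compl {a.r} x]
    refine mul_mem (a.memR hv v2 vt h (constt_mem _ hx.2) (constt_piElt _ _))
      (piCoreOf_le _ _ (a.shape.2.2.2.2.2.2.1 _ (constt_mem _ hx.1) fun p hp hd => ?_))
    have e1 := constt_piElt {a.r}ᶜ x p hp hd
    have e2 := odd_elt_iff.1 (odd_of_mem (odd_core _) (constt_mem {a.r}ᶜ hx.2)) p hp hd
    rintro (e | e)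
    exacts [e2 e, e1 e]
  have h2 : a.U ⊓ 𝐍(a.A) ≤ a.F := (le_inf inf_le_left ((inf_le_inf_right _ a.UH).trans h5)).trans (by
    rw [dedekind_left' (Or.inl (inf_le_left.trans a.nR)) (a.RF.trans a.FU)]
    exact sup_le a.RF ((inf_le_inf_left _ inf_le_right).trans (hL.le.trans (sup_le h1 (a.CvF hv v2 vt h)))))
  exact ((relIndex_le_of_le_left h2 (relIndex_ne_zero' _ _)).trans_eq (inf_relIndex_left _ _)).trans
    ((relIndex_le_of_le_right a.UH (relIndex_ne_zero' _ _)).trans h4)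

variable (hi : a.In) (hw : ∀ w ∈ a.H, Inv2 w → w ≠ m.t → a.U ⊓ 𝐂[w] ≤ a.F)
include hi hw

theorem cent_inv (hx : x ∈ a.U) (xF : x ∉ a.F) (i : v * x * v⁻¹ = x⁻¹) : 𝐂[x] ≤ a.H := by
  haveI := Fact.mk a.hr
  have tx : m.t ∈ 𝐂[x] := mem_cent1_comm.1 (a.UH hx)
  obtain ⟨S, hS, tS⟩ := exists_sylowIn_ge m.inv.piGrp (zpowers_le.2 tx)
  rcases m.two hS.piGrp with c | ⟨R, c⟩
  swap
  · obtain ⟨V, V1, hV, tV⟩ := DSyl.exists_four ⟨S, R, hS, c⟩ tx m.inv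
    obtain ⟨w, w1, w2, w3⟩ := hV.exists tV
    exact absurd (hw w (hV.le_cent1 tV w1) (hV.inv2 w1 w2) w3 ⟨hx, mem_cent1_comm.1 (V1 w1)⟩) xF
  refine ((npc_cyc hS c).sdprod hS).1.ge.trans (sup_le ?_ fun w w1 =>
    mem_cent1_iff.2 (abelian_iff'.1 (abelian_of_cyclic c) _ w1 _ (zpowers_le.1 tS)))
  rw [Al.H, ← cent_zpowers m.t, cents_comm]
  refine (copAct_inv m.inv.sq (odd_core _) (U_norm x tx)).cents_of_cents_fitting (solv_core _)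
    (cents_symm (fittingOf_le_of_forall_piCoreOf_le fun p hp hd => ?_))
  have p2 : p ≠ 2 := fun e => (Nat.not_even_iff_odd.2 (odd_le (fittingOf_le _))) (even_iff_two_dvd.2 (e ▸ hd))
  set Y := piCoreOf {p} 𝐎(𝐂[x])
  have Yp : PiGrp {p} Y := piCoreOf_piGrp _ _
  have oY : Odd (Nat.card Y) := odd_le (piCoreOf_le _ _)
  have nY : 𝐍(zpowers x) ≤ 𝐍(Y) := norms_piCoreOf _ (norms_piCoreOf _ (cent_zpowers x ▸ norms_cent le_rfl))
  have nY' : 𝐂[x] ≤ 𝐍(Y) := (norms_zpowers_of_cent1 le_rfl).trans nY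
  by_cases hF : p ∣ Nat.card a.F
  · obtain ⟨k, k1, k2, k3, k4⟩ : ∃ k ∈ a.T, orderOf k = p ∧ a.H ≤ 𝐍(zpowers k) ∧ x ∈ 𝐂[k] := by
      by_cases e : p = a.r
      · exact ⟨a.z, a.zK.2, e ▸ a.oz, a.nz, a.Uz hv v2 vt h hx⟩
      obtain ⟨k, k1, k2⟩ := exists_orderOf_eq_prime hp hF
      have k3 : k ∈ a.K' := (mem_piCoreOf_of_nilpotent (fittingOf_nilpotent _) k1).2 ((piElt_of_orderOf_prime hp k2).2 e)
      exact ⟨k, a.K'T k3, k2, a.nK'.trans (norm_le_norm_cyc (haveI := a.dih.cyc; isCyclic_of_le a.K'T) (zpowers_le.2 k3)),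
        cent_le_cent1 k3 (a.UK hv v2 vt h hx)⟩
    exact cents_symm ((copAct_inv m.inv.sq oY (nY' tx)).cents_of_axb Yp (piGrp_zpowers.2 ((piElt_of_orderOf_prime hp k2).2 rfl))
      (zpowers_le.2 (nY' (mem_cent1_comm.1 k4))) (by rw [cent_zpowers]; exact zpowers_le.2 (mem_cent1_comm.1 (a.TE k1).2))
      (cents_symm (by rw [cent_zpowers, cent_zpowers]; exact inf_le_right.trans (a.fix hi hp p2 k1 k2 k3).2.1))
      (piGrp_zpowers.2 ((piElt_of_orderOf_prime Nat.prime_two m.inv.ord).2 p2.symm)))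
  have pr : a.r ≠ p := fun e => hF (e ▸ a.oz ▸ orderOf_dvd_card_of_mem a.zK.1)
  have zH := (a.fix hi a.hr a.r2 a.zK.2 a.oz a.nz).2.1
  have n1 := zpowers_le.2 (a.nz hv.2)
  have n2 := zpowers_le.2 (nY' (mem_cent1_comm.1 (a.Uz hv v2 vt h hx)))
  have cF : ∀ X, PiGrp {p} X → (Nat.card X).Coprime (Nat.card a.F) := fun X hX =>
    hX.coprime fun q _ hq e => hF (e ▸ hq)
  have W := BG.wielandt_frob (M := Y) (frob_of_reg n1 (ne_bot_of_mem (mem_zpowers _) a.z1) (ne_bot_of_mem (mem_zpowers _) v2.ne)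
    fun w w1 w2 => eq_bot_iff.2 fun c hc => by
      obtain rfl := ((mem_zpowers_sq v2.sq).1 w1).resolve_left w2
      have c1 := zpowers_le.2 a.zK hc.1
      exact eq_one_of_cent_inv (a.oddF c1.1) (mem_cent1_iff.1 hc.2).symm (a.iv _ ⟨lay_le _ hv.1, hv.2⟩ v2 vt c c1.2))
    (sup_le n2 (zpowers_le.2 (nY (mem_normalizer_of_cj_le (by rw [cj_zpowers, i, zpowers_inv])))))
    (Yp.coprime ((piGrp_zpowers.2 ((piElt_of_orderOf_prime a.hr a.oz).2 pr)).sup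
      (piGrp_zpowers.2 ((piElt_of_orderOf_prime Nat.prime_two v2.ord).2 p2.symm)) (Or.inl n1))) (solv_odd oY)
  have e0 : Y ⊓ 𝐂(zpowers a.z ⊔ zpowers v) = ⊥ := by
    rw [cent_sup, cent_zpowers, cent_zpowers]
    exact card_eq_one.1 ((cF _ (Yp.inf_left _)).eq_one_of_dvd (card_dvd_of_le' fun c hc => a.CvF hv v2 vt h
      ⟨m.mem_core m.inv (zH hc.2.1) (odd_of_mem oY hc.1), hc.2.2⟩))
  rw [e0, card_bot, one_pow, one_mul, v2.card, cent_zpowers] at W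
  have e1 := card_modEq_card_inf_cent ((piGrp_zpowers.2 a.zp).isPGroup a.hr) n2
  nth_rewrite 1 [W] at e1
  have e2 := Nat.ModEq.cancel_right_of_coprime (((Yp.inf_left _).coprime_of_ne (piGrp_zpowers.2 a.zp) pr.symm).symm.coprime_dvd_left
    a.cz.symm.dvd) (e1.trans (by rw [one_mul]))
  obtain ⟨g, hg⟩ := m.conj' m.inv v2
  have e3 : Nat.card ↥(Y ⊓ 𝐂[v]) ∣ a.F.relIndex a.U := (cF _ (Yp.inf_left _)).dvd_of_dvd_mul_left (by
    rw [card_mul_relIndex a.FU, ← card_cj g a.U, cj_U, hg]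
    exact card_dvd_of_le' fun c hc => m.mem_core v2 hc.2 (odd_of_mem oY hc.1))
  have e4 := (Nat.le_of_dvd (relIndex_pos' _ _) e3).trans (a.idx_le hv v2 vt h hL)
  have e5 : Odd (Nat.card ↥(Y ⊓ 𝐂[v])) := odd_card_of_le oY inf_le_left
  rw [sq_mod a.hr a.r2 e5 e4 e2, one_pow, one_mul] at W
  rw [cent_zpowers] at W ⊢
  exact ((eq_of_le_of_card_le inf_le_left W.le).ge.trans inf_le_right).trans zH

theorem cent_le (hx : x ∈ a.U) (xF : x ∉ a.F) : 𝐂[x] ≤ a.H := by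
  obtain ⟨l, hl⟩ := not_forall.1 (mt mem_of_forall_constt_mem xF)
  simp only [not_forall] at hl
  obtain ⟨-, -, hl⟩ := hl
  refine (cent1_le_cent1_constt {l} x).trans ?_
  have h1 := constt_piElt {l} x
  replace hx := constt_mem {l} hx
  generalize constt {l} x = w at *
  obtain ⟨Q, hQ, nQ⟩ := (copAct_inv v2.sq (odd_core _) (a.nU hv.2)).exists_sylowIn l
  obtain ⟨g, g1, g2⟩ := hQ.exists_conj_mem hx h1
  have h2 := a.cent_inv hv v2 vt h hL hi hw (hQ.le g2) (fun e => hl (by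
    simpa [mul_assoc] using conj_inv_mem_of_mem_normalizer (a.nF (a.UH g1)) e))
    (inv_of_cent_bot v2.sq (zpowers_le.1 nQ) (odd_le hQ.le) ((hQ.piGrp.inf_left _).eq_bot
      ((a.shape.2.1.of_le (a.cW hv v2 vt ▸ le_inf ((inf_le_inf_right _ hQ.le).trans (a.CvF hv v2 vt h)) inf_le_right)).compl_singleton
        fun e => hl (a.memR hv v2 vt h hx (Set.mem_singleton_iff.1 e ▸ h1)))) g2)
  rw [← cj_centralizer_singleton] at h2
  exact fun c hc => by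
    simpa [mul_assoc] using conj_inv_mem_of_mem_normalizer (le_normalizer (a.UH g1)) (h2 (conj_mem_cj.2 hc))

end

include a in
protected theorem false : False := by
  obtain ⟨ω', w1, w2, w3, w4, -⟩ := a.shapeC
  have hτ := a.τ_cases
  by_cases hi : a.In
  swap
  · have h1 := a.out hi
    have h2 := Nat.le_of_dvd (card_pos' _) a.two_r
    have h3 : a.τ'.Coprime a.r := ((Nat.Prime.coprime_iff_not_dvd a.hr).2 fun e => a.hr.one_lt.ne' (Nat.dvd_one.1 (by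
      have e' := (Dvd.intro_left _ rfl).trans a.two_r
      rcases hτ with c | c
      · rw [← c] at e'; exact (Nat.dvd_add_right e).1 e'
      · rw [c] at e; exact (Nat.dvd_add_right e').1 e))).symm
    have h4 := Nat.le_of_dvd (by omega) (h3.dvd_of_dvd_mul_left (w1 ▸ h1))
    have := a.r2
    have := a.hr.two_le
    simp only [Al.τ] at hτ
    omega
  obtain ⟨oω, d, dt, dU, sT, dr, ds, k1, k2, eτ, hL, -⟩ := a.inn hi
  obtain ⟨-, c1, c2⟩ := a.shape.2.2.2.2.2.2.2 hi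
  obtain ⟨p, f, hp, hq⟩ := a.cl.pp
  have eN : d.N = a.H.index := by rw [show d.N = (𝐂[d.t]).index from rfl, dt]
  have rκ : a.r ∣ Nat.card ↥(a.T ⊓ a.U) := a.oz ▸ orderOf_dvd_card_of_mem ⟨a.zK.2, a.FU a.zK.1⟩
  have fin : ∀ x : ℤ, ω' ≠ a.r ∨ 2 ≤ d.m → x ≡ 1 [ZMOD 4 * d.m] → x ≠ 1 →
      d.N * (x - 1) ^ 2 = 2 * d.m ^ 2 * (d.k1 + d.k2) ^ 2 * (x * (1 + x)) → False := fun x h1 h2 h3 h4 =>
    arithC a.hr a.r2 hp hq d.pos rκ (Nat.Odd.of_mul_right (w1 ▸ oω)) w4 h1 (eτ ▸ a.q_eq) (eτ ▸ hτ) c1 c2 (w1 ▸ a.N_mul) h2 h3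
      (by rw [← eN, h4, k1, k2, w1]; push_cast; ring)
  rcases d.m_cases with hm | ⟨hm, -⟩
  swap
  · obtain ⟨x, -, -, -, x1, x2, -, -, -, x3⟩ := d.tool1 m.perf
    exact fin x (Or.inr hm) x2 x1 (x3 hm)
  obtain ⟨hv, v2, vt⟩ := a.dr d dt dr
  have h := a.step1 d dt dU dr hm (k1 ▸ Dvd.intro_left _ rfl) (k2 ▸ Dvd.intro_left _ rfl) (eN ▸ c1)
    fun e => a.hr.one_lt.ne' (Nat.dvd_one.1 (e ▸ rκ))
  have eH : d.H = a.H := by rw [show d.H = 𝐂[d.t] from rfl, dt]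
  have hw : ∀ w ∈ a.H, Inv2 w → w ≠ m.t → a.U ⊓ 𝐂[w] ≤ a.F := fun w w1 w2 w3 x hx => by
    obtain ⟨g, g1, i, rfl⟩ := d.nc_form (eH ▸ w1) w2.sq w2.ne (dt ▸ w3)
    have g2 := a.UH (dU ▸ g1)
    have x1 := conj_inv_mem_of_mem_normalizer (a.nU g2) hx.1
    have x2 : d.s ^ i * d.r ∈ 𝐂[g⁻¹ * x * g] := mem_cent1_comm.1 (mem_cj.1 ((cj_centralizer_singleton g _).ge hx.2))
    simpa [mul_assoc] using conj_mem_of_mem_normalizer (a.nF g2) (a.CvF hv v2 vt h ⟨x1, mem_cent1_comm.1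
      ((mul_mem_cancel_left (pow_mem (cent_le_cent1 x1 ds) i)).1 x2)⟩)
  have n1 : a.F ⊴ d.U := by rw [dU]; exact fittingOf_normalIn _
  haveI := solv_odd d.odd
  haveI := (normal_subgroupOf_iff_le_normalizer n1.1).2 n1.2
  have LA := a.HLA.trans inf_le_right
  have FA : a.F ≤ 𝐍(a.A) :=
    a.F_eq.ge.trans (sup_le a.RA ((le_inf ((piCoreOf_le _ _).trans (a.FU.trans a.UH)) a.K'_le).trans LA))
  have rω : ¬ a.r ∣ ω' := fun e => by
    have e1 := e.trans (w2 ▸ relIndex_dvd_of_le_left a.H FA)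
    rw [← relIndex_mul_relIndex _ _ _ a.FU a.UH] at e1
    rcases (Nat.Prime.dvd_mul a.hr).1 e1 with e | e
    · exact (a.sylR hv v2 vt h).not_dvd a.hr (e.trans (relIndex_dvd_of_le_left _ a.RF))
    · exact a.r2 ((m.npc m.inv le_rfl).piNum.mem a.hr e)
  obtain ⟨l, l0, l1⟩ := Ch.exists_lin_ne_one_of_solvable (a.F.subgroupOf d.U) fun e => a.caseA fun g hg => by
    have e1 := pow_mem (LA ⟨(a.TE sT).2, lay_le _ (a.TE sT).1⟩)
    obtain ⟨u, hu, i, rfl | rfl⟩ := d.cov g (eH.ge hg)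
    · exact mul_mem (FA (subgroupOf_eq_top.1 e hu)) (e1 i)
    · exact mul_mem (FA (subgroupOf_eq_top.1 e hu)) (mul_mem (e1 i) (LA ⟨hv.2, lay_le _ dr⟩))
  obtain ⟨x, x1, x2, x3⟩ := d.tool4 m.perf hm l1 (fun u w e => eq_inv_of_mul_eq_one_right ((map_mul l u w).symm.trans
    (l0 (x := u * w) (show (u : G) * w ∈ a.F from e ▸ a.invF hv v2 vt h (dU ▸ u.2))))) fun u hu =>
    eH ▸ a.cent_le hv v2 vt h hL hi hw (dU ▸ u.2) fun e => hu (l0 e)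
  exact fin x (Or.inl fun e => rω (e ▸ dvd_rfl)) (by simpa [hm] using x1) x2 (by rw [x3, hm]; push_cast; ring)

end Alr

end CA.GW
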