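/-
Gorenstein–Walter theorem: Lemma A.
-/
import Cfsg.Agent.Lib.GW.LemB
import Cfsg.Agent.Lib.GW.Kit

set_option autoImplicit false

namespace CA.GW

open Cfsg CA CA.FStar Subgroup

universe u

variable [KT.{u}] {G : Type u} [Group G] [Finite G] (m : Min G) {X M : Subgroup G} {p : ℕ}

/-- the torus of an outer involution -/
theorem Min.outer (hM : M ≠ ⊤) (hE : lay M ≠ ⊥) (tM : m.t ∈ M) (tE : m.t ∉ lay M) : Nat.card m.S ≠ 4 ∧
    ∃ (s : G) (T : Subgroup G), s ∈ lay M ∧ Inv2 s ∧ s ∈ 𝐂[m.t] ∧ IsCyclic T ∧ T ≤ M ∧ fittingOf 𝐎(𝐂[m.t]) ⊓ M ≤ 𝐎(M) ⊔ T ∧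
      ∀ y ∈ T, y = 1 ∨ (s * y * s⁻¹ ≠ y ∧ Group.IsSolvable ↥(lay M ⊓ 𝐂[y])) := by
  have t2 := m.inv
  have EM := lay_normalIn M
  have OM : 𝐎(M) ⊴ M := piCoreOf_normalIn _ _
  rcases m.cmp hM hE with ⟨P, q, c⟩ | ⟨e, -⟩
  swap
  · refine absurd (zpowers_le.1 (le_of_norm_of_coprime_relIndex EM.1 (zpowers_le.2 tM) (zpowers_le.2 (EM.2 tM)) ?_)) tE
    rw [t2.card, Nat.coprime_two_left]
    nth_rw 2 [e]
    rw [relIndex_sup_of_norm (OM.1.trans EM.2)]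
    exact (odd_core M).of_dvd_nat (relIndex_dvd_card _ _)
  obtain ⟨D, T, hD, -, eC, nT, -, ev, -, cy, iv, al⟩ := c.tor m.t tM t2
  have DE : D ≤ lay M ⊓ 𝐂[m.t] := eC ▸ le_sup_left
  have TE := hD.le.trans DE
  have To : Odd (Nat.card T) := Nat.not_even_iff_odd.1 fun e => tE (ev.2 e)
  obtain ⟨s, sD, sT⟩ := hD.exists
  have s2 := hD.inv2 sD sT
  refine ⟨fun h4 => tE ?_, s, T, (DE sD).1, s2, (DE sD).2, hD.cyc, (TE.trans inf_le_left).trans EM.1, ?_, fun y hy => ?_⟩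
  · obtain ⟨V, VE, hV, -⟩ := m.lay_four hM hE (DE sD).1 s2
    have hS : SylowIn 2 V ⊤ := by
      obtain ⟨g, -, hg⟩ := m.syl.exists_le_cj hV.piGrp le_top
      rw [eq_of_le_of_card_eq hg (by rw [hV.card, card_cj, h4])]
      simpa using m.syl.cj g
    obtain ⟨g, hg, e⟩ := SylowIn.exists_conj_mem (hS.of_le (VE.trans EM.1) le_top) tM t2.piElt
    simpa [mul_assoc] using conj_inv_mem_of_mem_normalizer (EM.2 hg) (VE e)
  · have FH : fittingOf 𝐎(𝐂[m.t]) ⊴ 𝐂[m.t] := (piCoreOf_normalIn _ _).fittingOf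
    exact al _ (le_inf inf_le_right (inf_le_left.trans FH.1)) (nilpotent_of_le (fittingOf_nilpotent _) inf_le_left)
      ((odd_core _).of_dvd_nat (card_dvd_of_le (inf_le_left.trans (fittingOf_le _))))
      (norms_inf ((TE.trans inf_le_right).trans FH.2) (((TE.trans inf_le_left).trans EM.1).trans le_normalizer))
  · refine or_iff_not_imp_left.2 fun y1 => ?_
    have yo := odd_of_mem To hy
    refine ⟨fun e => y1 (eq_one_of_cent_inv yo (mul_inv_eq_iff_eq_mul.1 e) (hD.inv sD sT hy)), ?_⟩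
    rw [(cy y hy fun e => y1 (eq_one_of_odd yo e)).1]
    exact solv_odd (odd_iff.2 ((odd_iff.1 To).sup ((piCoreOf_piGrp _ _).inf_right _)
      (.inr (((TE.trans inf_le_left).trans EM.1).trans (norms_inf EM.2 OM.2)))))

theorem Min.no_perf (hH : IsCoatom 𝐂[m.t]) (h : ¬ m.II) (X1 : X ≠ ⊥) (hX : X ≤ piCoreOf {p} 𝐎(𝐂[m.t])) {Y : Subgroup G}
    (Y1 : Y ≠ ⊥) (Yp : ⁅Y, Y⁆ = Y) (YX : Y ≤ 𝐂(X)) : False := by
  obtain ⟨X, X0, ⟨hX, Y, Y1, Yp, YX⟩, hmax⟩ := exists_maximal_ge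
    (fun X => X ≤ piCoreOf {p} 𝐎(𝐂[m.t]) ∧ ∃ Y : Subgroup G, Y ≠ ⊥ ∧ ⁅Y, Y⁆ = Y ∧ Y ≤ 𝐂(X)) ⟨hX, Y, Y1, Yp, YX⟩
  replace X1 : X ≠ ⊥ := fun e => X1 (le_bot_iff.1 (e ▸ X0))
  have t2 := m.inv
  set Q := piCoreOf {p} 𝐎(𝐂[m.t])
  have QH : Q ⊴ 𝐂[m.t] := (piCoreOf_normalIn _ _).piCoreOf _
  have QF : Q ≤ fittingOf 𝐎(𝐂[m.t]) := piCoreOf_singleton_le_fittingOf _ _
  obtain ⟨M, hM, hN⟩ := exists_isCoatom_ge (m.norm_ne X1 fun e => hH.1 (top_le_iff.1 (e ▸ hX.trans QH.1)))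
  have CM : 𝐂(X) ≤ M := (centralizer_le_normalizer _).trans hN
  have tM : m.t ∈ M := CM (mem_cent_iff_le_cent1.2 (hX.trans QH.1))
  have ns : ∀ L : Subgroup G, Group.IsSolvable L → ¬ Y ≤ L := fun L hL hY =>
    (der_lt_of_solvable (solvable_of_le hL hY) Y1).ne Yp
  have hE : lay M ≠ ⊥ := m.lay_ne_of hH X1 (hX.trans QF) hM hN Y1 Yp (YX.trans CM)
  have tE : m.t ∉ lay M := fun e => h ⟨X, M, X1, hX.trans QF, hM, hN, e⟩
  obtain ⟨h4, s, T, sE, s2, st, -, TM, al, hT⟩ := m.outer hM.1 hE tM tE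
  have OM : 𝐎(M) ⊴ M := piCoreOf_normalIn _ _
  have OE : 𝐎(M) ≤ 𝐂(lay M) := (m.cent_lay hM.1 hE).ge.trans inf_le_right
  have YE := m.le_lay hM.1 hE (YX.trans CM) Yp
  have dec : ∀ x ∈ Q ⊓ M, ∃ o ∈ 𝐎(M), ∃ y ∈ T, o * y = x := fun x hx =>
    (mem_sup_of_norm_right (TM.trans OM.2)).1 (al ⟨QF hx.1, hx.2⟩)
  have XO : X ≤ 𝐎(M) := fun x hx => by
    obtain ⟨o, ho, y, hy, rfl⟩ := dec x ⟨hX hx, hN (le_normalizer hx)⟩
    rcases hT y hy with rfl | ⟨-, e⟩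
    · rwa [mul_one]
    · refine absurd (le_inf YE (mem_cent_iff_le_cent1.1 ?_)) (ns _ e)
      simpa using mul_mem (inv_mem (cent_mono YE (OE ho))) (cents_symm YX hx)
  have e1 : Q ⊓ 𝐎(M) = X := hmax _ ⟨inf_le_left, lay M, hE, lay_der M, cents_symm (inf_le_right.trans OE)⟩ (le_inf hX XO)
  have e2 : X = Q ⊓ 𝐂[s] := by
    refine eq_of_inf_normalizer_le_nil (nilpotent_of_le (piCoreOf_piGrp _ _).nilpotent inf_le_left)
      (le_inf hX ((XO.trans OE).trans (cent_le_cent1 sE))) fun x hx => e1 ▸ ⟨hx.1.1, ?_⟩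
    obtain ⟨o, ho, y, hy, rfl⟩ := dec x ⟨hx.1.1, hN hx.2⟩
    rcases hT y hy with rfl | ⟨e, -⟩
    · rwa [mul_one]
    · have : y ∈ 𝐂[s] := by simpa using mul_mem (inv_mem (cent_le_cent1 sE (OE ho))) hx.1.2
      exact absurd (by rw [← mem_cent1_iff.1 this, mul_inv_cancel_right]) e
  have ne : m.t ≠ s := fun e => tE (e ▸ sE)
  obtain ⟨V, hV, eV⟩ := four_of t2 s2 ne (mem_cent1_iff.1 st).symm
  obtain ⟨σ, -, σt, eσ⟩ := m.swap h4 hV ((eV _).2 (.inr (.inl rfl))) ((eV _).2 (.inr (.inr (.inl rfl)))) t2.ne s2.ne ne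
  have σX : σ ∈ 𝐍(X) := by
    rw [e2]
    refine mem_normalizer_of_le_cj ?_
    rw [cj_inf, cj_eq_of_mem_normalizer (QH.2 σt), cj_centralizer_singleton, eσ]
    exact fun x hx => ⟨hx.1, mem_cent1_comm.1 (mul_mem (mem_cent1_comm.1 (QH.1 hx.1)) (mem_cent1_comm.1 hx.2))⟩
  have := mul_mem (eσ ▸ conj_mem_of_mem_normalizer ((lay_normalIn M).2 (hN σX)) sE) (inv_mem sE)
  exact tE (by simpa using this)

theorem Min.lemA (hH : IsCoatom 𝐂[m.t]) (h : ¬ m.II) : m.LA := fun p X X1 hX => by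
  have t2 := m.inv
  have UH : 𝐎(𝐂[m.t]) ⊴ 𝐂[m.t] := piCoreOf_normalIn _ _
  set F := fittingOf 𝐎(𝐂[m.t])
  have FH : F ⊴ 𝐂[m.t] := UH.fittingOf
  have XF : X ≤ F := hX.trans (piCoreOf_singleton_le_fittingOf _ _)
  obtain ⟨M, hM, hN⟩ := exists_isCoatom_ge (m.norm_ne X1 fun e => hH.1 (top_le_iff.1 (e ▸ XF.trans FH.1)))
  have tM : m.t ∈ M := hN (centralizer_le_normalizer _ (mem_cent_iff_le_cent1.2 (XF.trans FH.1)))
  by_cases hE : lay M = ⊥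
  · exact piGrp_compl_primesOf.1 ((m.lemB hH X1 XF hM hN hE).of_le (commutator_mono hN le_rfl))
  obtain ⟨-, s, T, -, -, -, hT, TM, al, -⟩ := m.outer hM.1 hE tM fun e => h ⟨X, M, X1, XF, hM, hN, e⟩
  have OM : 𝐎(M) ⊴ M := piCoreOf_normalIn _ _
  by_cases B1 : F ⊓ 𝐎(M) = ⊥
  · rw [m.norm_cyc hH X1 XF hN hT OM.2 TM al B1,
      commutator_eq_bot_iff_le_centralizer.2 (by rw [cent_zpowers]), card_bot]
    exact Nat.coprime_one_left _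
  obtain ⟨Y, YF, hY⟩ := exists_prime_card_le B1
  have Yp : PiGrp {Nat.card Y} Y := (piGrp_of_card_prime hY rfl).2 rfl
  have YQ : Y ≤ piCoreOf {Nat.card Y} 𝐎(𝐂[m.t]) := (le_piCoreOf_of_nilpotent (fittingOf_nilpotent _) (YF.trans inf_le_left)
    Yp).trans (piCoreOf_singleton_fittingOf _ _).le
  exact (m.no_perf hH h (ne_bot_of_prime_card hY) YQ hE (lay_der M)
    (cents_symm ((YF.trans inf_le_right).trans ((m.cent_lay hM.1 hE).ge.trans inf_le_right)))).elim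

end CA.GW
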