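import Cfsg.Agent.Lib.GW.TSec

/-! The degree equations for groups with dihedral Sylow 2-subgroups and one class of involutions. -/

set_option autoImplicit false
set_option linter.unusedSectionVars false
set_option linter.style.haveILetI false

open scoped ComplexConjugate

namespace CA.GW

open CA.Ch CA.Blk Cfsg Subgroup

namespace DS
variable {G : Type*} [Group G] [Finite G] (D : DS G)

/-- `l` is invariant under fusion in `G` -/
def Stable (l : D.U →* ℂˣ) : Prop := ∀ u v : D.U, IsConj (u : G) v → l u = l v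

theorem stable_one : D.Stable 1 := fun _ _ _ => rfl

theorem N_pos : 0 < D.N := Nat.pos_of_ne_zero index_ne_zero_of_finite
theorem k1_pos : 0 < D.k1 := Nat.pos_of_ne_zero index_ne_zero_of_finite
theorem k2_pos : 0 < D.k2 := Nat.pos_of_ne_zero index_ne_zero_of_finite

theorem s_ne {i : ℕ} (h0 : 0 < i) (h : i < 2 * D.m) : D.s ^ i ≠ 1 :=
  pow_ne_one_of_lt_orderOf h0.ne' (D.os ▸ h)

theorem s_eq {i j : ℕ} (hi : i < 2 * D.m) (hj : j < 2 * D.m) : D.s ^ i = D.s ^ j ↔ i = j :=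
  ⟨pow_injOn_Iio_orderOf (by rw [D.os]; exact hi) (by rw [D.os]; exact hj), fun h => h ▸ rfl⟩

theorem wsum {ζ : ℂ} (hζ : IsPrimitiveRoot ζ (2 * D.m)) (a : ℕ) :
    ∑ k ∈ Finset.range (2 * D.m), (D.kap (a + k) * D.kap k : ℂ) =
      D.m * ((D.k1 + D.k2) ^ 2 + ζ ^ (D.m * a) * (D.k1 - D.k2) ^ 2) / 2 := by
  have hp := D.pos
  have hm : ζ ^ D.m = -1 := (hζ.pow (by omega) (mul_comm _ _)).eq_neg_one_of_two_right
  have hk : ∀ k, (D.kap k : ℂ) = ((D.k1 + D.k2) + (-1) ^ k * (D.k1 - D.k2)) / 2 := fun k => by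
    unfold kap
    split_ifs with h
    · rw [h.neg_one_pow]; ring
    · rw [(Nat.not_even_iff_odd.mp h).neg_one_pow]; ring
  have h0 : ∑ k ∈ Finset.range (2 * D.m), (-1 : ℂ) ^ k = 0 := by
    rw [neg_one_geom_sum, if_pos (even_two_mul _)]
  rw [pow_mul, hm, Finset.sum_congr rfl (g := fun k => ((D.k1 + D.k2) ^ 2 + (-1) ^ a *
    (D.k1 - D.k2) ^ 2 : ℂ) / 4 + (-1) ^ k * ((1 + (-1) ^ a) * (D.k1 + D.k2) * (D.k1 - D.k2) / 4)),
    Finset.sum_add_distrib, ← Finset.sum_mul, h0]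
  · simp; ring
  · intro k _
    rw [hk, hk, pow_add]
    have : ((-1 : ℂ) ^ k) ^ 2 = 1 := by rw [← pow_mul, mul_comm, pow_mul]; simp
    linear_combination ((-1) ^ a * (D.k1 - D.k2) ^ 2 / 4) * this

variable {D} {l : D.U →* ℂˣ}

theorem Stable.inv (hl : D.Stable l) : D.Inv l := fun h _ u v e =>
  (hl u v (isConj_iff.mpr ⟨h, e.symm⟩)).symm

theorem av_one [Fintype G] [DecidableEq G] [Decidable (1 = l)] (x : G) :
    D.av l 1 x = if 1 = l then 1 else 0 := by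
  have h := orthL l 1
  rw [Finset.sum_congr rfl (g := fun g => D.L l g * 1) fun g _ => by
    by_cases hg : g ∈ D.U
    · rw [L_of (inv_mem hg)]; simp
    · rw [L_not hg, zero_mul, zero_mul]] at h
  rw [av]
  simp only [Pi.one_apply]
  rw [h, inv_mul_cancel_left₀ D.cU]

theorem exists_cb (hl : D.Stable l) : ∃ B ⊆ irr G, ∃ (Dd : ℕ → (G → ℂ) → ℤ) (d τ : (G → ℂ) → ℤ),
    CB B D.m Dd d τ (2 * D.m ^ 2 * (D.k1 + D.k2) ^ 2 / D.N) (8 * D.m ^ 2 * D.k1 * D.k2 / D.N) ∧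
    (∀ χ ∈ B, χ 1 = d χ ∧ χ D.t = τ χ) ∧ ((1 : G → ℂ) ∈ B ↔ l = 1) ∧ Dd 1 1 = 1 ∧ Dd D.m 1 = 1 := by
  classical
  haveI := Fintype.ofFinite G
  have hp := D.pos
  have hm0 : (2 * D.m : ℂ) ≠ 0 := by exact_mod_cast (show 2 * D.m ≠ 0 by omega)
  obtain ⟨B, hB, hs⟩ := D.sec {l} fun u hu v hv h => by
    simp only [Finset.sum_singleton]; rw [L_of hu, L_of hv, hl ⟨u, hu⟩ ⟨v, hv⟩ h]
  simp only [Finset.sum_singleton, Finset.mem_singleton, forall_eq] at hs
  have hsum : ∀ a, 0 < a → a < 2 * D.m → ∀ F : (G → ℂ) → ℂ,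
      ∑ χ ∈ B, χ (D.s ^ a) * F χ = ∑ χ ∈ irr G, D.av l χ (D.s ^ a) * F χ := fun a h0 h1 F => by
    rw [← Finset.sum_subset hB fun χ h2 h3 => by
      rw [(hs χ h2 _ (npow_mem_zpowers _ _) (D.s_ne h0 h1)).2 h3, zero_mul]]
    exact Finset.sum_congr rfl fun χ h => by
      rw [← (hs χ (hB h) _ (npow_mem_zpowers _ _) (D.s_ne h0 h1)).1 h]
  obtain ⟨ζ, hζ⟩ := exists_primitiveRoot (show 0 < 2 * D.m by omega)
  have hm : ζ ^ D.m = -1 := (hζ.pow (by omega) (mul_comm _ _)).eq_neg_one_of_two_right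
  have hn := fun (χ : G → ℂ) (h : IsIrr χ) j => D.mult hζ h.isChar j
  choose! n hn using hn
  let Dd : ℕ → (G → ℂ) → ℤ := fun j χ => n χ 0 - n χ j
  let d : (G → ℂ) → ℤ := fun χ => ∑ j ∈ Finset.range (2 * D.m), n χ j
  let τ : (G → ℂ) → ℤ := fun χ => ∑ j ∈ Finset.range (2 * D.m), (-1) ^ j * n χ j
  have hD : ∀ χ ∈ B, ∀ j, (2 * D.m : ℂ) * Dd j χ =
      ∑ a ∈ Finset.range (2 * D.m), (1 - ζ ^ (j * a)) * χ (D.s ^ a) := fun χ h j => by
    have h1 := mem_irr.mp (hB h)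
    simp only [Dd, sub_mul, Finset.sum_sub_distrib, hn χ h1 j]
    push_cast
    rw [mul_sub, ← hn χ h1 0]; simp
  have hinv : ∀ χ, IsIrr χ → ∀ b, b < 2 * D.m → ∀ c, (2 * D.m ∣ c + b) →
      ∑ j ∈ Finset.range (2 * D.m), ζ ^ (c * j) * n χ j = χ (D.s ^ b) := fun χ h b hb c hc => by
    apply mul_left_cancel₀ hm0
    rw [Finset.mul_sum, Finset.sum_congr rfl (g := fun j => ∑ i ∈ Finset.range (2 * D.m),
      χ (D.s ^ i) * ζ ^ ((c + i) * j)) fun j _ => by
        rw [mul_left_comm, ← hn χ h j, Finset.mul_sum]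
        exact Finset.sum_congr rfl fun i _ => by rw [add_mul, pow_add, mul_comm i j]; ring,
      Finset.sum_comm]
    simp only [← Finset.mul_sum, ds_geo hζ]
    rw [Finset.sum_eq_single b, if_pos hc]
    · push_cast; ring
    · intro i hi hib
      rw [if_neg, mul_zero]
      intro h1
      rw [Finset.mem_range] at hi
      have h2 := (Nat.modEq_iff_dvd' (Nat.zero_le _)).mpr hc
      have h3 := (Nat.modEq_iff_dvd' (Nat.zero_le _)).mpr h1
      exact hib (Nat.ModEq.eq_of_lt_of_lt (Nat.ModEq.add_left_cancel' c (h3.symm.trans h2)) hi hb)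
    · intro h; exact absurd (Finset.mem_range.mpr hb) h
  have hd : ∀ χ ∈ B, χ 1 = d χ := fun χ h => by
    have := hinv χ (mem_irr.mp (hB h)) 0 (by omega) 0 (by simp)
    simp only [d]; push_cast; simpa using this.symm
  have hτ : ∀ χ ∈ B, χ D.t = τ χ := fun χ h => by
    have := hinv χ (mem_irr.mp (hB h)) D.m (by omega) D.m (by rw [two_mul])
    simp only [τ]; push_cast; simpa [pow_mul, hm] using this.symm
  have hz : ∀ j a, a ≤ 2 * D.m → ζ ^ (j * (2 * D.m - a)) * ζ ^ (j * a) = 1 := fun j a ha => by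
    rw [← pow_add, ← mul_add, Nat.sub_add_cancel ha, mul_comm, pow_mul, hζ.pow_eq_one, one_pow]
  have hgen : ∀ j (F : (G → ℂ) → ℂ) (w : ℕ → ℂ), (∀ a, 0 < a → a < 2 * D.m →
      ∑ χ ∈ B, χ (D.s ^ a) * F χ = w a) → (2 * D.m : ℂ) * ∑ χ ∈ B, Dd j χ * F χ =
      ∑ a ∈ Finset.range (2 * D.m), (1 - ζ ^ (j * a)) * w a := fun j F w h => by
    rw [Finset.mul_sum, Finset.sum_congr rfl (g := fun χ => ∑ a ∈ Finset.range (2 * D.m),
      (1 - ζ ^ (j * a)) * (χ (D.s ^ a) * F χ)) fun χ hχ => by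
        rw [← mul_assoc, hD χ hχ, Finset.sum_mul]; simp only [mul_assoc], Finset.sum_comm]
    refine Finset.sum_congr rfl fun a ha => ?_
    rcases Nat.eq_zero_or_pos a with rfl | h0
    · simp
    · rw [← Finset.mul_sum, h a h0 (Finset.mem_range.mp ha)]
  have hpair : ∀ j b, 0 < b → b < 2 * D.m → ∑ χ ∈ B, Dd j χ * χ (D.s ^ b) =
      (1 - ζ ^ (j * b)) + (1 - ζ ^ (j * (2 * D.m - b))) := fun j b h0 h1 => by
    apply mul_left_cancel₀ hm0
    rw [hgen j _ (fun a => (2 * D.m) * ((if b = a then 1 else 0) +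
      if 2 * D.m - b = a then 1 else 0))]
    · simp only [mul_add, mul_ite, mul_one, mul_zero, Finset.sum_add_distrib, Finset.sum_ite_eq,
        Finset.mem_range, h1, show 2 * D.m - b < 2 * D.m by omega, if_true]
      ring
    · intro a a0 a1
      have := gram hl.inv (npow_mem_zpowers D.s a) (npow_mem_zpowers D.s b) (D.s_ne h0 h1)
        (one_mem _)
      rw [L_one, one_mul, one_mul, show (D.s ^ b)⁻¹ = D.s ^ (2 * D.m - b) by
        rw [pow_sub _ h1.le, D.s2m, one_mul]] at this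
      simp only [D.s_eq h1 a1, D.s_eq (show 2 * D.m - b < 2 * D.m by omega) a1] at this
      rw [hsum a a0 a1, ← this]
      exact Finset.sum_congr rfl fun χ h => by
        rw [← D.chi_inv (mem_irr.mp h).isCF b, pow_sub _ h1.le, D.s2m, one_mul]
  have hN : (D.N : ℂ) ≠ 0 := by exact_mod_cast D.N_pos.ne'
  have hFF : ∀ j, 0 < j → j < 2 * D.m → (D.N : ℂ) * ∑ χ ∈ B, Dd j χ * ((τ χ : ℂ) ^ 2 / d χ) =
      2 * D.m ^ 2 * ((D.k1 + D.k2) ^ 2 - (if j = D.m then 1 else 0) * (D.k1 - D.k2) ^ 2) := by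
    intro j j0 j1
    apply mul_left_cancel₀ hm0
    rw [mul_left_comm, hgen j _ (fun a => (D.N : ℂ)⁻¹ * (2 * D.m ^ 2 *
      ((D.k1 + D.k2) ^ 2 + ζ ^ (D.m * a) * (D.k1 - D.k2) ^ 2)))]
    · rw [Finset.sum_congr rfl (g := fun a => (D.N : ℂ)⁻¹ * (2 * D.m ^ 2) *
        ((D.k1 + D.k2) ^ 2 * (ζ ^ (0 * a) - ζ ^ (j * a)) +
          (D.k1 - D.k2) ^ 2 * (ζ ^ (D.m * a) - ζ ^ ((j + D.m) * a)))) fun a _ => by
            rw [add_mul j, pow_add]; simp; ring]
      simp only [← Finset.mul_sum, Finset.sum_add_distrib, Finset.sum_sub_distrib, ds_geo hζ]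
      have e : 2 * D.m ∣ j + D.m ↔ j = D.m := by
        refine ⟨fun ⟨c, hc⟩ => ?_, fun h => by rw [h, two_mul]⟩
        rcases c with _ | _ | c
        · omega
        · omega
        · nlinarith
      rw [if_pos (dvd_zero _), if_neg (Nat.not_dvd_of_pos_of_lt j0 j1),
        if_neg (Nat.not_dvd_of_pos_of_lt hp (by omega))]
      simp only [e]
      field_simp
      split_ifs <;> push_cast <;> ring
    · intro a a0 a1
      rw [eq_inv_mul_iff_mul_eq₀ hN, Finset.sum_congr rfl fun χ h => by rw [← hd χ h, ← hτ χ h],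
        hsum a a0 a1, phi hl.inv (D.s_ne a0 a1), D.wsum hζ]
      ring
  have n1 : ∀ j, j < 2 * D.m → n 1 j = if j = 0 then 1 else 0 := fun j hj => by
    have := hn 1 isIrr_one j
    simp only [Pi.one_apply, mul_one, ds_geo hζ] at this
    split_ifs at this ⊢ with h1 h2 h2
    · push_cast at this; exact_mod_cast (mul_right_eq_self₀.mp this.symm).resolve_right hm0
    · exact absurd (h1 ▸ dvd_zero _) h2
    · exact absurd (Nat.eq_zero_of_dvd_of_lt h2 hj) h1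
    · exact_mod_cast (mul_eq_zero.mp this.symm).resolve_left hm0
  have hIco : ∀ f : ℕ → ℤ, ∑ j ∈ Finset.range (2 * D.m), f j =
      f 0 + ∑ j ∈ Finset.Ico 1 (2 * D.m), f j := fun f => by
    rw [Finset.range_eq_Ico, Finset.sum_eq_sum_Ico_succ_bot (by omega)]
  refine ⟨B, hB, Dd, d, τ, ⟨?_, ?_, ?_, ?_, ?_, ?_, ?_, ?_, ?_, ?_⟩, fun χ h => ⟨hd χ h, hτ χ h⟩,
    ?_, by simp [Dd, n1 0 (by omega), n1 1 (by omega)],
    by simp [Dd, n1 0 (by omega), n1 D.m (by omega), hp.ne']⟩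
  · obtain ⟨e, he⟩ := D.two
    rcases e with _ | e
    · exact Or.inl he
    · exact Or.inr ⟨2 ^ e - 1, by have := Nat.one_le_two_pow (n := e); omega⟩
  · intro χ h
    obtain ⟨k, k0, hk⟩ := (mem_irr.mp (hB h)).nat
    rw [hd χ h] at hk
    have : d χ = k := by exact_mod_cast hk
    omega
  · intro i j i0 i1 j0 j1
    have h1 : (2 * D.m : ℂ) * ∑ χ ∈ B, (Dd j χ : ℂ) * Dd i χ = _ :=
      hgen j _ (fun a => (1 - ζ ^ (i * a)) + (1 - ζ ^ (i * (2 * D.m - a)))) fun a a0 a1 => by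
        rw [← hpair i a a0 a1]; exact Finset.sum_congr rfl fun _ _ => mul_comm _ _
    rw [Finset.sum_congr rfl (g := fun a => 2 * ζ ^ (0 * a) - 2 * ζ ^ (j * a) - ζ ^ (i * a) -
      ζ ^ ((2 * D.m - i) * a) + ζ ^ ((j + (2 * D.m - i)) * a) + ζ ^ ((i + j) * a))] at h1
    · simp only [← Finset.mul_sum, Finset.sum_add_distrib, Finset.sum_sub_distrib, ds_geo hζ] at h1
      have e1 : 2 * D.m ∣ j + (2 * D.m - i) ↔ i = j := by
        refine ⟨fun ⟨c, hc⟩ => ?_, fun h => by rw [h, Nat.add_sub_cancel' j1.le]⟩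
        rcases c with _ | _ | c
        · omega
        · omega
        · have : 2 * D.m * (c + 1 + 1) = 2 * D.m * c + 4 * D.m := by ring
          omega
      have e2 : 2 * D.m ∣ i + j ↔ i + j = 2 * D.m := by
        refine ⟨fun ⟨c, hc⟩ => ?_, fun h => by rw [h]⟩
        rcases c with _ | _ | c
        · omega
        · omega
        · have : 2 * D.m * (c + 1 + 1) = 2 * D.m * c + 4 * D.m := by ring
          omega
      rw [if_pos (dvd_zero _), if_neg (Nat.not_dvd_of_pos_of_lt j0 j1),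
        if_neg (Nat.not_dvd_of_pos_of_lt i0 i1),
        if_neg (Nat.not_dvd_of_pos_of_lt (by omega) (by omega))] at h1
      simp only [e1, e2] at h1
      apply Int.cast_injective (α := ℂ)
      apply mul_left_cancel₀ hm0
      push_cast at h1 ⊢
      rw [Finset.sum_congr rfl fun _ _ => mul_comm _ _, h1]
      split_ifs <;> ring
    · intro a ha
      have h2 : ζ ^ (i * (2 * D.m - a)) = ζ ^ ((2 * D.m - i) * a) := by
        have h3 := hz i a (Finset.mem_range.mp ha).le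
        have h4 := hz a i i1.le
        rw [mul_comm a i, mul_comm a] at h4
        exact mul_right_cancel₀ (right_ne_zero_of_mul_eq_one h3) (h3.trans h4.symm)
      rw [h2, add_mul j, add_mul i, pow_add, pow_add]; simp; ring
  · intro j _ _
    apply Int.cast_injective (α := ℂ)
    apply mul_left_cancel₀ hm0
    push_cast
    rw [hgen j _ (fun _ => 0)]
    · simp
    · intro a a0 a1
      rw [Finset.sum_congr rfl fun χ h => by rw [← hd χ h], hsum a a0 a1, gram0]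
      simp [L_s, D.s_ne a0 a1]
  · intro j _ _
    apply Int.cast_injective (α := ℂ)
    push_cast
    rw [Finset.sum_congr rfl fun χ h => by rw [← hτ χ h], hpair j D.m hp (by omega),
      show 2 * D.m - D.m = D.m by omega, mul_comm j, pow_mul, hm]
    ring
  · intro χ _
    have h0 : ∑ k ∈ Finset.range (2 * D.m), (-1 : ℤ) ^ k = 0 := by
      rw [neg_one_geom_sum, if_pos (even_two_mul _)]
    rw [hIco] at h0
    simp only [τ, Dd, hIco, mul_sub, Finset.sum_sub_distrib, ← Finset.sum_mul]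
    linear_combination (n χ 0 : ℤ) * h0
  · intro j _ j1 χ h
    have h1 := mem_irr.mp (hB h)
    have h2 := congrArg conj (hn χ h1 j)
    rw [map_sum, Finset.sum_congr rfl (g := fun i => ζ ^ ((2 * D.m - j) * i) * χ (D.s ^ i)),
      hn χ h1] at h2
    · have : n χ (2 * D.m - j) = n χ j := by
        simp only [map_mul, map_natCast, map_ofNat] at h2
        exact_mod_cast mul_left_cancel₀ hm0 h2
      simp only [Dd, this]
    · intro i _
      rw [map_mul, ← h1.isChar.apply_inv, D.chi_inv h1.isCF]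
      congr 1
      have h4 := hz i j j1.le
      rw [mul_comm i, mul_comm i] at h4
      rw [eq_inv_of_mul_eq_one_left h4, Complex.inv_eq_conj]
      rw [norm_pow, hζ.norm'_eq_one (by omega), one_pow]
  · intro χ h
    refine ⟨n χ 0, ?_, ?_⟩
    · simp only [d, Dd, hIco, Finset.sum_sub_distrib, Finset.sum_const, Nat.card_Ico, nsmul_eq_mul]
      push_cast [Nat.cast_sub (show 1 ≤ 2 * D.m by omega), hIco]
      ring
    · obtain ⟨k, hk⟩ := D.parity (mem_irr.mp (hB h)).isChar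
      have := hn χ (mem_irr.mp (hB h)) 0
      simp only [zero_mul, pow_zero, one_mul] at this
      rw [this, hτ χ h, ← mul_add] at hk
      exact ⟨k, by exact_mod_cast (mul_left_cancel₀ hm0 hk).trans (two_mul _)⟩
  · intro j j0 j1 jm
    apply Rat.cast_injective (α := ℂ)
    push_cast
    rw [eq_div_iff hN, mul_comm, hFF j j0 j1, if_neg jm]; ring
  · apply Rat.cast_injective (α := ℂ)
    push_cast
    rw [eq_div_iff hN, mul_comm, hFF D.m hp (by omega), if_pos rfl]; ring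
  · have := hs 1 (mem_irr.mpr isIrr_one) _ (npow_mem_zpowers _ _) D.t1
    rw [av_one] at this
    constructor
    · intro h
      have h1 := this.1 h
      by_contra h2
      rw [if_neg (Ne.symm h2)] at h1
      exact one_ne_zero h1
    · intro h
      by_contra h2
      have h1 := this.2 h2
      rw [if_pos h.symm] at h1
      exact one_ne_zero h1

theorem card_class : Nat.card {x // IsConj D.t x} = D.N := by
  have h1 := card_centralizer_mul_card_class D.t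
  rw [← D.H.card_mul_index] at h1
  exact Nat.eq_of_mul_eq_mul_left Nat.card_pos h1

theorem irr_eq_one (hG : commutator G = ⊤) {χ : G → ℂ} (h : IsIrr χ) (h1 : χ 1 = 1) : χ = 1 := by
  obtain ⟨ψ, rfl⟩ := h.isChar.exists_lin h1
  have := commutator_le_cfker_lin ψ
  rw [hG, cfker_lin, top_le_iff, MonoidHom.ker_eq_top_iff] at this
  rw [this, lin_one]

/-- the degree equations -/
theorem tool (hl : D.Stable l) : ∃ a0 a1 a2 a3 : ℤ, a0 + a1 + a2 + a3 = 0 ∧
    (a0 ≡ 1 [ZMOD 4 * D.m] ∧ a1 ≡ 1 [ZMOD 4 * D.m] ∧ a2 ≡ 2 * D.m - 1 [ZMOD 4 * D.m] ∧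
      a3 ≡ 2 * D.m - 1 [ZMOD 4 * D.m]) ∧
    (a0 ∣ D.N ∧ a1 ∣ D.N ∧ a2 ∣ D.N ∧ a3 ∣ D.N) ∧
    D.N * (a0 + a1) * (a0 + a2) * (a0 + a3) = 8 * D.m ^ 2 * D.k1 * D.k2 * (a0 * a1 * a2 * a3) ∧
    (2 ≤ D.m → D.N * (a0 - a1) ^ 2 = 2 * D.m ^ 2 * (D.k1 + D.k2) ^ 2 * (a0 * a1 * (a0 + a1))) ∧
    (l = 1 → a0 = 1) ∧
    (commutator G = ⊤ → a1 ≠ 1 ∧ a2 ≠ 1 ∧ a3 ≠ 1 ∧ (l ≠ 1 → a0 ≠ 1)) := by
  obtain ⟨B, hB, Dd, d, τ, cb, hv, h1, d1, dm⟩ := exists_cb hl
  obtain ⟨x0, b0, x1, b1, x2, b2, x3, b3, a0, a1, a2, a3, ⟨n1, n2, n3, -⟩, ⟨e0, e1, e2, e3⟩,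
    ⟨t0, t1, t2, t3⟩, hs, hc, c1, c2, hy⟩ := cb.fin 1
  have hdv : ∀ x ∈ B, ∀ a : ℤ, |a| = d x → τ x ^ 2 = 1 → a ∣ D.N ∧ a ≠ 0 := by
    intro x hx a ha ht
    have hp := cb.hd x hx
    refine ⟨?_, by rintro rfl; simp at ha; omega⟩
    have h2 := (mem_irr.mp (hB hx)).aint_class D.t
    rw [card_class, (hv x hx).1, (hv x hx).2] at h2
    have h3 := AInt.dvd_of_div (a := D.N * τ x) hp.ne' (by push_cast; exact h2)
    rw [← abs_dvd, ha]
    have := h3.mul_right (τ x)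
    rwa [mul_assoc, ← pow_two, ht, mul_one] at this
  have hone : commutator G = ⊤ → ∀ x ∈ B, ∀ a : ℤ, |a| = d x → a = 1 → x = 1 := by
    rintro hG x hx a ha rfl
    exact irr_eq_one hG (mem_irr.mp (hB hx)) (by rw [(hv x hx).1, ← ha]; simp)
  obtain ⟨v0, z0⟩ := hdv _ b0 _ e0 t0
  obtain ⟨v1, z1⟩ := hdv _ b1 _ e1 t1
  obtain ⟨v2, z2⟩ := hdv _ b2 _ e2 t2
  obtain ⟨v3, z3⟩ := hdv _ b3 _ e3 t3
  have hN : (D.N : ℚ) ≠ 0 := by exact_mod_cast D.N_pos.ne'
  have q0 : (a0 : ℚ) ≠ 0 := by exact_mod_cast z0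
  have q1 : (a1 : ℚ) ≠ 0 := by exact_mod_cast z1
  have q2 : (a2 : ℚ) ≠ 0 := by exact_mod_cast z2
  have q3 : (a3 : ℚ) ≠ 0 := by exact_mod_cast z3
  have hs' : (a0 : ℚ) + a1 + a2 + a3 = 0 := by exact_mod_cast hs
  refine ⟨a0, a1, a2, a3, hs, hc, ⟨v0, v1, v2, v3⟩, ?_, fun hm => ?_, fun h => ?_, fun hG => ?_⟩
  · apply Int.cast_injective (α := ℚ)
    push_cast
    field_simp at c1
    linear_combination (D.N * (a0 : ℚ) ^ 2) * hs' - c1
  · obtain ⟨c3, c4⟩ := c2 (by omega)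
    have q4 : (a0 : ℚ) + a1 ≠ 0 := by exact_mod_cast c3
    apply Int.cast_injective (α := ℚ)
    push_cast
    field_simp at c4
    linear_combination -c4
  · rw [(hy (h1.mpr h) d1 dm).2]
    have := (hv 1 (h1.mpr h)).1
    rw [Pi.one_apply] at this
    exact_mod_cast this.symm
  · have key : ∀ x ∈ B, x0 ≠ x → ∀ a : ℤ, |a| = d x → a ≠ 1 := fun x hx hn a ha h => by
      have h2 := hone hG x hx a ha h
      rw [h2] at hx hn
      exact hn (hy hx d1 dm).1
    exact ⟨key _ b1 n1 _ e1, key _ b2 n2 _ e2, key _ b3 n3 _ e3, fun h h' =>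
      h (h1.mp (hone hG _ b0 _ e0 h' ▸ b0))⟩

end DS

end CA.GW
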