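/-
Gorenstein–Walter theorem, first case: the end.
-/
import Cfsg.Agent.Lib.GW.FC1
import Cfsg.Agent.Lib.GW.W
import Cfsg.Agent.Lib.GW.Tool

set_option autoImplicit false

namespace CA.GW

open Cfsg CA CA.FStar Subgroup

universe u

theorem fc_ineq {a x y : ℤ} (h0 : 1 + a + x + y = 0) (ha : 57 ≤ a ∨ a ≤ -55) (hx : 3 ≤ x ∨ x ≤ -5)
    (hy : 3 ≤ y ∨ y ≤ -5) : 3 * (a - 1) ^ 2 * |x * y| < 4 * (1 + a) ^ 2 * |(1 + x) * (1 + y)| := by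
  have key : ∀ x y : ℤ, 1 + a + x + y = 0 → 3 ≤ x → y ≤ -5 →
      3 * (a - 1) ^ 2 * |x * y| < 4 * (1 + a) ^ 2 * |(1 + x) * (1 + y)| := fun x y h0 hx hy => by
    rw [abs_of_neg (by nlinarith), abs_of_neg (by nlinarith)]
    obtain ⟨b, rfl⟩ : ∃ b, y = -5 - b := ⟨-5 - y, by ring⟩
    have hb : 0 ≤ b := by omega
    rcases ha with ha | ha
    · have h1 : (a - 1) ^ 2 < (1 + a) ^ 2 := by nlinarith
      have h2 : 3 * -(x * (-5 - b)) ≤ 4 * -((1 + x) * (1 + (-5 - b))) := by nlinarith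
      have h3 : 0 < -(x * (-5 - b)) := by nlinarith
      nlinarith [sq_nonneg (a - 1)]
    · obtain ⟨c, rfl⟩ : ∃ c, a = -55 - c := ⟨-55 - a, by ring⟩
      have hc : 0 ≤ c := by omega
      obtain rfl : x = 59 + c + b := by omega
      have := mul_nonneg hb hc
      have := mul_nonneg hc hc
      have := mul_nonneg hb hb
      nlinarith [mul_nonneg hb (mul_nonneg hc hc), mul_nonneg hc (mul_nonneg hc hc), mul_nonneg hb (mul_nonneg hb hc),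
        mul_nonneg (mul_nonneg hb hb) (mul_nonneg hc hc), mul_nonneg (mul_nonneg hb hc) (mul_nonneg hc hc)]
  rcases hx with hx | hx <;> rcases hy with hy | hy
  · rw [abs_of_pos (by nlinarith), abs_of_pos (by nlinarith)]
    have h1 : 3 * (a - 1) ^ 2 < 4 * (1 + a) ^ 2 := by rcases ha with ha | ha <;> nlinarith
    have h2 : x * y ≤ (1 + x) * (1 + y) := by nlinarith
    have h3 : 0 < x * y := by nlinarith
    nlinarith [sq_nonneg (a - 1)]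
  · exact key x y h0 hx hy
  · rw [mul_comm x, mul_comm (1 + x)]; exact key y x (by omega) hy hx
  · rw [abs_of_pos (by nlinarith), abs_of_pos (by nlinarith)]
    have ha : 57 ≤ a := by omega
    have h1 : (a - 1) ^ 2 < (1 + a) ^ 2 := by nlinarith
    have h2 : 3 * (x * y) ≤ 4 * ((1 + x) * (1 + y)) := by nlinarith [mul_nonneg (show 0 ≤ -5 - x by omega) (show 0 ≤ -5 - y by omega)]
    have h3 : 0 < x * y := by nlinarith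
    nlinarith [sq_nonneg (a - 1)]

theorem fc_res {m : ℕ} {x : ℤ} (hm : 2 ≤ m) (h : x ≡ 2 * m - 1 [ZMOD 4 * m]) : 3 ≤ x ∨ x ≤ -5 := by
  obtain ⟨k, hk⟩ := h.dvd
  have hm' : (2 : ℤ) ≤ m := by exact_mod_cast hm
  rcases le_or_gt k 0 with h | h
  · left; nlinarith
  · right; nlinarith

theorem fc_arith {m N α κ : ℕ} {a x y : ℤ} (hm : 2 ≤ m) (h2 : ∃ e, m = 2 ^ e) (hN : 0 < N) (hα : 3 ≤ α) (hκ : 7 ≤ κ)
    (ho : Odd κ) (cop : N.Coprime κ) (h0 : 1 + a + x + y = 0) (a1 : a ≠ 1) (ca : a ≡ 1 [ZMOD 4 * m])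
    (cx : x ≡ 2 * m - 1 [ZMOD 4 * m]) (cy : y ≡ 2 * m - 1 [ZMOD 4 * m])
    (e1 : (N : ℤ) * (1 + a) * (1 + x) * (1 + y) = 8 * m ^ 2 * (κ * (α * κ)) * (a * x * y))
    (e2 : (N : ℤ) * (1 - a) ^ 2 = 2 * m ^ 2 * (κ + α * κ) ^ 2 * (a * (1 + a))) : False := by
  have d1 : (κ : ℤ) ∣ 1 - a := by
    rw [← Int.pow_dvd_pow_iff two_ne_zero]
    refine (IsCoprime.pow_left (Nat.isCoprime_iff_coprime.2 cop.symm)).dvd_of_dvd_mul_left ?_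
    rw [e2]; exact ⟨2 * m ^ 2 * (1 + α) ^ 2 * (a * (1 + a)), by ring⟩
  have d2 : (8 : ℤ) ∣ 1 - a := by
    obtain ⟨e, rfl⟩ := h2
    refine dvd_trans ?_ ca.dvd
    cases e with
    | zero => simp at hm
    | succ e => exact ⟨2 ^ e, by push_cast; ring⟩
  have d3 : (8 : ℤ) * κ ∣ 1 - a := IsCoprime.mul_dvd (by
    have : (2 ^ 3).Coprime κ := Nat.Coprime.pow_left _ (Nat.coprime_two_left.2 ho)
    exact_mod_cast Nat.isCoprime_iff_coprime.2 this) d2 d1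
  have hκ' : (7 : ℤ) ≤ κ := by exact_mod_cast hκ
  have hα' : (3 : ℤ) ≤ α := by exact_mod_cast hα
  have hm' : (2 : ℤ) ≤ m := by exact_mod_cast hm
  have ha : 57 ≤ a ∨ a ≤ -55 := by
    obtain ⟨k, hk⟩ := d3
    rcases lt_trichotomy k 0 with h | h | h
    · left; nlinarith
    · rw [h] at hk; omega
    · right; nlinarith
  have h := fc_ineq h0 ha (fc_res hm cx) (fc_res hm cy)
  have e3 : (1 + a) ^ 2 * ((1 + x) * (1 + y)) * (1 + α) ^ 2 = 4 * α * (a - 1) ^ 2 * (x * y) := by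
    have hne : (2 : ℤ) * m ^ 2 * κ ^ 2 * a ≠ 0 := by
      have : a ≠ 0 := by omega
      positivity
    refine mul_left_cancel₀ hne ?_
    linear_combination (1 - a) ^ 2 * e1 - (1 + a) * (1 + x) * (1 + y) * e2
  have e4 := congrArg abs e3
  simp only [abs_mul, abs_pow, sq_abs, Nat.abs_cast, Nat.abs_ofNat] at e4 h
  have h5 : 16 * (α : ℤ) ≤ 3 * (1 + α) ^ 2 := by nlinarith
  have h6 : 0 ≤ (1 + a) ^ 2 * (|1 + x| * |1 + y|) := by positivity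
  nlinarith [mul_le_mul_of_nonneg_left h5 h6]

theorem DS.cls {G : Type*} [Group G] [Finite G] (D : DS G) {w : G} (hw : w ∈ D.H) (w2 : Inv2 w) (wt : w ≠ D.t) :
    ∃ h ∈ D.H, w = h * D.r * h⁻¹ ∨ w = h * (D.s * D.r) * h⁻¹ := by
  obtain ⟨u, hu, i, rfl | rfl⟩ := D.cov w hw
  · exact absurd (D.inv_eq hu (npow_mem_zpowers _ _) w2.sq w2.ne) wt
  have key : ∀ j : ℕ, ∀ x, D.s ^ j * (x * D.r) * (D.s ^ j)⁻¹ = D.s ^ j * x * D.s ^ j * D.r := fun j x => by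
    rw [mul_assoc, mul_assoc x, D.r_mul', inv_inv]; group
  obtain ⟨σ, hσ⟩ : ∃ σ, σ = D.s ^ i * D.r := ⟨_, rfl⟩
  have σ2 : σ * σ = 1 := hσ ▸ D.sr_sq i
  have hi : σ * u * σ⁻¹ = u⁻¹ := by
    have := w2.sq
    rw [← hσ] at this
    rw [inv_eq_of_mul_eq_one_right σ2]; exact eq_inv_of_mul_eq_one_right (by simpa only [mul_assoc] using this)
  obtain ⟨v, hv, vv⟩ := exists_sqrt (D.odd_of hu)
  have e : u * σ = v * σ * v⁻¹ := by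
    have := inv_of_mem_zpowers hi (inv_mem hv)
    rw [inv_inv] at this
    rw [← vv, mul_assoc v σ, mul_inv_eq_iff_eq_mul.1 this, mul_assoc]
  have vH : v ∈ D.H := D.UH (zpowers_le_of_mem hu hv)
  rw [← hσ, e, hσ]
  rcases Nat.even_or_odd' i with ⟨j, rfl | rfl⟩
  · refine ⟨v * D.s ^ j, mul_mem vH (D.sH j), Or.inl ?_⟩
    have := key j 1
    rw [one_mul, mul_one, ← pow_add, ← two_mul] at this
    rw [← this]; group
  · refine ⟨v * D.s ^ j, mul_mem vH (D.sH j), Or.inr ?_⟩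
    have := key j D.s
    rw [← pow_succ, ← pow_add, show j + 1 + j = 2 * j + 1 by ring] at this
    rw [← this]; group

variable {G : Type u} [Group G] [Finite G] (m : Min G) {X V : Subgroup G} {a s w x y : G} {p q : ℕ}

local notation "𝐔" => 𝐎(𝐂[Min.t m])
local notation "𝐅" => fittingOf 𝐎(𝐂[Min.t m])

/-- the primes `q` such that `s` centralizes `O_q(U)` -/
def Min.pi (s : G) : Set ℕ := {q | s ∈ 𝐂(piCoreOf {q} 𝐔)}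

theorem Min.A_eq (h : m.LA) (hs : Inv2 s) (c : s ∈ 𝐂[m.t]) : 𝐅 ⊓ 𝐂[s] = piCoreOf (m.pi s) 𝐅 := by
  refine le_antisymm (le_piCoreOf_of_nilpotent (fittingOf_nilpotent _) inf_le_left
    (piGrp_of_forall_prime_order fun y hy hp => ?_)) (le_inf (piCoreOf_le _ _) fun y hy => ?_)
  · rcases m.lemC h m.inv hs c (orderOf y) with e | e
    · exact e
    · have := eq_one_of_cent_inv (odd_of_mem (odd_le (fittingOf_le _)) hy.1) (mem_cent1_iff.1 hy.2).symm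
        (e y (mem_core_of_fit hy.1 (piElt_ord hp)))
      rw [this] at hp; exact absurd orderOf_one hp.ne_one
  · refine mem_of_forall_constt_mem fun q hq hd => ?_
    have : q ∈ m.pi s := ((piCoreOf_piGrp _ _).piElt hy).mem hq hd
    exact mem_cent_iff_le_cent1.1 this (mem_core_of_fit (constt_mem _ (piCoreOf_le _ _ hy)) (constt_piElt _ _))

theorem Min.K_eq (h : m.LA) (hs : Inv2 s) (c : s ∈ 𝐂[m.t]) : ⁅𝐔, zpowers s⁆ = piCoreOf (m.pi s)ᶜ 𝐅 := by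
  have nF : zpowers s ≤ 𝐍(piCoreOf (m.pi s)ᶜ 𝐅) :=
    zpowers_le_of_mem (norms_piCoreOf _ (norms_fittingOf (U_norm _)) c)
  have hD := dprod_piCoreOf_of_nilpotent (fittingOf_nilpotent 𝐔) (m.pi s)
  refine le_antisymm ((copAct_inv hs.sq (odd_core _) (U_norm _ c)).comm_le_of_comm_le (m.K_le h m.inv hs c) ?_) ?_
  · conv_lhs => rw [← hD.sup_eq]
    refine CA.comm_sup_le ?_ (comm_le_left nF) (norms_of_cents (cents_symm hD.cent)) le_normalizer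
    rw [comm_eq_bot_iff.2 (by rw [cent_zpowers, ← m.A_eq h hs c]; exact inf_le_right)]; exact bot_le
  · have hU := (piCoreOf_le (m.pi s)ᶜ 𝐅).trans (fittingOf_le _)
    rw [← (copAct_inv hs.sq (odd_le hU) (nF (mem_zpowers s))).comm_eq_self_of_cent_eq_bot ?_]
    · exact commutator_mono hU le_rfl
    · rw [cent_zpowers, ← le_bot_iff, ← hD.inf_eq, ← m.A_eq h hs c]
      exact le_inf (inf_le_inf_right _ (piCoreOf_le _ _)) inf_le_left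

theorem Min.AK (h : m.LA) (hs : Inv2 s) (c : s ∈ 𝐂[m.t]) : DProd (𝐅 ⊓ 𝐂[s]) ⁅𝐔, zpowers s⁆ 𝐅 := by
  rw [m.A_eq h hs c, m.K_eq h hs c]; exact dprod_piCoreOf_of_nilpotent (fittingOf_nilpotent _) _

theorem Min.A_norm (h : m.LA) (hs : Inv2 s) (c : s ∈ 𝐂[m.t]) : 𝐂[m.t] ≤ 𝐍(𝐅 ⊓ 𝐂[s]) := by
  rw [m.A_eq h hs c]; exact norms_piCoreOf _ (norms_fittingOf (U_norm _))

theorem Min.K_cent (h : m.LA) (hs : Inv2 s) (c : s ∈ 𝐂[m.t]) : ⁅𝐔, zpowers s⁆ ⊓ 𝐂[s] = ⊥ := by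
  rw [← le_bot_iff, ← (m.AK h hs c).inf_eq]
  exact le_inf (inf_le_inf_right _ (m.K_le h m.inv hs c)) inf_le_left

theorem Min.KU (hs : Inv2 s) (c : s ∈ 𝐂[m.t]) : ⁅𝐔, zpowers s⁆ ⊔ (𝐔 ⊓ 𝐂[s]) = 𝐔 := by
  rw [← cent_zpowers s]; exact (copAct_inv hs.sq (odd_core _) (U_norm _ c)).comm_sup_cent

theorem Min.k_eq (h : m.LA) (hs : Inv2 s) (c : s ∈ 𝐂[m.t]) :
    (𝐂[s]).relIndex 𝐔 = Nat.card ↥⁅𝐔, zpowers s⁆ := by
  have hK := comm_normalIn_left (zpowers_le_of_mem (U_norm _ c))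
  rw [← inf_relIndex_left]
  exact (sdprod_of_normalIn hK inf_le_left (m.KU hs c)
    (le_bot_iff.1 (m.K_cent h hs c ▸ inf_le_inf_left _ inf_le_right))).relIndex_right

theorem Min.A_conj (h : m.LA) (hs : Inv2 s) (c : s ∈ 𝐂[m.t]) (hx : x ∈ 𝐂[m.t]) :
    𝐅 ⊓ 𝐂[x * s * x⁻¹] = 𝐅 ⊓ 𝐂[s] := by
  conv_rhs => rw [← cj_eq_of_mem_normalizer (m.A_norm h hs c hx), cj_inf, cj_centralizer_singleton,
    cj_eq_of_mem_normalizer (norms_fittingOf (U_norm _) hx)]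

theorem Min.K_ne (hH : IsCoatom 𝐂[m.t]) (hs : Inv2 s) (c : s ∈ 𝐂[m.t]) (st : s ≠ m.t) : ⁅𝐔, zpowers s⁆ ≠ ⊥ := by
  intro e
  obtain ⟨V, hV, mV⟩ := four_of m.inv hs st.symm (mem_cent1_iff.1 c).symm
  have tV : m.t ∈ V := (mV _).2 (by simp)
  have sV : s ∈ V := (mV _).2 (by simp)
  have h1 : 𝐎(𝐂(V)) = 𝐔 := by
    rw [m.core_four hV tV m.inv.ne, inf_eq_left]
    refine cents_symm (hV.le_of tV sV m.inv.ne hs.ne st.symm (mem_cent_iff_le_cent1.2 (U_le _)) ?_)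
    exact comm_eq_bot_iff'.1 e (mem_zpowers s)
  obtain ⟨g, hg, e⟩ := m.rot hV tV sV m.inv.ne hs.ne
  haveI := m.simple
  have : g ∈ 𝐂[m.t] := norm_le_coatom hH (piCoreOf_normalIn _ _) m.U_ne
    (h1 ▸ norms_piCoreOf _ (normalizer_le_normalizer_centralizer V) hg)
  exact st (by rw [← e, mem_cent1_iff.1 this, mul_inv_cancel_right])

/-- the conjugates of `C_{F(U)}(s)` under `N(⟨t, s⟩)` -/
theorem Min.fc_B (hH : IsCoatom 𝐂[m.t]) (h : m.LA) (hs : Inv2 s) (c : s ∈ 𝐂[m.t]) (st : s ≠ m.t) :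
    ∃ B ≤ 𝐔 ⊓ 𝐂[s], Nat.card B = Nat.card ↥(𝐅 ⊓ 𝐂[s]) ∧ (∀ b ∈ B, b ≠ 1 → 𝐂[b] ≤ 𝐂[s]) ∧
      (Nat.card m.S ≠ 4 → ∃ σ, Inv2 σ ∧ σ ∈ 𝐂[m.t] ∧ σ ≠ m.t ∧ 𝐅 ⊓ 𝐂[s] ⊓ 𝐂[σ] = ⊥) := by
  obtain ⟨V, hV, mV⟩ := four_of m.inv hs st.symm (mem_cent1_iff.1 c).symm
  have tV : m.t ∈ V := (mV _).2 (by simp)
  have sV : s ∈ V := (mV _).2 (by simp)
  have tsV := mul_mem tV sV
  have ts2 := m.inv.mul hs st.symm (mem_cent1_iff.1 c).symm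
  obtain ⟨B, hB⟩ : ∃ B : G → Subgroup G, B = fun a => fittingOf 𝐎(𝐂[a]) ⊓ 𝐂(V) := ⟨_, rfl⟩
  have Bc : ∀ g ∈ 𝐍(V), ∀ a, cj g (B a) = B (g * a * g⁻¹) := fun g hg a => by
    simp only [hB]; rw [cj_inf, cj_fittingOf, cj_U, cj_centralizer, cj_eq_of_mem_normalizer hg]
  have Bn : ∀ a ∈ V, a ≠ 1 → B a ⊴ 𝐎(𝐂(V)) := fun a ha a1 => by
    rw [m.core_four hV ha a1, hB]
    exact ⟨inf_le_inf_right _ (fittingOf_le _), norms_inf (inf_le_left.trans (fittingOf_normalIn _).norm)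
      (inf_le_right.trans le_normalizer)⟩
  have Bt : B m.t = 𝐅 ⊓ 𝐂[s] := by
    rw [hB]
    refine le_antisymm (inf_le_inf_left _ (cent_le_cent1 sV)) (le_inf inf_le_left (cents_symm ?_))
    exact hV.le_of tV sV m.inv.ne hs.ne st.symm
      (mem_cent_iff_le_cent1.2 (inf_le_left.trans ((fittingOf_le _).trans (U_le _))))
      (mem_cent_iff_le_cent1.2 inf_le_right)
  have EU : 𝐎(𝐂(V)) ≤ 𝐔 ⊓ 𝐂(V) := (m.core_four hV tV m.inv.ne).le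
  have Bs : ∀ b ∈ B s, b ≠ 1 → 𝐂[b] ≤ 𝐂[s] := fun b hb b1 => m.lemD1 h hs (by rw [hB] at hb; exact hb.1) b1
  obtain ⟨g, hg, g1, g2, -⟩ := m.rot3 hV tV sV m.inv.ne hs.ne st.symm
  have cB : Nat.card (B s) = Nat.card ↥(𝐅 ⊓ 𝐂[s]) := by rw [← Bt, ← card_cj g (B m.t), Bc g hg, g1]
  refine ⟨B s, (Bn s sV hs.ne).le.trans (EU.trans (inf_le_inf_left _ (cent_le_cent1 sV))), cB, Bs, fun h8 => ?_⟩
  have i1 : B s ⊓ B m.t = ⊥ := by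
    by_contra e
    obtain ⟨b, ⟨b1, b2⟩, b3⟩ := exists_ne_one_mem' e
    refine m.K_ne hH hs c st (le_bot_iff.1 ?_)
    rw [← m.K_cent h hs c]
    exact le_inf le_rfl (((m.AK h hs c).cent.trans (cent_le_cent1 (Bt ▸ b2))).trans (Bs b b1 b3))
  have i2 : B (m.t * s) ⊓ B s = ⊥ := by
    have := congrArg (cj g) i1
    rwa [cj_inf, Bc g hg, Bc g hg, g1, g2, cj_bot] at this
  obtain ⟨σ, σ2, σt, e⟩ := m.swap h8 hV tV sV m.inv.ne hs.ne st.symm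
  have σV : σ ∈ 𝐍(V) := hV.norm_of tV sV m.inv.ne hs.ne st.symm
    (by rw [mem_cent1_iff.1 σt, mul_inv_cancel_right]; exact tV) (e ▸ tsV)
  refine ⟨σ, σ2, σt, ?_, ?_⟩
  · rintro rfl
    rw [← mem_cent1_iff.1 c, mul_inv_cancel_right] at e
    exact m.inv.ne (by simpa using e)
  by_contra hb
  obtain ⟨x, ⟨hx, xσ⟩, hp⟩ := exists_prime_order_mem hb
  obtain ⟨y, hy, yo⟩ := exists_orderOf_eq_prime hp (cB ▸ orderOf_dvd_card_of_mem hx)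
  have hy' : σ * y⁻¹ * σ⁻¹ ∈ B (m.t * s) := by rw [← e, ← Bc σ σV]; exact conj_mem_cj.2 (inv_mem hy)
  have cm : y * (σ * y⁻¹ * σ⁻¹) = σ * y⁻¹ * σ⁻¹ * y :=
    (cents_iff.1 (cents_of_norms_of_disjoint ((Bn s sV hs.ne).le.trans (Bn _ tsV ts2.ne).norm)
      ((Bn _ tsV ts2.ne).le.trans (Bn s sV hs.ne).norm) i2) _ hy' _ hy).symm
  have py : PiElt {orderOf x} y := yo ▸ piElt_ord (yo ▸ hp)
  have hz : y * (σ * y⁻¹ * σ⁻¹) ∈ ⁅𝐔, zpowers σ⁆ := by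
    simpa only [mul_assoc] using comm_mem (EU ((Bn s sV hs.ne).le hy)).1 (mem_zpowers σ)
  have zQ := mem_core_of_fit (m.K_le h m.inv σ2 σt hz) (py.mul (piElt_conj.2 py.inv) cm)
  rcases m.lemC h m.inv σ2 σt (orderOf x) with e' | e'
  · have z1 : y * (σ * y⁻¹ * σ⁻¹) ∈ ⁅𝐔, zpowers σ⁆ ⊓ 𝐂[σ] := ⟨hz, mem_cent_iff_le_cent1.1 e' zQ⟩
    rw [m.K_cent h σ2 σt, mem_bot] at z1
    have y1 : y⁻¹ ∈ B (m.t * s) ⊓ B s := mem_inf.2 ⟨eq_inv_of_mul_eq_one_right z1 ▸ hy', inv_mem hy⟩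
    rw [i2, mem_bot, inv_eq_one] at y1
    rw [y1, orderOf_one] at yo; exact hp.ne_one yo.symm
  · have := eq_one_of_cent_inv (odd_of_mem (odd_le (fittingOf_le _)) hx.1) (mem_cent1_iff.1 xσ).symm
      (e' x (mem_core_of_fit hx.1 (piElt_ord hp)))
    rw [this] at hp; exact hp.ne_one orderOf_one

/-- the statement of Tool 2 -/
def T2 (G : Type u) [Group G] : Prop := ∀ (D : DS G) (K : Subgroup G), K ⊴ D.U → K ≠ ⊥ →
  (∀ y ∈ K, D.r * y * D.r⁻¹ = y⁻¹) → D.s ∈ 𝐂(D.U) → D.U = K ⊔ (D.U ⊓ 𝐂[D.r]) → D.N.Coprime (Nat.card K) →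
  D.U ⊓ 𝐂[D.r] = ⊥

theorem Min.K_inv (h : m.LA) (hs : Inv2 s) (c : s ∈ 𝐂[m.t]) (hy : y ∈ ⁅𝐔, zpowers s⁆) : s * y * s⁻¹ = y⁻¹ :=
  inv_of_cent_bot hs.sq (comm_norm_right _ _ (mem_zpowers s))
    (odd_le (comm_le_left (zpowers_le_of_mem (U_norm _ c)))) (m.K_cent h hs c) hy

theorem Min.K_cop (h : m.LA) (hs : Inv2 s) (c : s ∈ 𝐂[m.t])
    (hi : ∀ w, Inv2 w → w ∈ 𝐂[m.t] → w ≠ m.t → 𝐅 ⊓ 𝐂[w] ≤ 𝐂[s]) :
    (𝐂[m.t] : Subgroup G).index.Coprime (Nat.card ↥⁅𝐔, zpowers s⁆) := by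
  refine (coprime_iff_forall_prime.2 fun q hq hd => ?_).symm
  obtain ⟨y, hy, ho⟩ := exists_orderOf_eq_prime hq hd
  refine m.cop h hq (m.K_le h m.inv hs c hy) ho fun w w2 wt yw => by_contra fun e => ?_
  have : y ∈ ⁅𝐔, zpowers s⁆ ⊓ 𝐂[s] := ⟨hy, hi w w2 wt e ⟨m.K_le h m.inv hs c hy, yw⟩⟩
  rw [m.K_cent h hs c, mem_bot] at this
  rw [this, orderOf_one] at ho; exact hq.ne_one ho.symm

/-- the arithmetic case -/
theorem Min.fc_ar (hH : IsCoatom 𝐂[m.t]) (h : m.LA) (D : DS G) (Dt : D.t = m.t) (hm : 2 ≤ D.m)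
    (hs : Inv2 s) (c : s ∈ 𝐂[m.t]) (st : s ≠ m.t) (hw : Inv2 w) (c' : w ∈ 𝐂[m.t])
    (hi : ∀ v, Inv2 v → v ∈ 𝐂[m.t] → v ≠ m.t → 𝐅 ⊓ 𝐂[v] ≤ 𝐂[s]) (h1 : 𝐅 ⊓ 𝐂[s] ≠ ⊥) (h2 : 𝐅 ⊓ 𝐂[w] = ⊥)
    (e1 : D.k1 * D.k2 = (𝐂[s]).relIndex 𝐔 * (𝐂[w]).relIndex 𝐔)
    (e2 : D.k1 + D.k2 = (𝐂[s]).relIndex 𝐔 + (𝐂[w]).relIndex 𝐔) : False := by
  have k2 : Nat.card ↥⁅𝐔, zpowers w⁆ = Nat.card ↥(𝐅 ⊓ 𝐂[s]) * Nat.card ↥⁅𝐔, zpowers s⁆ := by
    rw [(m.AK h hs c).card_eq, ← (m.AK h hw c').card_eq, h2, card_bot, one_mul]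
  rw [m.k_eq h hs c, m.k_eq h hw c', k2] at e1 e2
  obtain ⟨B, hB, cB, Bs, -⟩ := m.fc_B hH h hs c st
  have hreg : Semiregular ⁅𝐔, zpowers s⁆ B := fun b hb b1 =>
    le_bot_iff.1 (m.K_cent h hs c ▸ inf_le_inf_left _ (Bs b hb b1))
  have hd := hreg.card_dvd_pred (norms_commutator ((hB.trans inf_le_left).trans le_normalizer)
    (norms_zpowers_of_cent1 (hB.trans inf_le_right)))
  rw [cB] at hd
  have o1 : Odd (Nat.card ↥(𝐅 ⊓ 𝐂[s])) := odd_le (inf_le_left.trans (fittingOf_le _))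
  have o2 : Odd (Nat.card ↥⁅𝐔, zpowers s⁆) := odd_le (comm_le_left (zpowers_le_of_mem (U_norm _ c)))
  have l1 := one_lt_card_iff_ne_bot'.2 h1
  have l2 := one_lt_card_iff_ne_bot'.2 (m.K_ne hH hs c st)
  have cop := m.K_cop h hs c hi
  generalize Nat.card ↥(𝐅 ⊓ 𝐂[s]) = α at *
  generalize Nat.card ↥⁅𝐔, zpowers s⁆ = κ at *
  have hα : 3 ≤ α := by obtain ⟨i, rfl⟩ := o1; omega
  have hκ : 7 ≤ κ := by
    have : 2 * α ∣ κ - 1 := (Nat.coprime_two_left.2 o1).mul_dvd_of_dvd_of_dvd (by obtain ⟨i, rfl⟩ := o2; simp) hd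
    have := Nat.le_of_dvd (by omega) this
    omega
  obtain ⟨a0, a, x, y, s0, ⟨-, c1, c2, c3⟩, -, f1, f2, l1, pf⟩ := DS.tool D.stable_one
  obtain rfl := l1 rfl
  refine fc_arith hm D.two D.N_pos hα hκ o2 (by rw [DS.N, DS.H, ← DS.t, Dt]; exact cop) s0 (pf m.perf).1 c1 c2 c3 ?_ ?_
  · zify at e1; rw [f1, one_mul, mul_assoc _ (D.k1 : ℤ), e1]
  · zify at e2; rw [f2 hm, one_mul, e2]

theorem Min.fc_of (t2 : T2 G) (hH : IsCoatom 𝐂[m.t]) (h : m.LA) : False := by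
  obtain ⟨r, r1, r2⟩ := m.dih.exists
  obtain ⟨D, DR, rfl, Dt, DU, cS⟩ := m.toDS r1 r2
  have DH : D.H = 𝐂[m.t] := by rw [← Dt]
  have sS : D.s ∈ m.R := DR ▸ mem_zpowers _
  have r1' := mul_mem (m.dih.le sS) r1
  have r2' : D.s * D.r ∉ m.R := fun e => r2 ((mul_mem_cancel_left sS).1 e)
  have i1 := m.dih.inv2 r1 r2
  have i2 := m.dih.inv2 r1' r2'
  have c1 := m.S_le r1
  have c2 := m.S_le r1'
  have n1 : D.r ≠ m.t := fun e => r2 (e ▸ m.tR)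
  have n2 : D.s * D.r ≠ m.t := fun e => r2' (e ▸ m.tR)
  have cls : ∀ v, Inv2 v → v ∈ 𝐂[m.t] → v ≠ m.t → 𝐅 ⊓ 𝐂[v] = 𝐅 ⊓ 𝐂[D.r] ∨ 𝐅 ⊓ 𝐂[v] = 𝐅 ⊓ 𝐂[D.s * D.r] :=
    fun v v2 vt e => by
      obtain ⟨g, hg, rfl | rfl⟩ := D.cls (DH ▸ vt) v2 (Dt ▸ e)
      · exact Or.inl (m.A_conj h i1 c1 (DH ▸ hg))
      · exact Or.inr (m.A_conj h i2 c2 (DH ▸ hg))
  by_cases hs : D.s ∈ 𝐂(𝐔)
  · have hi : ∀ v, Inv2 v → v ∈ 𝐂[m.t] → v ≠ m.t → 𝐅 ⊓ 𝐂[v] ≤ 𝐂[D.r] := fun v v2 vt e => by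
      rcases cls v v2 vt e with e | e <;> rw [e]
      · exact inf_le_right
      · exact fun y hy => mem_cent1_comm.1 ((mul_mem_cancel_left (cent_le_cent1 (fittingOf_le _ hy.1) hs)).1
          (mem_cent1_comm.1 hy.2))
    have hb := t2 D ⁅𝐔, zpowers D.r⁆ (by rw [DU]; exact comm_normalIn_left (zpowers_le_of_mem (U_norm _ c1)))
      (m.K_ne hH i1 c1 n1) (fun y hy => m.K_inv h i1 c1 hy) (DU ▸ hs) (DU ▸ (m.KU i1 c1).symm)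
      (by rw [DS.N, DH]; exact m.K_cop h i1 c1 hi)
    rw [DU] at hb
    have hU : 𝐔 ≤ 𝐅 := by
      have := m.KU i1 c1
      rw [hb, sup_bot_eq] at this
      exact this.ge.trans (m.K_le h m.inv i1 c1)
    refine m.bsw (DR ▸ zpowers_le_of_mem hs) (fun s s1 s2 y hy => ?_) fun y hy y1 => m.lemD1 h m.inv (hU hy) y1
    refine inv_of_cent_bot (m.dih.sq s s1 s2) (U_norm _ (m.S_le s1)) (odd_core _) (le_bot_iff.1 ?_) hy
    rw [← hb]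
    exact le_inf inf_le_left ((inf_le_inf_right _ hU).trans
      (hi s (m.dih.inv2 s1 s2) (m.S_le s1) fun e => s2 (e ▸ m.tR)))
  have hm : 2 ≤ D.m := by
    by_contra e
    have e : D.m = 1 := by have := D.pos; omega
    have : D.s = m.t := by rw [← Dt, DS.t, e, pow_one]
    exact hs (this ▸ mem_cent_iff_le_cent1.2 (U_le _))
  have h8 : Nat.card m.S ≠ 4 := by omega
  have dis : ∀ v, Inv2 v → v ∈ 𝐂[m.t] → v ≠ m.t → 𝐅 ⊓ 𝐂[v] ≠ ⊥ → 𝐅 ⊓ 𝐂[D.r] ⊓ (𝐅 ⊓ 𝐂[D.s * D.r]) = ⊥ :=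
    fun v v2 vt e hb => by
      obtain ⟨-, -, -, -, hσ⟩ := m.fc_B hH h v2 vt e
      obtain ⟨σ, σ2, σt, e', hσ⟩ := hσ h8
      have hσ' : 𝐅 ⊓ 𝐂[v] ⊓ (𝐅 ⊓ 𝐂[σ]) = ⊥ := le_bot_iff.1 (hσ ▸ inf_le_inf_left _ inf_le_right)
      rcases cls v v2 vt e with a | a <;> rcases cls σ σ2 σt e' with b | b <;> rw [a, b] at hσ'
      · rw [inf_idem] at hσ'; exact absurd (a.trans hσ') hb
      · exact hσ'
      · rwa [inf_comm]
      · rw [inf_idem] at hσ'; exact absurd (a.trans hσ') hb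
  have lt : ∀ v w, Inv2 v → v ∈ 𝐂[m.t] → v ≠ m.t → Inv2 w → w ∈ 𝐂[m.t] → 𝐅 ⊓ 𝐂[w] ≠ ⊥ →
      𝐅 ⊓ 𝐂[v] ⊓ (𝐅 ⊓ 𝐂[w]) = ⊥ → Nat.card ↥(𝐅 ⊓ 𝐂[v]) < Nat.card ↥(𝐅 ⊓ 𝐂[w]) := fun v w v2 vt e w2 wt hb hd => by
    obtain ⟨B, hB, cB, Bs, -⟩ := m.fc_B hH h v2 vt e
    have hreg : Semiregular (𝐅 ⊓ 𝐂[w]) B := fun b hb b1 =>
      le_bot_iff.1 (hd ▸ le_inf (inf_le_inf inf_le_left (Bs b hb b1)) inf_le_left)
    have := hreg.card_dvd_pred (((hB.trans inf_le_left).trans (U_le _)).trans (m.A_norm h w2 wt))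
    have l := one_lt_card_iff_ne_bot'.2 hb
    have := Nat.le_of_dvd (by omega) this
    omega
  by_cases a1 : 𝐅 ⊓ 𝐂[D.r] = ⊥ <;> by_cases a2 : 𝐅 ⊓ 𝐂[D.s * D.r] = ⊥
  · have nF := norms_fittingOf (U_norm m.t)
    have oF : Odd (Nat.card 𝐅) := odd_le (fittingOf_le _)
    refine hs ((copAct_of_pi' (zpowers_le_of_mem (U_norm _ (m.S_le (m.dih.le sS)))) (piCoreOf_piGrp _ _)
      (m.syl.piGrp.of_le (zpowers_le_of_mem (m.dih.le sS))) (Or.inl (solv_core _))).cents_of_cents_fitting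
      (solv_core _) (zpowers_le_of_mem (mem_cent_iff'.2 fun y hy => ?_)) (mem_zpowers _))
    have e1 := inv_of_cent_bot i1.sq (nF c1) oF a1 hy
    have e2 := inv_of_cent_bot i2.sq (nF c2) oF a2 hy
    rw [mul_inv_rev, show D.s * D.r * y * (D.r⁻¹ * D.s⁻¹) = D.s * (D.r * y * D.r⁻¹) * D.s⁻¹ by group, e1,
      ← conj_inv, inv_inj] at e2
    exact mul_inv_eq_iff_eq_mul.1 e2
  · refine m.fc_ar hH h D Dt hm i2 c2 n2 i1 c1 (fun v v2 vt e => ?_) a2 a1 (DU ▸ mul_comm _ _) (DU ▸ add_comm _ _)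
    rcases cls v v2 vt e with b | b <;> rw [b]
    · rw [a1]; exact bot_le
    · exact inf_le_right
  · refine m.fc_ar hH h D Dt hm i1 c1 n1 i2 c2 (fun v v2 vt e => ?_) a1 a2 (DU ▸ rfl) (DU ▸ rfl)
    rcases cls v v2 vt e with b | b <;> rw [b]
    · exact inf_le_right
    · rw [a2]; exact bot_le
  · have hd := dis _ i1 c1 n1 a1
    exact lt_asymm (lt _ _ i1 c1 n1 i2 c2 a2 hd) (lt _ _ i2 c2 n2 i1 c1 a1 (by rwa [inf_comm]))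

end CA.GW
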