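/-
Gorenstein–Walter theorem: the case `|S| = 8`, `O(C(t))` centralized by a four-group.
-/
import Cfsg.Agent.Lib.GW.Defs
import Cfsg.Agent.Lib.FStar.Invol
import Cfsg.Agent.Lib.SF.MLc
import Cfsg.Agent.Lib.GW.A7
import Cfsg.Agent.Lib.GW.TSet

set_option autoImplicit false

namespace CA.GW

open Cfsg CA CA.FStar Subgroup

theorem nv_arith {N ρ : ℕ} {a x y : ℤ} (hρ : 0 < ρ) (hs : 1 + a + x + y = 0) (ha : a ≡ 1 [ZMOD 8]) (hx : x ≡ 3 [ZMOD 8])
    (hy : y ≡ 3 [ZMOD 8]) (a1 : a ≠ 1) (h1 : (N : ℤ) * (1 + a) * (1 + x) * (1 + y) = 32 * ρ * a * x * y)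
    (h2 : (N : ℤ) * (1 - a) ^ 2 = 8 * (1 + ρ) ^ 2 * a * (1 + a)) :
    ρ = 1 ∨ (ρ = 3 ∧ N = 105) ∨ (ρ = 5 ∧ N = 189) := by
  unfold Int.ModEq at ha hx hy
  obtain ⟨j, rfl⟩ : ∃ j, a = 8 * j + 1 := ⟨a / 8, by omega⟩
  have j0 : j ≠ 0 := by rintro rfl; exact a1 rfl
  have h3 : (N : ℤ) * (2 * j) ^ 2 = (1 + ρ) ^ 2 * (1 + 2 * j * (6 + 16 * j)) := by nlinarith
  have hd : 2 * j ∣ 1 + ρ := by
    have c : IsCoprime ((2 * j) ^ 2) (1 + 2 * j * (6 + 16 * j)) :=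
      IsCoprime.pow_left ⟨-(6 + 16 * j), 1, by ring⟩
    exact (Int.pow_dvd_pow_iff two_ne_zero).1 (c.dvd_of_dvd_mul_right ⟨N, by linarith⟩)
  have a0 : 8 * j + 1 ≠ 0 := by omega
  have e : (1 + ρ : ℤ) ^ 2 * (1 + (8 * j + 1)) ^ 2 * ((1 + x) * (1 + y)) = 4 * ρ * (x * y) * (8 * j) ^ 2 := by
    apply mul_left_cancel₀ (mul_ne_zero (by norm_num : (8 : ℤ) ≠ 0) a0)
    linear_combination (8 * j) ^ 2 * h1 - (1 + (8 * j + 1)) * (1 + x) * (1 + y) * h2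
  have bx : ∀ z : ℤ, z % 8 = 3 % 8 → 4 * |z| ≤ 5 * |1 + z| ∧ (0 < z → |z| ≤ |1 + z|) ∧ 0 < |1 + z| := fun z hz => by
    rcases le_or_gt 0 z with h | h
    · rw [abs_of_nonneg h, abs_of_nonneg (by omega : 0 ≤ 1 + z)]; omega
    · rw [abs_of_neg h, abs_of_neg (by omega : 1 + z < 0)]; omega
  obtain ⟨x1, x2, x3⟩ := bx x hx
  obtain ⟨y1, y2, y3⟩ := bx y hy
  have e' : (1 + ρ : ℤ) ^ 2 * (1 + (8 * j + 1)) ^ 2 * (|1 + x| * |1 + y|) = 4 * ρ * (|x| * |y|) * (8 * j) ^ 2 := by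
    have := congrArg abs e
    simpa only [abs_mul, abs_pow, sq_abs, Nat.abs_cast, Nat.abs_ofNat, mul_pow] using this
  have p0 : 0 < |1 + x| * |1 + y| := mul_pos x3 y3
  have r0 : (0 : ℤ) < ρ := by exact_mod_cast hρ
  have hr : ρ ≤ 6 := by
    by_contra hc
    have r7 : (7 : ℤ) ≤ ρ := by exact_mod_cast not_le.1 hc
    rcases lt_or_gt_of_ne j0 with hj | hj
    · have q : 4 * (|x| * |y|) ≤ 5 * (|1 + x| * |1 + y|) := by
        rcases (by omega : 0 < x ∨ 0 < y) with h | h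
        · nlinarith [x2 h, abs_nonneg x, abs_nonneg y]
        · nlinarith [y2 h, abs_nonneg x, abs_nonneg y]
      have q1 : (1 + ρ : ℤ) ^ 2 * (1 + (8 * j + 1)) ^ 2 ≤ 5 * ρ * (8 * j) ^ 2 := by
        refine le_of_mul_le_mul_right ?_ p0
        rw [e']
        nlinarith [mul_le_mul_of_nonneg_left q (by positivity : (0 : ℤ) ≤ ρ * (8 * j) ^ 2)]
      have q2 : 9 * (8 * j) ^ 2 ≤ 16 * (1 + (8 * j + 1)) ^ 2 := by nlinarith
      have q3 : 0 < (1 + (8 * j + 1)) ^ 2 := by nlinarith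
      have q4 : 9 * (1 + ρ : ℤ) ^ 2 ≤ 80 * ρ := by
        refine le_of_mul_le_mul_right ?_ q3
        nlinarith [mul_le_mul_of_nonneg_left q2 r0.le]
      nlinarith
    · have q : 16 * (|x| * |y|) ≤ 25 * (|1 + x| * |1 + y|) := by nlinarith [abs_nonneg x, abs_nonneg y]
      have q1 : 4 * ((1 + ρ : ℤ) ^ 2 * (1 + (8 * j + 1)) ^ 2) ≤ 25 * ρ * (8 * j) ^ 2 := by
        refine le_of_mul_le_mul_right ?_ p0
        rw [mul_assoc, e']
        nlinarith [mul_le_mul_of_nonneg_left q (by positivity : (0 : ℤ) ≤ ρ * (8 * j) ^ 2)]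
      have q2 : (8 * j) ^ 2 ≤ (1 + (8 * j + 1)) ^ 2 := by nlinarith
      have q3 : 0 < (1 + (8 * j + 1)) ^ 2 := by nlinarith
      have q4 : 4 * (1 + ρ : ℤ) ^ 2 ≤ 25 * ρ := by
        refine le_of_mul_le_mul_right ?_ q3
        nlinarith [mul_le_mul_of_nonneg_left q2 r0.le]
      nlinarith
  have hP : (1 + x) * (1 + y) = x * y - (8 * j + 1) := by linear_combination hs
  rw [hP] at e
  have hj : |2 * j| ≤ 7 := (Int.le_of_dvd (by omega) ((abs_dvd _ _).2 hd)).trans (by omega)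
  obtain ⟨j1, j2⟩ := abs_le.1 hj
  have j3 : -4 ≤ j := by omega
  have j4 : j ≤ 4 := by omega
  have q : 4 * (x * y) ≤ (1 + (8 * j + 1)) ^ 2 := by
    have : x + y = -(1 + (8 * j + 1)) := by linarith
    nlinarith [sq_nonneg (x - y)]
  generalize x * y = P at e q
  interval_cases ρ <;> interval_cases j <;> simp at e q h3 hd ⊢ <;> omega

variable {G : Type*} [Group G] [Finite G]

theorem ncard_conj (L : Subgroup G) (g : G) : {y | ∃ x ∈ L, x * g * x⁻¹ = y}.ncard = (𝐂[g]).relIndex L := by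
  letI : MulAction L G := MulAction.compHom G ((MulAut.conj (G := G)).comp L.subtype)
  have e : MulAction.stabilizer L g = (𝐂[g]).subgroupOf L := by
    ext x
    rw [MulAction.mem_stabilizer_iff, mem_subgroupOf, mem_cent1_iff]
    exact mul_inv_eq_iff_eq_mul
  rw [Subgroup.relIndex, ← e, MulAction.index_stabilizer]
  congr 1
  ext y
  exact ⟨fun ⟨x, hx, h⟩ => ⟨⟨x, hx⟩, h⟩, fun ⟨x, h⟩ => ⟨x, x.2, h⟩⟩

/-- an involution with at most five conjugates under a group `U` of odd order has a normal centralizer in `U` -/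
theorem norm_cent_of_le {U : Subgroup G} {w : G} (ho : Odd (Nat.card U)) (ww : w * w = 1) (hw : w ∈ 𝐍(U))
    (h5 : (𝐂[w]).relIndex U ≤ 5) : U ≤ 𝐍(U ⊓ 𝐂[w]) := by
  have key : ∀ u ∈ U, U ⊓ 𝐂[w] ≤ 𝐂[u * w * u⁻¹] := fun u hu => by
    refine le_of_forall_sylowIn_le' fun p P hp hd hP => ?_
    have p2 : p ≠ 2 := by
      rintro rfl
      exact (Nat.not_even_iff_odd.2 ho) (even_iff_two_dvd.2 (hd.trans (card_dvd_of_le inf_le_left)))
    set X : Set G := {y | (∃ x ∈ U, x * w * x⁻¹ = y) ∧ y ∉ 𝐂(P)} with hX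
    have Pw : P ≤ 𝐂[w] := hP.1.trans inf_le_right
    have d1 : p ∣ X.ncard := by
      refine SF.dvd_ncard_conj hp hP.piGrp (fun g hg y ⟨⟨x, hx, e⟩, hy⟩ => ⟨⟨g * x, mul_mem (hP.1 hg).1 hx, by rw [← e]; group⟩,
        fun h => hy ?_⟩) fun y hy => hy.2
      have := conj_inv_mem_of_mem_normalizer (norms_cent le_normalizer hg) h
      simpa [mul_assoc] using this
    have d2 : 2 ∣ X.ncard := by
      refine SF.dvd_ncard_conj Nat.prime_two (T := zpowers w)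
        ((Core.isPGroup_two_zpowers ww).piGrp Nat.prime_two) (fun g hg y ⟨⟨x, hx, e⟩, hy⟩ => ⟨?_, fun h => hy ?_⟩) ?_
      · have gw : g * w = w * g := mem_cent1_iff.1 (zpowers_le.2 (self_mem_cent1 w) hg)
        refine ⟨g * x * g⁻¹, conj_mem_of_mem_normalizer (zpowers_le.2 hw hg) hx, ?_⟩
        rw [← e]
        calc g * x * g⁻¹ * w * (g * x * g⁻¹)⁻¹ = g * x * (g⁻¹ * (w * g)) * x⁻¹ * g⁻¹ := by group
          _ = _ := by rw [← gw]; group
      · have gP : g ∈ 𝐍(𝐂(P)) := norms_cent (norms_of_cents (zpowers_le.2 (mem_cent_iff_le_cent1.2 Pw))) hg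
        have := conj_inv_mem_of_mem_normalizer gP h
        simpa [mul_assoc] using this
      · rintro y ⟨⟨x, hx, e⟩, hy⟩ h
        rw [cent_zpowers, mem_cent1_iff] at h
        have yy : y * y = 1 := e ▸ Inv.conj_mul_self ww x
        have m1 : y * w ∈ U := by
          have := mul_mem hx (conj_mem_of_mem_normalizer hw (inv_mem hx))
          rwa [Inv.inv_eq_self ww, ← mul_assoc, ← mul_assoc, e] at this
        have m2 : (y * w) ^ 2 = 1 := (Inv.commute_iff_sq yy ww).1 h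
        have m3 : y * w = 1 := Inv.eq_one_of_pow_coprime m2
          (orderOf_dvd_iff_pow_eq_one.1 (orderOf_dvd_card_of_mem m1)) (Nat.coprime_two_left.2 ho)
        have : y = w := by rw [eq_inv_of_mul_eq_one_left m3, Inv.inv_eq_self ww]
        exact hy (this ▸ mem_cent_iff_le_cent1.2 Pw)
    have d3 : 2 * p ∣ X.ncard := ((Nat.coprime_primes Nat.prime_two hp).2 p2.symm).mul_dvd_of_dvd_of_dvd d2 d1
    have l1 : X.ncard ≤ 5 := (Set.ncard_le_ncard (fun y hy => hy.1) (Set.toFinite _)).trans ((ncard_conj U w).le.trans h5)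
    have l2 : X.ncard = 0 := Nat.eq_zero_of_dvd_of_lt d3 (by have := hp.two_le; omega)
    rw [Set.ncard_eq_zero (Set.toFinite _)] at l2
    by_contra hc
    have : u * w * u⁻¹ ∈ X := ⟨⟨u, hu, rfl⟩, fun h => hc (mem_cent_iff_le_cent1.1 h)⟩
    rw [l2] at this
    exact this
  intro u hu
  refine mem_normalizer_of_cj_le (cj_le_iff'.2 fun b hb => ⟨conj_mem_of_mem_normalizer (le_normalizer hu) hb.1, ?_⟩)
  have := mem_cent1_iff.1 (key u⁻¹ (inv_mem hu) hb)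
  refine mem_cent1_iff.2 ?_
  calc u * b * u⁻¹ * w = u * (b * (u⁻¹ * w * u⁻¹⁻¹)) * u⁻¹ := by group
    _ = _ := by rw [this]; group

/-- `C(t) = U ⟨v, w⟩`, `⟨v, w⟩` dihedral of order 8. -/
structure D8H (U : Subgroup G) (t v w : G) : Prop where
  vv : v * v = 1
  ww : w * w = 1
  vw : v * w * (v * w) = t
  tt : t * t = 1
  t1 : t ≠ 1
  odd : Odd (Nat.card U)
  UH : U ≤ 𝐂[t]
  HU : 𝐂[t] ≤ 𝐍(U)
  cov : ∀ h ∈ 𝐂[t], ∃ u ∈ U, ∃ y, h = u * y ∧
    (y = 1 ∨ y = t ∨ y = v ∨ y = v * t ∨ y = w ∨ y = w * t ∨ y = v * w ∨ y = w * v)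
  one : ∀ x, x * x = 1 → x ≠ 1 → IsConj t x

namespace D8H
variable {U W : Subgroup G} {t v w x : G} (h : D8H U t v w)
include h

omit [Finite G] in
theorem wv : w * v * (w * v) = t := by
  have : w * v * (w * v) * t = 1 := by
    rw [← h.vw]
    calc w * v * (w * v) * (v * w * (v * w)) = w * v * w * (v * v) * w * v * w := by group
      _ = w * v * (w * w) * v * w := by rw [h.vv]; group
      _ = w * (v * v) * w := by rw [h.ww]; group
      _ = 1 := by rw [h.vv, mul_one, h.ww]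
  rw [eq_inv_of_mul_eq_one_left this, Inv.inv_eq_self h.tt]

omit [Finite G] in
theorem swap : D8H U t w v :=
  { h with
    vv := h.ww
    ww := h.vv
    vw := h.wv
    cov := fun g hg => by
      obtain ⟨u, hu, y, e, hy⟩ := h.cov g hg
      exact ⟨u, hu, y, e, by tauto⟩ }

omit [Finite G] in
theorem wvw : w * v * w⁻¹ = v * t := by
  rw [← h.vw, Inv.inv_eq_self h.ww]
  calc w * v * w = v * v * w * v * w := by rw [h.vv]; group
    _ = _ := by group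

omit [Finite G] in
theorem vH : v ∈ 𝐂[t] := by
  rw [mem_cent1_iff]
  calc v * t = v * (w * v * (w * v)) := by rw [h.wv]
    _ = v * w * (v * w) * v := by group
    _ = t * v := by rw [h.vw]

theorem tU : t ∉ U := fun ht => h.t1 (Inv.eq_one_of_pow_coprime (m := 2) (by rw [sq, h.tt])
  (orderOf_dvd_iff_pow_eq_one.1 (orderOf_dvd_card_of_mem ht)) (Nat.coprime_two_left.2 h.odd))

omit [Finite G] in
theorem v1 : v ≠ 1 := by
  rintro rfl
  exact h.t1 (by rw [← h.vw, one_mul, h.ww])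

omit [Finite G] in
theorem vt : v ≠ t := fun e => by
  have h1 := h.wvw
  rw [e, h.tt, mul_inv_eq_one, mul_eq_left] at h1
  exact h.t1 h1

omit [Finite G] in
theorem list {y : G} (hy : y = 1 ∨ y = t ∨ y = v ∨ y = v * t ∨ y = w ∨ y = w * t ∨ y = v * w ∨ y = w * v) :
    y ∈ 𝐂[t] ∧ (y * y = 1 ∨ y * y = t) := by
  have a := h.vH
  have b := h.swap.vH
  have c := self_mem_cent1 t
  have k : ∀ z ∈ 𝐂[t], z * z = 1 → z * t * (z * t) = 1 := fun z hz zz => by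
    calc z * t * (z * t) = z * (t * z) * t := by group
      _ = z * z * (t * t) := by rw [← mem_cent1_iff.1 hz]; group
      _ = 1 := by rw [zz, h.tt, one_mul]
  rcases hy with rfl | rfl | rfl | rfl | rfl | rfl | rfl | rfl
  exacts [⟨one_mem _, .inl (one_mul _)⟩, ⟨c, .inl h.tt⟩, ⟨a, .inl h.vv⟩, ⟨mul_mem a c, .inl (k _ a h.vv)⟩, ⟨b, .inl h.ww⟩,
    ⟨mul_mem b c, .inl (k _ b h.ww)⟩, ⟨mul_mem a b, .inr h.vw⟩, ⟨mul_mem b a, .inr h.wv⟩]

theorem mem_U (hx : x ∈ 𝐂[t]) (ho : Odd (orderOf x)) : x ∈ U := by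
  obtain ⟨u, hu, y, rfl, hy⟩ := h.cov x hx
  obtain ⟨yH, yy⟩ := h.list hy
  have y4 : y ^ 4 = 1 := by
    rw [show y ^ 4 = y * y * (y * y) by simp only [pow_succ, pow_zero, one_mul, mul_assoc]]
    rcases yy with e | e <;> rw [e]
    exacts [one_mul 1, h.tt]
  refine SF.mem_of_pow_mem (n := 4) ((Nat.coprime_pow_right_iff (n := 2) two_pos _ 2).2 (Nat.coprime_two_right.2 ho)) ?_
  have c := fun {z} (hz : z ∈ U) => conj_mem_of_mem_normalizer (h.HU yH) hz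
  have e : (u * y) ^ 4 = u * (y * (u * (y * (u * (y * u * y⁻¹)) * y⁻¹)) * y⁻¹) * y ^ 4 := by
    simp only [pow_succ, pow_zero, one_mul]; group
  rw [e, y4, mul_one]
  exact mul_mem hu (c (mul_mem hu (c (mul_mem hu (c hu)))))

/-- an involution of `C(t)` other than `t` is conjugate to `v` or `w` -/
theorem cases (hx : x ∈ 𝐂[t]) (xx : x * x = 1) (x1 : x ≠ 1) (xt : x ≠ t) :
    ∃ g ∈ 𝐂[t], x = g * v * g⁻¹ ∨ x = g * w * g⁻¹ := by
  obtain ⟨u, hu, y, e, hy⟩ := h.cov x hx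
  obtain ⟨yH, yy⟩ := h.list hy
  have yy : y * y = 1 := by
    refine yy.resolve_right fun e' => h.tU ?_
    have e1 : u * (y * u * y⁻¹) * (y * y) = 1 := by rw [← xx, e]; group
    rw [e'] at e1
    rw [eq_inv_of_mul_eq_one_right e1]
    exact inv_mem (mul_mem hu (conj_mem_of_mem_normalizer (h.HU yH) hu))
  have m : y * x ∈ U := by
    have := conj_mem_of_mem_normalizer (h.HU yH) hu
    rwa [Inv.inv_eq_self yy, mul_assoc, ← e] at this
  obtain ⟨k, hk⟩ := Inv.conj_of_odd yy xx (h.odd.of_dvd_nat (orderOf_dvd_card_of_mem m))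
  have cH : (y * x) ^ k ∈ 𝐂[t] := zpow_mem (h.UH m) k
  generalize (y * x) ^ k = c at hk cH
  rcases hy with e | e | e | e | e | e | e | e
  · exact absurd (by rw [← hk, e]; group) x1
  · exact absurd (by rw [← hk, e, mem_cent1_iff.1 cH]; group) xt
  · exact ⟨c, cH, .inl (by rw [← hk, e])⟩
  · exact ⟨c * w, mul_mem cH h.swap.vH, .inl (by rw [← hk, e, ← h.wvw]; group)⟩
  · exact ⟨c, cH, .inr (by rw [← hk, e])⟩
  · exact ⟨c * v, mul_mem cH h.vH, .inr (by rw [← hk, e, ← h.swap.wvw]; group)⟩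
  · exact absurd (by rw [← h.vw, ← e, yy]) h.t1
  · exact absurd (by rw [← h.wv, ← e, yy]) h.t1

theorem conj_mul (hx : x ∈ 𝐂[t]) (xx : x * x = 1) (x1 : x ≠ 1) (xt : x ≠ t) : ∃ g ∈ 𝐂[t], g * x * g⁻¹ = x * t := by
  obtain ⟨g, hg, e⟩ := h.cases hx xx x1 xt
  have k : ∀ a b, b ∈ 𝐂[t] → b * a * b⁻¹ = a * t → x = g * a * g⁻¹ → ∃ g ∈ 𝐂[t], g * x * g⁻¹ = x * t :=
    fun a b hb e1 e2 => ⟨g * b * g⁻¹, mul_mem (mul_mem hg hb) (inv_mem hg), by
      calc g * b * g⁻¹ * x * (g * b * g⁻¹)⁻¹ = g * (b * a * b⁻¹) * g⁻¹ := by rw [e2]; group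
        _ = g * a * g⁻¹ * (g * t * g⁻¹) := by rw [e1]; group
        _ = x * t := by rw [← e2, mem_cent1_iff.1 hg]; group⟩
  rcases e with e | e
  exacts [k v w h.swap.vH h.wvw e, k w v h.vH h.swap.wvw e]

/-- an element normalizing `C_U(x)` that maps `t` to `t x` -/
theorem exists_norm (hx : x ∈ 𝐂[t]) (xx : x * x = 1) (x1 : x ≠ 1) (xt : x ≠ t) :
    ∃ n ∈ 𝐍(U ⊓ 𝐂[x]), n * t * n⁻¹ = t * x := by
  obtain ⟨g, hg⟩ := isConj_iff.1 (h.one x xx x1)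
  have tx := mem_cent1_iff.1 hx
  obtain ⟨k, hk, e⟩ := h.conj_mul (x := g⁻¹ * t * g) (mem_cent1_iff.2 (by
      calc g⁻¹ * t * g * t = g⁻¹ * (t * (g * t * g⁻¹)) * g := by group
        _ = g⁻¹ * (g * t * g⁻¹ * t) * g := by rw [hg, tx]
        _ = _ := by group))
    (by simpa using Inv.conj_mul_self h.tt g⁻¹) (fun e => h.t1 (by
      calc t = g * (g⁻¹ * t * g) * g⁻¹ := by group
        _ = 1 := by rw [e]; group)) (fun e => xt (by
      rw [← hg]; conv_lhs => rw [← e]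
      group))
  have nx : g * k * g⁻¹ ∈ 𝐂[x] := by rw [← hg, ← cj_centralizer_singleton]; exact conj_mem_cj.2 hk
  have nt : g * k * g⁻¹ * t * (g * k * g⁻¹)⁻¹ = t * x := by
    calc g * k * g⁻¹ * t * (g * k * g⁻¹)⁻¹ = g * (k * (g⁻¹ * t * g) * k⁻¹) * g⁻¹ := by group
      _ = t * (g * t * g⁻¹) := by rw [e]; group
      _ = _ := by rw [hg]
  refine ⟨_, mem_normalizer_of_cj_le (cj_le_iff'.2 fun b hb => ?_), nt⟩
  generalize g * k * g⁻¹ = n at nx nt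
  have b1 : n * b * n⁻¹ ∈ 𝐂[x] := mul_mem (mul_mem nx hb.2) (inv_mem nx)
  have b2 : n * b * n⁻¹ ∈ 𝐂[t * x] := by rw [← nt, ← cj_centralizer_singleton]; exact conj_mem_cj.2 (h.UH hb.1)
  refine ⟨h.mem_U ?_ ?_, b1⟩
  · rw [mem_cent1_comm] at b1 b2 ⊢
    simpa [mul_assoc, xx] using mul_mem b2 b1
  · rw [orderOf_conj']
    exact h.odd.of_dvd_nat (orderOf_dvd_card_of_mem hb.1)

theorem card : Nat.card 𝐂[t] = 8 * Nat.card U := by
  haveI : Fact (Nat.Prime 2) := ⟨Nat.prime_two⟩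
  have cH : v * w ∈ 𝐂[t] := mul_mem h.vH h.swap.vH
  have nU : ∀ g ∈ 𝐂[t], ∀ K : Subgroup G, K ≤ 𝐂(zpowers t) → g ∈ 𝐍(U ⊔ zpowers t) := fun g hg _ _ =>
    norms_sup h.HU (norms_zpowers_of_cent1 le_rfl) hg
  have i1 : U.relIndex (U ⊔ zpowers t) = 2 := relIndex_sup_zpowers (h.HU (self_mem_cent1 t)) h.tU (by rw [sq, h.tt]; exact one_mem _)
  have mem1 : ∀ z ∈ U ⊔ zpowers t, z * z ∈ U := fun z hz => by
    obtain ⟨a, ha, b, hb, rfl⟩ := (mem_sup_of_norm_right (zpowers_le.2 (h.HU (self_mem_cent1 t)))).1 hz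
    have bb : b * b = 1 := by
      obtain ⟨i, rfl⟩ := mem_zpowers_iff.1 hb
      rw [← (Commute.refl t).mul_zpow, h.tt, one_zpow]
    have : a * b * (a * b) = a * (b * a * b⁻¹) * (b * b) := by group
    rw [this, bb, mul_one]
    exact mul_mem ha (conj_mem_of_mem_normalizer (zpowers_le.2 (h.HU (self_mem_cent1 t)) hb) ha)
  have i2 : (U ⊔ zpowers t).relIndex (U ⊔ zpowers t ⊔ zpowers (v * w)) = 2 :=
    relIndex_sup_zpowers (nU _ cH ⊥ bot_le) (fun e => h.tU (h.vw ▸ mem1 _ e))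
      (by rw [sq, h.vw]; exact mem_sup_right (mem_zpowers t))
  have e1 : U ⊔ zpowers t ⊔ zpowers (v * w) = U ⊔ zpowers (v * w) := by
    rw [sup_assoc, sup_eq_right.2 (zpowers_le.2 (h.vw ▸ mul_mem (mem_zpowers _) (mem_zpowers _)))]
  have vc : v * (v * w) * v⁻¹ = (v * w)⁻¹ := Inv.conj_mul_left h.vv h.ww
  have i3 : (U ⊔ zpowers (v * w)).relIndex (U ⊔ zpowers (v * w) ⊔ zpowers v) = 2 := by
    refine relIndex_sup_zpowers ?_ (fun e => h.tU ?_) (by rw [sq, h.vv]; exact one_mem _)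
    · refine norms_sup (zpowers_le.2 (h.HU h.vH)) (zpowers_le.2 ?_) (mem_zpowers v)
      rw [mem_normalizer_iff_cj, cj_zpowers, vc, zpowers_inv]
    · obtain ⟨a, ha, b, hb, e⟩ := (mem_sup_of_norm_right (zpowers_le.2 (h.HU cH))).1 e
      have bc : b * (v * w) = v * w * b := mem_cent1_iff.1 (zpowers_le.2 (self_mem_cent1 _) hb)
      have : t⁻¹ = a * (v * w * a⁻¹ * (v * w)⁻¹) := by
        calc t⁻¹ = v * (v * w) * v⁻¹ * (v * w)⁻¹ := by rw [vc, ← h.vw, mul_inv_rev]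
          _ = a * b * (v * w) * (a * b)⁻¹ * (v * w)⁻¹ := by rw [e]
          _ = a * (b * (v * w)) * b⁻¹ * a⁻¹ * (v * w)⁻¹ := by group
          _ = _ := by rw [bc]; group
      rw [← inv_mem_iff, this]
      exact mul_mem ha (conj_mem_of_mem_normalizer (h.HU cH) (inv_mem ha))
  have e2 : 𝐂[t] = U ⊔ zpowers (v * w) ⊔ zpowers v := by
    refine le_antisymm (fun g hg => ?_) (sup_le (sup_le h.UH (zpowers_le.2 cH)) (zpowers_le.2 h.vH))
    obtain ⟨u, hu, y, rfl, hy⟩ := h.cov g hg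
    refine mul_mem (mem_sup_left (mem_sup_left hu)) ?_
    set K := U ⊔ zpowers (v * w) ⊔ zpowers v
    have a : v ∈ K := mem_sup_right (mem_zpowers v)
    have c : v * w ∈ K := mem_sup_left (mem_sup_right (mem_zpowers _))
    have b : w ∈ K := by simpa [← mul_assoc, h.vv] using mul_mem a c
    have d : t ∈ K := h.vw ▸ mul_mem c c
    rcases hy with rfl | rfl | rfl | rfl | rfl | rfl | rfl | rfl
    exacts [one_mem _, d, a, mul_mem a d, b, mul_mem b d, c, mul_mem b a]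
  rw [e1] at i2
  rw [e2, ← card_mul_relIndex (le_sup_left (b := zpowers v)), i3, ← card_mul_relIndex (e1 ▸ le_sup_left), i2,
    ← card_mul_relIndex (le_sup_left (b := zpowers t)), i1]
  ring

omit h in
theorem not_top [IsSimpleGroup G] {B : Subgroup G} (h1 : B ≠ ⊥) (h2 : x ∉ B) : 𝐍(B) ≠ ⊤ := fun e =>
  (IsSimpleGroup.eq_bot_or_eq_top_of_normal B (normalizer_eq_top_iff.1 e)).elim h1 fun e => h2 (e ▸ mem_top x)

omit h [Finite G] in
theorem mem_of_norm {n : G} (tW : t ∈ W) (hn : n ∈ 𝐍(W)) (e : n * t * n⁻¹ = t * x) : x ∈ W := by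
  have := mul_mem (inv_mem tW) (e ▸ conj_mem_of_mem_normalizer hn tW)
  rwa [inv_mul_cancel_left] at this

theorem core [IsSimpleGroup G] (Uv : U ≤ 𝐂[v])
    (hmax : ∀ L, 𝐂[t] ≤ L → L ≠ ⊤ → L ≤ 𝐂[t] ∨ ∃ W, Four W ∧ t ∈ W ∧ U ≤ 𝐂(W) ∧ L ≤ 𝐍(W))
    (ar : (𝐂[w]).relIndex U = 1 ∨ ((𝐂[w]).relIndex U = 3 ∧ (𝐂[t]).index = 105) ∨
      ((𝐂[w]).relIndex U = 5 ∧ (𝐂[t]).index = 189)) :
    U = ⊥ ∨ (Nat.card U = 3 ∧ (𝐂[t]).index = 105 ∧ ¬ U ≤ 𝐂[w]) := by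
  have wH := h.swap.vH
  obtain ⟨n, hn, en⟩ := h.exists_norm h.vH h.vv h.v1 h.vt
  obtain ⟨n', hn', en'⟩ := h.exists_norm wH h.ww h.swap.v1 h.swap.vt
  rw [inf_eq_left.2 Uv] at hn
  have nH : ∀ {n x : G}, x ≠ 1 → n * t * n⁻¹ = t * x → n ∉ 𝐂[t] := fun x1 e hn => x1 (by
    rw [mem_cent1_iff.1 hn, mul_inv_cancel_right, left_eq_mul] at e
    exact e)
  have B1 : U ⊓ 𝐂[w] = ⊥ := by
    by_contra hB
    have HB : 𝐂[t] ≤ 𝐍(U ⊓ 𝐂[w]) := fun g hg => by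
      obtain ⟨u, hu, y, rfl, hy⟩ := h.cov g hg
      refine mul_mem (norm_cent_of_le h.odd h.ww (h.HU wH) (by omega) hu) (centralizer_le_normalizer _ ?_)
      have a : v ∈ 𝐂(U ⊓ 𝐂[w]) := mem_cent_iff_le_cent1.2 (inf_le_left.trans Uv)
      have b : w ∈ 𝐂(U ⊓ 𝐂[w]) := mem_cent_iff_le_cent1.2 inf_le_right
      have d : t ∈ 𝐂(U ⊓ 𝐂[w]) := mem_cent_iff_le_cent1.2 (inf_le_left.trans h.UH)
      rcases hy with rfl | rfl | rfl | rfl | rfl | rfl | rfl | rfl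
      exacts [one_mem _, d, a, mul_mem a d, b, mul_mem b d, mul_mem a b, mul_mem b a]
    rcases hmax _ HB (not_top hB fun e => h.tU e.1) with hL | ⟨W, hW, tW, UW, hL⟩
    · exact nH h.swap.v1 en' (hL hn')
    · have wW := mem_of_norm tW (hL hn') en'
      rw [inf_eq_left.2 (UW.trans (cent_le_cent1 wW))] at hL
      exact h.t1 (by rw [← h.vw]; exact hW.sq _ (mul_mem (mem_of_norm tW (hL hn) en) wW))
  have cU : (𝐂[w]).relIndex U = Nat.card U := SF.ix_fpf B1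
  rw [cU] at ar
  rcases ar with e | ⟨e, e'⟩ | ⟨e, e'⟩
  · exact .inl (card_eq_one.1 e)
  · refine .inr ⟨e, e', fun hU => ?_⟩
    rw [inf_eq_left.2 hU] at B1
    rw [B1, card_bot] at e
    omega
  exfalso
  haveI : Fact (Nat.Prime 5) := ⟨by norm_num⟩
  have U1 : U ≠ ⊥ := by rintro rfl; rw [card_bot] at e; omega
  have i1 : U.relIndex 𝐂[t] = 8 := by
    have := card_mul_relIndex h.UH
    rw [h.card, e] at this
    omega
  have i2 : U.index = 8 * 189 := by rw [← relIndex_mul_index h.UH, i1, e']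
  obtain ⟨P, hP⟩ := (sylowIn_mk (p := 5) (M := ⊤) Fact.out le_top (IsPGroup.of_card (n := 1) (by simpa using e))
    (by rw [relIndex_top_right, i2]; norm_num)).exists_sylow_top
  have s1 : (𝐍(U)).index % 5 = 1 := by
    have := card_sylow_modEq_one 5 G
    rw [P.card_eq_index_normalizer] at this
    rw [← hP]
    exact this
  rcases hmax _ h.HU (not_top U1 h.tU) with hL | ⟨W, hW, tW, -, hL⟩
  · exact nH h.v1 en (hL hn)
  have i3 : (𝐂[t]).relIndex 𝐍(U) ≤ 4 := by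
    rw [← ncard_conj, ← hW.card, ← SetLike.coe_sort_coe, Nat.card_coe_set_eq]
    exact Set.ncard_le_ncard (fun y ⟨x, hx, e⟩ => e ▸ conj_mem_of_mem_normalizer (hL hx) tW) (Set.toFinite _)
  have i4 := relIndex_mul_index h.HU
  have i5 : (𝐍(U)).index ≠ 1 := fun e => not_top U1 h.tU (index_eq_one.1 e)
  rw [e'] at i4
  generalize (𝐂[t]).relIndex 𝐍(U) = a at i3 i4
  interval_cases a <;> omega

theorem main [IsSimpleGroup G] (Uv : U ≤ 𝐂[v])
    (hmax : ∀ L, 𝐂[t] ≤ L → L ≠ ⊤ → L ≤ 𝐂[t] ∨ ∃ W, Four W ∧ t ∈ W ∧ U ≤ 𝐂(W) ∧ L ≤ 𝐍(W))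
    (ar : (𝐂[w]).relIndex U = 1 ∨ ((𝐂[w]).relIndex U = 3 ∧ (𝐂[t]).index = 105) ∨
      ((𝐂[w]).relIndex U = 5 ∧ (𝐂[t]).index = 189)) : U = ⊥ ∨ IsA7 G := by
  refine (h.core Uv hmax ar).imp_right fun ⟨e, e', hU⟩ => ?_
  haveI : Fact (Nat.Prime 3) := ⟨by norm_num⟩
  obtain ⟨⟨u, hu⟩, ou⟩ := exists_prime_orderOf_dvd_card' (G := U) 3 (e ▸ dvd_rfl)
  rw [Subgroup.orderOf_mk] at ou
  have eU : zpowers u = U := eq_of_le_of_card_ge (zpowers_le.2 hu) (by rw [Nat.card_zpowers, ou, e])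
  have cH : Nat.card 𝐂[t] = 24 := by rw [h.card, e]
  refine a7 (t := t) (u := u) (v := v) (by rw [← (𝐂[t]).card_mul_index, cH, e']) (Inv.orderOf_eq_two h.tt h.t1)
    (fun i hi => h.one i (Inv.mul_self_of_orderOf hi) (Inv.ne_one_of_orderOf hi)) cH ou (eU ▸ h.HU)
    (mem_cent1_iff.1 (h.UH hu)) (Inv.orderOf_eq_two h.vv h.v1) h.vt (mem_cent1_iff.1 h.vH) (mem_cent1_iff.1 (Uv hu))
    (fun c => hU (eU ▸ zpowers_le.2 (mem_cent1_comm.1 (c h.swap.vH)))) fun c => h.t1 ?_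
  have := h.wvw
  rw [mem_cent1_iff.1 (c h.swap.vH), mul_inv_cancel_right, left_eq_mul] at this
  exact this

end D8H

theorem DS.d8h (D : DS G) (hm : D.m = 2) : D8H D.U D.t D.r (D.s * D.r) := by
  have t2 : D.t = D.s ^ 2 := by rw [DS.t, hm]
  have s4 : D.s ^ 4 = 1 := by simpa [hm] using D.s2m
  have rs : D.r * (D.s * D.r) = D.s ^ 3 := by
    have := D.rs
    rw [D.ri] at this
    rw [← mul_assoc, this]
    exact inv_eq_of_mul_eq_one_right (by rw [← s4]; group)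
  have rt : D.r * D.t = D.t * D.r := D.memH.1 D.rH
  refine ⟨D.rr, by simpa using D.sr_sq 1, ?_, D.tt, D.t1, D.odd, D.UH, D.HU, fun g hg => ?_, D.one⟩
  · rw [rs, t2, ← pow_add, show 3 + 3 = 4 + 2 from rfl, pow_add, s4, one_mul]
  obtain ⟨u, hu, i, e⟩ := D.cov g hg
  rw [pow_eq_pow_mod i s4] at e
  have e3 : D.s * D.r * D.t = D.s ^ 3 * D.r := by rw [mul_assoc, rt, t2]; group
  have e1 : D.s * D.r * D.r = D.s := by rw [mul_assoc, D.rr, mul_one]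
  rw [rs, e3, e1, rt, t2]
  have : i % 4 < 4 := Nat.mod_lt _ four_pos
  generalize i % 4 = j at e this
  rcases e with e | e <;> refine ⟨u, hu, _, e, ?_⟩ <;> interval_cases j <;> simp

/-- The case `M = N(V)`: `|S| = 8` and `O(C(t))` centralizes a four-group. -/
theorem DS.nv_of [IsSimpleGroup G] (D : DS G) (hm : D.m = 2) {V : Subgroup G} (hV : Four V) (tV : D.t ∈ V)
    (hU : D.U ≤ 𝐂(V))
    (hmax : ∀ L, 𝐂[D.t] ≤ L → L ≠ ⊤ → L ≤ 𝐂[D.t] ∨ ∃ W, Four W ∧ D.t ∈ W ∧ D.U ≤ 𝐂(W) ∧ L ≤ 𝐍(W))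
    {a x y : ℤ} (hs : 1 + a + x + y = 0) (ha : a ≡ 1 [ZMOD 8]) (hx : x ≡ 3 [ZMOD 8]) (hy : y ≡ 3 [ZMOD 8]) (a1 : a ≠ 1)
    (h1 : (D.N : ℤ) * (1 + a) * (1 + x) * (1 + y) = 32 * D.k1 * D.k2 * a * x * y)
    (h2 : (D.N : ℤ) * (1 - a) ^ 2 = 8 * (D.k1 + D.k2) ^ 2 * a * (1 + a)) : D.U = ⊥ ∨ IsA7 G := by
  have h := D.d8h hm
  obtain ⟨z, zV, z1, zt⟩ : ∃ z ∈ V, z ≠ 1 ∧ z ≠ D.t := by
    by_contra! hc
    have : (V : Set G).ncard ≤ ({1, D.t} : Set G).ncard :=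
      Set.ncard_le_ncard (fun z hz => (eq_or_ne z 1).imp id (hc z hz)) (Set.toFinite _)
    rw [← Nat.card_coe_set_eq, SetLike.coe_sort_coe, hV.card] at this
    have := this.trans (Set.ncard_insert_le _ _)
    simp at this
  have zH : z ∈ 𝐂[D.t] := mem_cent1_iff.2 ((Inv.commute_iff_sq (hV.sq z zV) D.tt).2 (by rw [sq]; exact hV.sq _ (mul_mem zV tV)))
  obtain ⟨g, hg, e⟩ := h.cases zH (hV.sq z zV) z1 zt
  have k : ∀ v, z = g * v * g⁻¹ → D.U ≤ 𝐂[v] := fun v e => by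
    rw [← cj_le_cj (g := g), cj_centralizer_singleton, ← e, cj_eq_of_mem_normalizer (D.HU hg)]
    exact hU.trans (cent_le_cent1 zV)
  rcases e with e | e
  · have k1 : D.k1 = 1 := relIndex_eq_one.2 (k _ e)
    rw [k1] at h1 h2
    exact h.main (k _ e) hmax (nv_arith (relIndex_pos' _ _) hs ha hx hy a1 (by simpa using h1) (by simpa using h2))
  · have k2 : D.k2 = 1 := relIndex_eq_one.2 (k _ e)
    rw [k2] at h1 h2
    exact h.swap.main (k _ e) hmax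
      (nv_arith (relIndex_pos' _ _) hs ha hx hy a1 (by simpa using h1) (by simpa [add_comm] using h2))

end CA.GW
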