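/-
Gorenstein–Walter theorem: the centralizer of an involution is a maximal subgroup.
-/
import Cfsg.Agent.Lib.GW.Over
import Cfsg.Agent.Lib.GW.Str0
import Cfsg.Agent.Lib.GW.A1
import Cfsg.Agent.Lib.GW.NV
import Cfsg.Agent.Lib.GW.FC2

set_option autoImplicit false

namespace CA.GW

open Cfsg CA CA.FStar Subgroup

universe u

variable {G : Type u} [Group G] [Finite G] (m : Min G) {L : Subgroup G}

/-- the statement of A4 -/
def Min.T3 (m : Min G) : Prop :=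
  ∀ (r : ℕ) (Y : Subgroup G), r ≠ 2 → PiGrp {r} Y → 𝐂[m.t] ≤ 𝐍(Y) → Y ≤ 𝐂[m.t]

theorem Min.top_lay (str : m.Str) (hH : 𝐂[m.t] ≤ L) (hL : L ≠ ⊤) : lay L = ⊥ := by
  by_contra hE
  have dg : DG L := ⟨fun T _ h => m.two h, fun s _ s2 => m.npc s2 inf_le_right⟩
  have qs := dg.qs hE
  have nE := lay_normalIn L
  have dE := m.dsyl_of qs.not_solvable
  have sy : SylowIn 2 m.S L := m.syl.of_le (m.S_le.trans hH) le_top
  have SE : m.S ≤ lay L := by
    by_contra hS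
    obtain ⟨V, -, hV, tV⟩ := m.dsyl.exists_four (mem_top m.t) m.inv
    obtain ⟨v, hv, v1, vE⟩ := (m.dsyl_of fun h => qs.not_le_of_solvable h nE.le).four_inv nE qs.not_solvable hV
      ((hV.le_cent1 tV).trans hH)
    by_cases h8 : Nat.card m.S = 4
    · obtain ⟨W, WE, hW, -⟩ := dE.exists_four vE (hV.inv2 hv v1)
      obtain ⟨g, hg, e⟩ := sy.exists_cj_le hW.piGrp (WE.trans nE.le)
      rw [← eq_of_le_of_card_eq e (by rw [card_cj, hW.card, h8])] at hS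
      exact hS (cj_le_of_mem_normalizer WE (nE.norm hg))
    refine str.A3 qs ?_ (hH.trans nE.norm) hS
    by_cases e : m.t = v
    · rw [e]; exact vE
    obtain ⟨σ, -, σt, e⟩ := m.swap h8 hV tV hv m.inv.ne v1 e
    exact (mul_mem_cancel_right vE).1 (e ▸ conj_mem_of_mem_normalizer (nE.norm (hH σt)) vE)
  refine m.A1 hL hH fun s hs s2 => ?_
  obtain ⟨g, hg, e⟩ := sy.exists_conj_mem hs s2.piElt
  have sE : s ∈ lay L := by simpa [mul_assoc] using conj_inv_mem_of_mem_normalizer (nE.norm hg) (SE e)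
  obtain ⟨g, hg, e⟩ := dE.conj qs.der (SE m.tS) sE m.inv s2
  exact ⟨g, nE.le hg, e⟩

theorem Min.top_max (str : m.Str) (a4 : m.T3) (hH : 𝐂[m.t] ≤ L) (hL : L ≠ ⊤) :
    L ≤ 𝐂[m.t] ∨ ∃ W, Four W ∧ m.t ∈ W ∧ 𝐎(𝐂[m.t]) ≤ 𝐂(W) ∧ L ≤ 𝐍(W) := by
  have tL : m.t ∈ L := hH (self_mem_cent1 _)
  have h1 : piCoreOf {2} L ≠ ⊥ := fun e => by
    have : m.t ∈ fstar L := le_fstar_of_cents (zpowers_le_of_mem tL) (by
      rw [fstar_eq, m.top_lay str hH hL, bot_sup_eq]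
      refine cents_symm (fit_le_of fun p _ => ?_)
      by_cases p2 : p = 2
      · rw [p2, e]; exact bot_le
      · rw [cent_zpowers]; exact a4 p _ p2 (piCoreOf_piGrp _ _) (hH.trans (piCoreOf_norm _ _))) (mem_zpowers _)
    rw [fstar_eq, m.top_lay str hH hL, bot_sup_eq] at this
    exact m.inv.ne (mem_bot.1 (e ▸ mem_core_of_fit this m.inv.piElt))
  have h2 := piCoreOf_piGrp {2} L
  rcases dg_dich h2 h1 (m.two h2) with hT | ⟨z, -, z2, hz⟩
  · have sy : SylowIn 2 m.S L := m.syl.of_le (m.S_le.trans hH) le_top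
    have tT := m.mem_four hT (mem_cent_iff_le_cent1.2 (sy.piCoreOf_le.trans m.S_le)) m.inv.piElt
    exact Or.inr ⟨_, hT, tT, fun x hx => hT.cents_odd (piCoreOf_norm _ _ (hH (U_le _ hx))) (odd_of_mem (odd_core _) hx)
      tT m.inv.ne (U_le _ hx), piCoreOf_norm _ _⟩
  · have h3 := (piCoreOf_norm {2} L).trans hz
    obtain ⟨g, rfl⟩ := m.conj' m.inv z2
    exact Or.inl (h3.trans (eq_of_le_of_card_eq (hH.trans h3) (by rw [← cj_centralizer_singleton, card_cj])).ge)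

theorem Min.coatom_of (str : m.Str) (a4 : m.T3) : IsCoatom 𝐂[m.t] := by
  obtain ⟨M, hM, hH⟩ := exists_isCoatom_ge (m.cent1_ne m.inv.ne)
  rcases m.top_max str a4 hH hM.1 with h | ⟨W, hW, tW, hU, h⟩
  · rwa [le_antisymm hH h]
  exfalso
  have W1 : W ≠ ⊤ := m.ne_top hW.piGrp.solvable
  have hN : 𝐍(W) = M := (hM.le_iff.1 h).resolve_left (m.norm_ne hW.nb W1)
  have sy : SylowIn 2 m.S M := m.syl.of_le (m.S_le.trans hH) le_top
  have WS : W ≤ m.S := sy.normal_le ⟨hN ▸ le_normalizer, h⟩ hW.piGrp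
  obtain ⟨r, r1, r2⟩ := m.dih.exists
  obtain ⟨D, -, -, Dt, DU, cS⟩ := m.toDS r1 r2
  have hd : D.m ∣ 6 := by
    have h1 := four_aut hW (sy.le.trans h)
    have h2 : 𝐂(W) ⊓ m.S = W := le_antisymm (fun x hx => m.mem_four hW hx.1 (m.syl.piGrp.piElt hx.2))
      (le_inf hW.le_cent WS)
    have h3 := card_inf_mul_relIndex 𝐂(W) m.S
    rw [h2, hW.card, cS] at h3
    rwa [Nat.eq_of_mul_eq_mul_left (by norm_num) h3] at h1
  rcases D.m_cases with e | ⟨e, e'⟩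
  · have : W = m.S := eq_of_le_of_card_eq WS (by rw [hW.card, cS, e])
    refine m.A1 hM.1 hH fun s hs s2 => ?_
    obtain ⟨g, hg, e⟩ := sy.exists_conj_mem hs s2.piElt
    obtain ⟨k, hk, e'⟩ := m.rot hW tW (this ▸ e) m.inv.ne (s2.conj g).ne
    exact ⟨g⁻¹ * k, mul_mem (inv_mem hg) (hN ▸ hk), by
      rw [show g⁻¹ * k * m.t * (g⁻¹ * k)⁻¹ = g⁻¹ * (k * m.t * k⁻¹) * g by group, e']; group⟩
  have hm : D.m = 2 := by 
    obtain ⟨k, hk⟩ := D.two
    rw [hk] at hd e ⊢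
    rcases k with _ | _ | k
    · simp at e
    · rfl
    · exact absurd ((pow_dvd_pow 2 (show 2 ≤ k + 1 + 1 by omega)).trans hd) (by norm_num)
  haveI := m.simple
  obtain ⟨a, x, y, hs, a1, ca, cx, cy, h1, h2⟩ := D.tool1 m.perf
  have h2 := h2 e
  rw [hm] at ca cx cy h1 h2
  rcases D.nv_of hm hW (Dt ▸ tW) (DU ▸ hU) (by rw [Dt, DU]; exact fun L => m.top_max str a4) hs ca cx cy a1
    (by push_cast at h1; linear_combination h1) (by push_cast at h2; linear_combination h2) with h | h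
  · exact m.U_ne (DU ▸ h)
  · exact m.unknown (Or.inr h)

end CA.GW
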