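/-
Gorenstein–Walter theorem: the first case, and the assembly.
-/
import Cfsg.Agent.Lib.GW.Top0
import Cfsg.Agent.Lib.GW.Tool3

set_option autoImplicit false

namespace CA.GW

open Cfsg CA CA.FStar Subgroup

universe u

variable {G : Type u} [Group G] [Finite G] (m : Min G)

theorem Min.fc (hH : IsCoatom 𝐂[m.t]) (h : m.LA) : False :=
  m.fc_of (fun D _ h1 h2 h3 h4 h5 h6 => D.tool2 m.perf h1 h2 h3 h4 h5 h6) hH h

theorem Min.false_of (str : m.Str) (a4 : m.T3) (al : IsCoatom 𝐂[m.t] → ¬ m.II)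
    (la : IsCoatom 𝐂[m.t] → ¬ m.II → m.LA) : False :=
  have hH := m.coatom_of str a4
  m.fc hH (la hH (al hH))

end CA.GW
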