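/-
Gorenstein–Walter theorem: there is no minimal counterexample.
-/
import Cfsg.Agent.Lib.GW.Al0
import Cfsg.Agent.Lib.GW.Al5
import Cfsg.Agent.Lib.GW.A3
import Cfsg.Agent.Lib.GW.A4
import Cfsg.Agent.Lib.GW.LemA
import Cfsg.Agent.Lib.GW.Top1

set_option autoImplicit false

namespace CA.GW
open Cfsg CA CA.FStar Subgroup
universe u
variable {G : Type u} [Group G] [Finite G]

/-- case II is impossible -/
theorem Min.not_caseII (m : Min G) (hH : IsCoatom 𝐂[m.t]) {X L : Subgroup G} (h0 : X ≠ ⊥) (hX : X ≤ fittingOf 𝐎(𝐂[m.t]))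
    (hL : IsCoatom L) (hn : 𝐍(X) ≤ L) : m.t ∉ lay L := fun ht => by
  obtain ⟨a⟩ := m.al hH h0 hX hL hn ht
  obtain ⟨r, hr, h⟩ := Nat.exists_prime_and_dvd (one_lt_card_iff_ne_bot'.2 a.W0).ne'
  obtain ⟨b, -⟩ := a.ex_r hr h
  exact b.false

theorem Min.alpha (m : Min G) (hH : IsCoatom 𝐂[m.t]) (h : m.II) : False := by
  obtain ⟨X, L, h0, hX, hL, hn, ht⟩ := h
  exact m.not_caseII hH h0 hX hL hn ht

protected theorem Min.false (m : Min G) : False :=
  m.false_of m.strP (fun _ _ => m.A4) m.alpha m.lemA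

end CA.GW
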