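import Cfsg.Agent.Lib.Blk.Main

/-! A form of Brauer's second main theorem for a sum of blocks cut out by a class function whose
restriction to a subgroup is an idempotent. -/

set_option autoImplicit false
set_option linter.unusedSectionVars false

open scoped ComplexConjugate

namespace CA.GW

open CA.Ch CA.Blk Cfsg Subgroup

variable {G : Type*} [Group G] [Finite G] {p : ℕ} [hp : Fact p.Prime]

theorem blk_idem {z : GA G} (hz : CO p z) (hc : Cen z) {χ : G → ℂ} (hχ : IsIrr χ)
    (h : ¬ PI p (om χ z)) :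
    ∃ w : GA G, CO p w ∧ Cen w ∧ (w * z) * (w * z) = w * z ∧ om χ (w * z) = 1 := by
  classical
  let ν : (G → ℂ) → ℂ := fun ψ => om ψ z
  have hzν : z = cenF ν := hc.eq_cenF
  have hν : CO p (cenF ν) := hzν ▸ hz
  let A := (irr G).filter fun ψ => ¬ PI p (ν ψ)
  let B := (irr G).filter fun ψ => PI p (ν ψ)
  let y0 : (G → ℂ) → ℂ := ∏ ψ ∈ B, (ν - fun _ => ν ψ)
  have hy0 : CO p (cenF y0) := co_prod_cenF fun ψ hψ => by
    rw [← cenA_apply, map_sub, cenA_apply, cenA_apply]
    exact hν.sub (co_cenF_const (Finset.mem_filter.mp hψ).2.oi)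
  let y := y0 * ν
  have hy : CO p (cenF y) := by
    rw [← cenA_apply, map_mul]; exact hy0.mul hν
  have hyA : ∀ ψ ∈ A, ¬ PI p (y ψ) := by
    intro ψ hψ
    have h1 := (Finset.mem_filter.mp hψ).2
    refine not_pi_mul ?_ h1
    simp only [y0, Finset.prod_apply]
    refine not_pi_prod fun φ hφ h2 => h1 ?_
    have := h2.add (Finset.mem_filter.mp hφ).2
    simpa using this
  have hyB : ∀ ψ, IsIrr ψ → ψ ∉ A → y ψ = 0 := by
    intro ψ h1 h2
    have h3 : ψ ∈ B := by
      simp only [A, B, Finset.mem_filter, mem_irr] at h2 ⊢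
      exact ⟨h1, by by_contra h4; exact h2 ⟨h1, h4⟩⟩
    simp only [y, y0, Pi.mul_apply, Finset.prod_apply]
    rw [Finset.prod_eq_zero h3 (by simp), zero_mul]
  have hq : ∀ s : Finset (G → ℂ), s ⊆ A → ∃ q : (G → ℂ) → ℂ, CO p (cenF q) ∧
      1 - ∏ ψ ∈ s, (1 - (y ψ)⁻¹ • y) = q * y := by
    intro s
    induction s using Finset.induction_on with
    | empty =>
      intro _
      exact ⟨0, by rw [← cenA_apply, map_zero]; exact (cp_zero p).co', by simp⟩
    | insert ψ s hψ ih =>
      intro hs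
      obtain ⟨q, hq1, hq2⟩ := ih ((Finset.subset_insert _ _).trans hs)
      have h1 := oi_inv (hyA ψ (hs (Finset.mem_insert_self _ _)))
      refine ⟨(fun _ => (y ψ)⁻¹) + q - (y ψ)⁻¹ • (q * y), ?_, ?_⟩
      · rw [← cenA_apply, map_sub, map_add, map_smul, map_mul]
        exact ((co_cenF_const h1).add hq1).sub ((hq1.mul hy).smul h1)
      · rw [Finset.prod_insert hψ, show ∏ ψ ∈ s, (1 - (y ψ)⁻¹ • y) = 1 - q * y by
          rw [← hq2]; ring]
        funext φ
        simp only [Pi.sub_apply, Pi.mul_apply, Pi.add_apply, Pi.smul_apply, Pi.one_apply,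
          smul_eq_mul]
        ring
  obtain ⟨q, hq1, hq2⟩ := hq A subset_rfl
  have e : cenF (q * y0) * z = cenF (q * y) := by
    rw [hzν, ← cenA_apply, ← cenA_apply, ← map_mul, mul_assoc, cenA_apply]
  have h1 : ∀ ψ ∈ A, (q * y) ψ = 1 := by
    intro ψ hψ
    rw [← hq2]
    simp only [Pi.sub_apply, Pi.one_apply, Finset.prod_apply, Pi.smul_apply, smul_eq_mul]
    rw [Finset.prod_eq_zero hψ (by rw [inv_mul_cancel₀ (ne_zero_of_not_pi (hyA ψ hψ)), sub_self]),
      sub_zero]
  refine ⟨cenF (q * y0), ?_, cen_cenF _, ?_, ?_⟩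
  · rw [← cenA_apply, map_mul]; exact hq1.mul hy0
  · rw [e, ← cenA_apply, ← map_mul, cenA_apply, cenA_apply]
    refine cenF_congr fun ψ hψ => ?_
    by_cases h2 : ψ ∈ A
    · rw [Pi.mul_apply, h1 ψ h2, one_mul]
    · simp [hyB ψ hψ h2]
  · rw [e, om_cenF _ hχ]
    exact h1 χ (Finset.mem_filter.mpr ⟨mem_irr.mpr hχ, h⟩)

theorem blk_zero {x : G} (hx : PiElt {p} x) {z : GA G} (hz : CO p z) (hc : Cen z) {χ : G → ℂ}
    (hχ : IsIrr χ) (h : ¬ PI p (om χ z)) {ε : GA G} (hε : CO p ε) (hεε : ε * ε = ε) {g : G}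
    (hg : constt {p} g = x) (hcg : Commute (el g) ε) (hcx : Commute (el x) ε)
    (h0 : CP p (dn (𝐂[x] : Subgroup G).subtype (z * ε))) : tau χ (ε * el g) = 0 := by
  obtain ⟨w, hw, hwc, hww, hw1⟩ := blk_idem hz hc hχ h
  have hC : ∀ g, g ∈ (𝐂[x] : Subgroup G).subtype.range ↔ g * x = x * g := fun g => by
    rw [range_subtype, mem_centralizer_singleton_iff]
  have hce : Cen (w * z) := hwc.mul hc
  have h1 : tau χ (w * z * ε * el g) = 0 := by
    refine tau_idem_eq_zero _ hx hC hχ.isCF ((hw.mul hz).mul hε) ?_ hg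
      (Commute.mul_right (hce _).symm hcg) ?_
    · rw [mul_assoc (w * z), ← mul_assoc ε, ← hce ε, mul_assoc (w * z) ε, hεε, ← mul_assoc, hww]
    · have h2 := cp_dn_mul _ hx hC hw (hz.mul hε) (hwc _).symm (Commute.mul_right (hc _).symm hcx)
      have h3 := h2.add (h0.mul_left (hw.dn (𝐂[x] : Subgroup G).subtype))
      rwa [sub_add_cancel, ← mul_assoc] at h3
  rwa [mul_assoc, tau_cen_mul hχ hce, hw1, one_mul] at h1

/-- second main theorem for the blocks on which the central element `c` is a unit -/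
theorem blk (H : Subgroup G) {c : G → ℂ} (hc : IsCF c) (ho : ∀ g, OI p (c g)) {ε : GA G}
    (hε : ∀ g ∈ H, co ε g = c g) (hε' : ∀ g, g ∉ H → co ε g = 0) (hεε : ε * ε = ε) {χ : G → ℂ}
    (hχ : IsIrr χ) {h : G} (hC : 𝐂[constt {p} h] ≤ H) :
    (¬ PI p (om χ (mkA c)) → tau χ (ε * el h) = χ h) ∧
      (PI p (om χ (mkA c)) → tau χ (ε * el h) = 0) := by
  set x := constt {p} h with hxd
  have hx : PiElt {p} x := constt_piElt {p} h
  have hz : CO p (mkA c) := fun g => by rw [co_mkA]; exact ho g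
  have hzc : Cen (mkA c) := cen_mkA hc
  have hεO : CO p ε := fun g => by
    by_cases hg : g ∈ H
    · rw [hε g hg]; exact ho g
    · rw [hε' g hg]; exact oi_zero p
  have hcm : ∀ y ∈ H, Commute (el y) ε := fun y hy => comm_el_iff.mpr fun g => by
    by_cases hg : g ∈ H
    · rw [hε g hg, hε _ (mul_mem (mul_mem hy hg) (inv_mem hy)), hc.conj]
    · rw [hε' g hg, hε' _ fun h1 => hg ?_]
      have := mul_mem (mul_mem (inv_mem hy) h1) hy
      simpa [mul_assoc] using this
  have hhH : h ∈ H := hC (cent1_le_cent1_constt {p} h (mem_centralizer_singleton_iff.mpr rfl))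
  have hxH : x ∈ H := hC (mem_centralizer_singleton_iff.mpr rfl)
  have hCx : ∀ g, g ∈ (𝐂[x] : Subgroup G).subtype.range ↔ g * x = x * g := fun g => by
    rw [range_subtype, mem_centralizer_singleton_iff]
  have hd : dn (𝐂[x] : Subgroup G).subtype (mkA c) = dn (𝐂[x] : Subgroup G).subtype ε :=
    co_ext fun g => by
      simp only [dn, co_mkA, Function.comp]
      exact (hε _ (hC g.2)).symm
  have h1 := cp_dn_mul _ hx hCx hz hεO (hzc _).symm (hcm x hxH)
  have h2 := cp_dn_mul _ hx hCx hεO hεO (hcm x hxH) (hcm x hxH)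
  rw [hεε] at h2
  rw [hd] at h1
  have h3 := h1.trans h2.symm
  constructor
  · intro hn
    have h4 := blk_zero hx hz hzc hχ hn ((co_one' p).sub hεO) (by
      rw [sub_mul, one_mul, mul_sub, mul_one, hεε, sub_self, sub_zero]) rfl
      ((Commute.one_right _).sub_right (hcm h hhH)) ((Commute.one_right _).sub_right (hcm x hxH))
      (by rw [mul_sub, mul_one, dn_sub, hd]; exact h3.symm)
    rw [sub_mul, one_mul, map_sub, tau_el] at h4
    linear_combination -h4
  · intro hn
    refine blk_zero hx ((co_one' p).sub hz) (cen_one.sub hzc) hχ ?_ hεO hεε rfl (hcm h hhH)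
      (hcm x hxH) (by rw [sub_mul, one_mul, dn_sub]; exact h3.symm)
    rw [om_sub, om_one hχ]
    intro h4
    exact not_pi_one p (by simpa using h4.add hn)

end CA.GW
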