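import Cfsg.Agent.Lib.GW.TBlk

/-! The combinatorics of a 2-block with dihedral defect group and one class of involutions. -/

set_option autoImplicit false

namespace CA.GW

open Finset

variable {ι : Type*} {B : Finset ι} {d : ι → ℤ}

theorem cb_supp (hd : ∀ x ∈ B, 0 < d x) {w : ι → ℤ} {n : ℕ} (hn : n ≤ 4)
    (h2 : ∑ x ∈ B, w x * w x = n) (h0 : ∑ x ∈ B, w x * d x = 0) :
    ∃ O ⊆ B, O.card = n ∧ (∀ x ∈ O, w x = 1 ∨ w x = -1) ∧ ∀ x ∈ B, x ∉ O → w x = 0 := by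
  classical
  have h1 : ∀ x ∈ B, w x * w x ≤ 1 := by
    intro x hx
    by_contra hc
    have h3 : 4 ≤ w x * w x := by
      rcases le_or_gt 2 (w x) with h | h
      · nlinarith
      · rcases le_or_gt (w x) (-2) with h' | h'
        · nlinarith
        · exfalso; apply hc; nlinarith
    rw [← add_sum_erase _ _ hx] at h2 h0
    have h4 : 0 ≤ ∑ y ∈ B.erase x, w y * w y := sum_nonneg fun y _ => mul_self_nonneg _
    have h5 : ∑ y ∈ B.erase x, w y * w y = 0 := by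
      have : (n : ℤ) ≤ 4 := by exact_mod_cast hn
      omega
    rw [sum_eq_zero_iff_of_nonneg fun y _ => mul_self_nonneg _] at h5
    rw [sum_eq_zero fun y hy => by rw [mul_self_eq_zero.mp (h5 y hy), zero_mul], add_zero] at h0
    have := hd x hx
    rcases mul_eq_zero.mp h0 with h | h
    · rw [h] at h3; omega
    · omega
  have h6 : ∀ x ∈ B.filter (fun x => w x ≠ 0), w x = 1 ∨ w x = -1 := by
    intro x hx
    obtain ⟨hx, hx'⟩ := mem_filter.mp hx
    have := h1 x hx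
    have h7 : w x ≤ 1 := by nlinarith
    have h8 : -1 ≤ w x := by nlinarith
    omega
  refine ⟨B.filter (fun x => w x ≠ 0), filter_subset _ _, ?_, h6, fun x hx h => ?_⟩
  · rw [← sum_subset (filter_subset (fun x => w x ≠ 0) B) (fun x hx h => by
      rw [show w x = 0 by by_contra h'; exact h (mem_filter.mpr ⟨hx, h'⟩), zero_mul]),
      sum_congr rfl (g := fun _ => 1) (fun x hx => by rcases h6 x hx with h | h <;> simp [h])] at h2
    simpa using h2
  · by_contra h'; exact h (mem_filter.mpr ⟨hx, h'⟩)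

theorem cb_sum {R : Type*} [CommRing R] {O : Finset ι} (hO : O ⊆ B) {w : ι → ℤ}
    (h : ∀ x ∈ B, x ∉ O → w x = 0) (g : ι → R) :
    ∑ x ∈ B, (w x : R) * g x = ∑ x ∈ O, (w x : R) * g x :=
  (sum_subset hO fun x hx h' => by rw [h x hx h']; simp).symm

theorem cb_refl {m : ℕ} (hm : 0 < m) (f : ℕ → ℤ) (hf : ∀ j, 0 < j → j < 2 * m → f (2 * m - j) = f j) :
    ∑ j ∈ Ico 1 (2 * m), f j = f m + 2 * ∑ j ∈ Ico 1 m, f j := by
  rw [← sum_Ico_consecutive f (show 1 ≤ m from hm) (show m ≤ 2 * m by omega),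
    sum_eq_sum_Ico_succ_bot (show m < 2 * m by omega)]
  have : ∑ j ∈ Ico (m + 1) (2 * m), f j = ∑ j ∈ Ico 1 m, f j := by
    refine sum_bij' (fun j _ => 2 * m - j) (fun j _ => 2 * m - j) ?_ ?_ ?_ ?_ ?_
    · intro j hj; rw [mem_Ico] at hj ⊢; omega
    · intro j hj; rw [mem_Ico] at hj ⊢; omega
    · intro j hj; rw [mem_Ico] at hj; omega
    · intro j hj; rw [mem_Ico] at hj; omega
    · intro j hj; rw [mem_Ico] at hj; exact (hf j (by omega) (by omega)).symm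
  rw [this]; ring

theorem cb_alt {k : ℕ} : ∑ j ∈ Ico 1 (2 * k + 2), (-1 : ℤ) ^ j = -1 := by
  induction k with
  | zero => simp
  | succ k ih =>
    rw [show 2 * (k + 1) + 2 = 2 * k + 2 + 1 + 1 by ring, sum_Ico_succ_top (by omega),
      sum_Ico_succ_top (by omega), ih]
    simp [pow_succ]

/-- the numerical data of the block -/
structure CB (B : Finset ι) (m : ℕ) (D : ℕ → ι → ℤ) (d τ : ι → ℤ) (c c' : ℚ) : Prop where
  hm : m = 1 ∨ ∃ k, m = 2 * k + 2
  hd : ∀ x ∈ B, 0 < d x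
  hG : ∀ i j, 0 < i → i < 2 * m → 0 < j → j < 2 * m → ∑ x ∈ B, D i x * D j x =
    2 + (if i = j then 1 else 0) + (if i + j = 2 * m then 1 else 0)
  hO : ∀ j, 0 < j → j < 2 * m → ∑ x ∈ B, D j x * d x = 0
  hT : ∀ j, 0 < j → j < 2 * m → ∑ x ∈ B, D j x * τ x = 2 * (1 - (-1) ^ j)
  hP : ∀ x ∈ B, τ x = -∑ j ∈ Ico 1 (2 * m), (-1) ^ j * D j x
  hS : ∀ j, 0 < j → j < 2 * m → ∀ x ∈ B, D (2 * m - j) x = D j x
  hQ : ∀ x ∈ B, ∃ d0 : ℤ, d x = 2 * m * d0 - ∑ j ∈ Ico 1 (2 * m), D j x ∧ Even (d0 + τ x)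
  hF : ∀ j, 0 < j → j < 2 * m → j ≠ m → ∑ x ∈ B, (D j x : ℚ) * ((τ x) ^ 2 / d x) = c
  hF' : ∑ x ∈ B, (D m x : ℚ) * ((τ x) ^ 2 / d x) = c'

namespace CB
variable {m : ℕ} {D : ℕ → ι → ℤ} {τ : ι → ℤ} {c c' : ℚ} (h : CB B m D d τ c c')
include h

theorem pos : 0 < m := by rcases h.hm with h | ⟨k, h⟩ <;> omega

theorem tau {x : ι} (hx : x ∈ B) :
    τ x = -((-1) ^ m * D m x + 2 * ∑ j ∈ Ico 1 m, (-1) ^ j * D j x) := by
  rw [h.hP x hx, cb_refl h.pos (fun j => (-1) ^ j * D j x)]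
  intro j h1 h2
  rw [h.hS j h1 h2 x hx]
  congr 1
  have : (-1 : ℤ) ^ (2 * m - j) * (-1) ^ j = 1 := by
    rw [← pow_add, Nat.sub_add_cancel h2.le, pow_mul]; simp
  rcases neg_one_pow_eq_or ℤ j with h3 | h3 <;> rw [h3] at this ⊢ <;> linarith

theorem sm {x : ι} (hx : x ∈ B) :
    ∑ j ∈ Ico 1 (2 * m), D j x = D m x + 2 * ∑ j ∈ Ico 1 m, D j x :=
  cb_refl h.pos (fun j => D j x) fun j h1 h2 => h.hS j h1 h2 x hx

theorem agree {i j : ℕ} (hi : Odd i) (hj : Even j) (i1 : i < m) (j0 : 0 < j) (j1 : j < m)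
    {x : ι} (hx : x ∈ B) (hx' : D m x = 1 ∨ D m x = -1) : D i x = D j x := by
  classical
  have i0 : 0 < i := hi.pos
  have hij : i ≠ j := by rintro rfl; exact (Nat.not_even_iff_odd.mpr hi) hj
  have e1 := h.hG i i i0 (by omega) i0 (by omega)
  have e2 := h.hG j j j0 (by omega) j0 (by omega)
  have e3 := h.hG i j i0 (by omega) j0 (by omega)
  rw [if_pos rfl, if_neg (by omega)] at e1 e2
  rw [if_neg hij, if_neg (by omega)] at e3
  have h2 : ∑ x ∈ B, (D i x - D j x) * (D i x - D j x) = (2 : ℕ) := by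
    rw [sum_congr rfl (g := fun x => D i x * D i x + D j x * D j x - 2 * (D i x * D j x))
      (fun x _ => by ring), sum_sub_distrib, sum_add_distrib, ← mul_sum, e1, e2, e3]
    norm_num
  have h0 : ∑ x ∈ B, (D i x - D j x) * d x = 0 := by
    simp only [sub_mul, sum_sub_distrib]
    rw [h.hO i i0 (by omega), h.hO j j0 (by omega), sub_self]
  have hT : ∑ x ∈ B, (D i x - D j x) * τ x = 4 := by
    simp only [sub_mul, sum_sub_distrib]
    rw [h.hT i i0 (by omega), h.hT j j0 (by omega), hi.neg_one_pow, hj.neg_one_pow]; norm_num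
  have hF : ∑ x ∈ B, ((D i x - D j x : ℤ) : ℚ) * ((τ x) ^ 2 / d x) = 0 := by
    simp only [Int.cast_sub, sub_mul, sum_sub_distrib]
    rw [h.hF i i0 (by omega) (by omega), h.hF j j0 (by omega) (by omega), sub_self]
  obtain ⟨O, hO, hc, h1, hz⟩ := cb_supp h.hd (by norm_num) h2 h0
  have a0 := cb_sum (R := ℤ) hO hz d
  have a1 := cb_sum (R := ℤ) hO hz τ
  simp only [Int.cast_id] at a0 a1
  rw [a0] at h0
  rw [a1] at hT
  rw [cb_sum hO hz] at hF
  obtain ⟨p, q, hpq, rfl⟩ := card_eq_two.mp hc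
  rw [sum_pair hpq] at h0 hT hF
  have hp : p ∈ B := hO (by simp)
  have hq : q ∈ B := hO (by simp)
  have dp := h.hd p hp
  have dq := h.hd q hq
  have key : τ p * τ p = τ q * τ q ∧ (τ p - τ q = 4 ∨ τ p - τ q = -4) := by
    rcases h1 p (by simp) with e | e <;> rcases h1 q (by simp) with e' | e' <;>
      rw [e, e'] at h0 hT hF
    · omega
    · have hd : d p = d q := by omega
      rw [hd] at hF
      have : (d q : ℚ) ≠ 0 := by exact_mod_cast dq.ne'
      field_simp at hF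
      refine ⟨?_, Or.inl (by omega)⟩
      have : (τ p : ℚ) * τ p = τ q * τ q := by push_cast at hF; linarith
      exact_mod_cast this
    · have hd : d p = d q := by omega
      rw [hd] at hF
      have : (d q : ℚ) ≠ 0 := by exact_mod_cast dq.ne'
      field_simp at hF
      refine ⟨?_, Or.inr (by omega)⟩
      have : (τ p : ℚ) * τ p = τ q * τ q := by push_cast at hF; linarith
      exact_mod_cast this
    · omega
  have k2 : τ p + τ q = 0 := by
    have : (τ p - τ q) * (τ p + τ q) = 0 := by linear_combination key.1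
    rcases mul_eq_zero.mp this with e | e
    · omega
    · exact e
  have hodd : Odd (τ x) := by
    rw [h.tau hx, odd_neg]
    refine Odd.add_even ?_ (even_two_mul _)
    rcases neg_one_pow_eq_or ℤ m with e | e <;> rcases hx' with e' | e' <;> rw [e, e'] <;> decide
  have hxO : x ∉ ({p, q} : Finset ι) := by
    simp only [mem_insert, mem_singleton, not_or]
    obtain ⟨k, hk⟩ := hodd
    constructor <;> rintro rfl <;> omega
  exact sub_eq_zero.mp (hz x hx hxO)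

theorem agree1 {j : ℕ} (j0 : 0 < j) (j1 : j < m) {x : ι} (hx : x ∈ B)
    (hx' : D m x = 1 ∨ D m x = -1) : D j x = D 1 x := by
  rcases Nat.even_or_odd j with hj | hj
  · exact (h.agree odd_one hj (by omega) j0 j1 hx hx').symm
  · by_cases h1 : j = 1
    · rw [h1]
    · obtain ⟨k, hk⟩ := hj
      rw [h.agree ⟨k, hk⟩ even_two j1 two_pos (by omega) hx hx',
        h.agree odd_one even_two (by omega) two_pos (by omega) hx hx']

/-- values and degrees of the four characters of odd degree, `m` even -/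
theorem vals {k : ℕ} (hk : m = 2 * k + 2) {x : ι} (hx : x ∈ B) (hx' : D m x = 1 ∨ D m x = -1) :
    τ x = 2 * D 1 x - D m x ∧ ∃ d0 : ℤ, Odd d0 ∧
      d x = 2 * m * d0 - D m x - 2 * (m - 1) * D 1 x := by
  have e1 : τ x = 2 * D 1 x - D m x := by
    rw [h.tau hx, sum_congr rfl (g := fun j => (-1) ^ j * D 1 x) (fun j hj => by
      rw [mem_Ico] at hj; rw [h.agree1 hj.1 hj.2 hx hx']), ← sum_mul]
    have : Even m := ⟨k + 1, by omega⟩
    rw [this.neg_one_pow, hk, cb_alt]; ring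
  refine ⟨e1, ?_⟩
  obtain ⟨d0, h1, h2⟩ := h.hQ x hx
  refine ⟨d0, ?_, ?_⟩
  · obtain ⟨u, hu⟩ := h2
    rcases hx' with e | e
    · exact ⟨u - D 1 x, by omega⟩
    · exact ⟨u - D 1 x - 1, by omega⟩
  · rw [h1, h.sm hx, sum_congr rfl (g := fun _ => D 1 x) (fun j hj => by
      rw [mem_Ico] at hj; rw [h.agree1 hj.1 hj.2 hx hx'])]
    have := h.pos
    simp only [sum_const, Nat.card_Ico, nsmul_eq_mul]
    push_cast [Nat.cast_sub (show 1 ≤ m from this)]
    ring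

theorem four : ∃ O ⊆ B, O.card = 4 ∧ (∀ x ∈ O, D m x = 1 ∨ D m x = -1) ∧
    ∀ x ∈ B, x ∉ O → D m x = 0 := by
  have := h.pos
  refine cb_supp h.hd le_rfl ?_ (h.hO m this (by omega))
  rw [h.hG m m this (by omega) this (by omega), if_pos rfl, if_pos (by omega)]; norm_num

set_option maxHeartbeats 1000000 in
theorem fin (y : ι) : ∃ x0 ∈ B, ∃ x1 ∈ B, ∃ x2 ∈ B, ∃ x3 ∈ B, ∃ a0 a1 a2 a3 : ℤ,
    (x0 ≠ x1 ∧ x0 ≠ x2 ∧ x0 ≠ x3 ∧ x1 ≠ x2 ∧ x1 ≠ x3 ∧ x2 ≠ x3) ∧
    (|a0| = d x0 ∧ |a1| = d x1 ∧ |a2| = d x2 ∧ |a3| = d x3) ∧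
    (τ x0 ^ 2 = 1 ∧ τ x1 ^ 2 = 1 ∧ τ x2 ^ 2 = 1 ∧ τ x3 ^ 2 = 1) ∧ a0 + a1 + a2 + a3 = 0 ∧
    (a0 ≡ 1 [ZMOD 4 * m] ∧ a1 ≡ 1 [ZMOD 4 * m] ∧ a2 ≡ 2 * m - 1 [ZMOD 4 * m] ∧
      a3 ≡ 2 * m - 1 [ZMOD 4 * m]) ∧
    c' = 1 / a0 + 1 / a1 + 1 / a2 + 1 / a3 ∧
    (m ≠ 1 → a0 + a1 ≠ 0 ∧ c = 1 / a0 + 1 / a1 - 4 / (a0 + a1)) ∧
    (y ∈ B → D 1 y = 1 → D m y = 1 → x0 = y ∧ a0 = d y) := by
  classical
  obtain ⟨O, hO, hc, h1, hz⟩ := h.four
  have m0 := h.pos
  have habs : ∀ x ∈ O, |D m x * d x| = d x := fun x hx => by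
    have := h.hd x (hO hx)
    rcases h1 x hx with e | e <;> rw [e] <;> simp [abs_of_pos this]
  have hsum : ∑ x ∈ O, D m x * d x = 0 := by
    have := cb_sum (R := ℤ) hO hz d
    simp only [Int.cast_id] at this
    rw [← this, h.hO m m0 (by omega)]
  have hc' : (∀ x ∈ O, τ x ^ 2 = 1) → c' = ∑ x ∈ O, (1 : ℚ) / ((D m x * d x : ℤ) : ℚ) := by
    intro ht
    rw [← h.hF', cb_sum hO hz]
    refine sum_congr rfl fun x hx => ?_
    have : ((τ x : ℚ)) ^ 2 = 1 := by exact_mod_cast ht x hx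
    rw [this]
    rcases h1 x hx with e | e <;> rw [e] <;> simp [div_neg]
  rcases h.hm with hm | ⟨k, hk⟩
  · subst hm
    have ht : ∀ x ∈ O, τ x = D 1 x := fun x hx => by rw [h.tau (hO hx)]; simp
    have ht2 : ∀ x ∈ O, τ x ^ 2 = 1 := fun x hx => by
      rw [ht x hx]; rcases h1 x hx with e | e <;> rw [e] <;> norm_num
    have hcg : ∀ x ∈ O, D 1 x * d x ≡ 1 [ZMOD 4 * (1 : ℕ)] := fun x hx => by
      obtain ⟨d0, e1, u, e2⟩ := h.hQ x (hO hx)
      rw [ht x hx] at e2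
      rw [e1]
      simp only [Int.ModEq]
      rcases h1 x hx with e | e <;> simp [e] at e2 ⊢ <;> omega
    obtain ⟨x0, hx0, hy⟩ : ∃ x0 ∈ O, (y ∈ B → D 1 y = 1 → x0 = y) := by
      by_cases hy : y ∈ O
      · exact ⟨y, hy, fun _ _ => rfl⟩
      · obtain ⟨x, hx⟩ := card_pos.mp (show 0 < O.card by omega)
        exact ⟨x, hx, fun h2 h3 => by rw [hz y h2 hy] at h3; omega⟩
    obtain ⟨x1, x2, x3, n1, n2, n3, e⟩ := card_eq_three.mp
      (show (O.erase x0).card = 3 by rw [card_erase_of_mem hx0, hc])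
    have m1 : x1 ∈ O.erase x0 := by simp [e]
    have m2 : x2 ∈ O.erase x0 := by simp [e]
    have m3 : x3 ∈ O.erase x0 := by simp [e]
    rw [mem_erase] at m1 m2 m3
    have hs : ∀ {R : Type} [AddCommMonoid R] (f : ι → R), ∑ x ∈ O, f x = f x0 + f x1 + f x2 + f x3 := by
      intro R _ f
      rw [← add_sum_erase _ _ hx0, e, sum_insert (by simp [n1, n2]), sum_pair n3]; abel
    refine ⟨x0, hO hx0, x1, hO m1.2, x2, hO m2.2, x3, hO m3.2, _, _, _, _,
      ⟨m1.1.symm, m2.1.symm, m3.1.symm, n1, n2, n3⟩,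
      ⟨habs _ hx0, habs _ m1.2, habs _ m2.2, habs _ m3.2⟩,
      ⟨ht2 _ hx0, ht2 _ m1.2, ht2 _ m2.2, ht2 _ m3.2⟩, by rw [← hsum, hs],
      ⟨hcg _ hx0, hcg _ m1.2, hcg _ m2.2, hcg _ m3.2⟩, by rw [hc' ht2, hs], fun h => absurd rfl h,
      fun h2 h3 _ => ?_⟩
    rw [hy h2 h3, h3, one_mul]; exact ⟨rfl, rfl⟩
  · have e1 := h.hG 1 1 one_pos (by omega) one_pos (by omega)
    have e2 := h.hG 1 m one_pos (by omega) m0 (by omega)
    rw [if_pos rfl, if_neg (by omega)] at e1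
    rw [if_neg (by omega), if_neg (by omega)] at e2
    obtain ⟨O1, hO1, hc1, h11, hz1⟩ := cb_supp (n := 3) h.hd (by norm_num) (by rw [e1]; norm_num)
      (h.hO 1 one_pos (by omega))
    have hDm : ∀ x ∈ B, D m x = 1 ∨ D m x = -1 ∨ D m x = 0 := fun x hx => by
      by_cases h2 : x ∈ O
      · rcases h1 x h2 with e | e <;> simp [e]
      · simp [hz x hx h2]
    have s1 : ∀ g : ι → ℤ, ∑ x ∈ B, D 1 x * g x = ∑ x ∈ O1, D 1 x * g x := fun g => by
      simpa using cb_sum (R := ℤ) hO1 hz1 g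
    obtain ⟨p, q, z, npq, npz, nqz, eO, hp, hq, hzz⟩ : ∃ p q z, p ≠ q ∧ p ≠ z ∧ q ≠ z ∧
        O1 = {p, q, z} ∧ D 1 p * D m p = 1 ∧ D 1 q * D m q = 1 ∧ D m z = 0 := by
      obtain ⟨p, q, z, n1, n2, n3, e⟩ := card_eq_three.mp hc1
      rw [s1, e, sum_insert (by simp [n1, n2]), sum_pair n3] at e2
      have b1 := h11 p (by simp [e])
      have b2 := h11 q (by simp [e])
      have b3 := h11 z (by simp [e])
      have c1 := hDm p (hO1 (by simp [e]))
      have c2 := hDm q (hO1 (by simp [e]))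
      have c3 := hDm z (hO1 (by simp [e]))
      have : (D 1 p * D m p = 1 ∧ D 1 q * D m q = 1 ∧ D m z = 0) ∨
          (D 1 p * D m p = 1 ∧ D 1 z * D m z = 1 ∧ D m q = 0) ∨
          (D 1 q * D m q = 1 ∧ D 1 z * D m z = 1 ∧ D m p = 0) := by
        rcases b1 with b1 | b1 <;> rcases b2 with b2 | b2 <;> rcases b3 with b3 | b3 <;>
          rw [b1, b2, b3] at e2 ⊢ <;> omega
      rcases this with t | t | t
      · exact ⟨p, q, z, n1, n2, n3, e, t⟩
      · exact ⟨p, z, q, n2, n1, n3.symm, by rw [e, pair_comm], t⟩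
      · exact ⟨q, z, p, n3, n1.symm, n2.symm, by rw [e, insert_comm p q, pair_comm p z], t⟩
    obtain ⟨p, q, npq, npz, nqz, eO, hp, hq, hy⟩ : ∃ p q, p ≠ q ∧ p ≠ z ∧ q ≠ z ∧
        O1 = {p, q, z} ∧ D 1 p * D m p = 1 ∧ D 1 q * D m q = 1 ∧
        (y ∈ B → D 1 y = 1 → D m y = 1 → p = y) := by
      by_cases hy : q = y
      · exact ⟨q, p, npq.symm, nqz, npz, by rw [eO, insert_comm], hq, hp, fun _ _ _ => hy⟩
      · refine ⟨p, q, npq, npz, nqz, eO, hp, hq, fun h2 h3 h4 => ?_⟩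
        have : y ∈ O1 := by by_contra h5; rw [hz1 y h2 h5] at h3; omega
        rw [eO] at this
        simp only [mem_insert, mem_singleton] at this
        rcases this with e | e | e
        · exact e.symm
        · exact absurd e.symm hy
        · rw [e, hzz] at h4; omega
    have pB : p ∈ B := hO1 (by simp [eO])
    have qB : q ∈ B := hO1 (by simp [eO])
    have zB : z ∈ B := hO1 (by simp [eO])
    have pO : p ∈ O := by by_contra h5; rw [hz p pB h5] at hp; omega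
    have qO : q ∈ O := by by_contra h5; rw [hz q qB h5] at hq; omega
    obtain ⟨u, w, nuw, e⟩ := card_eq_two.mp (show ((O.erase p).erase q).card = 2 by
      rw [card_erase_of_mem (mem_erase.mpr ⟨npq.symm, qO⟩), card_erase_of_mem pO, hc])
    have mu : u ∈ (O.erase p).erase q := by simp [e]
    have mw : w ∈ (O.erase p).erase q := by simp [e]
    simp only [mem_erase] at mu mw
    have hs : ∀ {R : Type} [AddCommMonoid R] (f : ι → R), ∑ x ∈ O, f x = f p + f q + f u + f w := by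
      intro R _ f
      rw [← add_sum_erase _ _ pO, ← add_sum_erase _ _ (mem_erase.mpr ⟨npq.symm, qO⟩), e,
        sum_pair nuw]; abel
    have zO : ∀ x ∈ O, x ≠ z := by
      rintro x hx rfl; have := h1 x hx; omega
    have du : D 1 u = 0 := hz1 u (hO mu.2.2) (by simp [eO, mu.1, mu.2.1, zO u mu.2.2])
    have dw : D 1 w = 0 := hz1 w (hO mw.2.2) (by simp [eO, mw.1, mw.2.1, zO w mw.2.2])
    have hA : ∀ x ∈ O, D 1 x * D m x = 1 → D 1 x = D m x ∧ τ x = D m x ∧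
        D m x * d x ≡ 1 [ZMOD 4 * m] := by
      intro x hx h2
      obtain ⟨t1, d0, ⟨v, hv⟩, t2⟩ := h.vals hk (hO hx) (h1 x hx)
      rw [t1, t2, hv]
      rcases h1 x hx with e | e <;> rw [e] at h2 ⊢
      · rw [show D 1 x = 1 by omega]
        exact ⟨rfl, by ring, Int.modEq_iff_dvd.mpr ⟨-v, by ring⟩⟩
      · rw [show D 1 x = -1 by omega]
        exact ⟨rfl, by ring, Int.modEq_iff_dvd.mpr ⟨v + 1, by ring⟩⟩
    have hB : ∀ x ∈ O, D 1 x = 0 → τ x = -D m x ∧ D m x * d x ≡ 2 * m - 1 [ZMOD 4 * m] := by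
      intro x hx h2
      obtain ⟨t1, d0, ⟨v, hv⟩, t2⟩ := h.vals hk (hO hx) (h1 x hx)
      rw [t1, t2, hv, h2]
      rcases h1 x hx with e | e <;> rw [e]
      · exact ⟨by ring, Int.modEq_iff_dvd.mpr ⟨-v, by ring⟩⟩
      · exact ⟨by ring, Int.modEq_iff_dvd.mpr ⟨v + 1, by ring⟩⟩
    have ht2 : ∀ x ∈ O, τ x ^ 2 = 1 := by
      intro x hx
      have : τ x = D m x ∨ τ x = -D m x := by
        by_cases e1 : x = p
        · exact Or.inl (hA x hx (e1 ▸ hp)).2.1
        · by_cases e2 : x = q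
          · exact Or.inl (hA x hx (e2 ▸ hq)).2.1
          · exact Or.inr (hB x hx (hz1 x (hO hx) (by simp [eO, e1, e2, zO x hx]))).1
      rcases this with e | e <;> rcases h1 x hx with e' | e' <;> rw [e, e'] <;> norm_num
    obtain ⟨p1, p2, p3⟩ := hA p pO hp
    obtain ⟨q1, q2, q3⟩ := hA q qO hq
    refine ⟨p, pB, q, qB, u, hO mu.2.2, w, hO mw.2.2, _, _, _, _,
      ⟨npq, mu.2.1.symm, mw.2.1.symm, mu.1.symm, mw.1.symm, nuw⟩,
      ⟨habs _ pO, habs _ qO, habs _ mu.2.2, habs _ mw.2.2⟩,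
      ⟨ht2 _ pO, ht2 _ qO, ht2 _ mu.2.2, ht2 _ mw.2.2⟩, by rw [← hsum, hs],
      ⟨p3, q3, (hB u mu.2.2 du).2, (hB w mw.2.2 dw).2⟩, by rw [hc' ht2, hs], fun _ => ?_,
      fun h2 h3 h4 => ?_⟩
    · have s3 : ∀ {R : Type} [AddCommMonoid R] (f : ι → R), ∑ x ∈ O1, f x = f p + f q + f z := by
        intro R _ f
        rw [eO, sum_insert (by simp [npq, npz]), sum_pair nqz]; abel
      have t1 := h.hO 1 one_pos (by omega)
      have t2 := h.hT 1 one_pos (by omega)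
      have t3 := h.hF 1 one_pos (by omega) (by omega)
      rw [s1, s3, p1, q1] at t1 t2
      rw [cb_sum hO1 hz1, s3, p1, q1] at t3
      have tp : ((τ p : ℚ)) ^ 2 = 1 := by exact_mod_cast ht2 p pO
      have tq : ((τ q : ℚ)) ^ 2 = 1 := by exact_mod_cast ht2 q qO
      have dz := h.hd z zB
      have tz : D 1 z * τ z = 2 := by
        rw [p2, q2] at t2
        rcases h1 p pO with e | e <;> rcases h1 q qO with e' | e' <;> rw [e, e'] at t2 <;> omega
      have e3 : D m p * d p + D m q * d q = -(D 1 z * d z) := by linarith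
      have dz' : (d z : ℚ) ≠ 0 := by exact_mod_cast dz.ne'
      refine ⟨by rcases h11 z (by simp [eO]) with e | e <;> rw [e3, e] <;> omega, ?_⟩
      rw [← t3, tp, tq, ← Int.cast_add, e3]
      rcases h11 z (by simp [eO]) with e | e <;> rw [e] at tz ⊢
      · rw [show τ z = 2 by omega]
        rcases h1 p pO with e | e <;> rcases h1 q qO with e' | e' <;> rw [e, e'] <;>
          simp [div_neg] <;> norm_num
      · rw [show τ z = -2 by omega]
        rcases h1 p pO with e | e <;> rcases h1 q qO with e' | e' <;> rw [e, e'] <;>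
          simp [div_neg, sub_eq_add_neg] <;> norm_num
    · rw [hy h2 h3 h4, h4, one_mul]; exact ⟨rfl, rfl⟩

end CB

end CA.GW
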