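import Cfsg.Agent.Lib.GW.TSet

/-! Orthogonality relations and the class multiplication formula on the sections of `⟨s⟩`. -/

set_option autoImplicit false
set_option linter.unusedSectionVars false
set_option linter.style.haveILetI false

open scoped ComplexConjugate

namespace CA.GW

open CA.Ch CA.Blk Cfsg Subgroup

section
variable {G : Type*} [Group G] [Finite G] [Fintype G] [DecidableEq G]

theorem ds_delta (x : G) : ∑ χ ∈ irr G, χ 1 * χ x = Nat.card G * if x = 1 then 1 else 0 := by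
  split_ifs with h
  · rw [h, mul_one, ← sum_sq_irr]; simp [pow_two]
  · rw [sum_irr_mul_ne h, mul_zero]

theorem ds_col (a b : G) :
    ∑ χ ∈ irr G, χ a * χ b = ∑ y, if y * a * y⁻¹ * b = 1 then (1 : ℂ) else 0 := by
  apply mul_left_cancel₀ (Ch.card_ne_zero' G)
  rw [Finset.mul_sum, Finset.mul_sum]
  simp only [← ds_delta]
  rw [Finset.sum_comm]
  exact Finset.sum_congr rfl fun χ hχ => by
    rw [← sum_conj_irr (mem_irr.mp hχ), Finset.mul_sum]

theorem ds_tri (t b : G) : (Nat.card G : ℂ) * ∑ χ ∈ irr G, χ b * (χ t ^ 2 / χ 1) =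
    ∑ y, ∑ y', if y * t * y⁻¹ * (y' * t * y'⁻¹ * b) = 1 then (1 : ℂ) else 0 := by
  rw [Finset.sum_comm]
  simp only [← ds_col]
  rw [Finset.sum_comm, Finset.mul_sum]
  refine Finset.sum_congr rfl fun χ hχ => ?_
  have h1 := (mem_irr.mp hχ).ne_zero_one
  have h2 := sum_conj_irr (mem_irr.mp hχ) t b
  rw [← Finset.mul_sum]
  field_simp
  linear_combination (-χ t) * h2

end

namespace DS
variable {G : Type*} [Group G] [Finite G] (D : DS G)

/-- `l` is invariant under `H` -/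
def Inv (l : D.U →* ℂˣ) : Prop := ∀ h ∈ D.H, ∀ u v : D.U, (v : G) = h * u * h⁻¹ → l v = l u

open Classical in
/-- the conjugate character, extended by zero -/
noncomputable def L (l : D.U →* ℂˣ) (g : G) : ℂ := if h : g ∈ D.U then conj (l ⟨g, h⟩ : ℂ) else 0

open Classical in
/-- the indicator of the involutions -/
noncomputable def J (g : G) : ℂ := if g * g = 1 ∧ g ≠ 1 then 1 else 0

/-- the `l`-component of `χ` on the coset `U h` -/
noncomputable def av [Fintype G] (l : D.U →* ℂˣ) (χ : G → ℂ) (h : G) : ℂ :=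
  (Nat.card D.U : ℂ)⁻¹ * ∑ g, D.L l g * χ (g * h)

variable {D} {l : D.U →* ℂˣ}

theorem L_of {u : G} (hu : u ∈ D.U) : D.L l u = conj (l ⟨u, hu⟩ : ℂ) := dif_pos hu
theorem L_not {g : G} (hg : g ∉ D.U) : D.L l g = 0 := dif_neg hg
theorem L_mem {g : G} (hg : D.L l g ≠ 0) : g ∈ D.U := by by_contra h; exact hg (L_not h)
theorem L_one : D.L l 1 = 1 := by
  rw [L_of (one_mem _)]; exact (by rw [show (⟨1, one_mem _⟩ : D.U) = 1 from rfl, map_one]; simp)
theorem L_mul {u : G} (hu : u ∈ D.U) (g : G) : D.L l (u * g) = D.L l u * D.L l g := by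
  by_cases hg : g ∈ D.U
  · rw [L_of hu, L_of hg, L_of (mul_mem hu hg), ← map_mul, ← Units.val_mul, ← map_mul]; rfl
  · rw [L_not hg, mul_zero, L_not fun h => hg ((mul_mem_cancel_left hu).mp h)]
theorem L_inv {u : G} (hu : u ∈ D.U) : D.L l u * D.L l u⁻¹ = 1 := by
  rw [← L_mul hu, mul_inv_cancel, L_one]
theorem L_cj (hl : D.Inv l) {h : G} (hh : h ∈ D.H) (g : G) : D.L l (h * g * h⁻¹) = D.L l g := by
  by_cases hg : g ∈ D.U
  · rw [L_of hg, L_of (D.cj hh hg), hl h hh ⟨g, hg⟩ ⟨_, D.cj hh hg⟩ rfl]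
  · rw [L_not hg, L_not fun h1 => hg ?_]
    simpa [mul_assoc] using D.cj (inv_mem hh) h1
theorem L_s [DecidableEq G] {x : G} (hx : x ∈ zpowers D.s) :
    D.L l x = if x = 1 then 1 else 0 := by
  split_ifs with h
  · rw [h, L_one]
  · exact L_not fun h1 => h (D.sU hx h1)

theorem J_of {g : G} (h : g * g = 1) (h1 : g ≠ 1) : J g = 1 := if_pos ⟨h, h1⟩
theorem J_def [DecidableEq G] (g : G) : J g = if g * g = 1 ∧ g ≠ 1 then 1 else 0 := by
  unfold J; congr
theorem J_ne {g : G} (h : J g ≠ 0) : g * g = 1 ∧ g ≠ 1 := by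
  by_contra h'; exact h (if_neg h')

variable (D) in
theorem cU : (Nat.card D.U : ℂ) ≠ 0 := Ch.card_ne_zero' _

variable [Fintype G] [DecidableEq G]

theorem gram0 (x b : G) : ∑ χ ∈ irr G, D.av l χ x * χ b =
    (Nat.card D.U : ℂ)⁻¹ * ∑ y, D.L l (y * b⁻¹ * y⁻¹ * x⁻¹) := by
  simp only [av, mul_assoc, ← Finset.mul_sum]
  congr 1
  simp only [Finset.sum_mul]
  rw [Finset.sum_comm, Finset.sum_congr rfl (g := fun g => ∑ y,
    if g = y * (b⁻¹ * (y⁻¹ * x⁻¹)) then D.L l g else 0), Finset.sum_comm]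
  · simp
  · intro g _
    simp only [mul_assoc, ← Finset.mul_sum]
    rw [Finset.sum_congr rfl (fun χ _ => mul_comm _ _), ds_col, Finset.mul_sum]
    refine Finset.sum_congr rfl fun y _ => ?_
    have : y * b * y⁻¹ * (g * x) = 1 ↔ g = y * (b⁻¹ * (y⁻¹ * x⁻¹)) := by
      rw [mul_eq_one_iff_inv_eq, eq_comm, ← eq_mul_inv_iff_mul_eq]
      simp [mul_assoc]
    simp [this]

theorem gram (hl : D.Inv l) {x x' v : G} (hx : x ∈ zpowers D.s) (hx' : x' ∈ zpowers D.s)
    (h1 : x' ≠ 1) (hv : v ∈ D.U) : ∑ χ ∈ irr G, D.av l χ x * χ (v * x')⁻¹ =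
      D.L l v * (2 * D.m) * ((if x' = x then 1 else 0) + if x'⁻¹ = x then 1 else 0) := by
  haveI := Fintype.ofFinite D.U
  have key : ∀ u ∈ D.U, ∀ σ ∈ D.H, σ * x' * σ⁻¹ ∈ zpowers D.s →
      D.L l (u * σ * (v * x') * (u * σ)⁻¹ * x⁻¹) = D.L l v * if σ * x' * σ⁻¹ = x then 1 else 0 := by
    intro u hu σ hσ h2
    rw [show u * σ * (v * x') * (u * σ)⁻¹ * x⁻¹ = u * (σ * v * σ⁻¹ * ((σ * x' * σ⁻¹) * u⁻¹ *
      (σ * x' * σ⁻¹)⁻¹ * (σ * x' * σ⁻¹ * x⁻¹))) by group, L_mul hu, L_mul (D.cj hσ hv),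
      L_mul (D.cj (D.sH' h2) (inv_mem hu)), L_cj hl hσ, L_cj hl (D.sH' h2),
      L_s (mul_mem h2 (inv_mem hx))]
    simp only [mul_inv_eq_one]
    linear_combination (D.L l v * if σ * x' * σ⁻¹ = x then 1 else 0) * L_inv (l := l) hu
  rw [gram0, inv_inv, D.sumH _ fun y hy => L_not fun h => hy
    (D.mem_of_cj h hx hv hx' h1 (by group))]
  obtain ⟨j, rfl⟩ := mem_powers_iff_mem_zpowers.mpr hx'
  simp only at *
  rw [Finset.sum_congr rfl (g := fun _ => D.L l v * (2 * D.m) *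
    ((if D.s ^ j = x then 1 else 0) + if (D.s ^ j)⁻¹ = x then 1 else 0))]
  · rw [Finset.sum_const, Finset.card_univ, nsmul_eq_mul, ← Nat.card_eq_fintype_card,
      inv_mul_cancel_left₀ D.cU]
  · intro u _
    rw [Finset.sum_congr rfl (g := fun _ => D.L l v *
      ((if D.s ^ j = x then 1 else 0) + if (D.s ^ j)⁻¹ = x then 1 else 0))]
    · simp; ring
    · intro i _
      have e1 : D.s ^ i * D.s ^ j * (D.s ^ i)⁻¹ = D.s ^ j := by group
      have e2 : D.s ^ i * D.r * D.s ^ j * (D.s ^ i * D.r)⁻¹ = (D.s ^ j)⁻¹ := by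
        rw [mul_assoc (D.s ^ i), D.r_mul]; group
      rw [key u u.2 _ (D.sH i) (by rw [e1]; exact hx'),
        key u u.2 _ (D.srH i) (by rw [e2]; exact inv_mem hx'), e1, e2, mul_add]

variable (D) in
theorem cjsum (F : G → ℂ) : ∑ y, F (y * D.t * y⁻¹) = Nat.card D.H * ∑ a, J a * F a := by
  classical
  have h1 : ∀ a : G, ∑ y, (if y * D.t * y⁻¹ = a then (1 : ℂ) else 0) = Nat.card D.H * J a := by
    intro a
    have h2 := ds_col D.t a⁻¹
    simp only [mul_inv_eq_one] at h2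
    rw [← h2, Finset.sum_congr rfl (g := fun χ => χ a⁻¹ * conj (χ D.t)) fun χ hχ => by
      rw [← (mem_irr.mp hχ).isChar.apply_inv D.t, D.ti, mul_comm], column_orth]
    split_ifs with h
    · obtain ⟨y, hy⟩ := isConj_iff.mp h.symm
      have h3 : a⁻¹ * a⁻¹ = 1 := by rw [← hy]; simp [mul_assoc, ← mul_assoc D.t, D.tt]
      rw [J_of (by rw [← mul_inv_rev, inv_eq_one] at h3; exact h3) (by
        rintro rfl; exact D.t1 (by simpa using hy)), mul_one]
    · by_contra h3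
      obtain ⟨h4, h5⟩ := J_ne (right_ne_zero_of_mul (Ne.symm h3))
      exact h (by rw [inv_eq_of_mul_eq_one_right h4]; exact (D.one a h4 h5).symm)
  rw [Finset.mul_sum, Finset.sum_congr rfl (g := fun y => ∑ a,
    (if y * D.t * y⁻¹ = a then (1 : ℂ) else 0) * F a) (fun y _ => by simp), Finset.sum_comm]
  exact Finset.sum_congr rfl fun a _ => by rw [← Finset.sum_mul, h1, mul_assoc]

variable (D) in
theorem inv_form {u σ : G} (hu : u ∈ D.U) (hσ : σ * σ = 1) (h : u * σ * (u * σ) = 1) :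
    ∃ v ∈ D.U, u * σ = v * σ * v⁻¹ := by
  obtain ⟨k, hk⟩ := D.odd_of hu
  have h1 : σ * u * σ⁻¹ = u⁻¹ := by
    rw [inv_eq_of_mul_eq_one_right hσ, eq_inv_iff_mul_eq_one, ← mul_left_inj σ, one_mul]
    calc σ * u * σ * u * σ = σ * (u * σ * (u * σ)) := by group
      _ = σ := by rw [h, mul_one]
  refine ⟨u ^ (k + 1), pow_mem hu _, ?_⟩
  have h2 : σ * (u ^ (k + 1))⁻¹ = u ^ (k + 1) * σ := by
    rw [← mul_inv_eq_iff_eq_mul, ← inv_pow, ← conj_pow, ← h1]
    simp [mul_assoc, ← mul_assoc σ σ, hσ, inv_eq_of_mul_eq_one_right hσ]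
  rw [mul_assoc, h2, ← mul_assoc, ← pow_add, show k + 1 + (k + 1) = orderOf u + 1 by omega,
    pow_succ, pow_orderOf_eq_one, one_mul]

variable (D) in
theorem sumJ [Fintype D.U] (k : ℕ) : ∑ u : D.U, J (u * (D.s ^ k * D.r)) =
    ((𝐂[D.s ^ k * D.r] : Subgroup G).relIndex D.U : ℕ) := by
  simp only [J_def]
  rw [Finset.sum_boole, ds_relIndex]
  congr 1
  rw [← Finset.card_image_of_injective _ (f := fun u : D.U => (u : G) * (D.s ^ k * D.r))
    (fun a b h => Subtype.ext (mul_right_cancel h)), ← Set.ncard_coe_finset]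
  congr 1
  ext y
  simp only [Finset.coe_image, Finset.coe_filter, Finset.mem_univ, true_and, Set.mem_image,
    Set.mem_ofPred_eq]
  constructor
  · rintro ⟨u, ⟨h, -⟩, rfl⟩
    exact D.inv_form u.2 (D.sr_sq k) h
  · rintro ⟨v, hv, rfl⟩
    refine ⟨⟨v * (D.s ^ k * D.r * v⁻¹ * (D.s ^ k * D.r)⁻¹),
      mul_mem hv (D.cj (D.srH k) (inv_mem hv))⟩, ?_, by group⟩
    rw [show v * (D.s ^ k * D.r * v⁻¹ * (D.s ^ k * D.r)⁻¹) * (D.s ^ k * D.r) =
      v * (D.s ^ k * D.r) * v⁻¹ by group]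
    refine ⟨by rw [conj_mul, D.sr_sq]; simp, fun h => D.sr_ne k ?_⟩
    rw [show D.s ^ k * D.r = 1 by simpa using h]; exact one_mem _

variable (D) in
/-- the number of involutions in `U s^k r` -/
noncomputable def kap (k : ℕ) : ℕ := if Even k then D.k1 else D.k2

variable (D) in
theorem sumJ' [Fintype D.U] (k : ℕ) : ∑ u : D.U, J (u * (D.s ^ k * D.r)) = D.kap k := by
  induction k using Nat.twoStepInduction with
  | zero => rw [D.sumJ]; simp [kap]
  | one => rw [D.sumJ]; simp [kap]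
  | more k ih _ =>
    rw [show D.kap (k + 2) = D.kap k by simp [kap, Nat.even_add], ← ih]
    have hs : D.s ∈ D.H := by simpa using D.sH 1
    refine (Fintype.sum_bijective (fun u : D.U => (⟨D.s * u * D.s⁻¹, D.cj hs u.2⟩ : D.U))
      (Finite.injective_iff_bijective.mp fun a b h => Subtype.ext (by simpa using h)) _ _
      fun u => ?_).symm
    have : D.s * u * D.s⁻¹ * (D.s ^ (k + 2) * D.r) = D.s * (u * (D.s ^ k * D.r)) * D.s⁻¹ := by
      have := D.r_mul' 1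
      rw [pow_one, inv_inv] at this
      rw [mul_assoc D.s (u * _), mul_assoc (u : G), mul_assoc _ D.r, this]; group
    simp only [J_def, this, conj_mul, conj_eq_one_iff, ne_eq]

theorem cnt (hl : D.Inv l) {i : ℕ} (hi : D.s ^ i ≠ 1) :
    ∑ a, J a * ∑ b, J b * D.L l (a * b * (D.s ^ i)⁻¹) =
      ∑ k ∈ Finset.range (2 * D.m), (D.kap (i + k) * D.kap k : ℂ) := by
  haveI := Fintype.ofFinite D.U
  have hx := npow_mem_zpowers D.s i
  have h0 : ∀ a b : G, J a ≠ 0 → J b ≠ 0 → D.L l (a * b * (D.s ^ i)⁻¹) ≠ 0 →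
      a ∈ D.H ∧ b ∈ D.H ∧ a ≠ D.t ∧ b ≠ D.t := by
    intro a b ha hb h
    have hu := L_mem h
    obtain ⟨a2, a1⟩ := J_ne ha
    obtain ⟨b2, b1⟩ := J_ne hb
    have ai := inv_eq_of_mul_eq_one_right a2
    have bi := inv_eq_of_mul_eq_one_right b2
    have aH : a ∈ D.H := D.mem_of_cj (D.cj (inv_mem (D.sH i)) (inv_mem hu)) (inv_mem hx) hu hx hi
      (by simp [mul_assoc, ai, bi, ← mul_assoc a a, a2])
    have bH : b ∈ D.H := by
      have := mul_mem (inv_mem aH) (mul_mem (D.UH hu) (D.sH i))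
      simpa using this
    have hn : a * b ≠ 1 := by
      intro h1
      rw [h1, one_mul] at hu
      exact hi (inv_eq_one.mp (D.sU (inv_mem hx) hu))
    refine ⟨aH, bH, ?_, ?_⟩
    · rintro rfl
      have e : b = D.t * b * (D.s ^ i)⁻¹ * (D.s ^ i * D.t) := by
        rw [mul_assoc, inv_mul_cancel_left, mul_assoc, D.memH.mp bH, ← mul_assoc, D.tt, one_mul]
      have := D.inv_eq hu (mul_mem hx (npow_mem_zpowers _ _)) (by rw [← e]; exact b2)
        (by rw [← e]; exact b1)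
      rw [← e] at this
      exact hn (by rw [this, D.tt])
    · rintro rfl
      have e : a = a * D.t * (D.s ^ i)⁻¹ * (D.s ^ i * D.t) := by
        rw [mul_assoc, inv_mul_cancel_left, mul_assoc, D.tt, mul_one]
      have := D.inv_eq hu (mul_mem hx (npow_mem_zpowers _ _)) (by rw [← e]; exact a2)
        (by rw [← e]; exact a1)
      rw [← e] at this
      exact hn (by rw [this, D.tt])
  have z : ∀ a b : G, (J a ≠ 0 → J b ≠ 0 → D.L l (a * b * (D.s ^ i)⁻¹) ≠ 0 → False) →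
      J a * (J b * D.L l (a * b * (D.s ^ i)⁻¹)) = 0 := by
    intro a b h
    by_contra h1
    exact h (left_ne_zero_of_mul h1) (left_ne_zero_of_mul (right_ne_zero_of_mul h1))
      (right_ne_zero_of_mul (right_ne_zero_of_mul h1))
  have hL : ∀ u ∈ D.U, ∀ k, J (u * (D.s ^ k * D.r)) ≠ 0 → D.L l u = 1 := by
    intro u hu k h
    obtain ⟨v, hv, e⟩ := D.inv_form hu (D.sr_sq k) (J_ne h).1
    have e2 : u = v * (D.s ^ k * D.r * v⁻¹ * (D.s ^ k * D.r)⁻¹) := by
      rw [← mul_assoc, ← mul_assoc, ← e]; group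
    rw [e2, L_mul hv, L_cj hl (D.srH k), L_inv hv]
  simp only [Finset.mul_sum]
  rw [D.sumH _ fun a ha => Finset.sum_eq_zero fun b _ => z a b fun p q r => ha (h0 a b p q r).1,
    Finset.sum_congr rfl (g := fun u : D.U => ∑ k ∈ Finset.range (2 * D.m),
      ∑ k' ∈ Finset.range (2 * D.m), J (u * (D.s ^ k * D.r)) *
        (D.kap k' * if k = (i + k') % (2 * D.m) then 1 else 0)), Finset.sum_comm]
  · simp only [← Finset.mul_sum, ← Finset.sum_mul, D.sumJ']
    simp only [Finset.mul_sum]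
    rw [Finset.sum_comm]
    refine Finset.sum_congr rfl fun k _ => ?_
    have : (i + k) % (2 * D.m) ∈ Finset.range (2 * D.m) :=
      Finset.mem_range.mpr (Nat.mod_lt _ (by have := D.pos; omega))
    simp only [mul_ite, mul_one, mul_zero, Finset.sum_ite_eq', this, if_true]
    congr 2
    simp only [kap, Nat.even_iff, Nat.mod_mul_right_mod]
  · intro u _
    refine Finset.sum_congr rfl fun k hk => ?_
    rw [Finset.sum_eq_zero fun b _ => z _ b fun p q r => (h0 _ b p q r).2.2.1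
      (D.inv_eq u.2 (npow_mem_zpowers _ _) (J_ne p).1 (J_ne p).2), zero_add,
      D.sumH _ fun b hb => z _ b fun p q r => hb (h0 _ b p q r).2.1, Finset.sum_comm]
    refine Finset.sum_congr rfl fun k' hk' => ?_
    rw [← D.sumJ', Finset.sum_mul, Finset.mul_sum]
    refine Finset.sum_congr rfl fun u' _ => ?_
    rw [z _ _ fun p q r => (h0 _ _ p q r).2.2.2
      (D.inv_eq u'.2 (npow_mem_zpowers _ _) (J_ne q).1 (J_ne q).2), zero_add]
    by_cases p : J (u * (D.s ^ k * D.r)) = 0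
    · simp [p]
    by_cases q : J (u' * (D.s ^ k' * D.r)) = 0
    · simp [q]
    congr 2
    rw [show u * (D.s ^ k * D.r) * (u' * (D.s ^ k' * D.r)) * (D.s ^ i)⁻¹ = u * (D.s ^ k * D.r * u' *
      (D.s ^ k * D.r)⁻¹ * (D.s ^ k * (D.r * D.s ^ k') * D.r * (D.s ^ i)⁻¹)) by group, D.r_mul,
      L_mul u.2, L_mul (D.cj (D.srH k) u'.2), L_cj hl (D.srH k), hL u u.2 k p, hL u' u'.2 k' q,
      show D.s ^ k * ((D.s ^ k')⁻¹ * D.r) * D.r * (D.s ^ i)⁻¹ = D.s ^ k * (D.s ^ (i + k'))⁻¹ by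
        rw [mul_assoc (D.s ^ k), mul_assoc _ D.r, D.rr]; group,
      L_s (mul_mem (npow_mem_zpowers _ _) (inv_mem (npow_mem_zpowers _ _))), one_mul, one_mul]
    simp only [mul_inv_eq_one, pow_eq_pow_iff_modEq, D.os, Nat.ModEq,
      Nat.mod_eq_of_lt (Finset.mem_range.mp hk)]

theorem phi (hl : D.Inv l) {i : ℕ} (hi : D.s ^ i ≠ 1) :
    (D.N : ℂ) * ∑ χ ∈ irr G, D.av l χ (D.s ^ i) * (χ D.t ^ 2 / χ 1) =
      4 * D.m * ∑ k ∈ Finset.range (2 * D.m), (D.kap (i + k) * D.kap k : ℂ) := by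
  have h1 : (Nat.card G : ℂ) * ∑ χ ∈ irr G, D.av l χ (D.s ^ i) * (χ D.t ^ 2 / χ 1) =
      (Nat.card D.U : ℂ)⁻¹ * ∑ y', ∑ y, D.L l (y' * D.t * y'⁻¹ * (y * D.t * y⁻¹) * (D.s ^ i)⁻¹) := by
    simp only [av, mul_assoc (Nat.card D.U : ℂ)⁻¹, ← Finset.mul_sum]
    rw [mul_left_comm]
    congr 1
    simp only [Finset.sum_mul]
    rw [Finset.sum_comm, Finset.mul_sum, Finset.sum_congr rfl (g := fun g => ∑ y', ∑ y,
      if g = y' * D.t * y'⁻¹ * (y * D.t * y⁻¹) * (D.s ^ i)⁻¹ then D.L l g else 0), Finset.sum_comm]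
    · refine Finset.sum_congr rfl fun y' _ => ?_
      rw [Finset.sum_comm]; simp
    · intro g _
      simp only [mul_assoc (D.L l g), ← Finset.mul_sum]
      rw [mul_left_comm, ds_tri, Finset.sum_comm, Finset.mul_sum]
      refine Finset.sum_congr rfl fun y' _ => ?_
      rw [Finset.mul_sum]
      refine Finset.sum_congr rfl fun y _ => ?_
      have : y * D.t * y⁻¹ * (y' * D.t * y'⁻¹ * (g * D.s ^ i)) = 1 ↔
          g = y' * D.t * y'⁻¹ * (y * D.t * y⁻¹) * (D.s ^ i)⁻¹ := by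
        rw [← mul_assoc, mul_eq_one_iff_inv_eq, eq_comm, ← eq_mul_inv_iff_mul_eq]
        simp [mul_assoc, D.ti]
      simp [this]
  rw [D.cjsum (fun a => ∑ y, D.L l (a * (y * D.t * y⁻¹) * (D.s ^ i)⁻¹))] at h1
  simp only [fun a => D.cjsum (fun b => D.L l (a * b * (D.s ^ i)⁻¹)),
    mul_left_comm _ (Nat.card D.H : ℂ), ← Finset.mul_sum] at h1
  rw [cnt hl hi, ← D.H.index_mul_card, D.cardH] at h1
  have h2 : (D.m : ℂ) ≠ 0 := by exact_mod_cast D.pos.ne'
  have h3 := D.cU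
  push_cast at h1
  generalize ∑ χ ∈ irr G, D.av l χ (D.s ^ i) * (χ D.t ^ 2 / χ 1) = A at h1 ⊢
  field_simp at h1
  linear_combination h1

end DS

end CA.GW
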