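import Cfsg.Agent.Lib.GW.TGram

/-! The blocks attached to a stable family of linear characters of `U`. -/

set_option autoImplicit false
set_option linter.unusedSectionVars false
set_option linter.style.haveILetI false

open scoped ComplexConjugate

namespace CA.GW

open CA.Ch CA.Blk Cfsg Subgroup

theorem ds_dih {W : Type*} [Group W] {a c : W} {m : ℕ} [NeZero m] (hc : c ^ m = 1) (ha : a * a = 1)
    (h2 : ∀ k : ℕ, c ^ k * a = a * (c ^ k)⁻¹) :
    ∃ ψ : DihedralGroup m →* W, (∀ i, ψ (DihedralGroup.r i) = c ^ i.val) ∧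
      ∀ i, ψ (DihedralGroup.sr i) = a * c ^ i.val := by
  have h1 : ∀ i j : ZMod m, c ^ (i + j).val = c ^ i.val * c ^ j.val := fun i j => by
    rw [← pow_add, ZMod.val_add, ← pow_eq_pow_mod _ hc]
  have h3 : ∀ i j : ZMod m, c ^ (j - i).val = (c ^ i.val)⁻¹ * c ^ j.val := by
    intro i j
    rw [eq_inv_mul_iff_mul_eq, ← h1, add_sub_cancel]
  refine ⟨MonoidHom.mk' (fun x => match x with
    | .r i => c ^ i.val
    | .sr i => a * c ^ i.val) ?_, fun _ => rfl, fun _ => rfl⟩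
  rintro (i | i) (j | j)
  · exact h1 i j
  · simp only [DihedralGroup.r_mul_sr]
    rw [h3, ← mul_assoc, ← mul_assoc, h2]
  · simp only [DihedralGroup.sr_mul_r]
    rw [h1, mul_assoc]
  · simp only [DihedralGroup.sr_mul_sr]
    rw [h3, mul_assoc, ← mul_assoc (c ^ i.val), h2, ← mul_assoc, ← mul_assoc, ha, one_mul]

theorem ds_zmod {n : ℕ} [NeZero n] (f : ℕ → ℂ) :
    ∑ i : ZMod n, f i.val = ∑ i ∈ Finset.range n, f i := by
  cases n with
  | zero => exact absurd rfl (NeZero.ne 0)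
  | succ k => exact Fin.sum_univ_eq_sum_range f (k + 1)

theorem ds_geo {ζ : ℂ} {n : ℕ} (h : IsPrimitiveRoot ζ n) (k : ℕ) :
    ∑ j ∈ Finset.range n, ζ ^ (k * j) = if n ∣ k then (n : ℂ) else 0 := by
  simp only [pow_mul]
  split_ifs with hk
  · rw [(h.pow_eq_one_iff_dvd k).mpr hk]; simp
  · have h1 : ζ ^ k ≠ 1 := fun e => hk ((h.pow_eq_one_iff_dvd k).mp e)
    rw [geom_sum_eq h1, ← pow_mul, mul_comm, pow_mul, h.pow_eq_one, one_pow, sub_self, zero_div]

namespace DS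
variable {G : Type*} [Group G] [Finite G] {D : DS G} {l : D.U →* ℂˣ}

theorem L_mul' {u : G} (hu : u ∈ D.U) (g : G) : D.L l (g * u) = D.L l g * D.L l u := by
  by_cases hg : g ∈ D.U
  · rw [L_mul hg]
  · rw [L_not hg, zero_mul, L_not fun h => hg ((mul_mem_cancel_right hu).mp h)]

theorem oi_L (g : G) : OI 2 (D.L l g) := by
  by_cases hg : g ∈ D.U
  · rw [L_of hg]; exact oi_of_aint (aint_lin l _).conj'
  · rw [L_not hg]; exact oi_zero 2

variable [Fintype G] [DecidableEq G]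

theorem orthL (l l' : D.U →* ℂˣ) [Decidable (l' = l)] : ∑ g, D.L l g * D.L l' g⁻¹ =
    Nat.card D.U * if l' = l then 1 else 0 := by
  classical
  haveI := Fintype.ofFinite D.U
  have h := ip_lin l' l
  rw [ip_def] at h
  rw [← Finset.sum_subset (Finset.filter_subset (· ∈ D.U) Finset.univ) (fun g _ hg => by
    rw [L_not (by simpa using hg), zero_mul]),
    Finset.sum_subtype (p := (· ∈ D.U)) _ (by simp)]
  have h2 : ∀ u : D.U, D.L l u * D.L l' (u : G)⁻¹ = lin l' u * conj (lin l u) := fun u => by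
    rw [L_of u.2, L_of (inv_mem u.2), mul_comm]
    congr 1
    rw [conj_lin]; simp only [lin_apply]; congr 2; exact inv_inv u
  simp only [h2]
  rw [← mul_inv_cancel_left₀ D.cU (∑ _, _), h]

theorem av_mul (χ : G → ℂ) {v : G} (hv : v ∈ D.U) (h : G) :
    D.av l χ (v * h) = D.L l v⁻¹ * D.av l χ h := by
  rw [av, av, mul_left_comm, Finset.mul_sum _ _ (D.L l v⁻¹)]
  congr 1
  refine Fintype.sum_equiv (Equiv.mulRight v) _ _ fun g => ?_
  simp only [Equiv.coe_mulRight]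
  rw [L_mul' hv, mul_assoc g]
  linear_combination (-D.L l g * χ (g * (v * h))) * L_inv (l := l) hv

variable (D) in
theorem sec' (Λ : Finset (D.U →* ℂˣ))
    (hΛ : ∀ u ∈ D.U, ∀ v ∈ D.U, IsConj u v → ∑ l ∈ Λ, D.L l u = ∑ l ∈ Λ, D.L l v) :
    ∃ B : Finset (G → ℂ), B ⊆ irr G ∧ ∀ χ ∈ irr G, ∀ x ∈ zpowers D.s, x ≠ 1 →
      (χ ∈ B → ∀ u ∈ D.U, χ (u * x) = ∑ l ∈ Λ, D.av l χ (u * x)) ∧
        (χ ∉ B → ∀ l ∈ Λ, D.av l χ x = 0) := by
  classical
  let F : G → ℂ := fun g => (Nat.card D.U : ℂ)⁻¹ * ∑ l ∈ Λ, D.L l g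
  let c : G → ℂ := fun g => if h : ∃ u ∈ D.U, IsConj u g then F h.choose else 0
  have hc1 : ∀ g u, u ∈ D.U → IsConj u g → c g = F u := fun g u hu h => by
    have h1 : ∃ u ∈ D.U, IsConj u g := ⟨u, hu, h⟩
    simp only [c, dif_pos h1, F]
    rw [hΛ _ h1.choose_spec.1 u hu (h1.choose_spec.2.trans h.symm)]
  have hF0 : ∀ g, g ∉ D.U → F g = 0 := fun g hg => by
    simp only [F]; rw [Finset.sum_eq_zero fun l _ => L_not hg, mul_zero]
  have hc : IsCF c := fun g x => by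
    have h0 : IsConj g (x * g * x⁻¹) := isConj_iff.mpr ⟨x, rfl⟩
    by_cases h : ∃ u ∈ D.U, IsConj u g
    · obtain ⟨u, hu, h⟩ := h
      rw [hc1 _ u hu h, hc1 _ u hu (h.trans h0)]
    · have h' : ¬ ∃ u ∈ D.U, IsConj u (x * g * x⁻¹) := fun ⟨u, hu, h1⟩ =>
        h ⟨u, hu, h1.trans h0.symm⟩
      simp only [c, dif_neg h, dif_neg h']
  have hFo : ∀ g, OI 2 (F g) := fun g => (oi_inv fun h => by
    rw [pi_natCast_iff] at h
    exact (Nat.not_even_iff_odd.mpr D.odd) (even_iff_two_dvd.mpr h)).mul (OI.sum fun l _ => oi_L g)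
  have ho : ∀ g, OI 2 (c g) := fun g => by
    simp only [c]; split_ifs
    · exact hFo _
    · exact oi_zero 2
  have hε : ∀ g ∈ D.H, co (mkA F) g = c g := fun g hg => by
    rw [co_mkA]
    by_cases h : g ∈ D.U
    · exact (hc1 g g h (IsConj.refl g)).symm
    · rw [hF0 g h]
      suffices h2 : ¬ ∃ u ∈ D.U, IsConj u g by simp only [c, dif_neg h2]
      refine fun ⟨u, hu, h1⟩ => h (D.mem_U hg ?_)
      obtain ⟨y, rfl⟩ := isConj_iff.mp h1
      rw [show orderOf (y * u * y⁻¹) = orderOf u from (MulAut.conj y).orderOf_eq u]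
      exact D.odd_of hu
  have hεε : mkA F * mkA F = mkA F := co_ext fun g => by
    rw [co_mul, co_mkA]
    simp only [F]
    rw [Finset.sum_congr rfl (g := fun h => (Nat.card D.U : ℂ)⁻¹ * (Nat.card D.U : ℂ)⁻¹ *
      ∑ l' ∈ Λ, ∑ l ∈ Λ, D.L l h * D.L l' h⁻¹ * D.L l' g), ← Finset.mul_sum, Finset.sum_comm,
      mul_assoc, Finset.mul_sum Λ]
    · congr 1
      refine Finset.sum_congr rfl fun l' hl' => ?_
      rw [Finset.sum_comm]
      simp only [← Finset.sum_mul, orthL, ← Finset.mul_sum]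
      rw [Finset.sum_ite_eq, if_pos hl', mul_one, inv_mul_cancel_left₀ D.cU]
    · intro h _
      by_cases hh : h ∈ D.U
      · simp only [L_mul (inv_mem hh), mul_assoc, ← Finset.mul_sum, ← Finset.sum_mul]
        ring
      · simp [L_not hh]
  have ht : ∀ χ h, tau χ (mkA F * el h) = ∑ l ∈ Λ, D.av l χ h := fun χ h => by
    rw [tau_def, ← Fintype.sum_equiv (Equiv.mulRight h) (fun g => F g * χ (g * h)) _
      (fun g => by simp [co_mul_el, co_mkA])]
    simp only [F, av, ← Finset.mul_sum, mul_assoc]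
    rw [Finset.sum_comm]
    simp only [Finset.sum_mul]
  refine ⟨(irr G).filter fun χ => ¬ PI 2 (om χ (mkA c)), Finset.filter_subset _ _,
    fun χ hχ x hx h1 => ?_⟩
  have hb := fun u (hu : u ∈ D.U) => blk (p := 2) D.H hc ho hε
    (fun g hg => by rw [co_mkA]; exact hF0 g fun h => hg (D.UH h)) hεε (mem_irr.mp hχ)
    (D.cent_le hu hx h1)
  simp only [ht] at hb
  refine ⟨fun h u hu => ?_, fun h l hl => ?_⟩
  · exact ((hb u hu).1 (Finset.mem_filter.mp h).2).symm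
  · have hp : PI 2 (om χ (mkA c)) := by
      by_contra h'; exact h (Finset.mem_filter.mpr ⟨hχ, h'⟩)
    have h2 : ∑ g, D.L l g * ∑ l' ∈ Λ, D.L l' g⁻¹ * D.av l' χ x = 0 :=
      Finset.sum_eq_zero fun g _ => by
        by_cases hg : g ∈ D.U
        · simp only [← av_mul χ hg]; rw [(hb g hg).2 hp, mul_zero]
        · rw [L_not hg, zero_mul]
    simp only [Finset.mul_sum, ← mul_assoc] at h2
    rw [Finset.sum_comm] at h2
    simp only [← Finset.sum_mul, orthL, mul_ite, mul_one, mul_zero, ite_mul, zero_mul,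
      Finset.sum_ite_eq', hl, if_true] at h2
    exact (mul_eq_zero.mp h2).resolve_left D.cU

variable (D) in
theorem sec (Λ : Finset (D.U →* ℂˣ))
    (hΛ : ∀ u ∈ D.U, ∀ v ∈ D.U, IsConj u v → ∑ l ∈ Λ, D.L l u = ∑ l ∈ Λ, D.L l v) :
    ∃ B : Finset (G → ℂ), B ⊆ irr G ∧ ∀ χ ∈ irr G, ∀ x ∈ zpowers D.s, x ≠ 1 →
      (χ ∈ B → χ x = ∑ l ∈ Λ, D.av l χ x) ∧ (χ ∉ B → ∀ l ∈ Λ, D.av l χ x = 0) := by
  obtain ⟨B, h1, h2⟩ := D.sec' Λ hΛ
  exact ⟨B, h1, fun χ h x hx x1 => ⟨fun h' => by simpa using (h2 χ h x hx x1).1 h' 1 (one_mem _),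
    (h2 χ h x hx x1).2⟩⟩

variable (D) in
theorem chi_inv {χ : G → ℂ} (h : IsCF χ) (i : ℕ) : χ (D.s ^ i)⁻¹ = χ (D.s ^ i) := by
  rw [← D.rs_pow, h.conj]

variable (D) in
theorem chi_sr {χ : G → ℂ} (h : IsCF χ) (i : ℕ) : χ (D.r * D.s ^ i) = χ D.t := by
  rw [h.comm]
  exact (h.of_isConj (D.one _ (D.sr_sq i) fun e => D.sr_ne i (e ▸ one_mem _))).symm

variable (D) in
theorem mult {ζ : ℂ} (hζ : IsPrimitiveRoot ζ (2 * D.m)) {χ : G → ℂ} (h : IsChar χ) (j : ℕ) :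
    ∃ n : ℕ, ∑ i ∈ Finset.range (2 * D.m), ζ ^ (j * i) * χ (D.s ^ i) = 2 * D.m * n := by
  classical
  obtain ⟨ι, _, z, h1, h2⟩ := h.eigen D.s
  rw [D.os] at h1
  have hp := D.pos
  haveI : NeZero (2 * D.m) := ⟨by omega⟩
  have h3 : ∀ a, ∃ k, ζ ^ k = z a := fun a => by
    obtain ⟨k, -, e⟩ := hζ.eq_pow_of_pow_eq_one (ξ := (z a : ℂ)) (by rw [← Units.val_pow_eq_pow_val, h1 a, Units.val_one])
    exact ⟨k, e⟩
  choose k hk using h3
  refine ⟨(Finset.univ.filter fun a => 2 * D.m ∣ j + k a).card, ?_⟩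
  rw [Finset.sum_congr rfl (g := fun i => ∑ a, ζ ^ ((j + k a) * i)) fun i _ => by
    rw [← zpow_natCast D.s, h2, Finset.mul_sum]
    refine Finset.sum_congr rfl fun a _ => ?_
    rw [zpow_natCast, Units.val_pow_eq_pow_val, ← hk, add_mul, pow_add, ← pow_mul], Finset.sum_comm]
  simp only [ds_geo hζ]
  rw [← Finset.sum_filter]; simp [mul_comm]

variable (D) in
theorem parity {χ : G → ℂ} (h : IsChar χ) :
    ∃ n : ℕ, ∑ i ∈ Finset.range (2 * D.m), χ (D.s ^ i) + 2 * D.m * χ D.t = 2 * D.m * (2 * n) := by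
  have hp := D.pos
  haveI : NeZero (2 * D.m) := ⟨by omega⟩
  obtain ⟨ψ, h1, h2⟩ := ds_dih D.s2m D.rr fun k => by rw [D.r_mul', inv_inv]
  obtain ⟨n, hn⟩ := (h.comp ψ).ip_nat isChar_one
  refine ⟨n, ?_⟩
  rw [ip_one_right, ← DihedralGroup.equivSum.symm.sum_comp, Fintype.sum_sum_type,
    DihedralGroup.nat_card] at hn
  simp only [DihedralGroup.equivSum, Equiv.coe_fn_symm_mk, Function.comp, h1, h2,
    D.chi_sr h.isCF] at hn
  rw [ds_zmod (fun i => χ (D.s ^ i))] at hn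
  simp only [Finset.sum_const, Finset.card_univ, ZMod.card, nsmul_eq_mul] at hn
  have : (D.m : ℂ) ≠ 0 := by exact_mod_cast hp.ne'
  push_cast at hn
  field_simp at hn
  linear_combination hn

end DS

end CA.GW
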