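import Cfsg.Agent.Lib.GW.Tool1
import Cfsg.Agent.Lib.GW.Basic
import Cfsg.Agent.Lib.Char.Extend

/-! Stable characters; the end game `U = K ⋊ B`. -/

set_option autoImplicit false
set_option linter.unusedSectionVars false
set_option linter.style.haveILetI false

open scoped ComplexConjugate

namespace CA.GW

open CA.Ch Cfsg Subgroup

theorem cb_had {u1 u2 u3 u4 v1 v2 v3 v4 b1 b2 b3 b4 : ℤ} (h1 : u1 = 1 ∨ u1 = -1)
    (h2 : u2 = 1 ∨ u2 = -1) (h3 : u3 = 1 ∨ u3 = -1) (h4 : u4 = 1 ∨ u4 = -1) (k1 : v1 = 1 ∨ v1 = -1)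
    (k2 : v2 = 1 ∨ v2 = -1) (k3 : v3 = 1 ∨ v3 = -1) (k4 : v4 = 1 ∨ v4 = -1)
    (e1 : u1 + u2 + u3 + u4 = 0) (e2 : v1 + v2 + v3 + v4 = 0)
    (e3 : u1 * v1 + u2 * v2 + u3 * v3 + u4 * v4 = 0) (f1 : b1 + b2 + b3 + b4 = 0)
    (f2 : u1 * b1 + u2 * b2 + u3 * b3 + u4 * b4 = 0) (f3 : v1 * b1 + v2 * b2 + v3 * b3 + v4 * b4 = 0) :
    u2 * v2 * b2 = u1 * v1 * b1 ∧ u3 * v3 * b3 = u1 * v1 * b1 ∧ u4 * v4 * b4 = u1 * v1 * b1 := by
  rcases h1 with rfl | rfl <;> rcases h2 with rfl | rfl <;> rcases h3 with rfl | rfl <;>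
    rcases h4 with rfl | rfl <;> (try omega) <;> rcases k1 with rfl | rfl <;>
    rcases k2 with rfl | rfl <;> rcases k3 with rfl | rfl <;> rcases k4 with rfl | rfl <;> omega

theorem cb3 {ι : Type*} {B : Finset ι} {d A0 A1 A2 : ι → ℤ} (hd : ∀ x ∈ B, 0 < d x)
    (g0 : ∑ x ∈ B, A0 x * A0 x = 4) (g1 : ∑ x ∈ B, A1 x * A1 x = 4) (g2 : ∑ x ∈ B, A2 x * A2 x = 4)
    (g01 : ∑ x ∈ B, A0 x * A1 x = 0) (g02 : ∑ x ∈ B, A0 x * A2 x = 0)
    (g12 : ∑ x ∈ B, A1 x * A2 x = 0) (o0 : ∑ x ∈ B, A0 x * d x = 0) (o1 : ∑ x ∈ B, A1 x * d x = 0)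
    (o2 : ∑ x ∈ B, A2 x * d x = 0) (p1 : ∀ x ∈ B, Even (A0 x + A1 x))
    (p2 : ∀ x ∈ B, Even (A0 x + A2 x)) : ∃ κ : ℤ, κ ≠ 0 ∧
      ∑ x ∈ B, (A0 x : ℚ) * (((A0 x + A1 x + A2 x : ℤ) : ℚ) ^ 2 / d x) = 8 / κ := by
  classical
  obtain ⟨O, hO, hc, h0, z0⟩ := cb_supp (n := 4) hd le_rfl g0 o0
  obtain ⟨O1, -, -, h1, z1⟩ := cb_supp (n := 4) hd le_rfl g1 o1
  obtain ⟨O2, -, -, h2, z2⟩ := cb_supp (n := 4) hd le_rfl g2 o2
  have t1 : ∀ x ∈ B, A1 x = 1 ∨ A1 x = -1 ∨ A1 x = 0 := fun x hx => by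
    by_cases h : x ∈ O1
    · rcases h1 x h with e | e <;> simp [e]
    · simp [z1 x hx h]
  have t2 : ∀ x ∈ B, A2 x = 1 ∨ A2 x = -1 ∨ A2 x = 0 := fun x hx => by
    by_cases h : x ∈ O2
    · rcases h2 x h with e | e <;> simp [e]
    · simp [z2 x hx h]
  have y1 : ∀ x ∈ B, x ∉ O → A1 x = 0 := fun x hx h => by
    obtain ⟨k, hk⟩ := p1 x hx; have := t1 x hx; have := z0 x hx h; omega
  have y2 : ∀ x ∈ B, x ∉ O → A2 x = 0 := fun x hx h => by
    obtain ⟨k, hk⟩ := p2 x hx; have := t2 x hx; have := z0 x hx h; omega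
  have hu : ∀ x ∈ O, A0 x * A1 x = 1 ∨ A0 x * A1 x = -1 := fun x hx => by
    obtain ⟨k, hk⟩ := p1 x (hO hx); have := t1 x (hO hx)
    rcases h0 x hx with e | e <;> rw [e] at hk ⊢ <;> omega
  have hv : ∀ x ∈ O, A0 x * A2 x = 1 ∨ A0 x * A2 x = -1 := fun x hx => by
    obtain ⟨k, hk⟩ := p2 x (hO hx); have := t2 x (hO hx)
    rcases h0 x hx with e | e <;> rw [e] at hk ⊢ <;> omega
  have sq : ∀ x ∈ O, A0 x * A0 x = 1 := fun x hx => by rcases h0 x hx with e | e <;> simp [e]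
  obtain ⟨x0, hx0⟩ := Finset.card_pos.mp (show 0 < O.card by omega)
  obtain ⟨x1, x2, x3, n1, n2, n3, e⟩ := Finset.card_eq_three.mp
    (show (O.erase x0).card = 3 by rw [Finset.card_erase_of_mem hx0, hc])
  have m1 : x1 ∈ O := Finset.mem_of_mem_erase (show x1 ∈ O.erase x0 by simp [e])
  have m2 : x2 ∈ O := Finset.mem_of_mem_erase (show x2 ∈ O.erase x0 by simp [e])
  have m3 : x3 ∈ O := Finset.mem_of_mem_erase (show x3 ∈ O.erase x0 by simp [e])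
  have hs : ∀ {R : Type} [AddCommMonoid R] (f : ι → R), ∑ x ∈ O, f x = f x0 + f x1 + f x2 + f x3 := by
    intro R _ f
    rw [← Finset.add_sum_erase _ _ hx0, e, Finset.sum_insert (by simp [n1, n2]),
      Finset.sum_pair n3]; abel
  have s0 := fun g => cb_sum (R := ℤ) hO z0 g
  have s1 := fun g => cb_sum (R := ℤ) hO y1 g
  have s2 := fun g => cb_sum (R := ℤ) hO y2 g
  simp only [Int.cast_id] at s0 s1 s2
  rw [s0] at g01 g02 o0
  rw [s1, Finset.sum_congr rfl (g := fun x => A0 x * A1 x * (A0 x * A2 x)) fun x hx => by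
    linear_combination (-A1 x * A2 x) * sq x hx] at g12
  rw [s1, Finset.sum_congr rfl (g := fun x => A0 x * A1 x * (A0 x * d x)) fun x hx => by
    linear_combination (-A1 x * d x) * sq x hx] at o1
  rw [s2, Finset.sum_congr rfl (g := fun x => A0 x * A2 x * (A0 x * d x)) fun x hx => by
    linear_combination (-A2 x * d x) * sq x hx] at o2
  have q := cb_had (hu _ hx0) (hu _ m1) (hu _ m2) (hu _ m3) (hv _ hx0) (hv _ m1) (hv _ m2) (hv _ m3)
    (hs (fun x => A0 x * A1 x) ▸ g01) (hs (fun x => A0 x * A2 x) ▸ g02) (hs (fun x => A0 x * A1 x * (A0 x * A2 x)) ▸ g12)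
    (hs (fun x => A0 x * d x) ▸ o0) (hs (fun x => A0 x * A1 x * (A0 x * d x)) ▸ o1)
    (hs (fun x => A0 x * A2 x * (A0 x * d x)) ▸ o2)
  set κ := A0 x0 * A1 x0 * (A0 x0 * A2 x0) * (A0 x0 * d x0) with hκ
  have hk : ∀ x ∈ O, A0 x * A1 x * (A0 x * A2 x) * (A0 x * d x) = κ := fun x hx => by
    by_cases h : x = x0
    · rw [h]
    · have : x ∈ O.erase x0 := Finset.mem_erase.mpr ⟨h, hx⟩
      simp only [e, Finset.mem_insert, Finset.mem_singleton] at this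
      rcases this with rfl | rfl | rfl
      exacts [q.1, q.2.1, q.2.2]
  have k0 : κ ≠ 0 := by
    have := hd x0 (hO hx0)
    rcases hu _ hx0 with a | a <;> rcases hv _ hx0 with b | b <;> rcases h0 _ hx0 with c | c <;>
      rw [hκ, a, b, c] <;> omega
  refine ⟨κ, k0, ?_⟩
  rw [cb_sum hO z0, Finset.sum_congr rfl (g := fun x => ((3 * (A0 x * A1 x * (A0 x * A2 x)) +
    2 * (A0 x * A1 x) + 2 * (A0 x * A2 x) + 2 : ℤ) : ℚ) / κ), ← Finset.sum_div, ← Int.cast_sum]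
  · simp only [Finset.sum_add_distrib, ← Finset.mul_sum, g01, g02, g12]
    simp [hc]
  · intro x hx
    have dx : (d x : ℚ) ≠ 0 := by exact_mod_cast (hd x (hO hx)).ne'
    have a1 : A1 x = 1 ∨ A1 x = -1 := by
      rcases hu x hx with a | a <;> rcases h0 x hx with c | c <;> rw [c] at a <;> omega
    have a2 : A2 x = 1 ∨ A2 x = -1 := by
      rcases hv x hx with a | a <;> rcases h0 x hx with c | c <;> rw [c] at a <;> omega
    rw [← hk x hx]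
    rcases a1 with a | a <;> rcases a2 with b | b <;> rcases h0 x hx with c | c <;>
      rw [a, b, c] <;> push_cast <;> field_simp <;> norm_num

namespace DS
variable {G : Type*} [Group G] [Finite G] (D : DS G)

theorem cjU {v g : G} (hv : v ∈ D.U) (h : g⁻¹ * v * g ∈ D.H) : g⁻¹ * v * g ∈ D.U :=
  D.mem_U h (by
    rw [show orderOf (g⁻¹ * v * g) = orderOf v by simpa using (MulAut.conj g⁻¹).orderOf_eq v]
    exact D.odd_of hv)

/-- control of fusion of odd elements by `H` and the normalizers of four-groups -/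
theorem fuse (F : G → ℂ) (h1 : ∀ h ∈ D.H, ∀ u ∈ D.U, F (h * u * h⁻¹) = F u)
    (h2 : ∀ n, ∀ b ∈ D.U, n * D.t * n⁻¹ ∈ D.H → n * D.t * n⁻¹ ≠ D.t →
      b ∈ (𝐂[n * D.t * n⁻¹] : Subgroup G) → F (n⁻¹ * b * n) = F b) :
    ∀ u ∈ D.U, ∀ v ∈ D.U, IsConj u v → F u = F v := by
  intro u hu v hv huv
  obtain ⟨g, rfl⟩ := isConj_iff.mp huv
  set v := g * u * g⁻¹ with hvd
  have step : ∀ a b : G, Commute v (a * D.t * a⁻¹) → Commute v (b * D.t * b⁻¹) →
      Commute (b * D.t * b⁻¹) (a * D.t * a⁻¹) → F (b⁻¹ * v * b) = F (a⁻¹ * v * a) := by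
    intro a b ha hb hab
    have e : ∀ x y : G, Commute x (y * D.t * y⁻¹) → y⁻¹ * x * y ∈ D.H := fun x y h =>
      D.memH.mpr (by simpa [mul_assoc] using (h.map (MulAut.conj y⁻¹)).eq)
    have h3 := D.cjU hv (e v a ha)
    by_cases h : (a⁻¹ * b) * D.t * (a⁻¹ * b)⁻¹ = D.t
    · have := h1 _ (inv_mem (D.memH.mpr (mul_inv_eq_iff_eq_mul.mp h))) _ h3
      rw [← this]; congr 1; group
    · have := h2 (a⁻¹ * b) _ h3 (by simpa [mul_assoc] using e _ a hab) h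
        (mem_cent1_iff.mpr (by simpa [mul_assoc] using (hb.map (MulAut.conj a⁻¹)).eq))
      rw [← this]; congr 1; group
  have ct : Commute v D.t := D.memH.mp (D.UH hv)
  have cτ : Commute v (g * D.t * g⁻¹) := (show Commute u D.t from D.memH.mp (D.UH hu)).map
    (MulAut.conj g)
  set τ := g * D.t * g⁻¹ with hτ
  have τ2 : τ * τ = 1 := by rw [hτ, conj_mul, D.tt]; simp
  have ix : D.t * (D.t * τ) * D.t⁻¹ = (D.t * τ)⁻¹ := by
    rw [← mul_assoc, D.tt, one_mul, mul_inv_rev, inv_eq_of_mul_eq_one_right τ2]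
  have cx : ∀ w ∈ zpowers (D.t * τ), Commute v w := by
    rintro _ ⟨k, rfl⟩; exact (ct.mul_right cτ).zpow_right k
  rw [show u = g⁻¹ * v * g by rw [hvd]; group]
  rcases Nat.even_or_odd' (orderOf (D.t * τ)) with ⟨k, hk | hk⟩
  · have h0 := orderOf_pos (D.t * τ)
    have zz : (D.t * τ) ^ k * (D.t * τ) ^ k = 1 := by
      rw [← pow_add, ← two_mul, ← hk, pow_orderOf_eq_one]
    obtain ⟨n, hn⟩ := isConj_iff.mp (D.one _ zz (pow_ne_one_of_lt_orderOf (by omega) (by omega)))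
    have zt : Commute ((D.t * τ) ^ k) D.t := by
      have := inv_of_mem_zpowers ix (npow_mem_zpowers _ k)
      rw [inv_eq_of_mul_eq_one_right zz, mul_inv_eq_iff_eq_mul] at this
      exact this.symm
    have zτ : Commute ((D.t * τ) ^ k) τ := by
      have := zt.mul_right ((Commute.refl (D.t * τ)).pow_left k)
      rwa [← mul_assoc D.t D.t, D.tt, one_mul] at this
    have cz : Commute v (n * D.t * n⁻¹) := hn ▸ cx _ (npow_mem_zpowers _ k)
    rw [step n g cz cτ (hn ▸ zτ.symm), step 1 n (by simpa using ct) cz (by simpa [hn] using zt)]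
    simp
  · obtain ⟨w, hw, e⟩ := exists_sqrt (x := D.t * τ) ⟨k, hk⟩
    have iw := inv_of_mem_zpowers ix hw
    have h3 : g⁻¹ * w⁻¹ ∈ D.H := by
      rw [D.memH, mul_assoc, ← iw, inv_mul_cancel_right, inv_mul_eq_iff_eq_mul]
      have : g * (D.t * (g⁻¹ * (D.t * w * D.t⁻¹))) = τ * D.t * w * D.t⁻¹ := by rw [hτ]; group
      rw [this, show τ * D.t = (w * w)⁻¹ by
        rw [e, mul_inv_rev, inv_eq_of_mul_eq_one_right τ2, D.ti], D.ti]
      have : D.t * w = w⁻¹ * D.t := by rw [← iw]; group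
      rw [this]; group
    rw [← h1 _ h3 v hv]
    congr 1
    have := (cx w hw).eq
    calc g⁻¹ * v * g = g⁻¹ * w⁻¹ * (w * v) * g := by group
      _ = _ := by rw [← this]; group

theorem nc_form {σ : G} (hσ : σ ∈ D.H) (h2 : σ * σ = 1) (h1 : σ ≠ 1) (ht : σ ≠ D.t) :
    ∃ w ∈ D.U, ∃ i : ℕ, σ = w * (D.s ^ i * D.r) * w⁻¹ := by
  classical
  haveI := Fintype.ofFinite G
  obtain ⟨u, hu, i, rfl | rfl⟩ := D.cov σ hσ
  · exact absurd (D.inv_eq hu (npow_mem_zpowers _ _) h2 h1) ht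
  · obtain ⟨w, hw, e⟩ := D.inv_form hu (D.sr_sq i) h2
    exact ⟨w, hw, i, e⟩

theorem s_one (hm : D.m = 1) (i : ℕ) : D.s ^ i = 1 ∨ D.s ^ i = D.t :=
  D.sq_s (npow_mem_zpowers _ _) (by
    rw [← pow_add, ← two_mul, pow_mul, show D.s ^ 2 = 1 by simpa [hm] using D.s2m, one_pow])

theorem rt : D.r * D.t = D.t * D.r := D.memH.mp D.rH

section rho
variable {ρ : G} (e1 : ρ * D.t * ρ⁻¹ = D.r) (e2 : ρ * D.r * ρ⁻¹ = D.t * D.r)
include e1 e2

theorem rho3 : ρ * (D.t * D.r) * ρ⁻¹ = D.t := by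
  rw [← conj_mul, e1, e2, ← D.rt, ← mul_assoc, D.rr, one_mul]

theorem rho_mem {b : G} (hb : b ∈ D.U ⊓ 𝐂[D.r]) : ρ * b * ρ⁻¹ ∈ D.U ⊓ 𝐂[D.r] := by
  have c1 : Commute b D.t := D.memH.mp (D.UH hb.1)
  have c2 : Commute b D.r := mem_cent1_iff.mp hb.2
  have d1 := c1.map (MulAut.conj ρ)
  have d2 := (c1.mul_right c2).map (MulAut.conj ρ)
  simp only [MulAut.conj_apply, e1, D.rho3 e1 e2] at d1 d2
  exact ⟨by simpa using D.cjU (g := ρ⁻¹) hb.1 (by simpa using D.memH.mpr d2), mem_cent1_iff.mpr d1⟩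

theorem rho_mem' {b : G} (hb : b ∈ D.U ⊓ 𝐂[D.r]) : ρ⁻¹ * b * ρ ∈ D.U ⊓ 𝐂[D.r] := by
  have c1 : Commute b D.t := D.memH.mp (D.UH hb.1)
  have c2 : Commute b D.r := mem_cent1_iff.mp hb.2
  have d1 := c2.map (MulAut.conj ρ⁻¹)
  have d2 := (c1.mul_right c2).map (MulAut.conj ρ⁻¹)
  rw [← e1] at d1
  rw [← e2] at d2
  simp only [MulAut.conj_apply, inv_inv, mul_assoc, inv_mul_cancel_left, inv_mul_cancel,
    mul_one] at d1 d2
  rw [← mul_assoc] at d1 d2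
  exact ⟨D.cjU hb.1 (D.memH.mpr d1), mem_cent1_iff.mpr d2⟩

theorem fuse1 (hm : D.m = 1) (F : G → ℂ) (h1 : ∀ h ∈ D.H, ∀ u ∈ D.U, F (h * u * h⁻¹) = F u)
    (h3 : ∀ b ∈ D.U ⊓ 𝐂[D.r], F (ρ * b * ρ⁻¹) = F b) :
    ∀ u ∈ D.U, ∀ v ∈ D.U, IsConj u v → F u = F v := by
  refine D.fuse F h1 fun n b hb hn hn' hc => ?_
  obtain ⟨w, hw, i, e⟩ := D.nc_form hn (by rw [conj_mul, D.tt]; simp) (by simpa using D.t1) hn'
  have h4 : ∀ b ∈ D.U ⊓ 𝐂[D.r], F (ρ⁻¹ * b * ρ) = F b := fun b hb => by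
    rw [← h3 _ (D.rho_mem' e1 e2 hb)]; congr 1; group
  have b1 : w⁻¹ * b * w ∈ D.U := mul_mem (mul_mem (inv_mem hw) hb) hw
  have b2 : Commute (w⁻¹ * b * w) (D.s ^ i * D.r) := by
    have := (show Commute b _ from mem_cent1_iff.mp hc).map (MulAut.conj w⁻¹)
    rw [e] at this
    simpa [mul_assoc] using this
  have b3 : F (w⁻¹ * b * w) = F b := by simpa using h1 _ (D.UH (inv_mem hw)) b hb
  have fin : ∀ y : G, y * D.t * y⁻¹ = D.s ^ i * D.r → y⁻¹ * (w⁻¹ * b * w) * y ∈ D.U →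
      F (n⁻¹ * b * n) = F (y⁻¹ * (w⁻¹ * b * w) * y) := fun y hy hy' => by
    have : n⁻¹ * w * y ∈ D.H := by
      rw [D.memH, ← mul_inv_eq_iff_eq_mul]
      calc n⁻¹ * w * y * D.t * (n⁻¹ * w * y)⁻¹ = n⁻¹ * (w * (y * D.t * y⁻¹) * w⁻¹) * n := by group
        _ = D.t := by rw [hy, ← e]; group
    rw [← h1 _ this _ hy']; congr 1; group
  rcases D.s_one hm i with h | h <;> rw [h] at b2 fin
  · rw [one_mul] at b2 fin
    have b4 : w⁻¹ * b * w ∈ D.U ⊓ 𝐂[D.r] := ⟨b1, mem_cent1_iff.mpr b2⟩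
    rw [fin ρ e1 (D.rho_mem' e1 e2 b4).1, h4 _ b4, b3]
  · have b4 : w⁻¹ * b * w ∈ D.U ⊓ 𝐂[D.r] := ⟨b1, mem_cent1_iff.mpr (by
      have := (show Commute _ D.t from D.memH.mp (D.UH b1)).mul_right b2
      rwa [← mul_assoc, D.tt, one_mul] at this)⟩
    have b5 := D.rho_mem' e1 e2 b4
    have e3 : (ρ * ρ)⁻¹ * (w⁻¹ * b * w) * (ρ * ρ) = ρ⁻¹ * (ρ⁻¹ * (w⁻¹ * b * w) * ρ) * ρ := by group
    rw [fin (ρ * ρ) (by rw [← e2, ← e1]; group) (e3 ▸ (D.rho_mem' e1 e2 b5).1), e3, h4 _ b5,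
      h4 _ b4, b3]

variable {D} in
/-- criterion for stability when `|S| = 4` -/
theorem stable1 (hm : D.m = 1) {l : D.U →* ℂˣ} (hl : D.Inv l)
    (h3 : ∀ b ∈ D.U ⊓ 𝐂[D.r], D.L l (ρ * b * ρ⁻¹) = D.L l b) : D.Stable l := fun u v h => by
  have := D.fuse1 e1 e2 hm (D.L l) (fun h hh u _ => L_cj hl hh u) h3 u u.2 v v.2 h
  rw [L_of u.2, L_of v.2] at this
  exact Units.ext (star_injective this)

end rho

theorem comm_mem (hm : D.m = 1) {h a : G} (hh : h ∈ D.H) (ha : a ∈ D.H) :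
    h * a * h⁻¹ * a⁻¹ ∈ D.U := by
  have key : ∀ x ∈ D.H, ∃ u ∈ D.U, ∃ σ ∈ D.H, x = u * σ ∧
      (σ = 1 ∨ σ = D.t ∨ σ = D.r ∨ σ = D.t * D.r) := fun x hx => by
    obtain ⟨u, hu, i, e | e⟩ := D.cov x hx
    · exact ⟨u, hu, _, D.sH i, e, by rcases D.s_one hm i with h | h <;> simp [h]⟩
    · exact ⟨u, hu, _, D.srH i, e, by rcases D.s_one hm i with h | h <;> simp [h]⟩
  obtain ⟨u, hu, σ, hσ, rfl, c1⟩ := key h hh
  obtain ⟨v, hv, τ, hτ, rfl, c2⟩ := key a ha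
  have c : Commute D.r D.t := D.rt
  have : Commute σ τ := by
    rcases c1 with rfl | rfl | rfl | rfl <;> rcases c2 with rfl | rfl | rfl | rfl <;>
      first
      | exact Commute.refl _
      | exact Commute.one_left _
      | exact Commute.one_right _
      | exact c
      | exact c.symm
      | exact (Commute.refl _).mul_right c.symm
      | exact c.mul_right (Commute.refl _)
      | exact (Commute.refl _).mul_left c
      | exact c.symm.mul_left (Commute.refl _)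
  have e : u * σ * (v * τ) * (u * σ)⁻¹ * (v * τ)⁻¹ =
      u * (σ * v * σ⁻¹) * (τ * u⁻¹ * τ⁻¹) * v⁻¹ := by
    calc _ = u * σ * v * (τ * σ⁻¹) * u⁻¹ * τ⁻¹ * v⁻¹ := by group
      _ = _ := by rw [← this.inv_left.eq]; group
  rw [e]
  exact mul_mem (mul_mem (mul_mem hu (D.cj hσ hv)) (D.cj hτ (inv_mem hu))) (inv_mem hv)

theorem r_ne : D.r ≠ 1 := fun h => D.rn (h ▸ one_mem _)
theorem r_ne_t : D.r ≠ D.t := fun h => D.rn (h ▸ npow_mem_zpowers _ _)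

theorem exists_rho (hm : D.m = 1) : ∃ ρ, ρ * D.t * ρ⁻¹ = D.r ∧ ρ * D.r * ρ⁻¹ = D.t * D.r := by
  obtain ⟨g, hg⟩ := isConj_iff.mp (D.one _ D.rr D.r_ne)
  have hg' : g * D.t * g⁻¹ = D.r := hg
  have h1 : g⁻¹ * D.t * g ∈ D.H := by
    have := (show Commute D.t D.r from D.rt.symm).map (MulAut.conj g⁻¹)
    rw [← hg'] at this
    exact D.memH.mpr (by simpa [mul_assoc] using this.eq)
  obtain ⟨w, hw, i, e⟩ := D.nc_form h1 (by simp [mul_assoc, ← mul_assoc D.t, D.tt])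
    (fun h => D.t1 (conj_eq_one_iff.mp (by rwa [inv_inv] : g⁻¹ * D.t * g⁻¹⁻¹ = 1))) fun h => D.r_ne_t (by
      rw [← hg', mul_inv_eq_iff_eq_mul, ← inv_mul_eq_iff_eq_mul.mp ((mul_assoc _ _ _).symm.trans h)])
  have e1 : g * w * D.t * (g * w)⁻¹ = D.r := by
    rw [← hg', mul_assoc g, D.memH.mp (D.UH hw)]; group
  have e2 : g * w * (D.s ^ i * D.r) * (g * w)⁻¹ = D.t := by
    calc _ = g * (w * (D.s ^ i * D.r) * w⁻¹) * g⁻¹ := by group
      _ = D.t := by rw [← e]; group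
  refine ⟨g * w, e1, ?_⟩
  generalize g * w = ρ at e1 e2
  rcases D.s_one hm i with h | h <;> rw [h] at e2
  · exfalso
    rw [one_mul] at e2
    have e3 : ρ * (D.t * D.r) * ρ⁻¹ = D.t * D.r := by rw [← conj_mul, e1, e2, D.rt]
    obtain ⟨k, hk⟩ := isConj_iff.mp (D.one _ (D.sr_sq D.m) fun h => D.sr_ne D.m (h ▸ one_mem _))
    have hk' : k * D.t * k⁻¹ = D.t * D.r := hk
    have mem : ∀ x, Commute x (D.t * D.r) → k⁻¹ * x * k ∈ D.H := fun x hx => by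
      have := hx.map (MulAut.conj k⁻¹)
      rw [← hk'] at this
      exact D.memH.mpr (by simpa [mul_assoc] using this.eq)
    have := D.comm_mem hm (mem ρ (mul_inv_eq_iff_eq_mul.mp e3))
      (mem D.t ((Commute.refl _).mul_right D.rt.symm))
    rw [show k⁻¹ * ρ * k * (k⁻¹ * D.t * k) * (k⁻¹ * ρ * k)⁻¹ * (k⁻¹ * D.t * k)⁻¹ =
      k⁻¹ * (ρ * D.t * ρ⁻¹ * D.t⁻¹) * k by group, e1, D.ti, D.rt, ← hk'] at this
    exact D.t1 (D.sU (npow_mem_zpowers _ _) (by simpa [mul_assoc] using this))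
  · rw [← conj_mul, e1] at e2
    rw [← D.rt, ← e2, ← mul_assoc, D.rr, one_mul]

variable {D} in
/-- stability when `|S| ≥ 8` and `S₀` centralizes `U` -/
theorem stable2 (hm : 2 ≤ D.m) (h2 : D.s ∈ 𝐂(D.U)) {l : D.U →* ℂˣ} (hl : D.Inv l) :
    D.Stable l := by
  intro u v huv
  obtain ⟨g, hg⟩ := isConj_iff.mp huv
  have cs : ∀ x ∈ D.U, Commute x D.s := fun x hx => mem_centralizer_iff.mp h2 x hx
  have s2 : D.s * D.s ≠ 1 := by rw [← pow_two]; exact D.s_ne two_pos (by omega)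
  have s1 : D.s ≠ 1 := fun h => s2 (by rw [h, one_mul])
  have ps : PiElt {2} D.s := by
    obtain ⟨e, he⟩ := D.two
    exact (piElt_singleton_iff Nat.prime_two).mpr ⟨e + 1, by rw [D.os, he, pow_succ']⟩
  obtain ⟨T, hT, hsT⟩ := exists_sylowIn_ge (M := 𝐂[(v : G)]) (piGrp_zpowers.mpr ps)
    (zpowers_le.mpr (mem_cent1_iff.mpr (cs v v.2).symm))
  have sT : D.s ∈ T := hsT (mem_zpowers _)
  obtain ⟨c, hc, hcT⟩ := hT.exists_conj_mem (x := g * D.s * g⁻¹) (mem_cent1_iff.mpr (by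
    rw [← hg]; exact ((cs u u.2).symm.map (MulAut.conj g)))) (ps.map (MulAut.conj g).toMonoidHom)
  have hZ := center_ne_bot_pgroup (hT.isPGroup Nat.prime_two) fun h => s1 (by simpa [h] using sT)
  obtain ⟨z, hz, oz⟩ := exists_orderOf_eq_prime Nat.prime_two
    ((hT.piGrp.inf_left _).dvd_card_of_ne_bot hZ)
  have z2 := inv2_of_ord oz
  have zs : Commute D.s z := mem_centralizer_iff.mp hz.2 _ sT
  have zt : z = D.t := by
    by_contra h
    obtain ⟨w, hw, i, e⟩ := D.nc_form (D.memH.mpr (zs.symm.pow_right _)) z2.sq z2.ne h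
    have h3 : Commute D.s (D.s ^ i * D.r) := by
      have := zs.map (MulAut.conj w⁻¹)
      rw [e] at this
      simpa [mul_assoc, ← (cs w hw).eq] using this
    have h4 : Commute D.s D.r := by
      simpa using ((Commute.refl D.s).pow_right i).inv_right.mul_right h3
    have := D.rs
    rw [← h4.eq, mul_inv_cancel_right] at this
    exact s2 (mul_eq_one_iff_eq_inv.mpr this)
  have hH : c * (g * D.s * g⁻¹) * c⁻¹ ∈ D.H := D.memH.mpr (by
    rw [← zt]; exact mem_centralizer_iff.mp hz.2 _ hcT)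
  have hy : c * g ∈ D.H := by
    obtain ⟨w, hw, i, e | e⟩ := D.cov _ hH
    · exact D.mem_of_cj hw (npow_mem_zpowers _ i) (one_mem _) (mem_zpowers _) s1
        (by rw [← e]; group)
    · obtain ⟨x, hx, e'⟩ := D.pow_form hw (D.srH i) 2
      rw [← e, pow_two (_ * D.r), D.sr_sq, mul_one] at e'
      have := D.odd_of hx
      rw [← e', show (c * (g * D.s * g⁻¹) * c⁻¹) ^ 2 = MulAut.conj (c * g) (D.s * D.s) by
        simp [pow_two, mul_assoc], MulEquiv.orderOf_eq] at this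
      exact absurd (D.one_of_odd (mul_mem (mem_zpowers _) (mem_zpowers _)) this) s2
  refine (hl _ hy u v ?_).symm
  calc (v : G) = c * v * c⁻¹ := by rw [mem_cent1_iff.mp hc]; group
    _ = _ := by rw [← hg]; group

end DS

end CA.GW
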